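import Cfsg.Agent.H62.Mono2

set_option autoImplicit false

/-! The monomial group is maximal in `SL(V)`; decompositions in matrix form. -/

namespace H62

open Module

variable {F V : Type*} [Field F] [AddCommGroup V] [Module F V] {ι : Type*} {b : Basis ι F V}
  {M : Subgroup (V ≃ₗ[F] V)} {o i j k l m α β : ι} {g y : V ≃ₗ[F] V} {a : F}

theorem three_roots (ha : a ≠ 0) (h1 : a ≠ 1) (h2 : a ^ 2 ≠ 1) (h3 : a ^ 3 ≠ 1) {A B : F}
    (h : ∀ t : F, t ≠ 0 → t ≠ 1 → 1 + (t - 1) * A + (t⁻¹ - 1) * B = 0) : False := by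
  have p1 := h a ha h1
  have p2 := h _ (pow_ne_zero 2 ha) h2
  have p3 := h _ (pow_ne_zero 3 ha) h3
  refine one_ne_zero (?_ : (1 : F) = 0)
  linear_combination (norm := skip) p3 - (1 + a + a⁻¹) * p2 + (1 + a + a⁻¹) * p1
  field_simp
  ring

theorem diag_of_mem (hy : y ∈ stabG (lines b)) (h : b.repr (y (b j)) j ≠ 0) :
    y (b j) = b.repr (y (b j)) j • b j := by
  obtain ⟨k, hk⟩ := col_of_mem hy j
  obtain rfl : j = k := by_contra fun e => h (hk j e)
  exact eq_smul_of_repr hk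

variable [Fintype ι] (h6 : 6 ≤ Fintype.card ι)
include h6

theorem mono_rank_two (hy : y ∈ stabG (lines b)) {φ ψ : Dual F V} {X Y : V}
    (h : ∀ v, y v = v + φ v • X + ψ v • Y) {v w : V} (hv : φ v * ψ w ≠ φ w * ψ v) :
    ∃ i i', i ≠ i' ∧ ∀ r, r = i ∨ r = i' → b.repr X r = 0 ∧ b.repr Y r = 0 ∧ y (b r) = b r := by
  obtain ⟨j, j', hj⟩ : ∃ j j', φ (b j) * ψ (b j') ≠ φ (b j') * ψ (b j) := by
    by_contra! h1
    have : φ.smulRight ψ = ψ.smulRight φ := LinearMap.ext_basis b b fun i j => by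
      simp [h1 i j, mul_comm]
    exact hv (by simpa [mul_comm] using LinearMap.congr_fun (LinearMap.congr_fun this v) w)
  obtain ⟨k, hk⟩ := col_of_mem hy j
  obtain ⟨k', hk'⟩ := col_of_mem hy j'
  have key : ∀ r, r ∉ [j, k, j', k'] → b.repr X r = 0 ∧ b.repr Y r = 0 ∧ y (b r) = b r := by
    intro r hr
    simp only [List.mem_cons, List.not_mem_nil, or_false, not_or] at hr
    have p1 := hk r hr.2.1
    have p2 := hk' r hr.2.2.2
    simp [h, hr.1, hr.2.2.1] at p1 p2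
    have p3 : b.repr X r = 0 := by grind
    have p4 : b.repr Y r = 0 := by grind
    have p5 : b.repr (y (b r)) r = 1 := by simp [h, p3, p4]
    exact ⟨p3, p4, by rw [diag_of_mem hy (by simp [p5]), p5, one_smul]⟩
  obtain ⟨i, hi⟩ := exists_list [j, k, j', k'] (by simp; omega)
  obtain ⟨i', hi'⟩ := exists_list [i, j, k, j', k'] (by simp; omega)
  rw [List.mem_cons, not_or] at hi'
  exact ⟨i, i', Ne.symm hi'.1, fun r hr => key r (hr.elim (· ▸ hi) (· ▸ hi'.2))⟩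

variable [FiniteDimensional F V]
  (hM : ∀ e, StabD (lines b) e → LinearMap.det (e : V →ₗ[F] V) = 1 → e ∈ M)
  (hB : ∀ o, ∀ g ∈ M ⊓ fixL (b o), g ∈ stabG (lines b))
  (ha : a ≠ 0) (h1 : a ≠ 1) (h2 : a ^ 2 ≠ 1) (h3 : a ^ 3 ≠ 1)
include hM hB

theorem mono_A0 (hg : g ∈ M) (h : ∀ l, l ≠ k → b.repr (g (b i)) l = 0) : g ∈ stabG (lines b) := by
  have p1 := eq_smul_of_repr h
  have p2 : b.repr (g (b i)) k ≠ 0 := fun e => b.ne_zero i (by simpa [e] using p1)
  by_cases hk : k = i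
  · exact hB i g ⟨hg, _, p2, hk ▸ p1⟩
  obtain ⟨o, ho⟩ := exists_list [k, i] (by simp; omega)
  simp only [List.mem_cons, List.not_mem_nil, or_false, not_or] at ho
  obtain ⟨r, hr, hr', r1⟩ := mono_swap hM hk (Ne.symm ho.1) (Ne.symm ho.2)
  exact (mul_mem_cancel_left hr').1 (hB i (r * g) ⟨M.mul_mem hr hg, _, p2, by
    rw [LinearEquiv.mul_apply, p1, map_smul, r1]; simp [Ne.symm hk, ho.1]⟩)

omit h6 hM [Fintype ι] [FiniteDimensional F V] in
theorem mono_conj (hg : g ∈ M) (hy : y ∈ M) (h : y (g (b i)) = g (b i)) :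
    g⁻¹ * y * g ∈ stabG (lines b) :=
  hB i _ ⟨M.mul_mem (M.mul_mem (M.inv_mem hg) hy) hg, 1, one_ne_zero, by simp [h]⟩

include ha h1 h2 h3

omit h6 [Fintype ι] in
theorem mono_C1a (hg : g ∈ M) (hlm : l ≠ m) (hl : b.repr (g (b i)) l = 0)
    (hm : b.repr (g (b i)) m = 0) (hj : b.repr (g (b j)) l ≠ 0) (r : ι) (p1 : r ≠ l) (p2 : r ≠ m) :
    b.repr (g (b j)) r = 0 := by
  by_contra h
  refine three_roots ha h1 h2 h3 (A := b.repr (g (b j)) l * b.repr (g⁻¹ (b l)) j)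
    (B := b.repr (g (b j)) m * b.repr (g⁻¹ (b m)) j) fun t ht ht1 => by_contra fun e => ?_
  obtain ⟨d, hd, d1⟩ := mono_d hM hlm ht
  have q1 := congrArg g (diag_of_mem (j := j) (mono_conj hB hg hd (i := i) (by simp [d1, hl, hm]))
    (by simpa [d1, mul_assoc] using e))
  simp only [LinearEquiv.mul_apply, LinearEquiv.coe_inv, LinearEquiv.apply_symm_apply, map_smul] at q1
  generalize b.repr (g.symm _) j = c at q1
  have q2 := congrArg (fun v => b.repr v r) q1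
  have q3 := congrArg (fun v => b.repr v l) q1
  simp [d1, p1, p2, hlm] at q2 q3
  grind

theorem mono_C1 (hg : g ∈ M) (hn : g ∉ stabG (lines b)) (hlm : l ≠ m)
    (hl : b.repr (g (b i)) l = 0) : b.repr (g (b i)) m ≠ 0 := fun hm => by
  have ex : ∀ l, ∃ j, b.repr (g (b j)) l ≠ 0 := fun l => exists_repr_ne (b := b)
    (φ := b.coord l ∘ₗ g.toLinearMap) fun e => by simpa using LinearMap.congr_fun e (g.symm (b l))
  obtain ⟨j, hj⟩ := ex l
  have p1 := mono_C1a hM hB ha h1 h2 h3 hg hlm hl hm hj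
  obtain ⟨r, hr⟩ := exists_list [l, m] (by simp; omega)
  obtain ⟨s, hs⟩ := exists_list [l, m, r] (by simp; omega)
  obtain ⟨t, ht⟩ := exists_list [l, m, r, s] (by simp; omega)
  simp only [List.mem_cons, List.not_mem_nil, or_false, not_or] at hr hs ht
  obtain ⟨k, hk⟩ := ex r
  refine hn (mono_A0 h6 hM hB hg (i := k) (k := r) fun x hx => ?_)
  by_cases e : x = s
  · exact mono_C1a hM hB ha h1 h2 h3 hg (Ne.symm ht.2.2.1) (p1 r hr.1 hr.2) (p1 t ht.1 ht.2.1) hk x hx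
      (e ▸ Ne.symm ht.2.2.2)
  · exact mono_C1a hM hB ha h1 h2 h3 hg (Ne.symm hs.2.2) (p1 r hr.1 hr.2) (p1 s hs.1 hs.2.1) hk x hx e

theorem mono_R (hg : g ∈ M) (hn : g ∉ stabG (lines b)) (hkl : k ≠ l) {t : F} (ht : t ≠ 0)
    (ht1 : t ≠ 1) : ∃ y ∈ M, y ∉ stabG (lines b) ∧ ∀ v, y v =
      v + ((t - 1) * b.repr (g v) k) • g⁻¹ (b k) + ((t⁻¹ - 1) * b.repr (g v) l) • g⁻¹ (b l) := by
  obtain ⟨d, hd, d1⟩ := mono_d hM hkl ht
  have p1 : ∀ v, (g⁻¹ * d * g) v = v + ((t - 1) * b.repr (g v) k) • g⁻¹ (b k) +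
      ((t⁻¹ - 1) * b.repr (g v) l) • g⁻¹ (b l) := fun v => by simp [d1]
  refine ⟨_, M.mul_mem (M.mul_mem (M.inv_mem hg) hd) hg, fun hy => ?_, p1⟩
  obtain ⟨i, i', q1, q2⟩ := mono_rank_two h6 hy (φ := (t - 1) • b.coord k ∘ₗ g.toLinearMap)
    (ψ := (t⁻¹ - 1) • b.coord l ∘ₗ g.toLinearMap) p1 (v := g.symm (b k)) (w := g.symm (b l))
    (by simp [hkl, sub_eq_zero, ht1])
  exact mono_C1 h6 hM hB ha h1 h2 h3 (M.inv_mem hg) (by simpa using hn) q1 (q2 i (.inl rfl)).1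
    (q2 i' (.inr rfl)).1

theorem mono_X (hg : g ∈ M) (hn : g ∉ stabG (lines b)) (hαβ : α ≠ β) (hα : b.repr (g (b o)) α ≠ 0)
    (hβ : b.repr (g (b o)) β ≠ 0) : ∃ i i', i ≠ i' ∧ ∀ r, r = i ∨ r = i' →
      b.repr (g (b o)) α * b.repr (g⁻¹ (b α)) r = b.repr (g (b o)) β * b.repr (g⁻¹ (b β)) r ∧
      b.repr (g (b r)) α * b.repr (g (b o)) β = b.repr (g (b r)) β * b.repr (g (b o)) α := by
  obtain ⟨γ, p1, p2, hγ⟩ : ∃ γ, γ ≠ α ∧ γ ≠ β ∧ b.repr (g (b o)) γ ≠ 0 := by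
    obtain ⟨r, hr⟩ := exists_list [α, β] (by simp; omega)
    obtain ⟨s, hs⟩ := exists_list [α, β, r] (by simp; omega)
    simp only [List.mem_cons, List.not_mem_nil, or_false, not_or] at hr hs
    by_cases e : b.repr (g (b o)) s = 0
    · exact ⟨r, hr.1, hr.2, mono_C1 h6 hM hB ha h1 h2 h3 hg hn hs.2.2 e⟩
    · exact ⟨s, hs.1, hs.2.1, e⟩
  obtain ⟨r, r1, r2, r3⟩ := mono_r (b := b) hαβ hα hβ
  obtain ⟨s, s1, s2, s3⟩ := mono_r (b := b) p1.symm hα hγ
  have hu : (s * r) (g (b o)) = g (b o) := by simp [r3, s3, hα, hβ, hγ]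
  generalize b.repr (g (b o)) α = A at *
  generalize b.repr (g (b o)) β = B at *
  generalize b.repr (g (b o)) γ = C at *
  have c1 : ∀ v, (s * r) v = v + (B⁻¹ * b.repr v β - A⁻¹ * b.repr v α) • (A • b α - B • b β) +
      (C⁻¹ * b.repr v γ - B⁻¹ * b.repr v β) • (A • b α - C • b γ) := fun v => by
    rw [LinearEquiv.mul_apply, s3, r3]
    congr 2
    simp [p1, p2, hαβ]
    field_simp
    ring
  obtain ⟨i, i', q1, q2⟩ := mono_rank_two h6 (mono_conj hB hg (hM _ (mul_mem s1 r1)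
    (by simp [LinearMap.det_comp, r2, s2])) hu)
    (φ := (B⁻¹ • b.coord β - A⁻¹ • b.coord α) ∘ₗ g.toLinearMap)
    (ψ := (C⁻¹ • b.coord γ - B⁻¹ • b.coord β) ∘ₗ g.toLinearMap) (X := g⁻¹ (A • b α - B • b β))
    (Y := g⁻¹ (A • b α - C • b γ)) (fun v => by
      rw [LinearEquiv.mul_apply, LinearEquiv.mul_apply, c1]; simp [-map_sub])
    (v := g.symm (b α)) (w := g.symm (b γ)) (by simp [p1, p1.symm, p2.symm, hαβ.symm, hα, hγ])
  refine ⟨i, i', q1, fun x hx => ⟨by simpa [sub_eq_zero] using (q2 x hx).1, ?_⟩⟩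
  have := congrArg (fun v => b.repr (g v) β) (q2 x hx).2.2
  simp only [LinearEquiv.mul_apply g⁻¹, LinearEquiv.mul_apply (g⁻¹ * _), c1, LinearEquiv.coe_inv,
    LinearEquiv.apply_symm_apply] at this
  simp [hαβ.symm, p2.symm, hβ] at this
  grind

theorem mono_CR (hg : g ∈ M) (hn : g ∉ stabG (lines b)) (hα : b.repr (g (b o)) α ≠ 0)
    (hβ : b.repr (g (b o)) β ≠ 0) (hα' : b.repr (g (b j)) α ≠ 0) (hβ' : b.repr (g (b j)) β ≠ 0) :
    b.repr (g (b j)) α * b.repr (g (b o)) β = b.repr (g (b j)) β * b.repr (g (b o)) α := by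
  by_contra h
  have hαβ : α ≠ β := by rintro rfl; exact h rfl
  obtain ⟨i, i', q1, q2⟩ := mono_X h6 hM hB ha h1 h2 h3 hg hn hαβ hα hβ
  obtain ⟨y, y1, y2, y3⟩ := mono_R h6 hM hB ha h1 h2 h3 hg hn hαβ
    (t := b.repr (g (b j)) β * b.repr (g (b o)) α / (b.repr (g (b j)) α * b.repr (g (b o)) β))
    (by simp [*]) (by rw [Ne, div_eq_one_iff_eq (by simp [*])]; exact Ne.symm h)
  have key : ∀ r, r = i ∨ r = i' → b.repr (y (b j)) r = 0 := fun r hr => by
    have p1 : r ≠ j := by rintro rfl; exact h (q2 r hr).2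
    have p2 := (q2 r hr).1
    simp only [y3, map_add, map_smul, Finsupp.add_apply, Finsupp.smul_apply, smul_eq_mul,
      Basis.repr_self, Finsupp.single_eq_of_ne p1]
    linear_combination (norm := skip) (b.repr (g (b j)) β * b.repr (g (b o)) α -
      b.repr (g (b j)) α * b.repr (g (b o)) β) / (b.repr (g (b o)) α * b.repr (g (b o)) β) * p2
    field_simp
    ring
  exact mono_C1 h6 hM hB ha h1 h2 h3 y1 y2 q1 (key i (.inl rfl)) (key i' (.inr rfl))

theorem mono_E (hg : g ∈ M) (hn : g ∉ stabG (lines b)) (hj : j ≠ o) (z : ι) :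
    ¬ ∀ r, r ≠ z → b.repr (g (b o)) r ≠ 0 ∧ b.repr (g (b j)) r ≠ 0 := fun h => by
  obtain ⟨α, hα⟩ := exists_list [z] (by simp; omega)
  replace hα := h α (by simpa using hα)
  have p1 := congrArg g.symm (eq_smul_of_repr (b := b) (k := z)
    (v := b.repr (g (b o)) α • g (b j) - b.repr (g (b j)) α • g (b o)) fun r hr => by
      have := mono_CR h6 hM hB ha h1 h2 h3 hg hn hα.1 (h r hr).1 hα.2 (h r hr).2
      simp only [map_sub, map_smul, Finsupp.sub_apply, Finsupp.smul_apply, smul_eq_mul]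
      linear_combination -this)
  simp only [map_sub g.symm, map_smul g.symm, LinearEquiv.symm_apply_apply] at p1
  generalize b.repr (_ - _) z = c at p1
  have hc : c ≠ 0 := by
    rintro rfl
    simpa [hj, hα.1] using congrArg (fun v => b.repr v j) p1
  have key : ∀ r, r ∉ [j, o] → b.repr (g⁻¹ (b z)) r = 0 := fun r hr => by
    simp only [List.mem_cons, List.not_mem_nil, or_false, not_or] at hr
    simpa [hr.1, hr.2, hc] using congrArg (fun v => b.repr v r) p1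
  obtain ⟨r, hr⟩ := exists_list [j, o] (by simp; omega)
  obtain ⟨s, hs⟩ := exists_list [r, j, o] (by simp; omega)
  rw [List.mem_cons, not_or] at hs
  exact mono_C1 h6 hM hB ha h1 h2 h3 (M.inv_mem hg) (by simpa using hn) hs.1 (key s hs.2) (key r hr)

theorem mono_A (hg : g ∈ M) : g ∈ stabG (lines b) := by
  by_contra hn
  have e1 : ∀ g ∈ M, g ∉ stabG (lines b) → ∀ o, ∃ z, b.repr (g (b o)) z = 0 := fun g hg hn o => by
    by_contra! h
    obtain ⟨j, hj⟩ := exists_list [o] (by simp; omega)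
    by_cases e : ∃ z, b.repr (g (b j)) z = 0
    · obtain ⟨z, hz⟩ := e
      exact mono_E h6 hM hB ha h1 h2 h3 hg hn (by simpa using hj) z fun r hr =>
        ⟨h r, mono_C1 h6 hM hB ha h1 h2 h3 hg hn hr.symm hz⟩
    · exact mono_E h6 hM hB ha h1 h2 h3 hg hn (by simpa using hj) o fun r _ =>
        ⟨h r, fun e' => e ⟨r, e'⟩⟩
  have hn' : g⁻¹ ∉ stabG (lines b) := by simpa using hn
  have e2 : ∀ α β z, α ≠ β → b.repr (g⁻¹ (b α)) z = 0 → b.repr (g⁻¹ (b β)) z ≠ 0 :=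
    fun α β z h p q => mono_E h6 hM hB ha h1 h2 h3 (M.inv_mem hg) hn' h z fun r hr =>
      ⟨mono_C1 h6 hM hB ha h1 h2 h3 (M.inv_mem hg) hn' hr.symm q,
        mono_C1 h6 hM hB ha h1 h2 h3 (M.inv_mem hg) hn' hr.symm p⟩
  obtain ⟨o, -⟩ := exists_list (ι := ι) [] (by simp; omega)
  obtain ⟨z, hz⟩ := e1 g hg hn o
  obtain ⟨α, hα⟩ := exists_list [z] (by simp; omega)
  obtain ⟨β, hβ⟩ := exists_list [z, α] (by simp; omega)
  simp only [List.mem_cons, List.not_mem_nil, or_false, not_or] at hα hβ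
  have p1 := mono_C1 h6 hM hB ha h1 h2 h3 hg hn (Ne.symm hα) hz
  have p2 := mono_C1 h6 hM hB ha h1 h2 h3 hg hn (Ne.symm hβ.1) hz
  obtain ⟨i, i', -, q2⟩ := mono_X h6 hM hB ha h1 h2 h3 hg hn (Ne.symm hβ.2) p1 p2
  have q3 := (q2 i (.inl rfl)).1
  have q4 := e2 α β i (Ne.symm hβ.2)
  refine three_roots ha h1 h2 h3 (A := b.repr (g (b o)) α * b.repr (g⁻¹ (b α)) o)
    (B := b.repr (g (b o)) β * b.repr (g⁻¹ (b β)) o) fun t ht ht1 => ?_
  obtain ⟨y, y1, y2, y3⟩ := mono_R h6 hM hB ha h1 h2 h3 hg hn (Ne.symm hβ.2) ht ht1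
  obtain ⟨r, hr⟩ := e1 y y1 y2 o
  simp only [y3, map_add, map_smul, Finsupp.add_apply, Finsupp.smul_apply, smul_eq_mul,
    Basis.repr_self] at hr
  by_cases e : r = o
  · simpa [e, mul_assoc] using hr
  rw [Finsupp.single_eq_of_ne e] at hr
  have q5 := e2 α β r (Ne.symm hβ.2)
  have q6 := e2 β α r hβ.2
  have q7 := mono_CR h6 hM hB ha h1 h2 h3 (M.inv_mem hg) hn' (o := β) (j := α) (α := r) (β := i)
  have t1 : t⁻¹ - 1 ≠ 0 := by simpa [sub_eq_zero]
  have t2 := sub_ne_zero.2 ht1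
  have r1 : b.repr (g⁻¹ (b α)) i ≠ 0 := fun e => mul_ne_zero p2 (q4 e) (by rw [← q3, e, mul_zero])
  have r2 : b.repr (g⁻¹ (b β)) i ≠ 0 := fun e => mul_ne_zero p1 r1 (by rw [q3, e, mul_zero])
  have r3 : b.repr (g⁻¹ (b α)) r ≠ 0 := fun e => mul_ne_zero (mul_ne_zero t1 p2) (q5 e)
    (by rw [← hr, e]; ring)
  have r4 : b.repr (g⁻¹ (b β)) r ≠ 0 := fun e => mul_ne_zero (mul_ne_zero t2 p1) r3
    (by rw [← hr, e]; ring)
  refine (mul_ne_zero (mul_ne_zero (mul_ne_zero t2 t1) (mul_ne_zero p1 r3)) r2 ?_).elim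
  linear_combination -b.repr (g⁻¹ (b β)) i * hr - (t⁻¹ - 1) * b.repr (g (b o)) α * q7 r4 r2 r3 r1 -
    (t⁻¹ - 1) * b.repr (g⁻¹ (b β)) r * q3 + b.repr (g (b o)) α * b.repr (g⁻¹ (b α)) r *
      b.repr (g⁻¹ (b β)) i * mul_inv_cancel₀ ht

omit hB ha h1 h2 h3 in
theorem sl_mono_maximal [Finite F] (hq : 5 ≤ Nat.card F) (hg : g ∈ M) (hn : ¬ StabD (lines b) g)
    (e : V ≃ₗ[F] V) (he : LinearMap.det (e : V →ₗ[F] V) = 1) : e ∈ M := by
  have hq' : (5 : F) = 0 ∨ ∃ a : F, a ≠ 0 ∧ ∀ n, 0 < n → n ≤ 5 → a ^ n ≠ 1 := by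
    have := Fintype.ofFinite F
    obtain ⟨a, ha⟩ := IsCyclic.exists_ofOrder_eq_natCard (α := Fˣ)
    rw [Nat.card_units] at ha
    by_cases h : Nat.card F = 5
    · exact Or.inl (by simpa [← Nat.card_eq_fintype_card, h] using FiniteField.cast_card_eq_zero F)
    have h7 : Nat.card F ≠ 6 := fun h => absurd (FiniteField.isPrimePow_card F) (by
      rw [← Nat.card_eq_fintype_card, h]; decide)
    exact Or.inr ⟨a, a.ne_zero, fun n h1 h2 e =>
      pow_ne_one_of_lt_orderOf (x := a) h1.ne' (by omega) (Units.ext (by simpa using e))⟩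
  obtain ⟨a, ha, h1, h2, h3⟩ := exists_ord hq'
  by_contra hc
  exact hn (mono_A h6 hM (fun o g hg => mono_B (by omega) hM (fun h => hc (h e he)) hq' hg)
    ha h1 h2 h3 hg)

open Cfsg.Geo in
omit h6 hM hB ha h1 h2 h3 in
theorem isMaximalIn_sl_decomp {κ : Type} [Fintype κ] [DecidableEq κ] [Fintype F] {t m : ℕ}
    {D : Fin t → Submodule F (κ → F)} (hD : IsMDecomposition m D)
    (h1 : m = 1 → 5 ≤ Fintype.card F ∧ 6 ≤ t)
    (h2 : m = 2 → 4 ≤ Fintype.card F ∨ 3 ≤ Fintype.card F ∧ 3 ≤ t) :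
    IsMaximalIn (specialLinear κ F) (decompositionStabilizer D ⊓ specialLinear κ F) := by
  obtain ⟨π, h⟩ := exists_isProj hD.indep hD.iSup_eq_top
  have hk := hD.finrank_eq
  have hm := hD.pos
  choose v hv hv0 using fun i => exists_mem_notMem (W := D i) (Z := ⊥) (by simpa [hk])
  simp only [Submodule.mem_bot] at hv0
  refine isMaximalIn_of_toLE (StabD D) (fun g => LinearMap.det (g : (κ → F) →ₗ[F] (κ → F)) = 1)
    mem_specialLinear_iff (fun g => and_congr (mem_decompositionStabilizer_iff D g)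
      (mem_specialLinear_iff g)) ?_ fun M hM _ g hg hns => ?_
  · have ht := hD.two_le
    have hij : (⟨0, by omega⟩ : Fin t) ≠ ⟨1, by omega⟩ := by simp
    generalize (⟨0, _⟩ : Fin t) = i, (⟨1, _⟩ : Fin t) = j at hij
    obtain ⟨φ, p1, p2, -⟩ := h.exists_loc (hv j) (zero_mem _) (by simpa using hv0 j)
    obtain ⟨e, -, he⟩ := hasTv_of_forall (H := ⊤) (p1 i hij _ (hv i)) fun _ _ => trivial
    refine ⟨e, by simp [det_of_tv he, p1 i hij _ (hv i)], fun ⟨σ, hσ⟩ => ?_⟩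
    have p3 : e (v j) ∈ D (σ j) := hσ j ▸ Submodule.mem_map_of_mem (hv j)
    by_cases h3 : σ j = j
    · simpa [he, p2, h.of_mem (hv i), h.of_ne i j hij _ (hv j), hv0] using
        h.of_ne i _ (h3.symm ▸ hij) _ p3
    · simpa [he, p2, h.of_mem (hv j), h.of_ne j i hij.symm _ (hv i), hv0] using
        h.of_ne j _ (Ne.symm h3) _ p3
  by_cases hm1 : m = 1
  · have hD' : ∀ i, F ∙ v i = D i := fun i => Submodule.eq_of_le_of_finrank_eq
      (by simpa using hv i) (by rw [finrank_span_singleton (hv0 i), hk, hm1])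
    obtain ⟨b, rfl⟩ : ∃ b, lines b = D := ⟨Basis.mk (hD.indep.linearIndependent _ hv hv0) (by
      rw [Submodule.span_range_eq_iSup, ← hD.iSup_eq_top]; simp [hD']),
      funext fun i => by rw [lines, Basis.mk_apply, hD']⟩
    exact sl_mono_maximal (by simpa using (h1 hm1).2) hM (by simpa using (h1 hm1).1) hg hns
  refine sl_decomp_maximal h hk (by omega) (or_iff_not_imp_left.2 fun h3 => ?_) hM hg hns
  classical
  rcases h2 (by omega) with h4 | h4
  · obtain ⟨a, ha⟩ := exists_list [(0 : F), 1, -1] (by simp; omega)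
    simp only [List.mem_cons, List.not_mem_nil, or_false, not_or] at ha
    exact ⟨a, ha.1, ha.2.1, .inl (by simp [mul_self_eq_one_iff, ha])⟩
  · obtain ⟨a, ha⟩ := exists_list [(0 : F), 1] (by simp; omega)
    simp only [List.mem_cons, List.not_mem_nil, or_false, not_or] at ha
    exact ⟨a, ha.1, ha.2, .inr (by simpa using h4.2)⟩

end H62
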