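import Cfsg.Agent.H62.UPair

set_option autoImplicit false

/-! The normaliser of `SU(V)` in `SL(V)` is maximal. -/

namespace H62

open Module H59

variable {F V : Type*} [Field F] [AddCommGroup V] [Module F V] [FiniteDimensional F V] [Finite F]
  {σ : F →+* F} {B : V →ₛₗ[σ] V →ₗ[F] F} {M : Subgroup (V ≃ₗ[F] V)}

theorem exists_herm_rep (h : IsHerm B) (φ : Dual F V) : ∃ w, B w = φ := by
  have : Finite V := Module.finite_of_finite F
  have : Finite (Dual F V) := Module.finite_of_finite F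
  exact (Function.Injective.bijective_of_nat_card_le (f := B) (fun x y hxy =>
    sub_eq_zero.1 (h.nondeg _ fun v => by simp [hxy])) (by
      rw [Module.natCard_eq_pow_finrank (K := F), Module.natCard_eq_pow_finrank (K := F) (V := V),
        Subspace.dual_finrank_eq])).2 φ

omit [Finite F] in
theorem mem_span_of_perp (h : IsHerm B) {u w : V} (hw : ∀ x, B u x = 0 → B w x = 0) : w ∈ F ∙ u := by
  by_contra h0
  obtain ⟨d, h1, h2⟩ := h.exists_perp_ne_zero h0
  exact h2 (hw d (mem_perp_singleton.1 h1))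

theorem perp_le_or_le (h : IsHerm B) (h4 : 4 ≤ finrank F V) (u : V) {A A' : Submodule F V}
    (hA : ∀ z, B u z = 0 → B z z = 0 → z ∈ A ∨ z ∈ A') :
    (∀ x, B u x = 0 → x ∈ A) ∨ ∀ x, B u x = 0 → x ∈ A' := by
  by_cases h0 : u = 0
  · simpa [h0, SetLike.le_def] using le_or_le_of_isotropic_mem h (W := ⊤) (by simp [h.perp_top])
      (by simp; omega) fun p _ => hA p (by simp [h0])
  by_cases h1 : B u u = 0
  swap
  · have h2 := h.finrank_add_finrank_perp (F ∙ u)
    rw [finrank_span_singleton h0] at h2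
    simpa [SetLike.le_def, mem_perp_singleton] using le_or_le_of_isotropic_mem h
      (h.disjoint_perp_perp (h.disjoint_span_singleton h1)) (by omega)
      fun p hp => hA p (mem_perp_singleton.1 hp)
  obtain ⟨v, p1, -⟩ := h.exists_partner h1 h0
  have p2 : B u v ≠ 0 := by simp [p1]
  have h2 := h.finrank_add_finrank_perp (Submodule.span F {u, v})
  rw [h.finrank_span_hyp h1 p2] at h2
  have hW := h.disjoint_perp_perp (h.disjoint_span_hyp h1 p2)
  have fin : ∀ C : Submodule F V, u ∈ C → perp B (Submodule.span F {u, v}) ≤ C →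
      ∀ x, B u x = 0 → x ∈ C := fun C q1 q2 x hx => by
    have := q2 (mem_perp_pair.2 ⟨by simp [hx, h1], by simp [← h.symm u v, p1]⟩ :
      x - B v x • u ∈ perp B _)
    rwa [C.sub_mem_iff_left (C.smul_mem _ q1)] at this
  have key : ∀ C C' : Submodule F V, (∀ z, B u z = 0 → B z z = 0 → z ∈ C ∨ z ∈ C') →
      perp B (Submodule.span F {u, v}) ≤ C → u ∉ C → ∀ x, B u x = 0 → x ∈ C' :=
    fun C C' q1 q2 q3 => by
      have q4 := (q1 u h1 h1).resolve_left q3
      refine fin C' q4 (le_of_isotropic_mem h hW (by omega) fun z hz hzz => ?_)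
      have q5 := (mem_perp_pair.1 hz).1
      exact (C'.add_mem_iff_left q4).1 ((q1 (z + u) (by simp [q5, h1])
        (by simp [q5, h1, hzz, h.eq_zero_comm.1 q5])).resolve_left
          fun q6 => q3 ((C.add_mem_iff_right (q2 hz)).1 q6))
  rcases le_or_le_of_isotropic_mem h hW (by omega) fun p hp => hA p (mem_perp_pair.1 hp).1 with
    q | q
  · by_cases q1 : u ∈ A
    exacts [Or.inl (fin A q1 q), Or.inr (key A A' hA q q1)]
  · by_cases q1 : u ∈ A'
    exacts [Or.inr (fin A' q1 q), Or.inl (key A' A (fun z a b => (hA z a b).symm) q q1)]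

theorem perp_le_of_iso (h : IsHerm B) (h4 : 4 ≤ finrank F V) (u : V) {A : Submodule F V}
    (hA : ∀ z, B u z = 0 → B z z = 0 → z ∈ A) : ∀ x, B u x = 0 → x ∈ A :=
  (perp_le_or_le h h4 u fun z a b => Or.inl (hA z a b)).elim id id

/-- A group containing `SU(V)` and one non-unitary transvection contains all transvections. -/
theorem forall_hasTv_of_su (h : IsHerm B) (h4 : 4 ≤ finrank F V) (hM : ∀ e ∈ sisom B, e ∈ M)
    {u w : V} (hu : u ≠ 0) (hw : w ∉ F ∙ u) (huw : B w u = 0) (ht : HasTv M (B w) u)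
    (φ : Dual F V) (u' : V) (hφ : φ u' = 0) : HasTv M φ u' := by
  obtain ⟨a, p1, p2, p3⟩ : ∃ a, B u a = 0 ∧ B a a = 0 ∧ B w a ≠ 0 := by
    by_contra! hc
    exact hw (mem_span_of_perp h (perp_le_of_iso h h4 u (A := LinearMap.ker (B w)) hc))
  obtain ⟨c, hc0, hc⟩ := exists_trace_zero_ne_zero h.ne_id h.invol
  have t1 := HasTv.comm_left (φ := c • B a) ((fullU_of_forall h p2 fun g hg _ _ => hM g hg).2 c hc)
    (by simp [p2]) ht huw (by simp [h.eq_zero_comm.1 p1])
  have p4 : u ∉ F ∙ a := fun h0 => by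
    obtain ⟨s, rfl⟩ := Submodule.mem_span_singleton.1 h0
    simp [p3] at huw; simp [huw] at hu
  obtain ⟨b, hb⟩ := exists_herm_rep h (B w a • c • B a)
  have hb0 : b ≠ 0 := by
    rintro rfl
    have : a = 0 := h.nondeg a fun y => by simpa [p3, hc0] using (LinearMap.congr_fun hb y).symm
    simp [this] at p3
  have hba : b ∈ F ∙ a := mem_span_of_perp h fun x hx => by simp [hb, hx]
  have hbu : B b u = 0 := by simp [hb, h.eq_zero_comm.1 p1]
  have hbb : B b b = 0 := by
    obtain ⟨s, rfl⟩ := Submodule.mem_span_singleton.1 hba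
    simp [p2]
  have hub : u ∉ F ∙ b := fun h0 => p4 ((Submodule.span_singleton_le_iff_mem _ _).2 hba h0)
  rw [← hb] at t1
  clear hb hba p1 p2 p3 p4 a ht huw hw w
  have t2 : ∀ s : F, HasTv M (B b) (s • b) := fun s => by
    obtain ⟨d, h1, h2⟩ := h.exists_perp_ne_zero hub
    have h1 := mem_perp_singleton.1 h1
    have h3 : B d u ≠ 0 := fun h0 => h2 (h.eq_zero_comm.1 h0)
    obtain ⟨a, ha⟩ := exists_trace_eq h.ne_id h.invol (h.self_fixed (σ (s / B d u) • d))
    obtain ⟨e, he, hx⟩ := h.exists_eichler hbb (u := σ (s / B d u) • d) (by simp [h1]) ha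
    have := (t1.conj' (ψ := B b) (hM e he) fun x => by simp [hx, hbb, h1]).sub_right t1 hbu
    simpa [hx, hbu, h.invol, h3] using this
  have t3 : ∀ z, B z z = 0 → ∀ s : F, HasTv M (B z) (s • z) := fun z hz s => by
    by_cases h0 : z = 0
    · simpa [h0] using HasTv.zero_left M (0 : V)
    obtain ⟨g, hg, rfl⟩ := exists_sisom_map h (by omega) hb0 h0 (hbb.trans hz.symm)
    simpa using (t2 s).conj' (hM g hg) (hg.1 b)
  let A : Submodule F V :=
    { carrier := {x | B b x = 0 ∧ ∀ s : F, HasTv M (B b) (s • x)}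
      zero_mem' := ⟨by simp, fun s => by simpa using HasTv.zero_right M _⟩
      add_mem' := fun {x y} hx hy => ⟨by simp [hx.1, hy.1], fun s => by
        rw [smul_add]; exact (hx.2 s).add_right (hy.2 s) (by simp [hy.1])⟩
      smul_mem' := fun r x hx => ⟨by simp [hx.1], fun s => by rw [smul_smul]; exact hx.2 _⟩ }
  have t4 := (perp_le_or_le h h4 b (A := A) (A' := LinearMap.ker (B u)) fun z q1 q2 => by
    by_cases q3 : B z u = 0
    · exact Or.inr (h.eq_zero_comm.1 q3)
    refine Or.inl ⟨q1, fun s => ?_⟩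
    simpa [smul_smul, mul_div_cancel₀ _ q3] using (t3 z q2 (s / B z u)).comm_right (by simp [q2]) t1
      hbu (by simp [q1])).resolve_right fun h0 => hub (mem_span_of_perp h h0)
  let A' : AddSubgroup V :=
    { carrier := {x | B x u' = 0 ∧ ∀ s : F, HasTv M (B (s • x)) u'}
      zero_mem' := ⟨by simp, fun s => by simpa using HasTv.zero_left M _⟩
      neg_mem' := fun {x} hx => ⟨by simp [hx.1], fun s => by simpa using hx.2 (-s)⟩
      add_mem' := fun {x y} hx hy => ⟨by simp [hx.1, hy.1], fun s => by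
        rw [smul_add, map_add]; exact (hx.2 s).add_left (hy.2 s) (by simp [hx.1])⟩ }
  obtain ⟨w, rfl⟩ := exists_herm_rep h φ
  have := perp_le_of_iso h h4 u' (A := { A' with
      smul_mem' := fun r x hx => ⟨by simp [hx.1], fun s => by rw [smul_smul]; exact hx.2 _⟩ })
    (fun z q1 q2 => ⟨h.eq_zero_comm.1 q1, fun s => by
      by_cases h0 : s • z = 0
      · simpa [h0] using HasTv.zero_left M u'
      obtain ⟨g, hg, e⟩ := exists_sisom_map h (by omega) hb0 h0 (by simp [hbb, q2])
      have := ((t4 (g.symm u') (by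
        rw [← hg.1, e]; simp [h.eq_zero_comm.1 q1])).2 1).conj' (hM g hg) (hg.1 b)
      simpa [e] using this⟩) w (h.eq_zero_comm.1 hφ)
  simpa using this.2 1

theorem su_sim_maximal (h : IsHerm B) (h4 : 4 ≤ finrank F V) (hM : ∀ e ∈ sisom B, e ∈ M)
    {g : V ≃ₗ[F] V} (hg : g ∈ M) (hns : ¬ ∃ c : Fˣ, ∀ u v, B (g u) (g v) = c * B u v)
    (e : V ≃ₗ[F] V) (he : LinearMap.det (e : V →ₗ[F] V) = 1) : e ∈ M := by
  obtain ⟨c, hc0, hc⟩ := exists_trace_zero_ne_zero h.ne_id h.invol
  by_cases h1 : ∀ v, B v v = 0 → ∀ x, B (g v) (g x) = 0 → B v x = 0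
  swap
  · push Not at h1
    obtain ⟨v, hv, x, p1, p2⟩ := h1
    obtain ⟨w, hw⟩ := exists_herm_rep h ((c • B v) ∘ₗ (g.symm : V →ₗ[F] V))
    have hw' : ∀ y, B w (g y) = c * B v y := fun y => by simp [hw]
    refine mem_of_det_eq_one (forall_hasTv_of_su h h4 hM (u := g v) (w := w)
      (by rintro h0; simp [g.map_eq_zero_iff.1 h0] at p2) (fun hd => ?_) (by simp [hw', hv])
      (HasTv.conj' (φ := c • B v) hg ((fullU_of_forall h hv fun g hg _ _ => hM g hg).2 c hc) hw')) e he
    obtain ⟨s, rfl⟩ := Submodule.mem_span_singleton.1 hd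
    simpa [p1, hc0, p2] using hw' x
  refine absurd ?_ hns
  have h2 : ∀ v, B v v = 0 → ∃ s : F, ∀ x, B v x = s * B (g v) (g x) := fun v hv => by
    obtain ⟨w, hw⟩ := exists_herm_rep h (B v ∘ₗ (g.symm : V →ₗ[F] V))
    obtain ⟨s, rfl⟩ := Submodule.mem_span_singleton.1 (mem_span_of_perp h (u := g v) (w := w)
      fun x hx => by simpa [hw] using h1 v hv (g.symm x) (by simpa))
    exact ⟨σ s, fun x => by simpa using (LinearMap.congr_fun hw (g x)).symm⟩
  obtain ⟨a, -, ha0, ha⟩ := h.exists_isotropic_mem (W := ⊤) (by simp; omega)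
  obtain ⟨s, hs⟩ := h2 a ha
  have h3 := (le_or_le_of_isotropic_mem h (W := ⊤) (by simp [h.perp_top]) (by simp; omega)
    (A := LinearMap.ker (B - s • (B ∘ₛₗ (g : V →ₗ[F] V)).compl₂ (g : V →ₗ[F] V)))
    (A' := LinearMap.ker (B a)) fun z _ hz => by
      by_cases h0 : B a z = 0
      · exact Or.inr h0
      obtain ⟨t, ht⟩ := h2 z hz
      obtain ⟨r, hr⟩ := h2 (z + (c * B a z) • a) (by
        simp only [map_add, LinearMap.add_apply, form_smul_left, map_smul, hz, ha, smul_eq_mul,
          map_mul, h.symm]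
        linear_combination (B a z * B z a) * hc)
      have q1 := hr a
      have q2 := hr z
      have q3 : B z a ≠ 0 := fun h' => h0 (h.eq_zero_comm.1 h')
      have q4 : B (g a) (g a) = 0 := by
        have := hs a
        rw [ha, eq_comm, mul_eq_zero] at this
        exact this.resolve_left fun h' => h0 (by simp [hs, h'])
      have q5 : B (g z) (g z) = 0 := by
        have := ht z
        rw [hz, eq_comm, mul_eq_zero] at this
        exact this.resolve_left fun h' => q3 (by simp [ht, h'])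
      simp only [map_add, LinearMap.add_apply, form_smul_left, map_smul, hz, ha, q4, q5, mul_zero,
        add_zero, zero_add] at q1 q2
      have q6 := h.conj_ne_zero (mul_ne_zero hc0 h0)
      obtain rfl : t = r := mul_right_cancel₀ (b := B (g z) (g a))
        (fun h' => q3 (by rw [ht, h', mul_zero])) ((ht a).symm.trans q1)
      obtain rfl : s = t := mul_right_cancel₀ (b := B (g a) (g z))
        (fun h' => h0 (by rw [hs, h', mul_zero])) (mul_left_cancel₀ q6 (by rw [← hs, q2]; ring))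
      exact Or.inl (LinearMap.ext fun x => by simp [ht x])).resolve_right
      fun h0 => ha0 (h.nondeg a fun y => h0 trivial)
  have hs0 : s ≠ 0 := by rintro rfl; exact ha0 (h.nondeg a fun y => by simp [hs])
  refine ⟨(Units.mk0 s hs0)⁻¹, fun u v => ?_⟩
  have := LinearMap.congr_fun (h3 (Submodule.mem_top (x := u))) v
  simp only [LinearMap.sub_apply, LinearMap.zero_apply, sub_eq_zero] at this
  simp [this, hs0]

theorem exists_det_one_not_su_sim (h : IsHerm B) (h2 : 2 ≤ finrank F V) :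
    ∃ e : V ≃ₗ[F] V, LinearMap.det (e : V →ₗ[F] V) = 1 ∧
      ¬ ∃ c : Fˣ, ∀ u v, B (e u) (e v) = c * B u v := by
  obtain ⟨a, -, ha0, ha⟩ := h.exists_isotropic_mem (W := ⊤) (by simpa)
  obtain ⟨b, p1, p2⟩ := h.exists_partner ha ha0
  obtain ⟨s, hs⟩ := exists_trace_ne_zero h.ne_id
  obtain ⟨e, -, he⟩ := hasTv_of_forall (H := ⊤) (φ := s • B a) (u := a) (by simp [ha])
    fun _ _ => trivial
  refine ⟨e, by simp [det_of_tv he, ha], fun ⟨c, hc⟩ => hs ?_⟩
  simpa [he, p1, p2, ha, ← h.symm a b] using hc b b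

open Matrix Cfsg Cfsg.Geo

theorem isMaximalIn_sl_unitary {ι : Type} [Fintype ι] [DecidableEq ι] {F : Type*} [Field F]
    [Finite F] (h4 : 4 ≤ Fintype.card ι) {σ : F ≃+* F} {f : (ι → F) → (ι → F) → F}
    (hf : IsUnitaryForm σ f) :
    IsMaximalIn (specialLinear ι F) (similarityGroup f ⊓ specialLinear ι F) := by
  let B : (ι → F) →ₛₗ[(σ : F →+* F)] (ι → F) →ₗ[F] F := LinearMap.mk₂'ₛₗ (σ : F →+* F)
    (RingHom.id F) (fun x y => f y x)
    (fun x y v => by rw [hf.herm, hf.add_left, map_add, ← hf.herm, ← hf.herm])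
    (fun c x v => by rw [hf.herm, hf.smul_left, map_mul, ← hf.herm]; rfl)
    (fun _ _ _ => hf.add_left _ _ _) fun _ _ _ => hf.smul_left _ _ _
  have h : IsHerm B := ⟨fun e => hf.ne_refl (RingEquiv.ext (RingHom.congr_fun e)), hf.involutive,
    fun x y => (hf.herm x y).symm, fun x hx => by
      by_contra h0
      obtain ⟨y, hy⟩ := (hf.nondegenerate x h0).1
      exact hy (hx y)⟩
  refine isMaximalIn_of_toLE (fun e => ∃ c : Fˣ, ∀ u v, B (e u) (e v) = c * B u v)
    (fun e => LinearMap.det (e : (ι → F) →ₗ[F] (ι → F)) = 1) mem_specialLinear_iff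
    (fun g => and_congr (exists_congr fun c => forall_comm) (mem_specialLinear_iff g))
    (exists_det_one_not_su_sim h (by simp; omega)) fun M hM _ g hg hns =>
      su_sim_maximal h (by simpa) (fun k hk => hM k ⟨1, fun u v => by simpa using hk.1 u v⟩ ?_) hg hns
  rw [← LinearEquiv.coe_det, hk.2, Units.val_one]

end H62
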