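import Cfsg.Agent.H62.OInSL
import Cfsg.Agent.H62.Mono3
import Cfsg.Agent.H62.UInSL
import Cfsg.Agent.H62.RatMat
import Cfsg.Agent.H62.C3Mat
import Cfsg.Agent.H57.Parabolic
import Cfsg.Agent.H56.TenMat

set_option autoImplicit false

/-! Matrix forms, for every dimension, of two maximality theorems in `SL`. -/

namespace H62

open Cfsg Cfsg.Geo

variable {F : Type*} [Field F]

theorem isMaximalIn_sl_sp {ι : Type} [Fintype ι] [DecidableEq ι] (h3 : 3 ≤ Fintype.card ι)
    (f : (ι → F) → (ι → F) → F) (hf : IsSymplecticForm f) :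
    IsMaximalIn (specialLinear ι F) (similarityGroup f ⊓ specialLinear ι F) := by
  have hB := bilinOf_nondegenerate hf.bilinear hf.nondegenerate
  have hA : (bilinOf hf.bilinear).IsAlt := hf.alternating
  refine isMaximalIn_of_toLE
    (fun e => ∃ c : Fˣ, ∀ u v, bilinOf hf.bilinear (e u) (e v) = c * bilinOf hf.bilinear u v)
    (fun e => LinearMap.det (e : (ι → F) →ₗ[F] (ι → F)) = 1)
    mem_specialLinear_iff (fun g => and_congr Iff.rfl (mem_specialLinear_iff g))
    (exists_det_one_not_sp_sim hB hA (by simpa using h3)) fun M hM _ g hg hns e he => ?_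
  refine sp_sim_maximal hB hA (fun v c => hasSp_of_forall hA fun k hk => ?_) hg hns e he
  exact hM k ⟨1, fun u v => by simpa using isom_of_sp hA hk u v⟩ (det_of_sp hA hk)

theorem isMaximalIn_sl_tensor [Fintype F] {n n₁ n₂ : ℕ} (h1 : 2 ≤ n₁) (h12 : n₁ < n₂)
    (hex : ¬ (n₁ = 2 ∧ Fintype.card F = 2)) (e : Fin n ≃ Fin n₁ × Fin n₂) (P : GL (Fin n) F) :
    IsMaximalIn (specialLinear (Fin n) F)
      (tensorProductSubgroup n₁ n₂ e P ⊓ specialLinear (Fin n) F) := by
  have ha : 2 ≤ Module.finrank F (Fin n₁ → F) := by simpa using h1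
  have hb : Module.finrank F (Fin n₁ → F) < Module.finrank F (Fin n₂ → F) := by simpa using h12
  refine isMaximalIn_of_toLE (· ∈ (H56.matTen e P).grp)
    (fun g => LinearMap.det (g : (Fin n → F) →ₗ[F] (Fin n → F)) = 1) mem_specialLinear_iff
    (fun g => by rw [Subgroup.mem_inf, H56.mem_tensorProductSubgroup_iff, mem_specialLinear_iff])
    ((H56.matTen e P).exists_tv_notMem ha (by omega)) fun M h2 h3 g hg hg' => ?_
  exact H56.Ten.sl_max h2 ha hb (by simpa using hex) h3 fun h => hg' (h hg)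

end H62
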