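import Cfsg.Agent.H62.UHom4
import Cfsg.Agent.H62.UPair

set_option autoImplicit false

/-! Stabilisers of orthogonal decompositions are maximal in `SU(V)`. -/

namespace H62

open Module H59 Cfsg Cfsg.Geo

variable {F V : Type*} [Field F] [AddCommGroup V] [Module F V] {σ : F →+* F}
  {M : Subgroup (V ≃ₗ[F] V)} {B : V →ₛₗ[σ] V →ₗ[F] F} [FiniteDimensional F V]

theorem exists_sisom_map_aniso (h : IsHerm B) {W : Submodule F V} (hW : Disjoint W (perp B W))
    (h2 : 2 ≤ finrank F W) {v v' : V} (hvW : v ∈ W) (hvW' : v' ∈ W) (hv : B v v ≠ 0)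
    (hn : B v v = B v' v') : ∃ g ∈ sisom B, g v = v' ∧ ∀ x ∈ perp B W, g x = x := by
  have h' := h.restrict hW
  have h0 : (⟨v, hvW⟩ : W) ≠ 0 := by rintro h0; simp at h0; simp [h0] at hv
  obtain ⟨a, ha, hav⟩ := h'.witt_one (w := ⟨v', hvW'⟩) h0
    (by rintro h0; simp at h0; simp [h0] at hn; exact hv hn) hn
  obtain ⟨p, hp, hp0⟩ := h'.exists_self_ne_zero_perp (h'.disjoint_span_singleton (v := ⟨v, hvW⟩) hv)
    (by rw [finrank_span_singleton h0]; omega)
  obtain ⟨a', ha', hx⟩ := h'.exists_sisom_eq ha hp0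
  obtain ⟨e, he, h1, h3, h4⟩ := exists_ext h hW ha'.1
  exact ⟨e, ⟨he, h1.trans ha'.2⟩, by
    rw [h3 ⟨v, hvW⟩, hx _ (h'.eq_zero_comm.1 (mem_perp_singleton.1 hp)), hav], h4⟩

variable {ι : Type*} [Fintype ι] {D : ι → Submodule F V} {π : ι → V →ₗ[F] V}

theorem IsProj.exists_su_swap [Finite F] [DecidableEq ι] (hp : IsProj D π) (h : IsHerm B) {m : ℕ}
    (hm : ∀ i, finrank F (D i) = m) (hn : ∀ i, Disjoint (D i) (perp B (D i)))
    (ho : ∀ i j, i ≠ j → ∀ u ∈ D i, ∀ v ∈ D j, B u v = 0) {i j l : ι} (hij : i ≠ j) {x : V}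
    (hx : x ∈ D l) (hxx : B x x ≠ 0) :
    ∃ e ∈ sisom B, ∀ k, ∀ v ∈ D k, e v ∈ D (Equiv.swap i j k) := by
  obtain ⟨φ, hφ⟩ := (h.restrict (hn i)).exists_isometry (h.restrict (hn j)) (by rw [hm, hm])
  obtain ⟨e, h1, h2, h3, h4⟩ := hp.exists_swap hij φ
  have he : e ∈ isom B := fun x y => sub_eq_zero.1 (hp.form_eq_zero_of_members
      (β := fun u v => B (e u) (e v) - B u v) (fun a b c => by simp; ring)
      (fun a b c => by simp; ring) (fun a b u hu v hv => sub_eq_zero.2 (by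
    by_cases hab : a = b
    · subst hab
      by_cases c1 : a = i
      · subst c1; rw [h1 ⟨u, hu⟩, h1 ⟨v, hv⟩]; exact hφ _ _
      by_cases c2 : a = j
      · subst c2; rw [h2 ⟨u, hu⟩, h2 ⟨v, hv⟩]
        have := hφ (φ.symm ⟨u, hu⟩) (φ.symm ⟨v, hv⟩)
        rw [LinearEquiv.apply_symm_apply, LinearEquiv.apply_symm_apply] at this
        exact this.symm
      · rw [h3 a c1 c2 u hu, h3 a c1 c2 v hv]
    · rw [ho a b hab u hu v hv, ho _ _ (fun h => hab ((Equiv.swap i j).injective h)) _ (h4 a u hu) _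
        (h4 b v hv)])) x y)
  obtain ⟨r, ⟨r1, c, hc⟩, hdet, -⟩ := h.exists_qrefl hxx (h.det_norm_one (Subgroup.inv_mem _ he))
  refine ⟨e * r, mem_sisom.2 ⟨mul_mem he r1, by
    rw [map_mul, ← Units.val_inj, Units.val_mul, hdet, ← Units.val_mul, ← map_mul, mul_inv_cancel,
      map_one]⟩, fun k v hv => h4 k (r v) ?_⟩
  rw [hc]
  by_cases hk : l = k
  · exact (D k).add_mem hv ((D k).smul_mem _ (hk ▸ hx))
  · simpa [ho l k hk x hx v hv] using hv

theorem su_decomp_maximal [Finite F] (h : IsHerm B) (hp : IsProj D π) {m : ℕ} (h2 : 2 ≤ m)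
    (hm : ∀ i, finrank F (D i) = m) (hn : ∀ i, Disjoint (D i) (perp B (D i)))
    (ho : ∀ i j, i ≠ j → ∀ u ∈ D i, ∀ v ∈ D j, B u v = 0)
    (hq : m ≠ 2 ∨ ∃ τ : F, σ τ = τ ∧ τ ≠ 0 ∧ τ ≠ 1)
    (hM : ∀ e, StabD D e → e ∈ sisom B → e ∈ M) {g : V ≃ₗ[F] V} (hg : g ∈ M) (hgB : g ∈ isom B)
    (hns : ¬ StabD D g) : ∀ e ∈ sisom B, e ∈ M := by
  classical
  have hL : ∀ i, LocSU M B (D i) := fun i e he hx => hM e (StabD.of_fix fun k v hv => by
    by_cases hk : k = i
    · have := isom_mapsTo_perp he.1 (W := perp B (D i)) fun x hx' => by rwa [hx x hx']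
      rw [h.perp_perp] at this
      exact hk ▸ this v (hk ▸ hv)
    · rwa [hx v fun u hu => ho i k (Ne.symm hk) u hu v hv]) he
  have hπ : ∀ i v, ∀ w ∈ D i, B w (π i v) = B w v := fun i v w hw => by
    conv_rhs => rw [← hp.sum v, map_sum]
    rw [Finset.sum_eq_single i (fun j _ hj => ho i j hj.symm w hw _ (hp.mem j v)) (by simp)]
  have hx : ∀ i v, π i v ≠ 0 → ∃ x ∈ D i, B x x ≠ 0 ∧ B x v ≠ 0 := fun i v hv => by
    by_contra! hc
    obtain ⟨z, hz, hz0⟩ := h.exists_self_ne_zero_of_disjoint (hn i) fun h0 => by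
      have := hm i; rw [h0, finrank_bot] at this; omega
    refine hv (Submodule.disjoint_def.1 (hn i) _ (hp.mem i v) fun w hw => ?_)
    rw [hπ i v w hw]
    exact h.eq_zero_comm.1 (mem_perp_singleton.1 (le_of_norm_closed h (hn i) (A := perp B (F ∙ v))
      hz (by rintro rfl; simp at hz0)
      (fun y hy _ e => mem_perp_singleton.2 (h.eq_zero_comm.1 (hc y hy (e ▸ hz0)))) hw))
  obtain ⟨s, hs, j, k, hjk, hj, hk⟩ : ∃ s, FullU M B s ∧ ∃ j k, j ≠ k ∧ π j s ≠ 0 ∧ π k s ≠ 0 := by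
    by_contra! hc
    obtain ⟨i, v, hv, j, k, hjk, hj, hk⟩ := hp.exists_two_components (by omega) hm hns
    obtain ⟨e, he, he0, hee⟩ := h.exists_isotropic_mem (W := D i) (by rw [hm]; exact h2)
    obtain ⟨l, hl⟩ := hp.exists_ne_zero (v := g e) (by simpa)
    have k1 := fun p hp hp0 => hc (g p) (((hL i).fullU h hp hp0).conj hg hgB)
    rcases le_or_le_of_isotropic_mem h (hn i) (by rw [hm]; exact h2)
      (A := (D l).comap (g : V →ₗ[F] V)) (A' := LinearMap.ker (π l ∘ₗ (g : V →ₗ[F] V)))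
      (fun p hp' hp0 => or_iff_not_imp_right.2 fun e =>
        hp.mem_of_forall fun r hr => k1 p hp' hp0 l r hr.symm e) with h1 | h1
    · by_cases e : j = l
      · exact hk (hp.of_ne k l (e ▸ hjk.symm) _ (h1 hv))
      · exact hj (hp.of_ne j l e _ (h1 hv))
    · exact hl (h1 he)
  obtain ⟨s, hs, j, hj⟩ : ∃ s, FullU M B s ∧ ∃ j, B (π j s) (π j s) ≠ 0 := by
    by_contra! hc
    obtain ⟨x, x1, x2, x3⟩ := hx j s hj
    obtain ⟨y, y1, y2, y3⟩ := hx k s hk
    obtain ⟨u, hu, hu1⟩ := exists_norm_eq_not_fixed h.ne_id h.invol (map_one σ) one_ne_zero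
    obtain ⟨d, hd0, hd⟩ := exists_trace_zero_ne_zero h.ne_id h.invol
    have c1 : ∀ {x : V} {u : F}, B x x ≠ 0 → σ u * u = 1 → (u - 1) / B x x + σ ((u - 1) / B x x) +
        (u - 1) / B x x * σ ((u - 1) / B x x) * B x x = 0 := fun {x u} hx hu => by
      rw [map_div₀, map_sub, map_one, h.self_fixed]; field_simp; linear_combination hu
    have hu' : σ (σ u) * σ u = 1 := by rw [h.invol, mul_comm, hu]
    have xy := ho j k hjk x x1 y y1
    have yx := h.eq_zero_comm.1 xy
    have m1 : qref B x _ (c1 x2 hu) * qref B y _ (c1 y2 hu') ∈ sisom B :=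
      mem_sisom.2 ⟨mul_mem (h.qref_mem_isom _ _ _) (h.qref_mem_isom _ _ _), by
        rw [map_mul, ← Units.val_inj, Units.val_mul, det_qref, det_qref, Units.val_one]
        field_simp; linear_combination hu⟩
    have f1 : ∀ i, ∀ z ∈ D i, ∀ l, ∀ v ∈ D l, ∀ c : F, v + (c * B z v) • z ∈ D l :=
      fun i z hz l v hv c => by
        by_cases e : i = l
        · exact (D l).add_mem hv ((D l).smul_mem _ (e ▸ hz))
        · simpa [ho i l e z hz v hv] using hv
    have := hc _ (hs.move h (hs.conj (hM _ (StabD.of_fix fun l v hv =>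
      f1 j x x1 l _ (f1 k y y1 l v hv _) _) m1) m1.1) hd) j
    have e1 := hc s hs j
    have e2 := hπ j s x x1
    have e3 : B (π j s) x = B s x := by rw [← h.symm, e2, h.symm]
    have e4 := hs.1
    have x4 : B s x ≠ 0 := fun e => x3 (h.eq_zero_comm.1 e)
    have y4 : B s y ≠ 0 := fun e => y3 (h.eq_zero_comm.1 e)
    have hd' : σ d = -d := by linear_combination hd
    simp only [LinearEquiv.mul_apply, qref_apply, map_add, map_smul, hp.of_mem x1,
      hp.of_ne j k hjk y y1, smul_zero, add_zero, LinearMap.add_apply, form_smul_left, smul_eq_mul,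
      xy, e1, e2, e3, e4, map_mul, map_div₀, map_sub, h.symm, h.invol, map_one, hd', mul_zero,
      zero_add, map_zero] at this
    field_simp at this
    refine mul_ne_zero (mul_ne_zero (mul_ne_zero (mul_ne_zero (mul_ne_zero hd0 (mul_ne_zero x2 y2))
      (mul_ne_zero x3 x4)) (mul_ne_zero y3 y4)) (sub_ne_zero.2 hu1)) (b := u + σ u - 2)
      (fun e => hu1 ?_) ?_
    · have : (u - 1) ^ 2 = 0 := by linear_combination u * e - hu
      rw [sub_eq_zero.1 (pow_eq_zero_iff two_ne_zero |>.1 this), map_one]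
    · linear_combination this - B x s * B s x * B y y * B x x * B y y * hu
  have hz : s - π j s ∈ perp B (D j) := fun w hw => by rw [map_sub, hπ j s w hw, sub_self]
  have hv := hp.mem j s
  have hzj : π j (s - π j s) = 0 := by simp [hp.proj_proj]
  generalize π j s = v at hj hz hv hzj
  obtain ⟨z, rfl⟩ : ∃ z, s = v + z := ⟨s - v, by abel⟩
  rw [add_sub_cancel_left] at hz hzj
  have o1 : ∀ x ∈ D j, B x z = 0 := hz
  have o2 : ∀ x ∈ D j, B z x = 0 := fun x hx => h.eq_zero_comm.1 (hz x hx)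
  have hzz : B z z = -B v v := by
    have := hs.1
    simp only [map_add, LinearMap.add_apply, o1 v hv, o2 v hv] at this
    linear_combination this
  have hz0 : B z z ≠ 0 := by simpa [hzz] using hj
  have hzD : z ∉ D j := fun e => hz0 (o1 z e)
  have hW : Disjoint (D j ⊔ F ∙ z) (perp B (D j ⊔ F ∙ z)) := Submodule.disjoint_def.2 fun w hw hw' => by
    obtain ⟨x, hx, _, hy, rfl⟩ := Submodule.mem_sup.1 hw
    obtain ⟨a, rfl⟩ := Submodule.mem_span_singleton.1 hy
    have := hw' z (Submodule.mem_sup_right (Submodule.mem_span_singleton_self z))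
    obtain rfl : a = 0 := by simpa [o2 x hx, hz0] using this
    simpa using Submodule.disjoint_def.1 (hn j) x hx (by simpa using perp_anti le_sup_left hw')
  have hd : finrank F (D j ⊔ F ∙ z : Submodule F V) = m + 1 := by
    rw [Submodule.finrank_sup_span_singleton hzD, hm]
  have hG : GoodU M B (D j ⊔ F ∙ z) := ⟨hW, by omega, locSU_of_forall_fullU h hW
    (hq.imp_left (by omega)) fun p hp hp0 => by
      obtain ⟨x, hx, _, hy, rfl⟩ := Submodule.mem_sup.1 hp
      obtain ⟨a, rfl⟩ := Submodule.mem_span_singleton.1 hy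
      by_cases ha : a = 0
      · simp only [ha, zero_smul, add_zero] at hp0 ⊢
        exact (hL j).fullU h hx hp0
      obtain ⟨e, he, e1, e2⟩ := exists_sisom_map_aniso h (hn j) (by rw [hm]; exact h2)
        ((D j).smul_mem a hv) hx (by simp [ha, hj]) (by
          simp [o1 x hx, o2 x hx, hzz] at hp0 ⊢; linear_combination -hp0)
      have := (hs.smul h a).conj (hL j e he e2) he.1
      rwa [smul_add, map_add, e1, map_smul, e2 z hz] at this⟩
  have hA := hG.le_uSub h
  have hj' : D j ≤ uSub M B (D j ⊔ F ∙ z) := le_sup_left.trans hA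
  obtain ⟨k, hk⟩ := hp.exists_ne_zero (v := z) (by rintro rfl; simp at hz0)
  have hjk : j ≠ k := by rintro rfl; exact hk hzj
  have hk' : D k ≤ uSub M B (D j ⊔ F ∙ z) := by
    refine (le_or_le_of_isotropic_mem h (hn k) (by rw [hm]; exact h2) fun p hp hp0 =>
      ((hL k).fullU h hp hp0).mem_uSub_or h _).resolve_right fun h1 => hk ?_
    refine Submodule.disjoint_def.1 (hn k) _ (hp.mem k z) fun w hw => ?_
    rw [hπ k z w hw]
    exact h.eq_zero_comm.1 (h1 hw z (hA (Submodule.mem_sup_right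
      (Submodule.mem_span_singleton_self z))))
  have hd2 : 2 * m ≤ finrank F V := by
    have h3 := Submodule.finrank_sup_add_finrank_inf_eq (D j) (D k)
    rw [show D j ⊓ D k = ⊥ from eq_bot_iff.2 fun x hx => hp.eq_zero_of_mem hjk hx.1 hx.2,
      finrank_bot, hm, hm] at h3
    have := Submodule.finrank_le (D j ⊔ D k)
    omega
  refine hG.mem_of_top h (eq_top_iff.2 fun x _ => ?_) (by omega)
  rw [← hp.sum x]
  refine Submodule.sum_mem _ fun l _ => ?_
  by_cases e1 : l = j
  · exact hj' (e1 ▸ hp.mem l x)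
  by_cases e2 : l = k
  · exact hk' (e2 ▸ hp.mem l x)
  obtain ⟨r, r1, r2⟩ := hp.exists_su_swap h hm hn ho e2 hv hj
  have r3 := hM r (IsProj.stabD_of_le hm r _ r2) r1
  rcases hG.map_eq_or h r3 r1.1 with h3 | h3
  · have := r2 l _ (hp.mem l x)
    rw [Equiv.swap_apply_left] at this
    have h4 := hk' this
    rw [← h3] at h4
    obtain ⟨y, hy, e⟩ := h4
    rwa [← r.injective e]
  · have := r2 j v hv
    rw [Equiv.swap_apply_of_ne_of_ne (Ne.symm e1) hjk] at this
    have h4 := h3 (Submodule.mem_map_of_mem (hj' hv)) _ (hj' this)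
    exact absurd ((r1.1 v v).symm.trans h4) hj

variable [Fintype F] {q n : ℕ}

theorem isMaximalIn_su_decomp (hF : Fintype.card F = q ^ 2) {t k : ℕ}
    {D : Fin t → Submodule F (Fin n → F)} (hD : IsNondegenerateMDecomposition (hermForm n F q) k D)
    (h1 : k = 1 → 6 ≤ n ∧ (7 ≤ n ∨ q ≠ 2)) (h2 : k = 2 → q ≠ 2) :
    IsMaximalIn (GU n F q ⊓ specialLinear (Fin n) F)
      (decompositionStabilizer D ⊓ (GU n F q ⊓ specialLinear (Fin n) F)) := by
  have h := isHerm_uForm hF n
  obtain ⟨π, hp⟩ := exists_isProj hD.decomp.indep hD.decomp.iSup_eq_top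
  have hk := hD.decomp.finrank_eq
  have hk0 := hD.decomp.pos
  have hn := fun i => disjoint_perp_of_nondegOn hF (hD.nondegenerate i)
  have ho : ∀ i j, i ≠ j → ∀ u ∈ D i, ∀ v ∈ D j, uForm hF n u v = 0 := fun i j hij u hu v hv => by
    rw [← hermForm_eq]; exact hD.orthogonal j i hij.symm v hv u hu
  obtain ⟨d, hd0, hd⟩ := exists_trace_zero_ne_zero h.ne_id h.invol
  by_cases hk1 : k = 1
  · choose v hv hv0 using fun i => h.exists_self_ne_zero_of_disjoint (hn i) fun h0 => by
      have := hk i; rw [h0, finrank_bot] at this; omega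
    choose a ha using fun i => h.exists_smul_norm_eq (hv0 i) (map_one _)
    have hw := fun i => (D i).smul_mem (a i) (hv i)
    have hw0 : ∀ i, a i • v i ≠ 0 := fun i e => by simpa [e] using ha i
    have hD' : ∀ i, F ∙ a i • v i = D i := fun i => Submodule.eq_of_le_of_finrank_eq
      (by simpa using hw i) (by rw [finrank_span_singleton (hw0 i), hk, hk1])
    obtain ⟨b, hb, rfl⟩ : ∃ b, IsON (uForm hF n) b ∧ lines b = D :=
      ⟨Basis.mk (hD.decomp.indep.linearIndependent _ hw hw0) (by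
        rw [Submodule.span_range_eq_iSup, ← hD.decomp.iSup_eq_top]; simp [hD']),
      ⟨h, fun i j => by
        rw [Basis.mk_apply, Basis.mk_apply]
        split_ifs with e
        · rw [← e, ha]
        · exact ho i j e _ (hw i) _ (hw j)⟩, funext fun i => by rw [lines, Basis.mk_apply, hD']⟩
    have ht : n = Fintype.card (Fin t) := by simpa using finrank_eq_card_basis b
    have h6 := (h1 hk1).1
    refine isMaximalIn_of_toLE (StabD (lines b)) (· ∈ sisom (uForm hF n)) (mem_su_iff hF)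
      (fun g => and_congr (mem_decompositionStabilizer_iff _ g) (mem_su_iff hF g)) ?_
      fun M hM hle g hg hns => hb.su_mono_maximal (by omega) hM
        ((h1 hk1).2.imp (by omega) (exists_fixed_ne_zero_one hF)) hle hg hns
    obtain ⟨i, -⟩ := exists_list (ι := Fin t) [] (by rw [← ht]; simp; omega)
    obtain ⟨j, hj⟩ := exists_list [i] (by rw [← ht]; simp; omega)
    obtain ⟨l, hl⟩ := exists_list [i, j] (by rw [← ht]; simp; omega)
    obtain ⟨m, hm⟩ := exists_list [i, j, l] (by rw [← ht]; simp; omega)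
    simp only [List.mem_cons, List.not_mem_nil, or_false, not_or] at hj hl hm
    obtain ⟨c, hc⟩ := exists_norm_eq' h.ne_id h.invol (μ := -1) (by simp)
    have hc0 : c ≠ 0 := by rintro rfl; simp at hc
    have hp0 : uForm hF n (b i + b j + c • b l + c • b m) (b i + b j + c • b l + c • b m) = 0 := by
      simp [hb.on, hj, hl, hm, Ne.symm hj, Ne.symm hl.1, Ne.symm hl.2, Ne.symm hm.1, Ne.symm hm.2.1,
        Ne.symm hm.2.2]
      linear_combination 2 * hc
    obtain ⟨e, he, hex⟩ := h.exists_transv hp0 hd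
    refine ⟨e, axisGrp_le_sisom hp0 he, (lines_proj b).not_stabD (self_mem_lines b i)
      (Ne.symm hl.2) ?_ ?_⟩ <;>
    simp [hex, hb.on, hj, hl, hm, Ne.symm hl.2, Ne.symm hm.2.1, Ne.symm hm.2.2, hd0, hc0, b.ne_zero]
  refine isMaximalIn_of_toLE (StabD D) (· ∈ sisom (uForm hF n)) (mem_su_iff hF)
    (fun g => and_congr (mem_decompositionStabilizer_iff D g) (mem_su_iff hF g)) ?_
    fun M hM hle g hg hns => su_decomp_maximal h hp (by omega) hk hn ho
      (or_iff_not_imp_left.2 fun e => exists_fixed_ne_zero_one hF (h2 (not_not.1 e))) hM hg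
      (hle g hg).1 hns
  have ht := hD.decomp.two_le
  have hij : (⟨0, by omega⟩ : Fin t) ≠ ⟨1, by omega⟩ := by simp
  generalize (⟨0, _⟩ : Fin t) = i, (⟨1, _⟩ : Fin t) = j at hij
  obtain ⟨x, x1, f, f1, xx, -, xf⟩ := exists_hyp_mem h (hn i) (by rw [hk]; omega)
  obtain ⟨y, y1, y2, yy⟩ := h.exists_isotropic_mem (W := D j) (by rw [hk]; omega)
  have hp0 : uForm hF n (x + y) (x + y) = 0 := by
    simp [xx, yy, ho i j hij x x1 y y1, ho j i hij.symm y y1 x x1]
  obtain ⟨e, he, hex⟩ := h.exists_transv hp0 hd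
  refine ⟨e, axisGrp_le_sisom hp0 he, hp.not_stabD f1 hij (fun h0 => ?_) ?_⟩
  · simpa [hex, hp.of_mem x1, hp.of_mem f1, hp.of_ne i j hij y y1, xx, xf] using
      congrArg (uForm hF n x) h0
  · simp [hex, hp.of_mem y1, hp.of_ne j i hij.symm x x1, hp.of_ne j i hij.symm f f1, xf, y2, hd0,
      ho j i hij.symm y y1 f f1]

end H62
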