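import Cfsg.Agent.H62.URatMax
import Cfsg.Agent.H62.SpPair

set_option autoImplicit false

/-! Matrix versions: subfield subgroups of `SU_n(q)`. -/

namespace H62

open Module H59 Matrix Cfsg Cfsg.Geo

section

variable {F₀ F V₀ V : Type*} [Field F₀] [Field F] [Algebra F₀ F] [AddCommGroup V₀] [Module F₀ V₀]
  [AddCommGroup V] [Module F V] [Module F₀ V] [IsScalarTower F₀ F V] {j : V₀ →ₗ[F₀] V}
  {σ : F →+* F} {B : V →ₛₗ[σ] V →ₗ[F] F} [FiniteDimensional F₀ V₀] [Finite F₀]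

theorem URat.exists_not_subf {M : Subgroup (V ≃ₗ[F] V)} (h : URat j B M) {c : F}
    (hc : c ∉ ratF F₀ F) (hc' : c + σ c = 0) : ∃ e ∈ sisom B, e ∉ subf F j := by
  have := rat_finite h.bc
  obtain ⟨_, ⟨w, rfl⟩, hw0, -, hww⟩ := h.ex_of h.iso (p := fun z => B z z = 0) [] (by simp) ⊥
    (by simp)
  obtain ⟨_, ⟨v, rfl⟩, -, -, hv⟩ := h.exists_partner ⟨w, rfl⟩ hww (by simpa using hw0)
  obtain ⟨e, he, hx⟩ := h.herm.exists_transv hww hc'
  exact ⟨e, axisGrp_le_sisom hww he, tv_not_mem_subf h.bc (w := w) (x := v)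
    (by rintro rfl; simp at hw0) (by simp [hx, hww]) hc (by simp [hx, hv])⟩

omit [Finite F₀] in
theorem exists_not_subf_alt (h : IsBaseChange F j) (H : IsHerm B) {θ : F} (hθ : θ ∉ ratF F₀ F)
    {ζ : F} (hζ0 : ζ ≠ 0) (rat : ∀ x y, ζ * B (j x) (j y) ∈ ratF F₀ F)
    (alt : ∀ x, B (j x) (j x) = 0) (h3 : 3 ≤ finrank F₀ V₀) : ∃ e ∈ sisom B, e ∉ subf F j := by
  have := rat_finite h
  obtain ⟨x, -, hx⟩ := exists_mem_notMem (F := F₀) (V := V₀) (W := ⊤) (Z := ⊥) (by simp; omega)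
  have hx : x ≠ 0 := by simpa using hx
  obtain ⟨φ, hφ⟩ := exists_dual_of_rat (j := j) (φ := ζ • B (j x)) (rat x)
  obtain ⟨y, -, hy, p⟩ := exists_mem_notMem_ker [φ] (W := ⊤) (Z := F₀ ∙ x) (by
    have := finrank_span_one_le (F := F₀) x
    simp; omega)
  have p1 : B (j x) (j y) = 0 := by simpa [p φ, hζ0] using (hφ y).symm
  have p2 := H.eq_zero_comm.1 p1
  obtain ⟨a, a1, a0⟩ := exists_dual_pair hy
  obtain ⟨b, b1, b0⟩ := exists_dual_pair (notMem_span_symm hx hy)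
  have hu : B (j x + θ • j y) (j x + θ • j y) = 0 := by simp [alt, p1, p2]
  obtain ⟨d, hd0, hd⟩ := exists_trace_zero_ne_zero H.ne_id H.invol
  obtain ⟨e, he, hex⟩ := H.exists_transv hu hd
  refine ⟨e, axisGrp_le_sisom hu he, fun hs => hθ ?_⟩
  obtain ⟨z, hz⟩ := rat_dual_ne h (φ := B (j x + θ • j y)) fun h0 => by
    simpa [h.toDual_comp_apply, b1, b0] using
      congrArg (h.toDual b) (H.nondeg _ (LinearMap.congr_fun h0))
  have h1 := subf_apply_mem h hs hx one_ne_zero (by simp [hex, alt, p2]) z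
  rw [one_smul, hex, Submodule.add_mem_iff_right _ (LinearMap.mem_range_self j z)] at h1
  have h2 := toDual_mem h a h1
  have h3 := toDual_mem h b h1
  simp only [map_smul, map_add (h.toDual _), h.toDual_comp_apply, a0, a1, b0, b1, map_zero, map_one,
    smul_eq_mul, mul_zero, mul_one, add_zero, zero_add] at h2 h3
  exact mul_div_cancel_left₀ θ (mul_ne_zero hd0 hz) ▸ div_mem h2 h3

end

variable {F : Type*} [Field F] [Fintype F] {q n : ℕ} (hF : Fintype.card F = q ^ 2) (F₀ : Subfield F)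

theorem mem_ratF_iff {c : F} : c ∈ ratF F₀ F ↔ c ∈ F₀ :=
  ⟨by rintro ⟨a, rfl⟩; exact a.2, fun h => ⟨⟨c, h⟩, rfl⟩⟩

theorem frob_eq_of_card (hcard : Fintype.card F = Nat.card F₀ ^ 2) :
    ∀ c ∈ ratF F₀ F, frob hF c = c := by
  classical
  rintro _ ⟨a, rfl⟩
  rw [frob_apply, Nat.pow_left_injective two_ne_zero (hF.symm.trans hcard), ← map_pow,
    Nat.card_eq_fintype_card, FiniteField.pow_card]

theorem exists_frob_ne {r : ℕ} (hr : Odd r) (hcard : Fintype.card F = Nat.card F₀ ^ r) :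
    ∃ c ∈ ratF F₀ F, frob hF c ≠ c := by
  by_contra! hc
  let e : F ≃ₐ[F₀] F := AlgEquiv.ofRingEquiv
    (f := RingEquiv.ofBijective (frob hF) (conj_bijective (frob_frob hF))) fun a => hc _ (alg_mem a)
  have h2 : orderOf e = 2 := orderOf_eq_prime (AlgEquiv.ext fun a => frob_frob hF a)
    fun h0 => frob_ne_id hF (RingHom.ext (AlgEquiv.congr_fun h0))
  have := orderOf_dvd_natCard e
  rw [h2, IsGalois.card_aut_eq_finrank, finrank_eq_of_card hcard] at this
  exact Nat.not_even_iff_odd.2 hr (even_iff_two_dvd.2 this)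

variable {F₀} in
theorem rat_of_isFormRat {P : GL (Fin n) F} {ζ : F}
    (hP : IsFormRationalStructure (hermForm n F q) F₀ ζ P) (x y : Fin n → F₀) :
    ζ * uForm hF n (ratL F₀ P x) (ratL F₀ P y) ∈ ratF F₀ F := by
  simpa only [ratL_apply, hermForm_eq hF, mem_ratF_iff] using
    hP _ _ (fun i => (y i).2) fun i => (x i).2

include hF

theorem isMaximalIn_su_subfield (h6 : 6 ≤ n) {r : ℕ} (hr : r.Prime) (hro : Odd r)
    (hcard : Fintype.card F = Nat.card F₀ ^ r) (P : GL (Fin n) F)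
    (hP : IsFormRationalStructure (hermForm n F q) F₀ 1 P) :
    IsMaximalIn (GU n F q ⊓ specialLinear (Fin n) F)
      (subfieldSubgroup F₀ P ⊓ (GU n F q ⊓ specialLinear (Fin n) F)) := by
  have h := ratL_isBaseChange F₀ P
  have hf := finrank_eq_of_card hcard
  have H := isHerm_uForm hF n
  obtain ⟨ω, hω, hω'⟩ := exists_frob_ne hF F₀ hro hcard
  have hd : ω - frob hF ω ≠ 0 := sub_ne_zero.2 hω'.symm
  have sig : ∀ c ∈ ratF F₀ F, frob hF c ∈ ratF F₀ F := fun c hc => pow_mem hc q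
  have hd' := sub_mem hω (sig _ hω)
  have rat : ∀ x ∈ LinearMap.range (ratL F₀ P), ∀ y ∈ LinearMap.range (ratL F₀ P),
      uForm hF n x y ∈ ratF F₀ F := by
    rintro _ ⟨x, rfl⟩ _ ⟨y, rfl⟩; simpa using rat_of_isFormRat hF hP x y
  have U : ∀ M, (∀ e ∈ subf F (ratL F₀ P), e ∈ sisom (uForm hF n) → e ∈ M) →
      URat (ratL F₀ P) (uForm hF n) M := fun M hM =>
    ⟨h, H, sig, rat, fun c hc hc' => ⟨c * ω / (ω - frob hF ω), div_mem (mul_mem hc hω) hd', by
      have : frob hF ω - ω ≠ 0 := sub_ne_zero.2 hω'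
      simp only [map_div₀, map_mul, map_sub, H.invol, hc']; field_simp; ring⟩,
      fun W hW => exists_iso_herm h H sig rat hω hω' W (by omega), hM, by simpa⟩
  refine isMaximalIn_of_toLE (· ∈ subf F (ratL F₀ P)) (· ∈ sisom (uForm hF n)) (mem_su_iff hF)
    (fun g => and_congr (mem_subfieldSubgroup_iff F₀ P g) (mem_su_iff hF g)) ?_
    fun M hM hMB g hg hns => (U M hM).herm_maximal (hf ▸ hr) hω hω' hMB hg hns
  obtain ⟨s, hs⟩ := exists_not_mem_ratF (F₀ := F₀) (F := F) (hf ▸ hr.one_lt)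
  obtain ⟨t, ht⟩ : ∃ t, t - frob hF t ∉ ratF F₀ F := by
    by_contra! hc
    refine hs ?_
    convert div_mem (sub_mem (hc (s * ω)) (mul_mem (hc s) (sig _ hω))) hd' using 1
    rw [map_mul]; field_simp; ring
  exact (U ⊤ (by simp)).exists_not_subf ht (by simp [H.invol])

theorem isMaximalIn_su_orth (h6 : 6 ≤ n) (hodd : Odd q)
    (hcard : Fintype.card F = Nat.card F₀ ^ 2) (P : GL (Fin n) F)
    (hP : IsFormRationalStructure (hermForm n F q) F₀ 1 P) :
    IsMaximalIn (GU n F q ⊓ specialLinear (Fin n) F)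
      (subfieldSubgroup F₀ P ⊓ (GU n F q ⊓ specialLinear (Fin n) F)) := by
  have h := ratL_isBaseChange F₀ P
  have hf := finrank_eq_of_card hcard
  have H := isHerm_uForm hF n
  have hσ := frob_eq_of_card hF F₀ hcard
  have h2 : (2 : F) ≠ 0 := two_ne_zero_of_odd (hF ▸ hodd.pow)
  have rat : ∀ x ∈ LinearMap.range (ratL F₀ P), ∀ y ∈ LinearMap.range (ratL F₀ P),
      uForm hF n x y ∈ ratF F₀ F := by
    rintro _ ⟨x, rfl⟩ _ ⟨y, rfl⟩; simpa using rat_of_isFormRat hF hP x y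
  have U : ∀ M, (∀ e ∈ subf F (ratL F₀ P), e ∈ sisom (uForm hF n) → e ∈ M) →
      URat (ratL F₀ P) (uForm hF n) M := fun M hM =>
    ⟨h, H, fun c hc => pow_mem hc q, rat, fun c hc hc' => ⟨c / 2, div_mem hc (ofNat_mem _ 2), by
      rw [map_div₀, hc', map_ofNat]; field_simp; ring⟩, exists_iso_orth hσ rat, hM, by simpa⟩
  refine isMaximalIn_of_toLE (· ∈ subf F (ratL F₀ P)) (· ∈ sisom (uForm hF n)) (mem_su_iff hF)
    (fun g => and_congr (mem_subfieldSubgroup_iff F₀ P g) (mem_su_iff hF g)) ?_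
    fun M hM hMB g hg hns => (U M hM).orth_maximal hf hMB hg hns
  obtain ⟨d, hd0, hd⟩ := exists_trace_zero_ne_zero H.ne_id H.invol
  exact (U ⊤ (by simp)).exists_not_subf (fun h0 => mul_ne_zero h2 hd0 (by
    rw [hσ d h0] at hd; linear_combination hd)) hd

theorem isMaximalIn_su_sp (h4 : 4 ≤ n) (hcard : Fintype.card F = Nat.card F₀ ^ 2) {ζ : F}
    (hζ0 : ζ ≠ 0) (hζ : ζ + ζ ^ q = 0) (P : GL (Fin n) F)
    (hP : IsFormRationalStructure (hermForm n F q) F₀ ζ P)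
    (halt : ∀ u : Fin n → F, (∀ i, u i ∈ F₀) → hermForm n F q
      ((P : Matrix (Fin n) (Fin n) F) *ᵥ u) ((P : Matrix (Fin n) (Fin n) F) *ᵥ u) = 0) :
    IsMaximalIn (GU n F q ⊓ specialLinear (Fin n) F)
      (subfieldSubgroup F₀ P ⊓ (GU n F q ⊓ specialLinear (Fin n) F)) := by
  have h := ratL_isBaseChange F₀ P
  have hf := finrank_eq_of_card hcard
  have H := isHerm_uForm hF n
  have alt : ∀ x, uForm hF n (ratL F₀ P x) (ratL F₀ P x) = 0 := fun x => by
    simpa only [ratL_apply, hermForm_eq hF] using halt _ fun i => (x i).2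
  obtain ⟨θ, hθ⟩ := exists_not_mem_ratF (F₀ := F₀) (F := F) (by omega)
  exact isMaximalIn_of_toLE (· ∈ subf F (ratL F₀ P)) (· ∈ sisom (uForm hF n)) (mem_su_iff hF)
    (fun g => and_congr (mem_subfieldSubgroup_iff F₀ P g) (mem_su_iff hF g))
    (exists_not_subf_alt h H hθ hζ0 (rat_of_isFormRat hF hP) alt (by simp; omega))
    fun M hM hMB g hg hns => su_sp_maximal h H hf (frob_eq_of_card hF F₀ hcard) hζ0 hζ
      (rat_of_isFormRat hF hP) alt (by simp; omega) hM hMB hg hns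

end H62
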