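import Cfsg.Agent.H62.GUInSp

set_option autoImplicit false
set_option linter.unusedSectionVars false

/-! Subspaces of full transvection centres in odd characteristic; non-singular vectors of a
symmetric form avoid two proper subspaces. -/

namespace H62

open Module

variable {F V : Type*} [Field F] [AddCommGroup V] [Module F V] [FiniteDimensional F V]
  {B : LinearMap.BilinForm F V} {M : Subgroup (V ≃ₗ[F] V)}

theorem hasRho_of_full (hA : B.IsAlt) (h2 : (2 : F) ≠ 0) {r p : V} (hrp : B r p = 0)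
    (h1 : FullSp M B (r + p)) (h3 : FullSp M B (r - p)) (c : F) : HasRho M B r (c • p) := by
  obtain ⟨s, hs, hsx⟩ := h1 (c / 2)
  obtain ⟨t, ht, htx⟩ := h3 (-(c / 2))
  refine ⟨s * t, M.mul_mem hs ht, fun x => ?_⟩
  rw [LinearEquiv.mul_apply, hsx, htx]
  simp only [map_add, map_sub, map_smul, LinearMap.add_apply, LinearMap.sub_apply,
    LinearMap.smul_apply, hA.self_eq_zero, hrp, alt_swap hA p r, smul_eq_mul]
  match_scalars <;> field_simp <;> ring

theorem FullSp.add_of_link (hA : B.IsAlt) (h2 : (2 : F) ≠ 0) {u v w : V} (hu : FullSp M B u)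
    (hv : FullSp M B v) (hw : FullSp M B w) (huw : B u w ≠ 0) (hvw : B v w ≠ 0) :
    FullSp M B (u + v) := by
  by_cases huv : B u v = 0
  swap
  · exact hu.add hA hv huv
  have hvu : B v u = 0 := by rw [alt_swap hA, huv, neg_zero]
  have k1 : ∀ {u w : V}, FullSp M B u → FullSp M B w → B v u = 0 → B u w ≠ 0 → B v w ≠ 0 →
      FullSp M B (u + v + w) := fun {u w} hu hw hvu huw hvw => by
    have := (hv.add hA hw hvw).add hA hu (by simpa [hvu, alt_swap hA w u] using huw)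
    convert this using 1; abel
  have k2 : ∀ {u : V}, FullSp M B u → B v u = 0 → B u w ≠ 0 → B u w + B v w ≠ 0 →
      FullSp M B (u + v) := fun {u} hu hvu huw h => by
    simpa using (k1 hu hw hvu huw hvw).sub hA hw (by simpa [hA.self_eq_zero] using h)
  by_cases h : B u w + B v w = 0
  swap
  · exact k2 hu hvu huw h
  have h3 := hasRho_of_full hA h2 (r := u + v) (p := w) (by simpa using h) (k1 hu hw hvu huw hvw)
    (by simpa [sub_eq_add_neg] using k1 hu hw.neg hvu (by simpa using huw) (by simpa using hvw)) 1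
  have h4 := hasRho_of_full hA h2 (r := u + v) (p := u) (by simp [hA.self_eq_zero, hvu])
    (by
      have := k2 (hu.smul 2) (by simp [hvu]) (by simpa [h2] using huw) (by
        simp only [map_smul, LinearMap.smul_apply, smul_eq_mul]
        intro h5
        exact huw (by linear_combination h5 - h))
      convert this using 1; module) (by simpa using hv)
  intro c
  have h5 := HasRho.comm hA (a := u + v)
    (by simp [hA.self_eq_zero, huv]) (by rw [alt_swap hA, one_smul, map_add, LinearMap.add_apply, h, neg_zero])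
    (h4 (-c / (2 * B u w))) h3
  convert h5 using 1
  simp only [map_smul, LinearMap.smul_apply, smul_eq_mul]
  field_simp

theorem full_sup (hA : B.IsAlt) (h2 : (2 : F) ≠ 0) {A : Submodule F V}
    (hF : ∀ a ∈ A, FullSp M B a) {v a₀ : V} (hv : FullSp M B v) (ha₀ : a₀ ∈ A)
    (h0 : B a₀ v ≠ 0) : ∀ x ∈ A ⊔ F ∙ v, FullSp M B x := by
  have key : ∀ a ∈ A, FullSp M B (a + v) := by
    intro a ha
    by_cases h1 : ∃ w ∈ A, B a w ≠ 0
    · obtain ⟨w, hw, h3, h4⟩ := exists_mem_ne_zero_pair (φ := B a) (ψ := B v) h1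
        ⟨a₀, ha₀, by rwa [alt_swap hA, neg_ne_zero]⟩
      exact (hF a ha).add_of_link hA h2 hv (hF w hw) h3 h4
    · push Not at h1
      by_cases h3 : B a v = 0
      · have := (hF _ (A.add_mem ha ha₀)).add hA (hv.sub hA (hF a₀ ha₀)
          (by rwa [alt_swap hA, neg_ne_zero])) (by simpa [h3, h1 a₀ ha₀, hA.self_eq_zero] using h0)
        convert this using 1; abel
      · exact (hF a ha).add hA hv h3
  intro x hx
  obtain ⟨a, ha, _, hc, rfl⟩ := Submodule.mem_sup.1 hx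
  obtain ⟨c, rfl⟩ := Submodule.mem_span_singleton.1 hc
  by_cases hc0 : c = 0
  · simpa [hc0] using hF a ha
  · have := (key _ (A.smul_mem c⁻¹ ha)).smul c
    rwa [smul_add, smul_smul, mul_inv_cancel₀ hc0, one_smul] at this

/-- A maximal subspace of full centres. -/
theorem exists_max_full (hA : B.IsAlt) (h2 : (2 : F) ≠ 0) {a₀ : V} (h : FullSp M B a₀) :
    ∃ A : Submodule F V, a₀ ∈ A ∧ (∀ a ∈ A, FullSp M B a) ∧
      ∀ v, FullSp M B v → ∀ a ∈ A, B a v ≠ 0 → v ∈ A := by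
  obtain ⟨A, ⟨h1, h3⟩, h4⟩ := (InvImage.wf (fun A : Submodule F V => finrank F V - finrank F A)
    Nat.lt_wfRel.wf).has_min {A | a₀ ∈ A ∧ ∀ a ∈ A, FullSp M B a}
    ⟨F ∙ a₀, Submodule.mem_span_singleton_self _, fun a ha => by
      obtain ⟨c, rfl⟩ := Submodule.mem_span_singleton.1 ha
      exact h.smul c⟩
  refine ⟨A, h1, h3, fun v hv a ha hav => by_contra fun hn => ?_⟩
  have h5 : ¬ _ < _ := h4 (A ⊔ F ∙ v) ⟨Submodule.mem_sup_left h1, full_sup hA h2 h3 hv ha hav⟩
  have h6 := Submodule.finrank_le (A ⊔ F ∙ v)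
  simp only [Submodule.finrank_sup_span_singleton hn] at h5 h6
  omega

theorem polar_zero (h2 : (2 : F) ≠ 0) (hs : ∀ x y, B x y = B y x) {x y : V} (hx : B x x = 0)
    (hy : B y y = 0) (hxy : B (x + y) (x + y) = 0) : B x y = 0 := by
  simp only [map_add, LinearMap.add_apply, hx, hy, hs y x] at hxy
  exact mul_left_cancel₀ h2 (by linear_combination hxy)

theorem exists_ns_third (h2 : (2 : F) ≠ 0) (hs : ∀ x y, B x y = B y x) {U : Submodule F V}
    (hU : ∀ x ∈ U, (∀ y ∈ U, B x y = 0) → x = 0) (h3 : 3 ≤ finrank F U) {a b : V} (ha : a ∈ U)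
    (hb : b ∈ U) (haa : B a a ≠ 0) (hbb : B b b ≠ 0) (hab : B a b = 0) :
    ∃ c ∈ U, B c c ≠ 0 ∧ B a c = 0 ∧ B b c = 0 := by
  by_contra hc
  push Not at hc
  have hz : ∀ c ∈ U, B a c = 0 → B b c = 0 → B c c = 0 := fun c h1 h4 h5 =>
    by_contra fun h6 => hc c h1 h6 h4 h5
  obtain ⟨x, hx, hx0, hx'⟩ := exists_mem_notMem_ker [B a, B b] (W := U) (Z := ⊥) (by simp; omega)
  have hax := hx' (B a) (by simp)
  have hbx := hx' (B b) (by simp)
  refine hx0 (hU x hx fun y hy => ?_)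
  set y' := y - (B a y / B a a) • a - (B b y / B b b) • b with hy'
  have h1 : B a y' = 0 := by simp [hy', hab, haa]
  have h4 : B b y' = 0 := by simp [hy', hs b a, hab, hbb]
  have h5 : y' ∈ U := U.sub_mem (U.sub_mem hy (U.smul_mem _ ha)) (U.smul_mem _ hb)
  have h6 := polar_zero h2 hs (hz x hx hax hbx) (hz y' h5 h1 h4)
    (hz _ (U.add_mem hx h5) (by simp [hax, h1]) (by simp [hbx, h4]))
  simpa [hy', hs x a, hs x b, hax, hbx] using h6

theorem exists_ns_of_nondeg (h2 : (2 : F) ≠ 0) (hs : ∀ x y, B x y = B y x) {U : Submodule F V}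
    (hU : ∀ x ∈ U, (∀ y ∈ U, B x y = 0) → x = 0) (h0 : U ≠ ⊥) : ∃ a ∈ U, B a a ≠ 0 := by
  by_contra hc
  push Not at hc
  exact h0 (eq_bot_iff.2 fun x hx => hU x hx fun y hy =>
    polar_zero h2 hs (hc x hx) (hc y hy) (hc _ (U.add_mem hx hy)))

/-- The non-singular vectors of a non-degenerate space of dimension at least `3` are not covered by
two proper subspaces. -/
theorem exists_ns_avoid (h2 : (2 : F) ≠ 0) (hs : ∀ x y, B x y = B y x) {U : Submodule F V}
    (hU : ∀ x ∈ U, (∀ y ∈ U, B x y = 0) → x = 0) (h3 : 3 ≤ finrank F U) {J₁ J₂ : Submodule F V}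
    (h1 : ¬ U ≤ J₁) (h1' : ¬ U ≤ J₂) : ∃ c ∈ U, c ∉ J₁ ∧ c ∉ J₂ ∧ B c c ≠ 0 := by
  obtain ⟨a₀, ha₀, ha₀'⟩ := exists_ns_of_nondeg h2 hs hU (by rintro rfl; simp at h3)
  obtain ⟨b, hb, hb1, hbb⟩ := exists_ns_notMem h2 hs ha₀ ha₀' h1
  obtain ⟨a, ha, ha2, haa⟩ := exists_ns_notMem h2 hs ha₀ ha₀' h1'
  by_contra hc
  push Not at hc
  have main : ∀ {J₁ J₂ : Submodule F V}, (∀ c ∈ U, c ∉ J₁ → c ∉ J₂ → B c c = 0) →
      ∀ {a b : V}, a ∈ U → b ∈ U → a ∈ J₁ → a ∉ J₂ → b ∈ J₂ → b ∉ J₁ →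
        B a b = 0 ∧ B a a + B b b = 0 := by
    intro J₁ J₂ hc a b ha hb ha1 ha2 hb2 hb1
    have h4 := hc (a + b) (U.add_mem ha hb) (fun h => hb1 (by simpa using J₁.sub_mem h ha1))
      fun h => ha2 (by simpa using J₂.sub_mem h hb2)
    have h5 := hc (a - b) (U.sub_mem ha hb) (fun h => hb1 (by simpa using J₁.sub_mem ha1 h))
      fun h => ha2 (by simpa using J₂.add_mem h hb2)
    simp only [map_add, map_sub, LinearMap.add_apply, LinearMap.sub_apply, hs b a] at h4 h5
    exact ⟨mul_left_cancel₀ (mul_ne_zero h2 h2) (by linear_combination h4 - h5),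
      mul_left_cancel₀ h2 (by linear_combination h4 + h5)⟩
  have ha1 : a ∈ J₁ := by_contra fun h => haa (hc a ha h ha2)
  have hb2 : b ∈ J₂ := by_contra fun h => hbb (hc b hb hb1 h)
  obtain ⟨hab, hsum⟩ := main hc ha hb ha1 ha2 hb2 hb1
  obtain ⟨c, hcU, hcc, hac, hbc⟩ := exists_ns_third h2 hs hU h3 ha hb haa hbb hab
  have fin : ∀ {J₁ J₂ : Submodule F V}, (∀ c ∈ U, c ∉ J₁ → c ∉ J₂ → B c c = 0) →
      ∀ {a b : V}, a ∈ U → b ∈ U → a ∈ J₁ → a ∉ J₂ → b ∈ J₂ → b ∉ J₁ → B a a ≠ 0 →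
        B a a + B b b = 0 → B a c = 0 → c ∈ J₁ → c ∉ J₂ → False := by
    intro J₁ J₂ hc a b ha hb ha1 ha2 hb2 hb1 haa hsum hac hc1 hc2
    have h4 := (main hc hcU hb hc1 hc2 hb2 hb1).2
    by_cases h5 : a + c ∈ J₂
    · have h6 := (main hc (U.sub_mem ha hcU) hb (J₁.sub_mem ha1 hc1) (fun h => ha2 (by
        have := J₂.smul_mem (2 : F)⁻¹ (J₂.add_mem h5 h)
        rwa [show a + c + (a - c) = (2 : F) • a by module, inv_smul_smul₀ h2] at this)) hb2 hb1).2
      simp only [map_sub, LinearMap.sub_apply, hs c a, hac] at h6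
      exact haa (by linear_combination h6 - h4)
    · have h6 := (main hc (U.add_mem ha hcU) hb (J₁.add_mem ha1 hc1) h5 hb2 hb1).2
      simp only [map_add, LinearMap.add_apply, hs c a, hac] at h6
      exact haa (by linear_combination h6 - h4)
  by_cases hc1 : c ∈ J₁
  · by_cases hc2 : c ∈ J₂
    · have h4 := hc (a + b + c) (U.add_mem (U.add_mem ha hb) hcU)
        (fun h => hb1 (by simpa using J₁.sub_mem (J₁.sub_mem h hc1) ha1))
        fun h => ha2 (by simpa using J₂.sub_mem (J₂.sub_mem h hc2) hb2)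
      simp only [map_add, LinearMap.add_apply, hs b a, hs c a, hs c b, hab, hac, hbc] at h4
      exact hcc (by linear_combination h4 - hsum)
    · exact fin hc ha hb ha1 ha2 hb2 hb1 haa hsum hac hc1 hc2
  · have hc2 : c ∈ J₂ := by_contra fun h => hcc (hc c hcU hc1 h)
    exact fin (fun c h1 h4 h5 => hc c h1 h5 h4) hb ha hb2 hb1 ha1 ha2 hbb
      (by linear_combination hsum) hbc hc2 hc1

/-- A map for which every non-singular vector is an eigenvector is a scalar (dimension `≥ 3`). -/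
theorem exists_smul_of_ns3 (h2 : (2 : F) ≠ 0) (hs : ∀ x y, B x y = B y x) (hB : B.Nondegenerate)
    (hn : 3 ≤ finrank F V) (θ : V →ₗ[F] V) (h : ∀ a, B a a ≠ 0 → ∃ c : F, θ a = c • a) :
    ∃ c : F, ∀ x, θ x = c • x := by
  have hU : ∀ x ∈ (⊤ : Submodule F V), (∀ y ∈ (⊤ : Submodule F V), B x y = 0) → x = 0 :=
    fun x _ hx => hB.1 x fun y => hx y trivial
  have hne : ∀ x, B x x ≠ 0 → x ≠ 0 := by rintro x hx rfl; simp at hx
  by_contra hc
  push Not at hc
  have hk : ∀ l : F, ¬ ⊤ ≤ LinearMap.ker (θ - l • 1) := fun l hl => by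
    obtain ⟨x, hx⟩ := hc l
    exact hx (by simpa [sub_eq_zero] using hl (Submodule.mem_top (x := x)))
  have hm : ∀ {l : F} {x : V}, x ∈ LinearMap.ker (θ - l • 1) ↔ θ x = l • x := by
    simp [sub_eq_zero]
  have key : ∀ {a b : V} {l m : F}, a ≠ 0 → b ≠ 0 → θ a = l • a → θ b = m • b → l ≠ m →
      B (a + b) (a + b) = 0 := by
    intro a b l m ha hb h1 h3 hlm
    by_contra hc
    obtain ⟨k, hk⟩ := h _ hc
    have h4 : (l - k) • a = (k - m) • b := by
      rw [map_add, h1, h3] at hk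
      rw [sub_smul, sub_smul, sub_eq_sub_iff_add_eq_add, hk, smul_add, add_comm]
    have h5 := congrArg θ h4
    rw [map_smul, map_smul, h1, h3, smul_comm (k - m), ← h4, smul_smul, smul_smul] at h5
    have h6 : l - k = 0 := by
      by_contra h7
      exact hlm (mul_left_cancel₀ h7 (by rw [smul_left_injective F ha h5, mul_comm]))
    rw [h6, zero_smul, eq_comm, smul_eq_zero, or_iff_left hb] at h4
    exact hlm (by linear_combination h6 + h4)
  have key2 : ∀ {a b : V} {l m : F}, a ≠ 0 → b ≠ 0 → θ a = l • a → θ b = m • b → l ≠ m →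
      B a a + B b b = 0 := by
    intro a b l m ha hb h1 h3 hlm
    have h4 := key ha hb h1 h3 hlm
    have h5 := key ha (neg_ne_zero.2 hb) h1 (m := m) (by simp [h3]) hlm
    simp only [map_add, map_neg, LinearMap.add_apply, LinearMap.neg_apply, hs b a] at h4 h5
    exact mul_left_cancel₀ h2 (by linear_combination h4 + h5)
  obtain ⟨a, -, -, -, ha⟩ := exists_ns_avoid h2 hs hU (by simpa using hn) (hk 0) (hk 0)
  obtain ⟨l, hl⟩ := h a ha
  obtain ⟨b, -, hb1, -, hb⟩ := exists_ns_avoid h2 hs hU (by simpa using hn) (hk l) (hk l)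
  obtain ⟨m, hm'⟩ := h b hb
  obtain ⟨c, -, hc1, hc2, hcc⟩ := exists_ns_avoid h2 hs hU (by simpa using hn) (hk l) (hk m)
  obtain ⟨k, hk'⟩ := h c hcc
  have h4 := key2 (hne a ha) (hne b hb) hl hm' (by rintro rfl; exact hb1 (hm.2 hm'))
  have h5 := key2 (hne a ha) (hne c hcc) hl hk' (by rintro rfl; exact hc1 (hm.2 hk'))
  have h6 := key2 (hne b hb) (hne c hcc) hm' hk' (by rintro rfl; exact hc2 (hm.2 hk'))
  exact ha (mul_left_cancel₀ h2 (by linear_combination h4 + h5 - h6))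

/-- An endomorphism commuting with all reflections up to scalars is a scalar. -/
theorem exists_smul_of_rf (h2 : (2 : F) ≠ 0) (hs : ∀ x y, B x y = B y x) (hB : B.Nondegenerate)
    (hn : 3 ≤ finrank F V) (P : V →ₗ[F] V)
    (h : ∀ z (hz : B z z ≠ 0), ∃ c : F, ∀ w, rf B hz (P (rf B hz w)) = P w + c • w) :
    ∃ c : F, ∀ x, P x = c • x := by
  refine exists_smul_of_ns3 h2 hs hB hn P fun z hz => ?_
  obtain ⟨c, hc⟩ := h z hz
  obtain ⟨w, -, hw0, hw⟩ := exists_mem_notMem_ker [B.flip z, B.flip z ∘ₗ P] (W := ⊤) (Z := ⊥)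
    (by simp; omega)
  have h1 := hc w
  rw [rf_of_perp hz (hw (B.flip z) (by simp)), rf_of_perp hz (hw (B.flip z ∘ₗ P) (by simp)),
    left_eq_add, smul_eq_zero, or_iff_left (by simpa using hw0)] at h1
  have h3 := hc z
  rw [h1, zero_smul, add_zero, rf_self, map_neg, map_neg, rf_apply] at h3
  refine ⟨B (P z) z / B z z, smul_right_injective V h2 ?_⟩
  simp only [smul_smul]
  rw [← mul_div_assoc]
  linear_combination (norm := module) -h3

theorem sp_trans (hB : B.Nondegenerate) (hA : B.IsAlt) {e e' : V} (he : e ≠ 0) (he' : e' ≠ 0) :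
    ∃ g : V ≃ₗ[F] V, (∀ u v, B (g u) (g v) = B u v) ∧ g e = e' := by
  obtain ⟨g, hg, hi⟩ := sp_witt_family hB hA ![e] ![e']
    (by simpa using he) (by simpa using he') (by
      intro i j
      fin_cases i; fin_cases j; simp [hA.self_eq_zero])
  exact ⟨g, hg, hi 0⟩

end H62
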