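import Cfsg.Agent.H62.C3SpMain
import Cfsg.Agent.H62.SpStabMat
import Cfsg.Agent.H54.SpBasis

set_option autoImplicit false

/-! Matrix version: the normaliser of a self-adjoint extension field in `Sp_2m(F)`. -/

namespace H62

open Module Matrix Cfsg Cfsg.Geo

theorem exists_trForm {F K V : Type*} [Field F] [Field K] [Algebra F K] [AddCommGroup V]
    [Module F V] [Module K V] [IsScalarTower F K V] [FiniteDimensional F V] [Finite K]
    {B : LinearMap.BilinForm F V} (hB : B.Nondegenerate)
    (hsa : ∀ (k : K) u v, B (k • u) v = B u (k • v)) (halt : ∀ (k : K) v, B (k • v) v = 0)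
    {c : Dual F K} (hc : c ≠ 0) : ∃ b : LinearMap.BilinForm K V, TrForm B b c := by
  choose φ hφ using fun x => exists_comp_eq (K := K) hc (B x)
  have e : ∀ (k : K) x y, c (k * φ x y) = B x (k • y) := fun k x y => by
    rw [← hφ, map_smul, smul_eq_mul]
  let b : LinearMap.BilinForm K V :=
    { toFun := φ
      map_add' := fun x y => LinearMap.ext fun v => dual_mul_ext hc fun k => by
        simp [mul_add, e]
      map_smul' := fun a x => LinearMap.ext fun v => dual_mul_ext hc fun k => by
        simp [← mul_assoc, e, hsa, smul_smul, mul_comm] }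
  have hA : b.IsAlt := fun v => dual_mul_ext hc fun k => by
    change c (k * φ v v) = _
    rw [e, ← hsa, halt]; simp
  have h1 : ∀ x, (∀ y, b x y = 0) → x = 0 := fun x hx => hB.1 x fun y => by
    rw [← hφ, show φ x y = 0 from hx y, map_zero]
  exact ⟨b, ⟨h1, fun x hx => h1 x fun y => hA.isRefl _ _ (hx y)⟩, hA, hc, fun x y => (hφ x y).symm⟩

theorem isMaximalIn_sp_field {F : Type*} [Field F] [Fintype F] {m r : ℕ} (hm : 0 < m)
    (hr : r.Prime) (hex : ¬ (m = 2 ∧ Fintype.card F = 2))
    {K : Subalgebra F (Matrix (Fin m ⊕ Fin m) (Fin m ⊕ Fin m) F)}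
    (hK : IsFieldSubalgebra r K) (hsa : IsSelfAdjointFor (sympForm m F) K)
    (halt : ∀ k ∈ K, ∀ v, sympForm m F (k *ᵥ v) v = 0) :
    IsMaximalIn (spGL m F) (subalgebraNormalizer K ⊓ spGL m F) := by
  have : Nonempty (Fin m) := ⟨⟨0, hm⟩⟩
  obtain ⟨K', _, _, _, _, _, h0, h1, h2⟩ := exists_field_model hK
  have : Module.Finite K' (Fin m ⊕ Fin m → F) := Module.Finite.of_restrictScalars_finite F K' _
  obtain ⟨b, h⟩ := exists_trForm (K := K') (spForm_nondeg (m := m) (F := F)) (fun k u v => by
    obtain ⟨A, hA, hx⟩ := h2 k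
    simpa only [← hx, ← H54.sympForm_eq] using hsa A hA u v) (fun k v => by
    obtain ⟨A, hA, hx⟩ := h2 k
    simpa only [← hx, ← H54.sympForm_eq] using halt A hA v) (Algebra.trace_ne_zero F K')
  refine isMaximalIn_of_toLE (NormK K') (fun e => ∀ u v, spForm m F (e u) (e v) = spForm m F u v)
    mem_spGL_iff (fun g => and_congr (mem_subalgebraNormalizer_iff h1 h2 g) (mem_spGL_iff g)) ?_
    fun M hM hMB g hg hns => sp_field_maximal (h0 ▸ hr) h
      (fun e he => hM _ (NormK.of_lin fun k v => by simp) fun u v => by simp [h.eq, he]) hMB ?_ hg hns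
  · obtain ⟨v, hv⟩ := exists_ne (0 : Fin m ⊕ Fin m → F)
    obtain ⟨e, -, he⟩ := hasSp_of_forall (H := ⊤) h.isAlt (v := v) (c := 1) fun _ _ => trivial
    refine ⟨e, isom_of_sp h.isAlt he, fun hn => ?_⟩
    obtain ⟨k, hk⟩ := exists_not_mem_bot (F := F) (K := K') (V := K') (h0 ▸ hr.one_lt)
    obtain ⟨k', hk'⟩ := hn k
    have h4 := hk' v
    rw [he, he, h.kl_sing (smul_mem_kl k v) (self_mem_kl v), h.isAlt.self_eq_zero] at h4
    obtain rfl : k = k' := smul_left_injective K' hv (by simpa using h4)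
    obtain ⟨x, hx⟩ := exists_dual_apply_eq_one (φ := (spForm m F).flip v) fun h5 => by
      obtain ⟨x, hx⟩ := exists_form_ne_zero h.nondeg hv
      exact hx (LinearMap.congr_fun h5 x)
    have h5 := hk' x
    rw [he, he, show spForm m F x v = 1 from hx, one_mul, one_mul, one_smul, smul_add,
      add_right_inj, ← algebraMap_smul K' (spForm m F _ _)] at h5
    exact hk _ fun y => by
      have h6 := smul_left_injective K' hv h5
      conv_rhs => rw [← h6, algebraMap_smul]
  · by_contra! hc
    have h3 := finrank_mul_finrank F K' (Fin m ⊕ Fin m → F)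
    have h4 := hr.two_le
    obtain rfl : r = 2 := by omega
    simp only [h0, finrank_fintype_fun_eq_card, Fintype.card_sum, Fintype.card_fin] at h3
    obtain ⟨k, hk⟩ := H54.even_finrank_of_isAlt h.nd h.alt
    refine hex ⟨by omega, by_contra fun h5 => ?_⟩
    obtain ⟨a, ha, ha'⟩ := exists_ne_zero_ne_neg_one h5
    exact ha' (by rw [← neg_neg a, hc.2.2 (-a) (by simpa)]; simp)

end H62
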