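import Cfsg.Agent.H62.SubfSp

set_option autoImplicit false

/-! Subfield subgroups of prime index are maximal in `Sp(V)`. -/

namespace H62

open Module

variable {F₀ F V₀ V : Type*} [Field F₀] [Field F] [Algebra F₀ F] [AddCommGroup V₀] [Module F₀ V₀]
  [AddCommGroup V] [Module F V] [Module F₀ V] [IsScalarTower F₀ F V] {j : V₀ →ₗ[F₀] V}
  {M : Subgroup (V ≃ₗ[F] V)} {B₀ : LinearMap.BilinForm F₀ V₀} {B : LinearMap.BilinForm F V}
  [FiniteDimensional F₀ V₀] [Finite F]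

theorem SpRat.maximal (h : SpRat j B₀ B M) (hr : (finrank F₀ F).Prime)
    (hex : 5 ≤ finrank F₀ V₀ ∨ (2 : F) = 0) (hMB : ∀ e ∈ M, ∀ x y, B (e x) (e y) = B x y)
    {g : V ≃ₗ[F] V} (hg : g ∈ M) (hns : g ∉ subf F j) (e : V ≃ₗ[F] V)
    (he : ∀ x y, B (e x) (e y) = B x y) : e ∈ M := by
  have := rat_finite h.bc
  have : Finite F₀ := Finite.of_injective _ (algebraMap F₀ F).injective
  have : Finite V₀ := Module.finite_of_finite F₀
  have : Finite V := Module.finite_of_finite F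
  have A := h.alt
  have A₀ := h.alt₀
  have h4 := h.h4
  by_cases hn : ∀ w, FullSp M B (j w)
  · exact h.mem_of_all hn e he
  obtain ⟨s1, s2⟩ := h.small hr hn
  refine absurd ?_ hns
  clear he e hn hns
  have fix : ∀ d ∈ M, ∀ w (c : F), w ≠ 0 → d (j w) = c • j w → d ∈ subf F j := by
    intro d hd w c hw hdw
    have hB := hMB d hd
    have hc : c ≠ 0 := by rintro rfl; simp [rat_ne h.bc hw] at hdw
    obtain ⟨v, hv⟩ := exists_form_eq_one h.nd₀ hw
    have h1 : B (d (j v)) (j w) = c⁻¹ := by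
      have := hB (j v) (j w)
      rw [hdw, map_smul, h.eq, hv, map_one] at this
      exact eq_inv_of_mul_eq_one_right this
    have hy : B (j w) ((c⁻¹)⁻¹ • (c⁻¹ • j v - d (j v))) = 0 := by
      simp [alt_swap A (j w), h1, h.eq, hv]
    obtain ⟨t, htB, htx⟩ := exists_E A hy (-((c⁻¹)⁻¹ * (c⁻¹)⁻¹ * B (d (j v)) (c⁻¹ • j v)))
    have h2 := E_apply_eq A (inv_ne_zero hc) h1 htx
    generalize (c⁻¹)⁻¹ • (c⁻¹ • j v - d (j v)) = y at hy htx
    generalize (-((c⁻¹)⁻¹ * (c⁻¹)⁻¹ * B (d (j v)) (c⁻¹ • j v))) = c' at htx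
    have hcc : c * c ∈ ratF F₀ F := s1 w _ hw (by
      have := (h.hasSp w (one_mem _)).conj hd hB
      rwa [hdw, HasSp.smul_iff, mul_one, pow_two] at this)
    have tw : t (j w) = j w := by simp [htx, A.self_eq_zero, hy]
    have hl : t * d ∈ subf F j := mem_subf_of (rat_inj h.bc) hc fun x => by
      let x' := x - B₀ x w • v + B₀ x v • w
      have p1 : B₀ w x' = 0 := A₀.isRefl _ _ (by simp [x', hv, A₀.self_eq_zero])
      have p2 : B₀ x' v = 0 := by simp [x', alt_swap A₀ w, hv, A₀.self_eq_zero]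
      obtain ⟨a, l, hl⟩ := s2 w (c • d (j x')) _ hw (by
        rw [map_smul, ← LinearMap.smul_apply, ← map_smul, ← hdw, hB, h.eq, p1, map_zero]) (hdw ▸ (h.hasE p1 (zero_mem _)).conj hd hB).of_smul
      have p3 : B (j l) (j w) = 0 := by
        have := hB (j x') (j w)
        rw [hdw, h.eq, A₀.isRefl _ _ p1, map_zero] at this
        simpa [hl, A.self_eq_zero] using this
      have p4 : c • t (d (j x')) = j l + (B (j l) y + a) • j w := by
        rw [← map_smul, ← sub_add_cancel (c • d (j x')) (a • j w), ← hl, map_add, map_smul, tw, htx,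
          p3]
        module
      have p5 : B (j l) y + a = B (j l) (j v) := by
        have := htB (d (j x')) (d (j v))
        rw [hB, h.eq, p2, map_zero, h2, map_smul, smul_eq_zero, inv_eq_zero, or_iff_right hc] at this
        have p6 := congrArg (B · (j v)) p4
        simp only [map_smul, map_add, LinearMap.smul_apply, LinearMap.add_apply, this,
          alt_swap A (j w), h.eq v w, hv, map_one, smul_eq_mul] at p6
        linear_combination p6
      rw [show x = x' + B₀ x w • v - B₀ x v • w by simp only [x']; abel, map_sub, map_add, map_smul, map_smul,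
        ← algebraMap_smul F (B₀ x w), ← algebraMap_smul F (B₀ x v), map_sub, map_add, map_smul,
        map_smul, smul_sub, smul_add, LinearEquiv.mul_apply, LinearEquiv.mul_apply,
        LinearEquiv.mul_apply, p4, p5, h2, hdw, map_smul, tw, h.eq, smul_comm c, smul_inv_smul₀ hc,
        smul_comm c, smul_smul c]
      exact sub_mem (add_mem (add_mem ⟨_, rfl⟩ (smul_mem_range (alg_mem _) ⟨_, rfl⟩))
        (smul_mem_range (alg_mem _) ⟨_, rfl⟩))
        (smul_mem_range (alg_mem _) (smul_mem_range hcc ⟨_, rfl⟩))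
    have ht : t ∈ M := by
      simpa using M.mul_mem (h.le _ hl fun x y => by simp [htB, hB]) (M.inv_mem hd)
    obtain ⟨a, l, hl'⟩ := s2 w y c' hw hy ⟨t, ht, htx⟩
    obtain rfl : y = j l + a • j w := by rw [hl']; abel
    have p1 : B₀ w l = 0 := by simpa [A.self_eq_zero, h.eq] using hy
    have p2 := s1 w _ hw ((HasE.of_add_smul ⟨t, ht, htx⟩).sub_sp A (h.hasE p1 (zero_mem _))
      (by simp [h.eq, p1]))
    have := h.E_mem (w := w) (y := l) p2 (e := t) fun x => by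
      simp only [htx, map_add, map_smul, smul_eq_mul]; module
    simpa using mul_mem (inv_mem this) hl
  have point : ∀ d ∈ M, ∀ w w' (c : F), w ≠ 0 → d (j w) = c • j w' → d ∈ subf F j := by
    intro d hd w w' c hw hdw
    obtain ⟨k, hk, hk', -, hkx⟩ := h.exists_map (w := w') (by
      rintro rfl; simp [rat_ne h.bc hw] at hdw) hw
    simpa using mul_mem (inv_mem hk') (fix _ (M.mul_mem hk hd) w c hw (by simp [hdw, hkx]))
  obtain ⟨w₀, -, hw₀⟩ := exists_mem_notMem (F := F₀) (V := V₀) (W := ⊤) (Z := ⊥) (by simp; omega)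
  have hw₀ : w₀ ≠ 0 := by simpa using hw₀
  obtain ⟨t, ht, htx⟩ := (h.hasSp w₀ (one_mem _)).conj hg (hMB g hg)
  simp only [one_mul] at htx
  have hu : g (j w₀) ≠ 0 := by simpa using rat_ne h.bc hw₀
  generalize hue : g (j w₀) = u at htx hu
  by_cases hc : ∃ w, w ≠ 0 ∧ B (j w) u = 0
  · obtain ⟨w, hw, hwu⟩ := hc
    have h1 : t (j w) = (1 : F) • j w := by simp [htx, hwu]
    obtain ⟨x, hx⟩ := rat_dual_ne h.bc (φ := B.flip u) fun h0 =>
      hu (h.nd.2 u (LinearMap.congr_fun h0))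
    have := subf_apply_mem h.bc (fix t ht w 1 hw h1) hw one_ne_zero (by simp [h1]) x
    rw [one_smul, htx, Submodule.add_mem_iff_right _ (LinearMap.mem_range_self j x)] at this
    obtain ⟨y, hy⟩ := this
    exact point g hg w₀ y (B (j x) u)⁻¹ hw₀ (by rw [hy, hue, inv_smul_smul₀ (show B (j x) u ≠ 0 from hx)])
  push Not at hc
  exfalso
  have hc' : ∀ w, w ≠ 0 → B u (j w) ≠ 0 := fun w hw h0 => hc w hw (A.isRefl _ _ h0)
  obtain ⟨w, -, hw, hw'⟩ := exists_mem_notMem_ker [B₀ w₀] (W := ⊤) (Z := F₀ ∙ w₀) (by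
    have := finrank_span_le_card (R := F₀) ({w₀} : Set V₀)
    simp at this ⊢; omega)
  have hww : B₀ w₀ w = 0 := hw' _ (by simp)
  have hw0 : w ≠ 0 := by rintro rfl; simp at hw
  obtain ⟨k, hk, ⟨c, hkw⟩, hkx, -⟩ := HasTv.exists_map (hasSp_iff.1 (h.hasSp w₀ (one_mem _)))
    (hasSp_iff.1 ((h.hasSp w (one_mem _)).conj ht (hMB t ht))) (by simp [A.self_eq_zero])
    (by simp [A.self_eq_zero]) (by simp [htx, h.eq, A₀.isRefl _ _ hww, hc w hw0, hc' w₀ hw₀])
    (by simp [htx, h.eq, hww, hc w hw0, hc w₀ hw₀])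
  have ti : ∀ x, t⁻¹ x = x - B x u • u := fun x => t.injective (by
    rw [LinearEquiv.coe_inv, LinearEquiv.apply_symm_apply]; simp [htx, A.self_eq_zero])
  have hd := M.mul_mem (M.inv_mem ht) hk
  have d1 : (t⁻¹ * k) (j w₀) = c • j w := by simp [hkw]
  have hc0 : c ≠ 0 := by rintro rfl; simp [rat_ne h.bc hw₀] at hkw
  have d2 := subf_apply_mem h.bc (point _ hd w₀ w c hw₀ d1) hw₀ (inv_ne_zero hc0)
    (by simp [d1, hc0])
  obtain ⟨x, p1, p0⟩ := exists_form_pair h.nd₀ A₀ hw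
  obtain ⟨a, b, hx⟩ := hkx (j x)
  obtain ⟨γ, d3⟩ : ∃ γ : F, (t⁻¹ * k) (j x) = j x + a • j w₀ + b • j w + γ • u :=
    ⟨b * B (j w) u - B (k (j x)) u, by
      rw [LinearEquiv.mul_apply, ti, sub_smul]; nth_rewrite 1 [hx]; rw [htx]; module⟩
  have hγ : γ ≠ 0 := by
    rintro rfl
    have := hMB _ hd (j x) (j w₀)
    simp [d1, d3, h.eq, p0, p1, hww, A₀.self_eq_zero, hc0] at this
  obtain ⟨l, hl⟩ := d2 x
  have fin : ∀ z, z ≠ 0 → B₀ z w₀ = 0 → B₀ z w = 0 → B (j z) (j l - c⁻¹ • j x) ≠ 0 :=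
    fun z hz q1 q2 => by simp [hl, d3, h.eq, q1, q2, hc z hz, hγ, hc0, mul_add]
  rcases hex with h5 | h2
  · obtain ⟨z, -, hz, hz'⟩ := exists_mem_notMem_ker [B₀.flip w₀, B₀.flip w, B₀.flip l, B₀.flip x]
      (W := ⊤) (Z := ⊥) (by simp; omega)
    refine fin z (by simpa using hz) (hz' (B₀.flip w₀) (by simp)) (hz' (B₀.flip w) (by simp)) ?_
    simp [h.eq, show B₀ z l = 0 from hz' (B₀.flip l) (by simp),
      show B₀ z x = 0 from hz' (B₀.flip x) (by simp)]
  obtain ⟨s, hs⟩ : c⁻¹ ∈ ratF F₀ F := mem_ratF_of_sq h2 (by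
    obtain ⟨v, hv⟩ := exists_form_eq_one h.nd₀ hw₀
    obtain ⟨v', hv'⟩ := d2 v
    refine ⟨B₀ v' w, ?_⟩
    have := hMB _ hd (j v) (j w₀)
    rw [d1, map_smul, h.eq, hv, map_one] at this
    rw [← h.eq, hv', map_smul, LinearMap.smul_apply, eq_inv_of_mul_eq_one_right this, smul_eq_mul])
  obtain ⟨z, -, hz, hz'⟩ := exists_mem_notMem_ker [B₀.flip w₀, B₀.flip w, B₀.flip (l - s • x)]
    (W := ⊤) (Z := ⊥) (by simp; omega)
  refine fin z (by simpa using hz) (hz' (B₀.flip w₀) (by simp)) (hz' (B₀.flip w) (by simp)) ?_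
  rw [← hs, algebraMap_smul, ← map_smul, ← map_sub, h.eq,
    show B₀ z (l - s • x) = 0 from hz' (B₀.flip _) (by simp), map_zero]

open Matrix Cfsg Cfsg.Geo

theorem isMaximalIn_sp_subfield {F : Type*} [Field F] [Fintype F] {m : ℕ}
    (hm : 3 ≤ m ∨ m = 2 ∧ ¬ Odd (Fintype.card F)) (F₀ : Subfield F) {r : ℕ} (hr : r.Prime)
    (hcard : Fintype.card F = Nat.card F₀ ^ r) (P : GL (Fin m ⊕ Fin m) F) {ζ : F} (hζ : ζ ≠ 0)
    (hP : IsFormRationalStructure (sympForm m F) F₀ ζ P) :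
    IsMaximalIn (spGL m F) (subfieldSubgroup F₀ P ⊓ spGL m F) := by
  have h := ratL_isBaseChange F₀ P
  have hf := finrank_eq_of_card hcard
  let B := ζ • spForm m F
  have hB : ∀ x y, B (ratL F₀ P x) (ratL F₀ P y) ∈ F₀ := fun x y => by
    simpa only [ratL_apply, B, LinearMap.smul_apply, smul_eq_mul, ← H54.sympForm_eq] using
      hP _ _ (fun i => (x i).2) fun i => (y i).2
  let B₀ : LinearMap.BilinForm F₀ (Fin m ⊕ Fin m → F₀) := LinearMap.mk₂ F₀
    (fun x y => ⟨_, hB x y⟩) (fun _ _ _ => by ext; simp)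
    (fun _ _ _ => by ext; simp [Subfield.smul_def]) (fun _ _ _ => by ext; simp)
    (fun _ _ _ => by ext; simp [Subfield.smul_def])
  have A : B.IsAlt := fun x => by simp [B, spForm_alt.self_eq_zero]
  have nd : B.Nondegenerate := ⟨fun x hx => spForm_nondeg.1 x fun y => by simpa [B, hζ] using hx y,
    fun x hx => spForm_nondeg.2 x fun y => by simpa [B, hζ] using hx y⟩
  have eq : ∀ x y, B (ratL F₀ P x) (ratL F₀ P y) = algebraMap F₀ F (B₀ x y) := fun _ _ => rfl
  have nd₀ : B₀.Nondegenerate := ⟨fun x hx => rat_inj h (by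
      rw [map_zero]
      exact nd.1 _ (LinearMap.congr_fun (h.algHom_ext (B _) 0 fun y => by simp [eq, hx]))),
    fun x hx => rat_inj h (by
      rw [map_zero]
      exact nd.2 _ (LinearMap.congr_fun (h.algHom_ext (B.flip _) 0 fun y => by simp [eq, hx])))⟩
  have hG : ∀ g, g ∈ spGL m F ↔ ∀ u v, B (toLE g u) (toLE g v) = B u v := fun g => by
    simp [mem_spGL_iff, B, hζ]
  refine isMaximalIn_of_toLE (· ∈ subf F (ratL F₀ P)) (fun e => ∀ u v, B (e u) (e v) = B u v) hG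
    (fun g => and_congr (mem_subfieldSubgroup_iff F₀ P g) (hG g)) ?_
    fun M hM hMB g hg hns => SpRat.maximal ⟨h, nd₀, nd, A, eq, hM, by simp; omega⟩ (hf ▸ hr)
      (hm.imp (by simp; omega) fun h => two_eq_zero_of_not_odd h.2) hMB hg hns
  obtain ⟨c, hc⟩ := exists_not_mem_ratF (F₀ := F₀) (F := F) (hf ▸ hr.one_lt)
  have : Nonempty (Fin m) := ⟨⟨0, by omega⟩⟩
  obtain ⟨w, hw⟩ := exists_ne (0 : Fin m ⊕ Fin m → F₀)
  obtain ⟨x, hx⟩ := exists_form_eq_one nd₀ hw
  obtain ⟨e, -, he⟩ := hasSp_of_forall (H := ⊤) A (v := ratL F₀ P w) (c := c) fun _ _ => trivial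
  exact ⟨e, isom_of_sp A he, tv_not_mem_subf h hw (x := x) (by simp [he, A.self_eq_zero]) hc
    (by simp [he, eq, hx])⟩

end H62
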