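import Cfsg.Agent.H62.TenSp4
import Cfsg.Agent.H62.C3SpMat
import Cfsg.Agent.H62.SubfSpMax

set_option autoImplicit false

/-! The stabiliser of a tensor decomposition `Sp ⊗ O` is maximal in `Sp_{2m}(q)`. -/

namespace H62

open Module Matrix Cfsg Cfsg.Geo H56
open scoped Kronecker

variable {F : Type*} [Field F]

theorem formOfGram_kronecker {σ : F → F} (hσ : ∀ a b, σ (a * b) = σ a * σ b) {ι κ : Type}
    [Fintype ι] [Fintype κ] (G : Matrix ι ι F) (H : Matrix κ κ F) (x x' : ι → F) (y y' : κ → F) :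
    formOfGram σ (G ⊗ₖ H) (fun p => x p.1 * y p.2) (fun p => x' p.1 * y' p.2) =
      formOfGram σ G x x' * formOfGram σ H y y' := by
  simp only [formOfGram, Fintype.sum_prod_type, Finset.sum_mul_sum, kroneckerMap_apply, hσ]
  refine Finset.sum_congr rfl fun a _ => Finset.sum_congr rfl fun b _ =>
    Finset.sum_congr rfl fun c _ => Finset.sum_congr rfl fun d _ => by ring

theorem formOfGram_bilin {ι : Type} [Fintype ι] [DecidableEq ι] {f : (ι → F) → (ι → F) → F}
    (hf : IsBilinearForm f) (x y : ι → F) : formOfGram id (gramMatrix f) x y = bilinOf hf x y := by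
  conv_rhs => rw [pi_eq_sum_univ' x, pi_eq_sum_univ' y]
  simp only [formOfGram, map_sum, map_smul, LinearMap.sum_apply, LinearMap.smul_apply, smul_eq_mul,
    Finset.mul_sum]
  rw [Finset.sum_comm]
  refine Finset.sum_congr rfl fun a _ => Finset.sum_congr rfl fun b _ => ?_
  exact mul_comm _ _

theorem isMaximalIn_sp_tensor [Fintype F] {m n₁ n₂ : ℕ} (hm : 0 < m) (hodd : Odd (Fintype.card F))
    (h3 : 3 ≤ n₂) (hq : 4 ≤ n₂ ∨ 4 ≤ Fintype.card F) (hex : ¬ (n₁ = 2 ∧ n₂ = 4))
    (e : (Fin m ⊕ Fin m) ≃ Fin n₁ × Fin n₂) (P : GL (Fin m ⊕ Fin m) F)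
    {f₁ : (Fin n₁ → F) → (Fin n₁ → F) → F} {f₂ : (Fin n₂ → F) → (Fin n₂ → F) → F}
    (hf₁ : IsSymplecticForm f₁) (hf₂ : IsSymmetricForm f₂)
    (hT : IsTensorFormStructure id (sympForm m F) f₁ f₂ e P) :
    IsMaximalIn (spGL m F) (tensorProductSubgroup n₁ n₂ e P ⊓ spGL m F) := by
  obtain ⟨c, hc, hT⟩ := hT
  have nd := bilinOf_nondegenerate hf₁.bilinear hf₁.nondegenerate
  have h : SpO (matTen e P) (c • bilinOf hf₁.bilinear) (bilinOf hf₂.bilinear) (spForm m F) :=
    ⟨two_ne_zero_of_odd hodd, ⟨fun x hx => nd.1 x fun y => by simpa [hc] using hx y,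
      fun x hx => nd.2 x fun y => by simpa [hc] using hx y⟩,
      fun x => by rw [LinearMap.smul_apply, LinearMap.smul_apply,
        show bilinOf hf₁.bilinear x x = 0 from hf₁.alternating x, smul_zero],
      bilinOf_nondegenerate hf₂.bilinear hf₂.nondegenerate, hf₂.symm, spForm_nondeg, spForm_alt,
      fun x x' y y' => by
        rw [matTen_t, matTen_t, ← H54.sympForm_eq, hT, formOfGram_kronecker (by simp),
          formOfGram_bilin hf₁.bilinear, formOfGram_bilin hf₂.bilinear, ← mul_assoc]; rfl⟩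
  have h1 : 0 < n₁ := Nat.pos_of_ne_zero fun h0 => by
    have := Fintype.card_congr e
    simp [h0] at this; omega
  have : Nontrivial (Fin n₁ → F) := Module.nontrivial_of_finrank_pos (R := F) (by simpa using h1)
  have h2 : 2 ≤ finrank F (Fin n₁ → F) := by
    have := finrank_pos (R := F) (M := Fin n₁ → F)
    obtain ⟨k, hk⟩ := H54.even_finrank_of_isAlt h.nd₁ h.alt₁
    omega
  refine isMaximalIn_of_toLE (· ∈ (matTen e P).grp)
    (fun e => ∀ u v, spForm m F (e u) (e v) = spForm m F u v) mem_spGL_iff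
    (fun g => by rw [Subgroup.mem_inf, mem_tensorProductSubgroup_iff, mem_spGL_iff]) ?_
    fun M hM hle g hg hns => SpOM.max ⟨h, hM, hle⟩ (by simpa using h3) (by simpa using hq)
      (by simpa using hex) fun h4 => hns (h4 hg)
  have : Nonempty (Fin m) := ⟨⟨0, hm⟩⟩
  obtain ⟨v, hv⟩ := exists_ne (0 : Fin m ⊕ Fin m → F)
  obtain ⟨x, hx⟩ := exists_form_ne_zero spForm_nondeg hv
  have h0 : (spForm m F).flip v v = 0 := spForm_alt.self_eq_zero v
  exact ⟨_, isom_of_sp spForm_alt (v := v) (c := 1) fun y => by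
    rw [LinearEquiv.transvection.apply h0]; simp, (matTen e P).tv_notMem h2 (by simp; omega) h0
      (fun h4 => hx (LinearMap.congr_fun h4 x)) hv⟩

end H62
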