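import Cfsg.Agent.H62.C3SpBase

set_option autoImplicit false

/-! Extension field subgroups of `Sp(V)`: the two cases of a pair with maximal intersection. -/

namespace H62

open Module

theorem hua_mem {K : Type*} [Field K] {T : AddSubgroup K} (hT : ∀ t ∈ T, t⁻¹ ∈ T) {a b : K}
    (ha : a ∈ T) (hb : b ∈ T) : a * a * b ∈ T := by
  by_cases ha0 : a = 0
  · simp [ha0]
  by_cases hb0 : b = 0
  · simp [hb0]
  by_cases h1 : 1 - a * b = 0
  · rwa [mul_assoc, ← sub_eq_zero.1 h1, mul_one]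
  have : a * a * b = a - (a⁻¹ + (b⁻¹ - a)⁻¹)⁻¹ := by
    have h2 : b⁻¹ - a = (1 - a * b) / b := by field_simp
    have h3 : a⁻¹ + (b⁻¹ - a)⁻¹ = (a * (1 - a * b))⁻¹ := by rw [h2]; field_simp; ring
    rw [h3, inv_inv]; ring
  rw [this]
  exact T.sub_mem ha (hT _ (T.add_mem (hT _ ha) (hT _ (T.sub_mem (hT _ hb) ha))))

variable {F K V : Type*} [Field F] [Field K] [Algebra F K] [AddCommGroup V] [Module F V]
  [Module K V] [IsScalarTower F K V] {B : LinearMap.BilinForm F V} {b : LinearMap.BilinForm K V}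
  {c : Dual F K} {M : Subgroup (V ≃ₗ[F] V)} [FiniteDimensional F V] [FiniteDimensional K V]
  {P : V → Prop} {g : V ≃ₗ[F] V} {w w' : V}

theorem MaxPair.rho_of_perp (hr : (finrank F K).Prime) (h : TrForm B b c) (hK : HasKSp M b)
    (hp : MaxPair K M P g w w') (hw : w ≠ 0) (hw' : w' ≠ 0) (hgB : ∀ x y, B (g x) (g y) = B x y)
    (hA : ∀ z ∈ (kl F K w').map (g : V →ₗ[F] V), b z w = 0) (l m : K) :
    HasRho M B (l • w) (m • w) := by
  have hρ : ∀ φ : Dual K V, φ w = 0 → ∃ k ∈ M, (∀ x y, B (k x) (k y) = B x y) ∧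
      ∀ z ∈ (kl F K w').map (g : V →ₗ[F] V), k z = z + φ z • w := fun φ h0 => by
    obtain ⟨z₀, hz⟩ := exists_flip_eq h.nd φ
    obtain ⟨e, he⟩ := exists_rho h.alt (a := w) (b := z₀) (by rw [hz, h0])
    have := isom_of_rho h.alt (a := w) (b := z₀) (by rw [hz, h0]) he
    exact ⟨_, hK e this, fun x y => by simp [h.eq, this], fun z hz' => by simp [he, hA z hz', hz]⟩
  obtain ⟨x, hx, hx', hxz⟩ := hp.exists_hyper hr hw hw' fun φ h0 => by
    obtain ⟨k, h1, -, h2⟩ := hρ φ h0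
    exact ⟨k, h1, h2⟩
  obtain ⟨η, η1, η0⟩ := exists_dual_eq_one hx'
  obtain ⟨φ₀, p1, p0⟩ := exists_dual_pair (F := K) hx'
  have hη : ∀ z ∈ (kl F K w').map (g : V →ₗ[F] V), ∃ k : K, z = η z • x + k • w := fun z hz => by
    obtain ⟨s, hs⟩ := hxz z hz
    have h4 : s = η z := (sub_eq_zero.1 (by simpa [η1] using η0 _ hs)).symm
    obtain ⟨k, hk⟩ := mem_kl.1 hs
    exact ⟨k, by rw [hk, h4]; abel⟩
  obtain ⟨xs, hxs⟩ : ∃ xs, ∀ v, B xs v = η v := by
    obtain ⟨x', h1⟩ := exists_flip_eq h.nondeg (-η)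
    exact ⟨x', fun v => by rw [alt_swap h.isAlt, h1]; simp⟩
  have hB : ∀ z (k : K), B z (g (k • w')) = c (k * b (g.symm z) w') := fun z k => by
    rw [← h.eq_smul, ← hgB (g.symm z), g.apply_symm_apply]
  have hβ : b (g.symm xs) w' ≠ 0 := fun h0 => by
    obtain ⟨_, hx, rfl⟩ := hx
    obtain ⟨k, rfl⟩ := mem_kl.1 hx
    simpa [h0, η1, hxs, show η (g (k • w')) = 1 from η1] using hB xs k
  obtain ⟨k₀, hk₀⟩ := exists_dual_apply_eq_one h.ne
  let l₀ := k₀ / (b (g.symm xs) w' * b (g.symm xs) w')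
  let f : V →ₗ[F] V := (g : V →ₗ[F] V) ∘ₗ ((l₀ • b.flip w').smulRight w').restrictScalars F ∘ₗ
    (g.symm : V →ₗ[F] V)
  have f0 : ∀ z, f z = g ((l₀ * b (g.symm z) w') • w') := fun z => rfl
  have f1 : ∀ z, f z ∈ (kl F K w').map (g : V →ₗ[F] V) := fun z =>
    Submodule.mem_map_of_mem (smul_mem_kl _ _)
  have f2 : ∀ z, (∀ v ∈ (kl F K w').map (g : V →ₗ[F] V), B z v = 0) → f z = 0 := fun z hz => by
    have : b (g.symm z) w' = 0 := dual_mul_ext h.ne fun k => by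
      rw [← hB, hz (g (k • w')) (Submodule.mem_map_of_mem (smul_mem_kl _ _))]; simp
    simp [f0, this]
  have f3 : η (f xs) = 1 := by
    rw [← hxs, f0, hB, mul_assoc, div_mul_cancel₀ _ (mul_ne_zero hβ hβ), hk₀]
  obtain ⟨u, hu, hux⟩ : ∃ u ∈ M, ∀ z, u z = z + f z := by
    obtain ⟨t, ht, htx⟩ := hK.tv h.alt w' l₀
    exact ⟨g * t * g⁻¹, M.mul_mem (M.mul_mem hp.mem ht) (M.inv_mem hp.mem), fun z => by
      simp [htx, f0]⟩
  let Y := kl F K w ⊔ kl F K x
  have hY : ∀ v ∈ (kl F K w').map (g : V →ₗ[F] V), v ∈ Y := fun v hv => by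
    obtain ⟨k, hk⟩ := hη v hv
    rw [hk, add_comm]
    exact Submodule.add_mem_sup (smul_mem_kl _ _) (Submodule.smul_mem _ _ (self_mem_kl x))
  have hwY : ∀ k : K, k • w ∈ Y := fun k => Submodule.mem_sup_left (smul_mem_kl _ _)
  have hYY : ∀ y ∈ Y, ∀ v ∈ Y, B y v = 0 := fun y hy v hv => by
    obtain ⟨_, h1, _, h2, rfl⟩ := Submodule.mem_sup.1 hy
    obtain ⟨_, h3, _, h4, rfl⟩ := Submodule.mem_sup.1 hv
    obtain ⟨_, rfl⟩ := mem_kl.1 h1
    obtain ⟨_, rfl⟩ := mem_kl.1 h2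
    obtain ⟨_, rfl⟩ := mem_kl.1 h3
    obtain ⟨_, rfl⟩ := mem_kl.1 h4
    simp [h.eq, h.alt.self_eq_zero, hA x hx, h.alt.isRefl _ _ (hA x hx)]
  let Φ : K → V →ₗ[F] V := fun l => f + (B.flip (l • w)).smulRight (f xs) +
    (η ∘ₗ f + B.flip (l • w)).smulRight (l • w)
  have key : ∀ l, Φ l ∈ addQ M Y := fun l => by
    refine ⟨fun z => Y.add_mem (Y.add_mem (hY _ (f1 z)) (Y.smul_mem _ (hY _ (f1 xs))))
      (Y.smul_mem _ (hwY l)), fun y hy => ?_, ?_⟩
    · simp [Φ, f2 y fun v hv => hYY y hy v (hY v hv), hYY y hy _ (hwY l)]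
    obtain ⟨k, hk, hkB, hkx⟩ := hρ (l • φ₀) (by simp [p0])
    have k1 : ∀ v ∈ (kl F K w').map (g : V →ₗ[F] V), k v = v + η v • l • w := fun v hv => by
      obtain ⟨a, ha⟩ := hη v hv
      have : φ₀ v = η v • 1 := by conv_lhs => rw [ha]; simp [p1, p0]
      simp [hkx v hv, this]
    refine ⟨k * u * k⁻¹, M.mul_mem (M.mul_mem hk hu) (M.inv_mem hk), fun z => ?_⟩
    obtain ⟨z, rfl⟩ := k.surjective z
    have h4 : f z = f (k z) + B (k z) (l • w) • f xs := by
      have := f2 (z - k z - B (k z) (l • w) • xs) fun v hv => by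
        have := hkB z v
        rw [k1 v hv, map_add, map_smul] at this
        simp only [map_sub, map_smul, LinearMap.sub_apply, LinearMap.smul_apply, hxs, smul_eq_mul,
          ← this]
        ring
      simpa [sub_sub, sub_eq_zero] using this
    rw [LinearEquiv.mul_apply, LinearEquiv.mul_apply, LinearEquiv.coe_inv,
      LinearEquiv.symm_apply_apply, hux, map_add, k1 _ (f1 z), h4]
    simp [Φ, f3, add_assoc]
  obtain ⟨-, -, e, he, hex⟩ := add_mem (sub_mem (sub_mem (key (l + m)) (key l)) (key m)) (key 0)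
  refine ⟨e, he, fun z => ?_⟩
  simp only [hex, Φ, add_smul, map_add, LinearMap.add_apply, LinearMap.sub_apply,
    LinearMap.smulRight_apply, LinearMap.BilinForm.flip_apply, zero_smul, map_zero,
    LinearMap.zero_apply, LinearMap.comp_apply]
  module

omit [FiniteDimensional F V] [FiniteDimensional K V] in
theorem HasKSp.conj_mem [Finite K] (hK : HasKSp M b) (h : TrForm B b c) {c' : Dual F K}
    (hc' : c' ≠ 0) {κ : K} {a : F} {u : V ≃ₗ[F] V} (hu : u ∈ M)
    (huB : ∀ x y, B (u x) (u y) = B x y) (hux : ∀ k : K, u (k • w) = k • w + (a * c' k) • κ • w)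
    (hκ : c' κ = 0) (y : K) :
    a • ((B.flip (κ • w)).smulRight (y • w) + (B.flip (y • w)).smulRight (κ • w)) +
      (a * a * c' y) • (B.flip (κ • w)).smulRight (κ • w) ∈ addQ M (kl F K w) := by
  obtain ⟨u₀, hu₀⟩ := exists_eq_mul h.ne c'
  have h0 : u₀ ≠ 0 := by rintro rfl; exact hc' (LinearMap.ext fun x => by simp [hu₀])
  obtain ⟨t, ht, htx⟩ := hK.tv h.alt w (y / u₀)
  refine ⟨fun z => ?_, fun v hv => by simp [h.kl_sing hv (smul_mem_kl _ _)],
    u * t * u⁻¹ * t⁻¹, M.mul_mem (M.mul_mem (M.mul_mem hu ht) (M.inv_mem hu)) (M.inv_mem ht),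
    fun z => ?_⟩
  · simp only [LinearMap.add_apply, LinearMap.smul_apply, LinearMap.smulRight_apply]
    refine add_mem (Submodule.smul_mem _ _ (add_mem ?_ ?_)) (Submodule.smul_mem _ _ ?_) <;>
      exact Submodule.smul_mem _ _ (smul_mem_kl _ _)
  obtain ⟨z, rfl⟩ := t.surjective z
  obtain ⟨z, rfl⟩ := u.surjective z
  have h1 : b z w = b (u z) w + (a * B (u z) (κ • w)) • u₀ := dual_mul_ext h.ne fun k => by
    rw [← h.eq_smul, ← huB, hux, map_add, (B (u z)).map_smul (a * c' k), h.eq_smul, mul_add,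
      map_add, mul_smul_comm, c.map_smul, hu₀, mul_comm k u₀]
    simp only [smul_eq_mul]; ring
  have h2 : ∀ k : K, B (t (u z)) (k • w) = B (u z) (k • w) := fun k => by
    simp [htx, h.kl_sing (smul_mem_kl _ _) (smul_mem_kl _ _)]
  have h3 : c' (y / u₀ * b z w) = B (u z) (y • w) + a * B (u z) (κ • w) * c' y := by
    rw [h1, mul_add, map_add, mul_smul_comm, c'.map_smul, div_mul_cancel₀ _ h0, hu₀, ← mul_assoc,
      mul_div_cancel₀ _ h0, h.eq_smul _ _ y, smul_eq_mul]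
  simp only [LinearEquiv.mul_apply, LinearEquiv.coe_inv, LinearEquiv.symm_apply_apply,
    LinearMap.add_apply, LinearMap.smul_apply, LinearMap.smulRight_apply,
    LinearMap.BilinForm.flip_apply, h2]
  rw [htx z, map_add, hux, h3, htx, h1, mul_add, mul_smul_comm, div_mul_cancel₀ _ h0, add_smul,
    smul_assoc]
  module

omit [FiniteDimensional K V] in
theorem MaxPair.hyper_of_ne (hr : (finrank F K).Prime) (h : TrForm B b c) (hK : HasKSp M b)
    (hp : MaxPair K M P g w w') (hw : w ≠ 0) (hw' : w' ≠ 0) {x : V}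
    (hx : x ∈ (kl F K w').map (g : V →ₗ[F] V)) (hxw : b x w ≠ 0) :
    ∀ z ∈ (kl F K w').map (g : V →ₗ[F] V), ∃ s : F, z - s • x ∈ kl F K w := fun z hz => by
  obtain ⟨s, hs⟩ := hp.ratio hr hw hw' (φ := b.flip w) (h.alt.self_eq_zero w) (fun l => by
    obtain ⟨k, hk, hx⟩ := hK.tv h.alt w l
    exact ⟨k, hk, fun z _ => hx z⟩) hx hxw hz
  refine ⟨s, by_contra fun hc => hp.ne (Submodule.eq_of_le_of_finrank_eq (fun v hv => ?_) ?_).symm⟩
  · obtain ⟨a, rfl⟩ := mem_kl.1 hv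
    obtain ⟨k, hk, hkx⟩ := hK.tv h.alt w (a / b x w)
    have h1 := Submodule.sub_mem _ hz (Submodule.smul_mem _ s hx)
    have h2 : b (z - s • x) w = 0 := by
      change b z w = s • b x w at hs
      simp [hs]
    have := hp.map_mem hk (fun v _ hv => by
      obtain ⟨a, rfl⟩ := mem_kl.1 hv
      simp [hkx, h.alt.self_eq_zero]) h1 hc (by rwa [hkx, h2, mul_zero, zero_smul, add_zero]) x hx
    rwa [hkx, div_mul_cancel₀ _ hxw, Submodule.add_mem_iff_right _ hx] at this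
  · rw [LinearEquiv.finrank_map_eq, finrank_kl hw, finrank_kl hw']

end H62
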