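import Cfsg.Agent.H62.C3SpCases
import Cfsg.Agent.H62.C3Mat

set_option autoImplicit false

/-! The normaliser of an extension field of prime degree is maximal in `Sp(V)`. -/

namespace H62

open Module

variable {F K V : Type*} [Field F] [Field K] [Algebra F K] [AddCommGroup V] [Module F V]
  [Module K V] [IsScalarTower F K V] {B : LinearMap.BilinForm F V} {b : LinearMap.BilinForm K V}
  {c : Dual F K} {M : Subgroup (V ≃ₗ[F] V)} [FiniteDimensional F V]
  {P : V → Prop} {g : V ≃ₗ[F] V} {w w' : V}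

theorem maxPair_of_hyper (hr : 1 < finrank F K) (hP : ∀ v, P v → v ≠ 0) (hg : g ∈ M) (hw : P w)
    (hw' : P w') (hne : (kl F K w').map (g : V →ₗ[F] V) ≠ kl F K w) {y : V} (hy : y ∈ kl F K w)
    (h : ∀ v ∈ kl F K w, ∃ s : F, v - s • y ∈ (kl F K w').map (g : V →ₗ[F] V)) :
    MaxPair K M P g w w' := by
  have h1 : finrank F K ≤ finrank F ↥((kl F K w').map (g : V →ₗ[F] V) ⊓ kl F K w) + 1 := by
    rw [← finrank_kl (hP w hw)]
    refine (Submodule.finrank_mono (s := kl F K w)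
      (t := ((kl F K w').map (g : V →ₗ[F] V) ⊓ kl F K w) ⊔ F ∙ y) fun v hv => ?_).trans ?_
    · obtain ⟨s, hs⟩ := h v hv
      rw [← sub_add_cancel v (s • y)]
      exact Submodule.add_mem_sup ⟨hs, sub_mem hv (Submodule.smul_mem _ _ hy)⟩
        (Submodule.smul_mem _ _ (Submodule.mem_span_singleton_self y))
    · refine (Submodule.finrank_add_le_finrank_add_finrank _ _).trans (Nat.add_le_add_left ?_ _)
      simpa using finrank_span_le_card (R := F) ({y} : Set V)
  refine ⟨hg, hw, hw', hne, fun h0 => by rw [h0, finrank_bot] at h1; omega, fun g₁ _ w₁ w₁' h2 h3 h4 => ?_⟩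
  have := Submodule.finrank_lt_finrank_of_lt (lt_of_le_of_ne
    (inf_le_right : (kl F K w₁').map (g₁ : V →ₗ[F] V) ⊓ kl F K w₁ ≤ _) fun h0 =>
      h4 (Submodule.eq_of_le_of_finrank_eq (inf_eq_right.1 h0) (by
        rw [LinearEquiv.finrank_map_eq, finrank_kl (hP _ h2), finrank_kl (hP _ h3)])).symm)
  rw [finrank_kl (hP _ h2)] at this
  omega

variable [FiniteDimensional K V]

/-- If the dimension over `K` exceeds two there is a pair of the first kind. -/
theorem MaxPair.exists_perp (hr : (finrank F K).Prime) (h : TrForm B b c) (hK : HasKSp M b)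
    (hp : MaxPair K M (· ≠ 0) g w w') (hgB : ∀ x y, B (g x) (g y) = B x y) {x : V}
    (hx : x ∈ (kl F K w').map (g : V →ₗ[F] V)) (hxw : b x w ≠ 0) (h3 : 2 < finrank K V) :
    ∃ g w, MaxPair K M (· ≠ 0) g w w ∧ ∀ z ∈ (kl F K w).map (g : V →ₗ[F] V), b z w = 0 := by
  have hxz := hp.hyper_of_ne hr h hK hp.left hp.right hx hxw
  have hwx : b w x ≠ 0 := fun h0 => hxw (h.alt.isRefl _ _ h0)
  obtain ⟨z₁, -, hz₁, hz⟩ := exists_mem_notMem_ker (F := K) (V := V) [b.flip w, b.flip x]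
    (W := ⊤) (Z := ⊥) (by simpa using h3)
  have z1 : b z₁ w = 0 := hz (b.flip w) (by simp)
  have z2 : b z₁ x = 0 := hz (b.flip x) (by simp)
  have z3 : b w z₁ = 0 := h.alt.isRefl _ _ z1
  have hB : ∀ z (k : K), B z (g (k • w')) = c (k * b (g.symm z) w') := fun z k => by
    rw [← h.eq_smul, ← hgB (g.symm z), g.apply_symm_apply]
  have hη : ∀ (k : K) s v, v - s • x ∈ kl F K w → B (k • (w + z₁)) v = s * c (k * b w x) :=
    fun k s v hv => by
      obtain ⟨a, ha⟩ := mem_kl.1 hv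
      rw [show v = a • w + s • x by rw [ha]; abel, h.eq]
      simp [h.alt.self_eq_zero, z1, z2]
  obtain ⟨k₁, hk₁⟩ := exists_dual_apply_eq_one h.ne
  let k₀ := k₁ / b w x
  have hk₀ : c (k₀ * b w x) = 1 := by rw [div_mul_cancel₀ _ hwx, hk₁]
  have hβ : b (g.symm (k₀ • (w + z₁))) w' ≠ 0 := fun h0 => by
    obtain ⟨_, hx, rfl⟩ := hx
    obtain ⟨k, rfl⟩ := mem_kl.1 hx
    have := hη k₀ 1 (g (k • w')) (by simp)
    rw [hB, h0] at this
    simp [show c (k₀ * b w (g (k • w'))) = 1 from hk₀] at this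
  set β := b (g.symm (k₀ • (w + z₁))) w' with hβe
  have : FiniteDimensional F K := Module.finite_of_finrank_pos hr.pos
  obtain ⟨l₀, -, hl₀, hl⟩ := exists_mem_notMem_ker (F := F) (V := K) [c] (W := ⊤) (Z := ⊥)
    (by simpa using hr.one_lt)
  have hl0 : l₀ ≠ 0 := by simpa using hl₀
  obtain ⟨t, ht, htx⟩ := hK.tv h.alt w' (l₀ / (β * β))
  obtain ⟨s, hs⟩ := hxz (g ((l₀ / (β * β) * β) • w')) (Submodule.mem_map_of_mem (smul_mem_kl _ _))
  have := hη k₀ s _ hs
  rw [hB, ← hβe, mul_assoc, div_mul_cancel₀ _ (mul_ne_zero hβ hβ), hl c (by simp), hk₀,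
    mul_one] at this
  obtain ⟨μ, hμ⟩ := mem_kl.1 hs
  rw [← this, zero_smul, sub_zero] at hμ
  have hμ0 : μ ≠ 0 := by
    rintro rfl
    simp [eq_comm (a := (0 : V)), hl0, hβ, hp.right] at hμ
  have hu : ∀ k : K, (g * t * g⁻¹) (k • (w + z₁)) = k • (w + z₁) + c (k * b w x) • μ • w :=
    fun k => by
      have : b (g.symm (k • (w + z₁))) w' = c (k * b w x) • β := dual_mul_ext h.ne fun a => by
        obtain ⟨s, hs⟩ := hxz (g (a • w')) (Submodule.mem_map_of_mem (smul_mem_kl _ _))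
        rw [mul_smul_comm, c.map_smul, hβe, ← hB, ← hB, hη _ _ _ hs, hη _ _ _ hs, hk₀]
        simp [mul_comm]
      rw [LinearEquiv.mul_apply, LinearEquiv.mul_apply, LinearEquiv.coe_inv, htx, map_add,
        LinearEquiv.apply_symm_apply, this, mul_smul_comm, smul_assoc, map_smul, hμ]
  have key : ∀ k : K, k • (w + z₁) ∈ kl F K w → k = 0 := fun k hk => by
    obtain ⟨a, ha⟩ := mem_kl.1 hk
    have h4 := congrArg (b · x) ha
    simp only [map_smul, LinearMap.smul_apply, map_add, LinearMap.add_apply, z2, add_zero,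
      smul_eq_mul, mul_left_inj' hwx] at h4
    simpa [h4, show z₁ ≠ 0 by simpa using hz₁] using ha
  have hz0 : w + z₁ ≠ 0 := fun h0 => one_ne_zero (key 1 (by simp [h0]))
  refine ⟨g * t * g⁻¹, w + z₁, maxPair_of_hyper hr.one_lt (fun _ h => h)
    (M.mul_mem (M.mul_mem hp.mem ht) (M.inv_mem hp.mem)) hz0 hz0 (fun h0 => ?_)
    (smul_mem_kl k₀ _) fun v hv => ?_, ?_⟩
  · have h4 : (g * t * g⁻¹) (k₀ • (w + z₁)) ∈ kl F K (w + z₁) :=
      h0 ▸ Submodule.mem_map_of_mem (smul_mem_kl _ _)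
    rw [hu, hk₀, one_smul, Submodule.add_mem_iff_right _ (smul_mem_kl _ _)] at h4
    obtain ⟨a, ha⟩ := mem_kl.1 h4
    rw [key a (ha ▸ smul_mem_kl _ _)] at ha
    simp [eq_comm (a := (0 : V)), hμ0, hp.left] at ha
  · obtain ⟨k, rfl⟩ := mem_kl.1 hv
    refine ⟨c (k * b w x), (k - c (k * b w x) • k₀) • (w + z₁), smul_mem_kl _ _, ?_⟩
    rw [LinearEquiv.coe_coe, hu]
    simp [sub_mul, hk₀, sub_smul, sub_add_sub_comm]
  · rintro _ ⟨_, hv, rfl⟩
    obtain ⟨k, rfl⟩ := mem_kl.1 hv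
    rw [LinearEquiv.coe_coe, hu]
    simp [h.alt.self_eq_zero, z1, z3]

variable [Finite K]

omit [FiniteDimensional F V] in
theorem HasKSp.rho_of_hyper (hr : (finrank F K).Prime) (h3 : 3 ≤ finrank F K)
    (hF : ∀ a : F, a ≠ 0 → a = 1) (h : TrForm B b c) (hK : HasKSp M b) (hw : w ≠ 0) {η : Dual F K}
    (hη : ∀ t, η t = 0 → HasRho M B w (t • w)) (l m : K) : HasRho M B (l • w) (m • w) := by
  have conj : ∀ a l m : K, a ≠ 0 → HasRho M B (l • w) (m • w) →
      HasRho M B ((l * a) • w) ((m * a) • w) := fun a l m ha h1 => by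
    obtain ⟨e, he, heB, hx⟩ := hK.exists_map h hw (smul_ne_zero ha hw)
    simpa [hx, mul_smul] using h1.conj he heB
  let T : AddSubgroup K := (addQ M (kl F K w)).comap
    { toFun := fun t => (B.flip ((1 : K) • w)).smulRight (t • w) +
        (B.flip (t • w)).smulRight ((1 : K) • w)
      map_zero' := by ext; simp
      map_add' := fun s t => by ext; simp [add_smul]; abel }
  have hT : ∀ t, t ∈ T ↔ HasRho M B ((1 : K) • w) (t • w) := fun t => (hasRho_iff_mem h 1 t).symm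
  have hF' : ∀ a : F, a = 0 ∨ a = 1 := fun a => or_iff_not_imp_left.2 (hF a)
  have hF2 : (1 : F) + 1 = 0 := by
    by_contra h0; simpa using hF _ h0
  have hT1 : (1 : K) ∈ T := (hT 1).2 ⟨1, M.one_mem, fun x => by
    rw [add_assoc, ← add_smul, ← one_mul (B x _), ← add_mul, hF2]; simp⟩
  have hTi : ∀ t ∈ T, t⁻¹ ∈ T := fun t ht => by
    by_cases h0 : t = 0
    · simpa [h0] using T.zero_mem
    simpa [hT, h0] using (conj t⁻¹ _ _ (inv_ne_zero h0) ((hT t).1 ht)).symm
  let S : Subalgebra F K :=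
    { carrier := {s | ∀ t ∈ T, s * t ∈ T}
      mul_mem' := fun ha hb t ht => by rw [mul_assoc]; exact ha _ (hb t ht)
      add_mem' := fun ha hb t ht => by rw [add_mul]; exact T.add_mem (ha t ht) (hb t ht)
      algebraMap_mem' := fun a t ht => by rcases hF' a with rfl | rfl <;> simp [ht] }
  have hS : S = ⊤ := by
    refine ((Subalgebra.isSimpleOrder_of_finrank_prime F K hr).eq_bot_or_eq_top S).resolve_left
      fun h0 => ?_
    have : FiniteDimensional F K := Module.finite_of_finrank_pos hr.pos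
    obtain ⟨a, -, ha, ha'⟩ := exists_mem_notMem_ker (F := F) (V := K) [η] (W := ⊤)
      (Z := F ∙ (1 : K)) (by rw [finrank_span_singleton one_ne_zero]; simp; omega)
    have h1 : a * a ∈ S := fun t ht => hua_mem hTi ((hT a).2 (by simpa using hη a (ha' η (by simp)))) ht
    rw [h0] at h1
    obtain ⟨s, hs⟩ := Algebra.mem_bot.1 h1
    have hK2 : (1 : K) + 1 = 0 := by simpa using congrArg (algebraMap F K) hF2
    refine ha (Submodule.mem_span_singleton.2 ⟨s, ?_⟩)
    rcases hF' s with rfl | rfl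
    · simpa [eq_comm] using hs
    · refine (one_smul _ _).trans (sub_eq_zero.1 (pow_eq_zero_iff two_ne_zero |>.1 ?_))
      rw [map_one] at hs
      linear_combination -hs + (1 - a) * hK2
  by_cases hl : l = 0
  · exact ⟨1, M.one_mem, by simp [hl]⟩
  have h1 : m / l ∈ S := hS ▸ Algebra.mem_top
  simpa [hl] using conj l _ _ hl ((hT _).1 (h1 1 hT1))

theorem sp_field_maximal (hr : (finrank F K).Prime) (h : TrForm B b c) (hK : HasKSp M b)
    (hMB : ∀ e ∈ M, ∀ x y, B (e x) (e y) = B x y)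
    (hex : 2 < finrank K V ∨ 3 ≤ finrank F K ∨ ∃ a : F, a ≠ 0 ∧ a ≠ 1)
    (hg : g ∈ M) (hns : ¬ NormK K g) (e : V ≃ₗ[F] V) (he : ∀ x y, B (e x) (e y) = B x y) :
    e ∈ M := by
  suffices ∃ w, w ≠ 0 ∧ FullSp M B w by
    obtain ⟨w, hw, h1⟩ := this
    refine mem_of_forall_fullSp h.nondeg h.isAlt (fun v => ?_) e he
    by_cases hv : v = 0
    · exact hv ▸ FullSp.zero
    obtain ⟨u, hu, huB, hx⟩ := hK.exists_map h hw hv
    simpa [show u w = v by simpa using hx 1] using h1.conj hu huB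
  clear he e
  obtain ⟨g, w, w', hp⟩ : ∃ g w w', MaxPair K M (· ≠ 0) g w w' := by
    obtain ⟨w, hw, hne⟩ : ∃ w, w ≠ 0 ∧ (kl F K w).map (g : V →ₗ[F] V) ≠ kl F K (g w) := by
      by_contra! hc
      obtain ⟨v, hv⟩ : ∃ v : V, v ≠ 0 := by
        by_contra! h0
        exact hns fun k => ⟨k, fun v => by rw [h0 (g _), h0 (_ • _)]⟩
      obtain ⟨u, hu⟩ := exists_form_ne_zero h.nd hv
      refine hns (normK_of_map_kl ⟨u, v, hv, fun h0 => hu ?_⟩ hc)
      obtain ⟨k, rfl⟩ := Submodule.mem_span_singleton.1 h0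
      simp [h.alt.self_eq_zero]
    refine exists_maxPair hg (by simpa using hw) hw hne fun h0 => hw ?_
    have : g w ∈ (⊥ : Submodule F V) :=
      h0 ▸ ⟨Submodule.mem_map_of_mem (self_mem_kl w), self_mem_kl _⟩
    simpa using this
  have A : ∀ g w w', MaxPair K M (· ≠ 0) g w w' →
      (∀ z ∈ (kl F K w').map (g : V →ₗ[F] V), b z w = 0) → ∃ w, w ≠ 0 ∧ FullSp M B w :=
    fun g w w' hp hA => ⟨w, hp.left, hK.fullSp_of_rho h
      (hp.rho_of_perp hr h hK hp.left hp.right (hMB g hp.mem) hA)⟩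
  by_cases hA : ∀ z ∈ (kl F K w').map (g : V →ₗ[F] V), b z w = 0
  · exact A g w w' hp hA
  push Not at hA
  obtain ⟨x, hx, hxw⟩ := hA
  rcases hex with h3 | hex
  · obtain ⟨g, w, hp, hA⟩ := hp.exists_perp hr h hK (hMB g hp.mem) hx hxw h3
    exact A g w w hp hA
  have hxz := hp.hyper_of_ne hr h hK hp.left hp.right hx hxw
  obtain ⟨δ, ⟨⟨_, hδ, rfl⟩, hδ'⟩, hδ0⟩ := Submodule.exists_mem_ne_zero_of_ne_bot hp.pos
  obtain ⟨κ', rfl⟩ := mem_kl.1 hδ
  obtain ⟨κ, hκ⟩ := mem_kl.1 hδ'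
  rw [LinearEquiv.coe_coe] at hκ hδ' hδ0
  obtain ⟨c₀, c1, c0⟩ := exists_dual_eq_one (W := kl F K w) (x := x) fun h0 => by
    obtain ⟨k, rfl⟩ := mem_kl.1 h0
    simp [h.alt.self_eq_zero] at hxw
  let c' : Dual F K := c₀ ∘ₗ (g : V →ₗ[F] V) ∘ₗ (LinearMap.toSpanSingleton K V w').restrictScalars F
  obtain ⟨y₀, hy₀⟩ : ∃ y₀, c' y₀ = 1 := by
    obtain ⟨_, hx, rfl⟩ := hx
    obtain ⟨k, rfl⟩ := mem_kl.1 hx
    exact ⟨k, c1⟩
  have key : ∀ (a : F) (y : K), a • ((B.flip (κ' • w')).smulRight (y • w') +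
      (B.flip (y • w')).smulRight (κ' • w')) + (a * a * c' y) •
        (B.flip (κ' • w')).smulRight (κ' • w') ∈ addQ M (kl F K w') := fun (a : F) => by
    obtain ⟨t, ht, htx⟩ := hK.tv h.alt w (a • κ / b x w)
    have hu := M.mul_mem (M.mul_mem (M.inv_mem hp.mem) ht) hp.mem
    exact hK.conj_mem h (c' := c') (κ := κ') (a := a) (w := w')
      (fun h0 => by simp [h0] at hy₀) hu (hMB _ hu) (fun k => by
        obtain ⟨s, hs⟩ := hxz (g (k • w')) (Submodule.mem_map_of_mem (smul_mem_kl _ _))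
        have h4 : s = c' k := (sub_eq_zero.1 (by simpa [c1, c'] using c0 _ hs)).symm
        obtain ⟨l, hl⟩ := mem_kl.1 hs
        have h5 : b (g (k • w')) w = s • b x w := by
          simpa [h.alt.self_eq_zero, sub_eq_zero] using congrArg (b · w) hl.symm
        rw [LinearEquiv.mul_apply, LinearEquiv.mul_apply, LinearEquiv.coe_inv, htx, map_add,
          LinearEquiv.symm_apply_apply, h5, mul_smul_comm, div_mul_cancel₀ _ hxw, smul_smul,
          smul_assoc, hκ, map_smul, LinearEquiv.symm_apply_apply, h4, mul_comm]) (c0 _ hδ')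
  have hκ' : κ' • w' ≠ 0 := fun h0 => by simp [h0] at hδ0
  by_cases hF : ∃ a : F, a ≠ 0 ∧ a ≠ 1
  · obtain ⟨a, ha, ha1⟩ := hF
    refine ⟨κ' • w', hκ', fun s => ?_⟩
    obtain ⟨-, -, e, he, hex⟩ := sub_mem (key a ((s / (a * a - a)) • y₀))
      (key 1 ((a * (s / (a * a - a))) • y₀))
    refine ⟨e, he, fun z => ?_⟩
    have : a * a - a ≠ 0 := by rw [← mul_sub_one]; exact mul_ne_zero ha (sub_ne_zero.2 ha1)
    simp only [hex, LinearMap.add_apply, LinearMap.sub_apply, LinearMap.smul_apply, hy₀,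
      LinearMap.smulRight_apply, LinearMap.BilinForm.flip_apply, smul_assoc, map_smul, smul_eq_mul]
    generalize κ' • w' = δ
    generalize y₀ • w' = y
    match_scalars <;> field_simp <;> ring
  refine ⟨κ' • w', hκ', hK.fullSp_of_rho h (hK.rho_of_hyper hr (hex.resolve_right hF)
    (by simpa using hF) h hκ' (η := c' ∘ₗ LinearMap.mulRight F κ') fun t ht => ?_)⟩
  rw [smul_smul, hasRho_iff_mem h]
  simpa [show c' (t * κ') = 0 from ht] using key 1 (t * κ')

end H62
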