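import Cfsg.Agent.H62.C3Field

set_option autoImplicit false

/-! Spaces of endomorphisms of a field extension of odd prime degree. -/

namespace H62

open Module

variable {F K : Type*} [Field F] [Field K] [Algebra F K]

theorem single_mem_of_sep {ι : Type*} [Fintype ι] [DecidableEq ι] (S : Subalgebra F (ι → K))
    (i : ι) (hsep : ∀ j, j ≠ i → ∃ m ∈ S, m i ≠ 0 ∧ m j = 0) (hsurj : ∀ k, ∃ m ∈ S, m i = k)
    (k : K) : Pi.single i k ∈ S := by
  have : ∀ j, ∃ m ∈ S, m i ≠ 0 ∧ (j ≠ i → m j = 0) := fun j => by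
    by_cases h : j = i
    · exact ⟨1, S.one_mem, by simp, fun h' => absurd h h'⟩
    · obtain ⟨m, h1, h2, h3⟩ := hsep j h
      exact ⟨m, h1, h2, fun _ => h3⟩
  choose m h1 h2 h3 using this
  have h4 : (∏ j, m j) i ≠ 0 := by
    rw [Finset.prod_apply]; exact Finset.prod_ne_zero_iff.2 fun j _ => h2 j
  obtain ⟨m', h5, h6⟩ := hsurj (k / (∏ j, m j) i)
  convert S.mul_mem h5 (S.prod_mem (t := Finset.univ) fun j _ => h1 j) using 1
  ext j
  by_cases h : j = i
  · rw [h, Pi.single_eq_same, Pi.mul_apply, h6, div_mul_cancel₀ _ h4]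
  · rw [Pi.single_eq_of_ne h, Pi.mul_apply, Finset.prod_apply,
      Finset.prod_eq_zero (f := fun c => m c j) (Finset.mem_univ j) (h3 j h), mul_zero]

theorem finrank_le_two [FiniteDimensional F K] (N : K →ₗ[F] K) (x y : K)
    (h1 : ∀ a, N a ∈ F ∙ x) (h2 : ∀ a, N a = 0 → a ∈ F ∙ y) : finrank F K ≤ 2 := by
  have h3 := N.finrank_range_add_finrank_ker
  have h4 : finrank F (LinearMap.range N) ≤ finrank F (F ∙ x) :=
    Submodule.finrank_mono (by rintro _ ⟨a, rfl⟩; exact h1 a)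
  have h5 : finrank F (LinearMap.ker N) ≤ finrank F (F ∙ y) := Submodule.finrank_mono h2
  have h6 : ∀ z : K, finrank F (F ∙ z) ≤ 1 := fun z => by
    simpa using finrank_span_le_card (R := F) ({z} : Set K)
  have := h6 x
  have := h6 y
  omega

theorem mem_span_one_of_mem_bot {a : K} (h : a ∈ (⊥ : Subalgebra F K)) : a ∈ F ∙ (1 : K) := by
  obtain ⟨s, rfl⟩ := Algebra.mem_bot.1 h
  exact Submodule.mem_span_singleton.2 ⟨s, (Algebra.algebraMap_eq_smul_one s).symm⟩

theorem fix_mem_bot (hr : (finrank F K).Prime) {τ : K ≃ₐ[F] K} (hτ : τ ≠ 1) {a : K}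
    (ha : τ a = a) : a ∈ (⊥ : Subalgebra F K) := by
  rcases (Subalgebra.isSimpleOrder_of_finrank_prime F K hr).eq_bot_or_eq_top
    (AlgHom.equalizer (τ : K →ₐ[F] K) (AlgHom.id F K)) with h | h
  · rw [← h]; exact ha
  · refine absurd (AlgEquiv.ext fun x => ?_) hτ
    have : x ∈ AlgHom.equalizer (τ : K →ₐ[F] K) (AlgHom.id F K) := h ▸ Algebra.mem_top
    exact this

/-- A unipotent map of quadratic type does not normalise the field. -/
theorem not_norm_of_unip (hr : (finrank F K).Prime) (h3 : 3 ≤ finrank F K) {u : K →ₗ[F] K}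
    (h1 : ∀ x, u (u x - x) = u x - x) (h2 : ∃ x, u x ≠ x)
    (hn : ∀ a : K, ∃ a' : K, ∀ x, u (a * x) = a' * u x) : False := by
  have : FiniteDimensional F K := Module.finite_of_finrank_pos hr.pos
  obtain ⟨x₀, hx₀⟩ := h2
  obtain ⟨δ, hδ0, hδ⟩ : ∃ δ, δ ≠ 0 ∧ u δ = δ := ⟨_, sub_ne_zero.2 hx₀, h1 x₀⟩
  let S : Subalgebra F K :=
    { carrier := {a | ∀ x, u (a * x) = a * u x}
      mul_mem' := fun {a b} ha hb x => by rw [mul_assoc, ha, hb, mul_assoc]
      add_mem' := fun {a b} ha hb x => by rw [add_mul, map_add, ha, hb, add_mul]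
      algebraMap_mem' := fun s x => by rw [← Algebra.smul_def, ← Algebra.smul_def, map_smul] }
  have hS : ∀ a, u (a * δ) = a * δ → a ∈ S := fun a ha x => by
    obtain ⟨a', ha'⟩ := hn a
    have := ha' δ
    rw [ha, hδ, mul_left_inj' hδ0] at this
    rw [ha', this]
  rcases (Subalgebra.isSimpleOrder_of_finrank_prime F K hr).eq_bot_or_eq_top S with h | h
  · have key : ∀ y, u y = y → y ∈ F ∙ δ := fun y hy => by
      have h4 := hS (y / δ) (by rwa [div_mul_cancel₀ _ hδ0])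
      rw [h] at h4
      obtain ⟨s, hs⟩ := Algebra.mem_bot.1 h4
      exact Submodule.mem_span_singleton.2 ⟨s, by rw [Algebra.smul_def, hs, div_mul_cancel₀ _ hδ0]⟩
    have := finrank_le_two (u - LinearMap.id) δ δ (fun a => key _ (h1 a))
      fun a ha => key a (sub_eq_zero.1 ha)
    omega
  · have h4 : x₀ / δ ∈ S := h ▸ Algebra.mem_top
    have := h4 δ
    rw [hδ, div_mul_cancel₀ _ hδ0] at this
    exact hx₀ this

variable [Finite K]

theorem aut_sq_ne (hr : (finrank F K).Prime) (h3 : 3 ≤ finrank F K) {τ : K ≃ₐ[F] K}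
    (hτ : τ ≠ 1) : τ * τ ≠ 1 := fun h => by
  have h1 : orderOf τ ∣ 2 := orderOf_dvd_of_pow_eq_one (by rwa [pow_two])
  have h2 : orderOf τ ∣ finrank F K := IsGalois.card_aut_eq_finrank F K ▸ orderOf_dvd_natCard τ
  rcases (Nat.dvd_prime hr).1 h2 with h4 | h4
  · exact hτ (orderOf_eq_one_iff.1 h4)
  · have := Nat.le_of_dvd two_pos h1
    omega

theorem single_mem_sym [DecidableEq (K ≃ₐ[F] K)] (hr : (finrank F K).Prime) (h3 : 3 ≤ finrank F K)
    (S : Subalgebra F ((K ≃ₐ[F] K) → K)) (h1 : ∀ a, (fun π => a * π a) ∈ S) {t t' : K}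
    (h2 : (fun π => t * π t') ∈ S) (ht' : t' ≠ 0) (ht : t / t' ∉ (⊥ : Subalgebra F K))
    {π : K ≃ₐ[F] K} (hπ : π ≠ 1) (k : K) : Pi.single π k ∈ S := by
  have h1' : ∀ a b, (fun π : K ≃ₐ[F] K => a * π b + b * π a) ∈ S := fun a b => by
    convert S.sub_mem (S.sub_mem (h1 (a + b)) (h1 a)) (h1 b) using 1
    ext x
    simp only [Pi.sub_apply, map_add]
    ring
  let T : Subalgebra F K :=
    { carrier := {k | ∃ m ∈ S, m π = k ∧ m π⁻¹ = π⁻¹ k}
      mul_mem' := by
        rintro a b ⟨m, h4, h5, h6⟩ ⟨m', h4', h5', h6'⟩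
        exact ⟨m * m', S.mul_mem h4 h4', by simp [h5, h5'], by simp [h6, h6']⟩
      add_mem' := by
        rintro a b ⟨m, h4, h5, h6⟩ ⟨m', h4', h5', h6'⟩
        exact ⟨m + m', S.add_mem h4 h4', by simp [h5, h5'], by simp [h6, h6']⟩
      algebraMap_mem' := fun s => ⟨_, S.algebraMap_mem s, rfl, by simp⟩ }
  have hT : ∀ k, k ∈ T := by
    rcases (Subalgebra.isSimpleOrder_of_finrank_prime F K hr).eq_bot_or_eq_top T with h | h
    · have := finrank_le_two (LinearMap.id + π.toLinearMap) 1 1 (fun a => mem_span_one_of_mem_bot (by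
        rw [← h]
        exact ⟨_, h1' a 1, by simp, by simp [add_comm]⟩))
        fun a ha => mem_span_one_of_mem_bot (fix_mem_bot hr (aut_sq_ne hr h3 hπ) (by
          have h4 : π a = -a := eq_neg_of_add_eq_zero_right ha
          rw [AlgEquiv.mul_apply, h4, map_neg, h4, neg_neg]))
      omega
    · exact fun k => h ▸ Algebra.mem_top
  refine single_mem_of_sep S π (fun j hj => ?_) (fun k => let ⟨m, h4, h5, _⟩ := hT k; ⟨m, h4, h5⟩) k
  by_cases hj' : j = π⁻¹
  · obtain ⟨m, h4, h5, h6⟩ := hT (π t * t')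
    refine ⟨_, S.sub_mem h2 h4, fun h0 => ht (fix_mem_bot hr hπ ?_), by simp [hj', h6]⟩
    rw [Pi.sub_apply, h5, sub_eq_zero] at h0
    rw [map_div₀, div_eq_div_iff ((map_ne_zero π).2 ht') ht', h0]
  · refine ⟨_, S.sub_mem (S.add_mem (h1 (t / t')) (h1 (j⁻¹ (t / t'))))
      (h1' (t / t' * j⁻¹ (t / t')) 1), ?_, ?_⟩
    · have e1 : t / t' - π (j⁻¹ (t / t')) ≠ 0 := fun h0 =>
        ht (fix_mem_bot hr (τ := π * j⁻¹) (fun h => hj (mul_inv_eq_one.1 h).symm)
          (sub_eq_zero.1 h0).symm)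
      have e2 : π (t / t') - j⁻¹ (t / t') ≠ 0 := fun h0 =>
        ht (fix_mem_bot hr (τ := j * π) (fun h => hj' (eq_inv_of_mul_eq_one_left h)) (by
          rw [AlgEquiv.mul_apply, sub_eq_zero.1 h0, ← AlgEquiv.mul_apply, mul_inv_cancel,
            AlgEquiv.one_apply]))
      convert mul_ne_zero e1 e2 using 1
      simp only [Pi.sub_apply, Pi.add_apply, map_mul, map_one]
      ring
    · have : j (j⁻¹ (t / t')) = t / t' := by
        rw [← AlgEquiv.mul_apply, mul_inv_cancel, AlgEquiv.one_apply]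
      simp only [Pi.sub_apply, Pi.add_apply, map_mul, map_one, this]
      ring

theorem smul_mem_of_sym (hr : (finrank F K).Prime) (h3 : 3 ≤ finrank F K)
    {R : Submodule F (K →ₗ[F] K)} (h1 : ∀ a : K, ∀ f ∈ R, a • f ∘ₗ LinearMap.mul F K a ∈ R)
    {t t' : K} (h2 : ∀ f ∈ R, t • f ∘ₗ LinearMap.mul F K t' ∈ R) (ht' : t' ≠ 0)
    (ht : t / t' ∉ (⊥ : Subalgebra F K)) (hid : ∀ a, LinearMap.mul F K a ∈ R) (a : K) :
    ∀ f ∈ R, a • f ∈ R := by
  classical
  let e := (autBasis F K).equivFun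
  let S : Subalgebra F ((K ≃ₐ[F] K) → K) :=
    { carrier := {m | ∀ f ∈ R, e.symm (m * e f) ∈ R}
      mul_mem' := fun {m m'} hm hm' f hf => by simpa [mul_assoc] using hm _ (hm' f hf)
      add_mem' := fun {m m'} hm hm' f hf => by
        rw [add_mul, map_add]; exact R.add_mem (hm f hf) (hm' f hf)
      algebraMap_mem' := fun s f hf => by
        rw [← Algebra.smul_def, ← algebraMap_smul K s, map_smul, algebraMap_smul, e.symm_apply_apply]
        exact R.smul_mem s hf }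
  have key : ∀ x y : K, (∀ f ∈ R, x • f ∘ₗ LinearMap.mul F K y ∈ R) →
      (fun π : K ≃ₐ[F] K => x * π y) ∈ S := fun x y h f hf => by
    convert h f hf using 1
    rw [LinearEquiv.symm_apply_eq]
    ext π
    simp only [e, Basis.equivFun_apply, Pi.mul_apply, map_smul, Pi.smul_apply, autBasis_repr_comp,
      smul_eq_mul]
    ring
  intro f hf
  have : a • f = ∑ π, e.symm (Pi.single π a * e f) := by
    rw [← map_sum, ← Finset.sum_mul, Finset.univ_sum_single (fun _ => a), LinearEquiv.eq_symm_apply,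
      map_smul]
    rfl
  rw [this]
  refine R.sum_mem fun π _ => ?_
  by_cases hπ : π = 1
  · convert hid (a * e f 1) using 1
    ext x
    simp [e, hπ, Pi.single_apply, autBasis_apply]
  · exact single_mem_sym hr h3 S (fun a => key a a (h1 a)) (key t t' h2) ht' ht hπ a f hf

theorem eq_top_of_unip (hr : (finrank F K).Prime) (h3 : 3 ≤ finrank F K)
    {R : Submodule F (K →ₗ[F] K)} (hR : ∀ a : K, ∀ f ∈ R, a • f ∈ R) (hid : LinearMap.id ∈ R)
    {u u' s s' : K →ₗ[F] K} (hu : ∀ x, u' (u x) = x) (hs : ∀ x, s' (s x) = x)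
    (h4 : ∀ f ∈ R, u ∘ₗ f ∘ₗ s ∈ R) (h5 : ∀ f ∈ R, u' ∘ₗ f ∘ₗ s' ∈ R)
    (h1 : ∀ x, u (u x - x) = u x - x) (h2 : ∃ x, u x ≠ x) : R = ⊤ := by
  classical
  let A : Submodule K (K →ₗ[F] K) :=
    { carrier := {α | ∀ f ∈ R, α ∘ₗ f ∈ R}
      add_mem' := fun ha hb f hf => by rw [LinearMap.add_comp]; exact R.add_mem (ha f hf) (hb f hf)
      zero_mem' := fun f _ => by simp
      smul_mem' := fun a α ha f hf => hR a _ (ha f hf) }
  have hA : ∀ α ∈ A, ∀ b, α ∘ₗ LinearMap.mul F K b ∈ A := fun α ha b f hf => ha _ (hR b f hf)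
  by_contra hne
  refine not_norm_of_unip hr h3 h1 h2 fun a => ?_
  have hα : u ∘ₗ LinearMap.mul F K a ∘ₗ u' ∈ A := fun f hf => by
    convert h4 _ (hR a _ (h5 f hf)) using 1
    ext x
    simp [hs]
  refine ⟨(autBasis F K).repr (u ∘ₗ LinearMap.mul F K a ∘ₗ u') 1, fun x => ?_⟩
  have h6 := eq_sum_autBasis (u ∘ₗ LinearMap.mul F K a ∘ₗ u') (u x)
  rw [Finset.sum_eq_single 1 (fun τ _ hτ => ?_) (by simp)] at h6
  · simpa [hu] using h6
  rw [mul_eq_zero]
  left
  by_contra h0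
  have h7 := autBasis_mem hA hα h0
  have h8 : ∀ n : ℕ, autBasis F K (τ ^ n) ∈ A := fun n => by
    induction n with
    | zero => exact fun f hf => by convert hf using 1; ext; simp [autBasis_apply]
    | succ n ih =>
      exact fun f hf => by
        convert ih _ (h7 f hf) using 1; ext; simp [autBasis_apply, pow_succ]
  have h9 : A = ⊤ := by
    rw [eq_top_iff, ← (autBasis F K).span_eq, Submodule.span_le]
    rintro _ ⟨ρ, rfl⟩
    haveI := Fact.mk hr
    obtain ⟨n, rfl⟩ := mem_powers_of_prime_card (IsGalois.card_aut_eq_finrank F K) hτ (g' := ρ)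
    exact h8 n
  refine hne (eq_top_iff.2 fun f _ => ?_)
  have : f ∈ A := h9 ▸ Submodule.mem_top
  simpa using this _ hid

end H62
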