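import Cfsg.Agent.H62.C3U1

set_option autoImplicit false

/-! Extension field subgroups of `SU(V)`: a unipotent element stabilising an isotropic line. -/

namespace H62

open Module H59

variable {F K V : Type*} [Field F] [Field K] [Algebra F K] [AddCommGroup V] [Module F V]
  [Module K V] [IsScalarTower F K V] {σ : F →+* F} {θ : K →+* K}
  {B : V →ₛₗ[σ] V →ₗ[F] F} {b : V →ₛₗ[θ] V →ₗ[K] K} {c : Dual F K} {M : Subgroup (V ≃ₗ[F] V)}

variable (K) in
/-- `M` contains the `K`-linear special isometries. -/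
def HasKSU (M : Subgroup (V ≃ₗ[F] V)) (B : V →ₛₗ[σ] V →ₗ[F] F) : Prop :=
  ∀ e : V ≃ₗ[F] V, (∀ (k : K) v, e (k • v) = k • e v) → e ∈ sisom B → e ∈ M

variable [Finite K]

theorem UTr.exists_skew_mul (h : UTr B b c) {Φ Δ : Submodule F K} (hΦ : Φ ≠ ⊥) (hΔ : Δ ≠ ⊥)
    (hd : finrank F K ≤ finrank F Φ + finrank F Δ) (h0 : ∀ δ ∈ Δ, ∀ y ∈ Φ, c (θ δ * y) = 0) :
    ∃ y ∈ Φ, ∃ l : K, y ≠ 0 ∧ l ≠ 0 ∧ l + θ l = 0 ∧ l * y ∈ Δ := by
  classical
  obtain ⟨p, hp⟩ := CharP.exists K
  have hpp := CharP.char_is_prime K p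
  have : Finite F := Finite.of_injective _ (algebraMap F K).injective
  let β : Φ × Δ →+ Φ × Δ →+ K :=
    { toFun := fun u =>
        { toFun := fun v => θ u.2 * v.1
          map_zero' := by simp
          map_add' := fun _ _ => by simp [mul_add] }
      map_zero' := by ext <;> simp
      map_add' := fun _ _ => by ext <;> simp [add_mul] }
  have h1 := h.dvd_card (p := p) (fun u => by ext <;> simp) (by
    rw [Nat.card_prod, Module.natCard_eq_pow_finrank (K := F) (V := K),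
      Module.natCard_eq_pow_finrank (K := F) (V := Φ),
      Module.natCard_eq_pow_finrank (K := F) (V := Δ), ← pow_add]
    exact Nat.pow_le_pow_right Nat.card_pos hd) β fun u v => h0 _ u.2.2 _ v.1.2
  by_contra! hc
  have h2 : ∀ v : Φ × Δ, ¬ (β v v + θ (β v v) = 0) ↔ v.1 ≠ 0 ∧ v.2 ≠ 0 := fun v => by
    refine ⟨fun h3 => ⟨fun h4 => h3 (by simp [β, h4]), fun h4 => h3 (by simp [β, h4])⟩,
      fun ⟨h3, h4⟩ h5 => ?_⟩
    have h6 : (v.1 : K) ≠ 0 := by simpa using h3
    have h7 : θ v.1 ≠ 0 := (map_ne_zero θ).2 h6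
    refine hc v.1 v.1.2 (v.2 / v.1) h6 (div_ne_zero (by simpa using h4) h6) ?_
      (by rw [div_mul_cancel₀ _ h6]; exact v.2.2)
    have h8 : θ v.2 * v.1 + v.2 * θ v.1 = 0 := by simpa [β, h.hb.invol] using h5
    rw [map_div₀]
    field_simp
    linear_combination h8
  have h3 : ∀ S : Submodule F K, S ≠ ⊥ → ¬ p ∣ Nat.card {x : S // x ≠ 0} ∧ p ∣ Nat.card S :=
    fun S hS => by
      obtain ⟨x, hx, hx0⟩ := Submodule.exists_mem_ne_zero_of_ne_bot hS
      haveI := Fact.mk hpp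
      have h4 : p ∣ Nat.card S := by
        rw [← addOrderOf_eq_prime (x := (⟨x, hx⟩ : S)) (p := p) (by ext; simp) (by simpa)]
        exact addOrderOf_dvd_natCard _
      refine ⟨fun h5 => hpp.one_lt.ne' (Nat.dvd_one.1 ?_), h4⟩
      letI := Fintype.ofFinite S
      have h6 := Fintype.card_subtype_compl (fun x : S => x = 0)
      have h7 : 0 < Fintype.card S := Fintype.card_pos
      rw [Fintype.card_subtype_eq] at h6
      rw [Nat.card_eq_fintype_card] at h4 h5
      exact (Nat.dvd_add_right h5).1 (by rwa [h6, Nat.sub_add_cancel h7])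
  have h4 : p ∣ Nat.card {v : Φ × Δ // ¬ (β v v + θ (β v v) = 0)} := by
    letI := Fintype.ofFinite (Φ × Δ)
    rw [Nat.card_eq_fintype_card] at h1
    rw [Nat.card_eq_fintype_card, Fintype.card_subtype_compl]
    refine Nat.dvd_sub ?_ h1
    rw [← Nat.card_eq_fintype_card, Nat.card_prod]
    exact (h3 Φ hΦ).2.mul_right _
  rw [Nat.card_congr ((Equiv.subtypeEquivRight h2).trans
    (Equiv.subtypeProdEquivProd (p := fun x : Φ => x ≠ 0) (q := fun x : Δ => x ≠ 0))),
    Nat.card_prod, hpp.dvd_mul] at h4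
  exact h4.elim (h3 Φ hΦ).1 (h3 Δ hΔ).1

theorem UTr.exists_iso_mem (h : UTr B b c) {g : V ≃ₗ[F] V} (hg : g ∈ isom B) {w : V}
    (hw : b w w = 0) : ∃ κ : K, κ ≠ 0 ∧ b (g (κ • w)) (g (κ • w)) = 0 := by
  obtain ⟨p, hp⟩ := CharP.exists K
  obtain ⟨ω, hω⟩ := exists_trace_eq h.hB.ne_id h.hB.invol (c := 1) (map_one σ)
  let β : K →+ K →+ K :=
    { toFun := fun u =>
        { toFun := fun v => ω • b (g (u • w)) (g (v • w))
          map_zero' := by simp
          map_add' := fun _ _ => by simp [add_smul] }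
      map_zero' := by ext; simp
      map_add' := fun _ _ => by ext; simp [add_smul] }
  have h1 := h.dvd_card (p := p) (fun u => by simp) le_rfl β fun u v => by
    simp only [β, AddMonoidHom.coe_mk, ZeroHom.coe_mk, map_smul]
    rw [← h.eq, hg, h.kl_sing hw (smul_mem_kl _ _) (smul_mem_kl _ _), smul_zero]
  have : Nonempty {v : K // β v v + θ (β v v) = 0} := ⟨⟨0, by simp⟩⟩
  have h2 := Finite.one_lt_card_iff_nontrivial.1
    ((CharP.char_is_prime K p).one_lt.trans_le (Nat.le_of_dvd Nat.card_pos h1))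
  obtain ⟨⟨κ, h3⟩, h4⟩ := exists_ne (⟨0, by simp⟩ : {v : K // β v v + θ (β v v) = 0})
  refine ⟨κ, fun e => h4 (Subtype.ext e), ?_⟩
  simp only [β, AddMonoidHom.coe_mk, ZeroHom.coe_mk] at h3
  rwa [h.smul, h.hb.self_fixed, ← add_smul, hω, one_smul] at h3

theorem UTr.normK (h : UTr B b c) (h2 : 2 ≤ finrank K V) {g : V ≃ₗ[F] V}
    (hg : ∀ w, w ≠ 0 → b w w = 0 → (kl F K w).map (g : V →ₗ[F] V) = kl F K (g w)) :
    NormK K g := fun k => by
  have hc : ∀ v, v ≠ 0 → b v v = 0 → ∃ a : K, a • g v = g (k • v) := fun v hv hv' =>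
    mem_kl.1 (hg v hv hv' ▸ Submodule.mem_map_of_mem (smul_mem_kl (F := F) k v))
  obtain ⟨e, -, he0, he⟩ := h.hb.exists_isotropic_mem (W := ⊤) (by simpa)
  obtain ⟨a, ha⟩ := hc e he0 he
  have key : ∀ p, b p p = 0 → b e p ≠ 0 → b e p + θ (b e p) = 0 → g (k • p) = a • g p :=
    fun p hp h3 h4 => by
      obtain ⟨a₁, h5⟩ := hc p (by rintro rfl; simp at h3) hp
      obtain ⟨a₂, h6⟩ := hc (e + p) (fun h0 => h3 (by simpa [he] using congrArg (b e) h0)) (by
        rw [h.hb.symm] at h4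
        simpa [he, hp] using h4)
      rw [smul_add, map_add, map_add, ← ha, ← h5] at h6
      have h7 : a₁ = a₂ := by
        by_contra h8
        have h9 : g p ∈ kl F K (g e) := mem_kl.2 ⟨(a₂ - a) / (a₁ - a₂), by
          have := sub_ne_zero.2 h8
          rw [div_eq_inv_mul, mul_smul, inv_smul_eq_iff₀ this]
          linear_combination (norm := module) h6⟩
        rw [← hg e he0 he] at h9
        obtain ⟨x, hx⟩ := mem_kl.1 (show p ∈ kl F K e by simpa using h9)
        simp [← hx, he] at h3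
      rw [← h7, smul_add, add_left_inj] at h6
      rw [← h5, smul_left_injective K (by simpa using he0) h6]
  let W : Submodule K V :=
    { carrier := {v | ∀ x : K, g (k • x • v) = a • g (x • v)}
      add_mem' := fun hu hv x => by simp only [smul_add, map_add, hu x, hv x]
      zero_mem' := fun x => by simp
      smul_mem' := fun y v hv x => by simpa only [mul_smul] using hv (x * y) }
  refine ⟨a, fun v => ?_⟩
  refine (le_or_le_of_isotropic_mem h.hb (W := ⊤) (by simp [h.hb.perp_top]) (by simpa) (A := W)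
    (A' := LinearMap.ker (b e)) (fun p _ hp => or_iff_not_imp_right.2 fun h3 x => ?_)).elim
    (fun h3 => by simpa using h3 (Submodule.mem_top (x := v)) 1)
    fun h3 => absurd (h.hb.nondeg e fun y => h3 Submodule.mem_top) he0
  have h4 : b e p ≠ 0 := h3
  let S : Submodule F K :=
    { carrier := {l | g (k • (l / b e p) • p) = a • g ((l / b e p) • p)}
      add_mem' := fun {l l'} hl hl' => by
        simp only [Set.mem_setOf_eq, add_div, add_smul, smul_add, map_add] at hl hl' ⊢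
        rw [hl, hl']
      zero_mem' := by simp
      smul_mem' := fun s l hl => by
        simp only [Set.mem_setOf_eq, smul_div_assoc, smul_assoc, smul_comm k s, map_smul] at hl ⊢
        rw [hl, smul_comm] }
  have := h.mem_of_skew (S := S) (fun l hl => by
    by_cases h5 : l = 0
    · exact h5 ▸ S.zero_mem
    exact key _ (by simp [hp]) (by simpa [h4]) (by simpa [h4])) (x * b e p)
  simpa [S, h4] using this

variable [FiniteDimensional F V] [FiniteDimensional K V]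

omit [FiniteDimensional F V] in
theorem HasKSU.of_sisom (hK : HasKSU K M B) (h : UTr B b c) {e : V ≃ₗ[K] V} (he : e ∈ sisom b) :
    e.restrictScalars F ∈ M := by
  refine hK _ (fun k v => e.map_smul k v) ⟨fun x y => by simp [h.eq, he.1 x y], Units.ext ?_⟩
  have h1 := congrArg Units.val (mem_sisom.1 he).2
  rw [LinearEquiv.coe_det] at h1 ⊢
  have := LinearMap.det_restrictScalars (R := F) (f := (e : V →ₗ[K] V))
  rw [h1, Units.val_one, map_one] at this
  exact this

omit [FiniteDimensional F V] in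
theorem HasKSU.tv (hK : HasKSU K M B) (h : UTr B b c) {w : V} (hw : b w w = 0) {l : K}
    (hl : l + θ l = 0) : ∃ e ∈ M, ∀ z, e z = z + (l * b w z) • w := by
  obtain ⟨e, he, hx⟩ := h.hb.exists_transv hw hl
  exact ⟨_, hK.of_sisom h (axisGrp_le_sisom hw he), hx⟩

theorem MaxPair.exists_unip {g : V ≃ₗ[F] V} {w w' : V} (h : UTr B b c) (hK : HasKSU K M B)
    (hp : MaxPair K M (fun v => v ≠ 0 ∧ b v v = 0) g w w') (hg : g ∈ isom B) :
    ∃ k ∈ M, (∀ z ∈ (kl F K w').map (g : V →ₗ[F] V), k z ∈ (kl F K w').map (g : V →ₗ[F] V)) ∧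
      (∀ z ∈ (kl F K w').map (g : V →ₗ[F] V), k (k z - z) = k z - z) ∧
      ∃ z ∈ (kl F K w').map (g : V →ₗ[F] V), k z ≠ z := by
  have hmm := fun {k} hk hfix {x} => hp.map_mem (k := k) hk hfix (x := x)
  obtain ⟨x₀, hx₀, hx₀'⟩ := hp.exists_notMem hp.left.1 hp.right.1
  obtain ⟨δ, ⟨hδ, hδ'⟩, hδ0⟩ := Submodule.exists_mem_ne_zero_of_ne_bot hp.pos
  have hd : finrank F ((kl F K w').map (g : V →ₗ[F] V)) = finrank F K := by
    rw [LinearEquiv.finrank_map_eq, finrank_kl hp.right.1]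
  have hs : ∀ x ∈ (kl F K w').map (g : V →ₗ[F] V), ∀ y ∈ (kl F K w').map (g : V →ₗ[F] V),
      B x y = 0 := by
    rintro _ ⟨x, hx, rfl⟩ _ ⟨y, hy, rfl⟩
    exact (hg x y).trans (h.kl_sing hp.right.2 hx hy)
  obtain ⟨hw0, hw⟩ := hp.left
  clear hp
  generalize (kl F K w').map (g : V →ₗ[F] V) = L at *
  obtain ⟨κ, rfl⟩ := mem_kl.1 hδ'
  have hκ : κ ≠ 0 := left_ne_zero_of_smul hδ0
  have T : ∀ l : K, l ≠ 0 → l + θ l = 0 → ∀ x ∈ L, x ∉ kl F K w → (l * b w x) • w ∈ L →
      ∀ y ∈ L, b w y ≠ 0 → ∃ k ∈ M, (∀ z ∈ L, k z ∈ L) ∧ (∀ z ∈ L, k (k z - z) = k z - z) ∧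
        ∃ z ∈ L, k z ≠ z := fun l h0 hl x hx hx' h1 y hy hy' => by
    obtain ⟨k, hk, hkx⟩ := hK.tv h hw hl
    refine ⟨k, hk, hmm hk (fun z _ hz => ?_) hx hx' (hkx x ▸ L.add_mem hx h1),
      fun z _ => by simp [hkx, hw], y, hy, by simp [hkx, h0, hy', hw0]⟩
    obtain ⟨a, rfl⟩ := mem_kl.1 hz
    simp [hkx, hw]
  by_cases hA : ∀ z ∈ L, b w z = 0
  · obtain ⟨d, hd1, hd2⟩ := h.hb.exists_perp_ne_zero (W := K ∙ w) hx₀'
    have hd3 : b d x₀ ≠ 0 := fun h0 => hd2 (h.hb.eq_zero_comm.1 h0)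
    have hd4 : b w d = 0 := mem_perp_singleton.1 hd1
    obtain ⟨a, ha⟩ := exists_trace_eq h.hb.ne_id h.hb.invol
      (h.hb.self_fixed (θ (κ / b d x₀) • d))
    obtain ⟨e, he, hex⟩ := h.hb.exists_eichler hw (u := θ (κ / b d x₀) • d) (by simp [hd4]) ha
    have h1 : ∀ z, b w z = 0 → e.restrictScalars F z = z + (κ / b d x₀ * b d z) • w := fun z hz => by
      simp only [LinearEquiv.restrictScalars_apply, hex, hz, form_smul_left, h.hb.invol]
      simp
    have h2 : ∀ s : K, e.restrictScalars F (s • w) = s • w := fun s => by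
      rw [h1 _ (by simp [hw])]; simp [h.hb.eq_zero_comm.1 hd4]
    have h3 := h1 x₀ (hA _ hx₀)
    rw [div_mul_cancel₀ _ hd3] at h3
    refine ⟨_, hK.of_sisom h he, hmm (hK.of_sisom h he) (fun z _ hz => ?_) hx₀ hx₀'
      (h3 ▸ L.add_mem hx₀ hδ), fun z hz => by rw [h1 z (hA z hz), add_sub_cancel_left, h2],
      x₀, hx₀, by simpa [h3] using hδ0⟩
    obtain ⟨a, rfl⟩ := mem_kl.1 hz
    exact h2 a
  push Not at hA
  obtain ⟨y, hy, hy'⟩ := hA
  by_cases hB : ∀ x ∈ L, b w x = 0 → x ∈ kl F K w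
  · let φ : V →ₗ[F] K := (b w).restrictScalars F
    let τ : K →ₗ[F] V := (LinearMap.toSpanSingleton K V w).restrictScalars F
    obtain ⟨_, ⟨x, hx, rfl⟩, l, h1, h2, h3, h4⟩ := h.exists_skew_mul (Φ := L.map φ) (Δ := L.comap τ)
      (fun h0 => hy' (by
        have : φ y ∈ (⊥ : Submodule F K) := h0 ▸ Submodule.mem_map_of_mem hy
        exact this))
      (fun h0 => hκ (by
        have : κ ∈ (⊥ : Submodule F K) := h0 ▸ hδ
        simpa using this)) (by
        have h1 := (φ.domRestrict L).finrank_range_add_finrank_ker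
        rw [LinearMap.range_domRestrict, LinearMap.ker_domRestrict,
          ← Submodule.finrank_map_subtype_eq, Submodule.map_comap_subtype, hd] at h1
        have h2 : finrank F ↥(L ⊓ LinearMap.ker φ) ≤ finrank F ((L.comap τ).map τ) :=
          Submodule.finrank_mono fun x hx => by
            obtain ⟨a, rfl⟩ := mem_kl.1 (hB x hx.1 hx.2)
            exact ⟨a, hx.1, rfl⟩
        have h3 := Submodule.finrank_map_le τ (L.comap τ)
        omega) (by
        rintro a ha _ ⟨x, hx, rfl⟩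
        exact (h.eq_smul' w x a).symm.trans (hs _ ha _ hx))
    refine T l h2 h3 x hx (fun h0 => h1 ?_) h4 y hy hy'
    obtain ⟨a, rfl⟩ := mem_kl.1 h0
    simp [φ, hw]
  · push Not at hB
    obtain ⟨x, hx, h1, h2⟩ := hB
    obtain ⟨l, h3, h4⟩ := exists_trace_zero_ne_zero h.hb.ne_id h.hb.invol
    exact T l h3 h4 x hx h2 (by simp [h1]) y hy hy'

/-- There is an element acting on an isotropic line as a nontrivial quadratic unipotent map. -/
theorem UTr.exists_unip (h : UTr B b c) (hK : HasKSU K M B) (hMB : ∀ e ∈ M, e ∈ isom B)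
    (h2 : 2 ≤ finrank K V) {g : V ≃ₗ[F] V} (hg : g ∈ M) (hns : ¬ NormK K g) :
    ∃ w, w ≠ 0 ∧ b w w = 0 ∧ ∃ u ∈ M, (∀ z ∈ kl F K w, u z ∈ kl F K w) ∧
      (∀ z ∈ kl F K w, u (u z - z) = u z - z) ∧ ∃ z ∈ kl F K w, u z ≠ z := by
  obtain ⟨g, w, w', hp⟩ : ∃ g w w', MaxPair K M (fun v => v ≠ 0 ∧ b v v = 0) g w w' := by
    obtain ⟨w, hw, hw', hne⟩ : ∃ w, w ≠ 0 ∧ b w w = 0 ∧
        (kl F K w).map (g : V →ₗ[F] V) ≠ kl F K (g w) := by
      by_contra! hc
      exact hns (h.normK h2 hc)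
    obtain ⟨κ, h3, h4⟩ := h.exists_iso_mem (hMB g hg) hw'
    have h5 : g (κ • w) ≠ 0 := by simp [h3, hw]
    refine exists_maxPair hg ⟨h5, h4⟩ ⟨hw, hw'⟩ (fun h0 => hne ?_) fun h0 => h5 ?_
    · have h6 : g w ∈ kl F K (g (κ • w)) := h0 ▸ Submodule.mem_map_of_mem (self_mem_kl w)
      refine (Submodule.eq_of_le_of_finrank_eq (fun x hx => ?_) ?_).symm
      · rw [h0]
        exact (Submodule.span_singleton_le_iff_mem _ (K ∙ g (κ • w))).2 h6 hx
      · rw [LinearEquiv.finrank_map_eq, finrank_kl hw, finrank_kl (by simpa using hw)]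
    · have : g (κ • w) ∈ (⊥ : Submodule F V) :=
        h0 ▸ ⟨Submodule.mem_map_of_mem (smul_mem_kl κ w), self_mem_kl _⟩
      simpa using this
  obtain ⟨k, hk, h3, h4, _, ⟨z, hz, rfl⟩, h5⟩ := hp.exists_unip h hK (hMB g hp.mem)
  refine ⟨w', hp.right.1, hp.right.2, g⁻¹ * k * g,
    M.mul_mem (M.mul_mem (M.inv_mem hp.mem) hk) hp.mem, fun x hx => ?_, fun x hx => ?_, z, hz,
    fun h0 => h5 ?_⟩
  · obtain ⟨y, hy, e⟩ := h3 _ (Submodule.mem_map_of_mem hx)
    simp only [LinearEquiv.coe_coe] at e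
    simpa [← e] using hy
  · have := h4 _ (Submodule.mem_map_of_mem hx)
    simp only [LinearEquiv.coe_coe] at this
    apply g.injective
    simp only [LinearEquiv.mul_apply, LinearEquiv.coe_inv, map_sub g, LinearEquiv.apply_symm_apply,
      this]
  · simpa using congrArg g h0

end H62
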