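import Cfsg.Agent.H62.C3U2
import Cfsg.Agent.H62.C3U3

set_option autoImplicit false

/-! The normaliser of an extension field of odd prime degree is maximal in `SU(V)`. -/

namespace H62

open Module H59

variable {F K V : Type*} [Field F] [Field K] [Algebra F K] [AddCommGroup V] [Module F V]
  [Module K V] [IsScalarTower F K V] {σ : F →+* F} {θ : K →+* K}
  {B : V →ₛₗ[σ] V →ₗ[F] F} {b : V →ₛₗ[θ] V →ₗ[K] K} {c : Dual F K} {M : Subgroup (V ≃ₗ[F] V)}
  {w : V}

/-- Some `K`-linear isometry in `M` multiplies `w` by `t`. -/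
def Alw (M : Subgroup (V ≃ₗ[F] V)) (b : V →ₛₗ[θ] V →ₗ[K] K) (w : V) (t : K) : Prop :=
  ∃ g ∈ M, (∀ (k : K) v, g (k • v) = k • g v) ∧ (∀ x y, b (g x) (g y) = b x y) ∧ g w = t • w

theorem Alw.conj_mem (hw : b w w = 0) {t : K}
    (ht : Alw M b w t) :
    ∀ f ∈ addA M hw, LinearMap.mul F K t ∘ₗ f ∘ₗ LinearMap.mul F K (θ t) ∈ addA M hw := by
  rintro f ⟨e, he, hx⟩
  obtain ⟨g, hg, h1, h2, h3⟩ := ht
  refine ⟨g * e * g⁻¹, M.mul_mem (M.mul_mem hg he) (M.inv_mem hg), fun z => ?_⟩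
  obtain ⟨z, rfl⟩ := g.surjective z
  have : θ t * b w (g z) = b w z := by rw [← form_smul_left, ← h3, h2]
  simp [hx, h1, h3, this, smul_smul, mul_comm]

theorem UTr.conj_stab (h : UTr B b c) (hw : b w w = 0) {v : V} (hv : b w v = 1)
    {u : V ≃ₗ[F] V} (hu : u ∈ M) (huB : u ∈ isom B) (hs : ∀ z ∈ kl F K w, u z ∈ kl F K w) :
    ∃ a s : K →ₗ[F] K, (∀ κ, u (κ • w) = a κ • w) ∧ (∀ z, b w (u⁻¹ z) = s (b w z)) ∧
      ∀ f ∈ addA M hw, a ∘ₗ f ∘ₗ s ∈ addA M hw := by
  have hv' : b v w = 1 := by rw [← h.hb.symm, hv, map_one]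
  let a : K →ₗ[F] K := (b v).restrictScalars F ∘ₗ (u : V →ₗ[F] V) ∘ₗ
    (LinearMap.toSpanSingleton K V w).restrictScalars F
  let s : K →ₗ[F] K := (b w).restrictScalars F ∘ₗ ((u⁻¹ : V ≃ₗ[F] V) : V →ₗ[F] V) ∘ₗ
    (LinearMap.toSpanSingleton K V v).restrictScalars F
  have ha : ∀ κ, u (κ • w) = a κ • w := fun κ => by
    obtain ⟨x, hx⟩ := mem_kl.1 (hs _ (smul_mem_kl κ w))
    have : a κ = x := by
      change b v (u (κ • w)) = x
      rw [← hx]; simp [hv']
    rw [this, hx]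
  have h0 : ∀ z, b w z = 0 → b w (u⁻¹ z) = 0 := fun z hz => h.ext_left fun k => by
    rw [← h.eq_smul', ← huB, ha, LinearEquiv.coe_inv, LinearEquiv.apply_symm_apply, h.eq_smul', hz]
    simp
  have h1 : ∀ z, b w (u⁻¹ z) = s (b w z) := fun z => by
    have := h0 (z - b w z • v) (by simp [hv])
    rwa [map_sub, map_sub, sub_eq_zero] at this
  refine ⟨a, s, ha, h1, ?_⟩
  rintro f ⟨e, he, hx⟩
  refine ⟨u * e * u⁻¹, M.mul_mem (M.mul_mem hu he) (M.inv_mem hu), fun z => ?_⟩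
  rw [LinearEquiv.mul_apply, LinearEquiv.mul_apply, hx, map_add, ha, h1]
  simp

theorem UTr.skew_of_mem (h : UTr B b c) (hMB : ∀ e ∈ M, e ∈ isom B) (hw : b w w = 0) {v : V}
    (hv : b w v = 1) {f : K →ₗ[F] K} (hf : f ∈ addA M hw) (y y' : K) :
    c (θ y * f y') + c (θ (f y) * y') = 0 := by
  obtain ⟨e, he, hx⟩ := hf
  have h1 := hMB e he (y • v) (y' • v)
  have hv' : b v w = 1 := by rw [← h.hb.symm, hv, map_one]
  simp only [hx, h.eq, map_add, LinearMap.add_apply, form_smul_left, form_smul_right, hv, hv', hw,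
    mul_one, mul_zero, add_zero, map_zero] at h1
  rw [mul_comm (θ y), mul_comm (θ (f y))]
  linear_combination h1

variable [Finite K] [FiniteDimensional F V] [FiniteDimensional K V]

theorem HasKSU.alw (hK : HasKSU K M B) (h : UTr B b c) (hw : b w w = 0) (hw0 : w ≠ 0) {t : K}
    (ht : t ≠ 0) (hn : Algebra.norm F t = Algebra.norm F (θ t)) : Alw M b w t := by
  obtain ⟨v, hv, hv0⟩ := h.hb.exists_partner hw hw0
  have hv' : b v w = 1 := by rw [← h.hb.symm, hv, map_one]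
  have ht' : θ t ≠ 0 := (map_ne_zero θ).2 ht
  obtain ⟨d, hd, hd'⟩ := exists_kdil (F := F) (φ := (t - 1) • b v) (w := w) (by simpa [hv'])
  obtain ⟨e, he, he'⟩ := exists_kdil (F := F) (φ := ((θ t)⁻¹ - 1) • b w) (w := v) (by simpa [hv])
  have h1 : ∀ z, (d * e) z = z + (((θ t)⁻¹ - 1) * b w z) • v + ((t - 1) * b v z) • w := fun z => by
    simp [hd, he, hv0]
  have h2 : ∀ (k : K) v, (d * e) (k • v) = k • (d * e) v := fun k v => by
    simp only [h1, map_smul, smul_eq_mul]; module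
  have h3 : ∀ x y, b ((d * e) x) ((d * e) y) = b x y := fun x y => by
    simp only [h1, map_add, LinearMap.add_apply, form_smul_left, form_smul_right, hv, hv', hw, hv0,
      map_mul, map_sub, map_inv₀, map_one, h.hb.invol, h.hb.symm]
    field_simp
    ring
  refine ⟨d * e, hK _ h2 ⟨fun x y => by rw [h.eq, h.eq, h3], Units.ext ?_⟩, h2, h3, by
    simp [h1, hw, hv', sub_smul]⟩
  simp only [LinearMap.smul_apply, hv, hv', smul_eq_mul, mul_one, add_sub_cancel] at hd' he'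
  rw [map_mul, Units.val_mul, LinearEquiv.coe_det, LinearEquiv.coe_det, hd', he', hn, ← map_mul,
    mul_inv_cancel₀ ht', map_one, Units.val_one]

theorem HasKSU.fullU (hK : HasKSU K M B) (h : UTr B b c) (hr : (finrank F K).Prime)
    (h3 : 3 ≤ finrank F K) (hMB : ∀ e ∈ M, e ∈ isom B) (hw : b w w = 0) (hw0 : w ≠ 0) {t : K}
    (ht : Alw M b w t) (ht0 : t ≠ 0) (ht' : t / θ t ∉ (⊥ : Subalgebra F K)) {u : V ≃ₗ[F] V}
    (hu : u ∈ M) (u1 : ∀ z ∈ kl F K w, u z ∈ kl F K w)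
    (u2 : ∀ z ∈ kl F K w, u (u z - z) = u z - z) (u3 : ∃ z ∈ kl F K w, u z ≠ z) (a : K) :
    FullU M B (a • w) := by
  have : Finite F := Finite.of_injective _ (algebraMap F K).injective
  obtain ⟨v, hv, -⟩ := h.hb.exists_partner hw hw0
  obtain ⟨ω, hω⟩ := exists_not_fixed h.hB.ne_id
  have A1 : ∀ x : K, θ x = x → ∀ f ∈ addA M hw,
      LinearMap.mul F K x ∘ₗ f ∘ₗ LinearMap.mul F K x ∈ addA M hw := fun x hx f hf => by
    by_cases h0 : x = 0
    · simp [h0]
    simpa only [hx] using (hK.alw h hw hw0 h0 (by rw [hx])).conj_mem hw f hf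
  have A2 : ∀ x : F, σ x = x → ∀ f ∈ addA M hw, (x * x) • f ∈ addA M hw := fun x hx f hf => by
    convert A1 (algebraMap F K x) (by rw [h.ext, hx]) f hf using 1
    ext y
    simp [← Algebra.smul_def, smul_smul]
  have A3 : ∀ x : F, σ x = x → ∀ f ∈ addA M hw, x • f ∈ addA M hw := fun x hx f hf => by
    by_cases h2 : (2 : F) = 0
    · obtain ⟨y, rfl⟩ := FiniteField.isSquare_of_char_two
        (CharP.ringChar_of_prime_eq_zero Nat.prime_two (by exact_mod_cast h2)) x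
      refine A2 y (sub_eq_zero.1 (pow_eq_zero_iff two_ne_zero |>.1 ?_)) f hf
      rw [map_mul] at hx
      linear_combination hx + (y * y - y * σ y) * h2
    · convert sub_mem (A2 ((x + 1) / 2) (by simp [hx, map_ofNat]) f hf)
        (A2 ((x - 1) / 2) (by simp [hx, map_ofNat]) f hf) using 1
      match_scalars
      field_simp
      ring
  let R : Submodule F (K →ₗ[F] K) :=
    { carrier := {f | ∃ f₁ ∈ addA M hw, ∃ f₂ ∈ addA M hw, f = f₁ + ω • f₂}
      add_mem' := by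
        rintro _ _ ⟨f, h1, f', h2, rfl⟩ ⟨g, h4, g', h5, rfl⟩
        exact ⟨_, add_mem h1 h4, _, add_mem h2 h5, by module⟩
      zero_mem' := ⟨0, zero_mem _, 0, zero_mem _, by simp⟩
      smul_mem' := by
        rintro s _ ⟨f, h1, f', h2, rfl⟩
        have h4 : ω - σ ω ≠ 0 := sub_ne_zero.2 hω.symm
        have h5 : σ ω - ω ≠ 0 := sub_ne_zero.2 hω
        have h6 : σ ((s - σ s) / (ω - σ ω)) = (s - σ s) / (ω - σ ω) := by
          simp only [map_div₀, map_sub, h.hB.invol]; field_simp; ring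
        obtain ⟨x, y, hx, hy, rfl⟩ : ∃ x y : F, σ x = x ∧ σ y = y ∧ s = x + ω * y :=
          ⟨s - ω * ((s - σ s) / (ω - σ ω)), _, by rw [map_sub, map_mul, h6]; field_simp; ring, h6,
            by ring⟩
        refine ⟨_, sub_mem (A3 x hx f h1) (A3 (y * (ω * σ ω)) (by simp [hy, h.hB.invol, mul_comm])
          f' h2), _, add_mem (A3 y hy f h1) (A3 (x + y * (ω + σ ω))
            (by simp [hx, hy, h.hB.invol, add_comm]) f' h2), ?_⟩
        module }
  have R1 : ∀ α β : K →ₗ[F] K, (∀ f ∈ addA M hw, α ∘ₗ f ∘ₗ β ∈ addA M hw) →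
      ∀ f ∈ R, α ∘ₗ f ∘ₗ β ∈ R := by
    rintro α β h1 _ ⟨f, h2, f', h4, rfl⟩
    exact ⟨_, h1 f h2, _, h1 f' h4, by ext; simp⟩
  have R2 : ∀ x, LinearMap.mul F K x ∈ R := fun x => by
    obtain ⟨l, l', h1, h2, rfl⟩ := h.exists_skew hω x
    exact ⟨LinearMap.mul F K l, hK.tv h hw h1, LinearMap.mul F K l', hK.tv h hw h2, by simp⟩
  have R3 : ∀ x : K, ∀ f ∈ R, x • f ∈ R := by
    refine smul_mem_of_sym hr h3 (fun x f hf => ?_) (t := t) (t' := θ t)
      (R1 _ _ (ht.conj_mem hw)) ((map_ne_zero θ).2 ht0) ht' R2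
    obtain ⟨x, y, hx, hy, rfl⟩ := h.exists_fix hω x
    have h1 := R1 _ _ (A1 x hx) f hf
    have h2 := R1 _ _ (A1 y hy) f hf
    have h4 := R1 _ _ (A1 (x + y) (by simp [hx, hy])) f hf
    convert R.add_mem (R.add_mem h1 (R.smul_mem (ω * ω) h2))
      (R.smul_mem ω (R.sub_mem (R.sub_mem h4 h1) h2)) using 1
    ext z
    simp only [LinearMap.smul_apply, LinearMap.comp_apply, LinearMap.mul_apply', add_mul,
      smul_mul_assoc, map_add, map_smul, LinearMap.add_apply, LinearMap.sub_apply, smul_eq_mul,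
      mul_add, mul_smul_comm]
    module
  have u1' : ∀ z ∈ kl F K w, u⁻¹ z ∈ kl F K w := fun z hz =>
    (mem_iff_of_mapsTo u u1 _).2 (by simpa using hz)
  obtain ⟨α, s, h4, h5, h6⟩ := h.conj_stab hw hv hu (hMB u hu) u1
  obtain ⟨α', s', h4', h5', h6'⟩ := h.conj_stab hw hv (M.inv_mem hu) (hMB _ (M.inv_mem hu)) u1'
  have inj := smul_left_injective K hw0
  have hR : R = ⊤ := eq_top_of_unip hr h3 R3 (by convert R2 1 using 1; ext; simp)
    (u := α) (u' := α') (s := s) (s' := s') (fun x => inj (by simp only [← h4, ← h4']; simp))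
    (fun x => by
      have h7 := h5 (x • v)
      have h8 := h5' (u⁻¹ (x • v))
      rw [h7] at h8
      simpa [hv] using h8.symm) (R1 _ _ h6) (R1 _ _ h6')
    (fun x => inj (by simpa only [← h4, sub_smul] using u2 _ (smul_mem_kl x w))) (by
      obtain ⟨z, hz, h7⟩ := u3
      obtain ⟨x, rfl⟩ := mem_kl.1 hz
      exact ⟨x, fun h0 => h7 (by rw [h4, h0])⟩)
  refine ⟨h.kl_sing hw (smul_mem_kl _ _) (smul_mem_kl _ _), fun l hl => ?_⟩
  obtain ⟨f, h7, f', h8, h9⟩ : l • (c ∘ₗ LinearMap.mul F K (θ a)).smulRight a ∈ R :=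
    hR ▸ Submodule.mem_top
  have h10 : ∀ y, (l * c (θ a * y)) • a = f y + ω • f' y := fun y => by
    simpa [smul_smul] using LinearMap.congr_fun h9 y
  have h11 : ∀ y, f' y = 0 := fun y' => h.ext_left fun y => by
    have e1 := congrArg (fun x => c (θ y * x)) (h10 y')
    have e2 := congrArg (fun x => c (θ x * y')) (h10 y)
    have e3 : σ (c (θ a * y)) = c (θ y * a) := by rw [← h.conj, map_mul, h.hb.invol, mul_comm]
    simp only [mul_smul_comm, map_smul, mul_add, map_add, h.smul, smul_mul_assoc, add_mul,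
      smul_eq_mul, map_mul, e3] at e1 e2
    rw [mul_zero, map_zero]
    refine (mul_eq_zero.1 ?_).resolve_left (sub_ne_zero.2 hω.symm)
    linear_combination (c (θ a * y') * c (θ y * a)) * hl - e1 - e2 -
      h.skew_of_mem hMB hw hv h7 y y' - σ ω * h.skew_of_mem hMB hw hv h8 y y'
  obtain ⟨e, he, hx⟩ := h7
  refine ⟨e, he, fun z => ?_⟩
  rw [hx, h.eq_smul', ← smul_assoc, h10, h11, smul_zero, add_zero]

theorem HasKSU.mem_of_fullU (hK : HasKSU K M B) (h : UTr B b c) (hMB : ∀ e ∈ M, e ∈ isom B)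
    (h2 : 2 ≤ finrank K V) (h3 : finrank F V ≠ 3) (hw : b w w = 0) (hw0 : w ≠ 0)
    (hf : ∀ a : K, FullU M B (a • w)) : ∀ e ∈ sisom B, e ∈ M := by
  have : Finite F := Finite.of_injective _ (algebraMap F K).injective
  obtain ⟨ε, hε0, hε⟩ := exists_trace_zero_ne_zero h.hb.ne_id h.hb.invol
  have step : ∀ w p : V, b w w = 0 → b p p = 0 → b w p ≠ 0 → (∀ a : K, FullU M B (a • w)) →
      ∀ a : K, FullU M B (a • p) := fun w p hw hp hwp hf a => by
    have e1 : θ ε = -ε := eq_neg_of_add_eq_zero_right hε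
    have e2 : b p w ≠ 0 := fun h0 => hwp (h.hb.eq_zero_comm.1 h0)
    obtain ⟨k, hk, hkx⟩ := hK.tv h (w := w + (ε / b w p) • p) (by
      simp only [map_add, LinearMap.add_apply, form_smul_left, form_smul_right, hw, hp, map_div₀,
        h.hb.symm, e1]
      field_simp
      ring) (l := ε⁻¹) (by simp [e1, inv_neg])
    have := (hf (-(a * b w p / ε))).conj hk (hMB k hk)
    convert this using 1
    simp only [hkx, map_add, LinearMap.add_apply, form_smul_left, form_smul_right, hw, map_div₀,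
      h.hb.symm, e1]
    match_scalars <;> field_simp <;> ring
  have ex : ∀ x y : V, x ≠ 0 → y ≠ 0 → ∃ v, b v v = 0 ∧ b x v ≠ 0 ∧ b y v ≠ 0 := fun x y hx hy => by
    by_contra! hc
    refine (le_or_le_of_isotropic_mem h.hb (W := ⊤) (by simp [h.hb.perp_top]) (by simpa)
      (A := LinearMap.ker (b x)) (A' := LinearMap.ker (b y))
      (fun p _ hp => or_iff_not_imp_left.2 (hc p hp))).elim
      (fun h4 => hx (h.hb.nondeg x fun z => h4 Submodule.mem_top))
      fun h4 => hy (h.hb.nondeg y fun z => h4 Submodule.mem_top)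
  have all : ∀ p, b p p = 0 → FullU M B p := fun p hp => by
    by_cases h0 : p = 0
    · exact h0 ▸ FullU.zero
    obtain ⟨v, h4, h5, h6⟩ := ex w p hw0 h0
    simpa using step v p h4 hp (fun h7 => h6 (h.hb.eq_zero_comm.1 h7)) (step w v hw h4 h5 hf) 1
  refine mem_of_forall_fullU h.hB (Or.inl h3) fun x hx => ?_
  by_cases h0 : x = 0
  · exact h0 ▸ FullU.zero
  obtain ⟨p, h4, h5, -⟩ := ex x x h0 h0
  obtain ⟨y, h6, h7⟩ : ∃ y : K, y + θ y = b x x ∧ c y ≠ 0 := by
    obtain ⟨y, hy⟩ := exists_trace_eq h.hb.ne_id h.hb.invol (h.hb.self_fixed x)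
    by_cases h6 : c y = 0
    · obtain ⟨l, h7, h8⟩ := h.exists_skew_ne
      exact ⟨y + l, by rw [map_add]; linear_combination hy + h7, by simpa [h6]⟩
    · exact ⟨y, hy, h6⟩
  have h8 : b x ((θ y / b x p) • p) = θ y := by simp [h5]
  have h9 : b ((θ y / b x p) • p) x = y := by rw [← h.hb.symm, h8, h.hb.invol]
  have h10 : b ((θ y / b x p) • p) ((θ y / b x p) • p) = 0 := by simp [h4]
  generalize (θ y / b x p) • p = q at h8 h9 h10
  have := (all q h10).add h.hB (all (x - q) (by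
    simp only [map_sub, LinearMap.sub_apply, h8, h9, h10]
    linear_combination -h6)) (by simpa [h.eq, h9, h10] using h7) (by simpa using hx)
  simpa using this

end H62
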