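import Cfsg.Agent.H62.C3U4
import Cfsg.Agent.H62.C3Mat
import Cfsg.Agent.H62.UPair

set_option autoImplicit false

/-! The normaliser of an adjoint closed extension field of odd prime degree in `SU_n(q)`. -/

namespace H62

open Module Matrix H59 Cfsg Cfsg.Geo

section Abstract

variable {F K V : Type*} [Field F] [Field K] [Algebra F K] [AddCommGroup V] [Module F V]
  [Module K V] [IsScalarTower F K V] {σ : F →+* F} {θ : K →+* K}
  {B : V →ₛₗ[σ] V →ₗ[F] F} {b : V →ₛₗ[θ] V →ₗ[K] K} {c : Dual F K} {M : Subgroup (V ≃ₗ[F] V)}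
  [Finite K]

theorem exists_div_pow_ne_one (hθ : θ ≠ RingHom.id K) (hθ2 : ∀ a, θ (θ a) = a) {Q e : ℕ}
    (hQ : Nat.card K = Q ^ 2) (he0 : 0 < e) (he : e ≤ Q) :
    ∃ s : K, s ≠ 0 ∧ (s / θ s) ^ e ≠ 1 := by
  letI := Fintype.ofFinite K
  obtain ⟨Q', hQ', rfl⟩ := exists_card_eq_sq hθ hθ2
  obtain rfl : Q = Q' := Nat.pow_left_injective two_ne_zero
    (hQ.symm.trans (Nat.card_eq_fintype_card.trans hQ'))
  have h2 := two_le_q hQ'
  by_contra! hc
  have h1 := (FiniteField.forall_pow_eq_one_iff K ((Q - 1) * e)).1 fun x => Units.ext (by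
    have h3 : (x : K) / frob hQ' x = ((x : K) ^ (Q - 1))⁻¹ := by
      rw [frob_apply, ← Nat.sub_add_cancel (show 1 ≤ Q by omega), pow_succ, Nat.add_sub_cancel]
      field_simp
    have := hc x x.ne_zero
    rwa [h3, inv_pow, inv_eq_one, ← pow_mul, ← Units.val_pow_eq_pow_val] at this)
  rw [hQ', sq_sub_one_eq (by omega), mul_comm (Q + 1),
    Nat.mul_dvd_mul_iff_left (by omega)] at h1
  have := Nat.le_of_dvd he0 h1
  omega

theorem mul_sq_le_pow {q r : ℕ} (hq : 2 ≤ q) (hr : 3 ≤ r) (h : ¬ (q = 2 ∧ r = 3)) :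
    (q ^ 2 - 1) * r ≤ q ^ r := by
  obtain ⟨n, rfl⟩ := Nat.exists_eq_add_of_le hr
  have h1 : 3 + n ≤ q ^ (1 + n) := by
    rcases n with _ | n
    · simp at h ⊢; omega
    · refine le_trans ?_ (Nat.pow_le_pow_left hq _)
      have := Nat.lt_two_pow_self (n := n)
      rw [pow_add, pow_succ]
      omega
  calc (q ^ 2 - 1) * (3 + n) ≤ q ^ 2 * q ^ (1 + n) := Nat.mul_le_mul (Nat.sub_le _ _) h1
    _ = q ^ (3 + n) := by ring

variable [FiniteDimensional F V]

theorem su_field_maximal [Fintype F] {q : ℕ} (hF : Fintype.card F = q ^ 2) (h : UTr B b c)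
    (hr : (finrank F K).Prime) (h3 : 3 ≤ finrank F K) (h2 : 2 ≤ finrank K V)
    (hex : 3 ≤ finrank K V ∨ ¬ (q = 2 ∧ finrank F K = 3)) (hK : HasKSU K M B)
    (hMB : ∀ e ∈ M, e ∈ isom B) {g : V ≃ₗ[F] V} (hg : g ∈ M) (hns : ¬ NormK K g) :
    ∀ e ∈ sisom B, e ∈ M := by
  have : Module.Finite K V := Module.Finite.of_restrictScalars_finite F K V
  obtain ⟨w, hw0, hw, u, hu, u1, u2, u3⟩ := h.exists_unip hK hMB h2 hg hns
  have hq := two_le_q hF
  have hQ : Nat.card K = (q ^ finrank F K) ^ 2 := by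
    rw [Module.natCard_eq_pow_finrank (K := F), Nat.card_eq_fintype_card, hF, ← pow_mul, ← pow_mul,
      mul_comm]
  have hq1 : 0 < q ^ 2 - 1 := by have := Nat.pow_le_pow_left hq 2; omega
  have hp : ∀ a : F, a ≠ 0 → a ^ (q ^ 2 - 1) = 1 := fun a ha =>
    hF ▸ FiniteField.pow_card_sub_one_eq_one a ha
  obtain ⟨t, ht, ht0, ht'⟩ : ∃ t, Alw M b w t ∧ t ≠ 0 ∧ t / θ t ∉ (⊥ : Subalgebra F K) := by
    rcases hex with hex | hex
    · obtain ⟨s, hs0, hs⟩ := exists_div_pow_ne_one h.hb.ne_id h.hb.invol hQ hq1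
        ((Nat.sub_le _ _).trans (Nat.pow_le_pow_right (by omega) hr.two_le))
      obtain ⟨e, he, hew⟩ := exists_sisom_map h.hb hex hw0 (smul_ne_zero hs0 hw0) (by simp [hw])
      refine ⟨s, ⟨_, hK.of_sisom h he, e.map_smul, he.1, hew⟩, hs0, fun h0 => hs ?_⟩
      obtain ⟨a, ha⟩ := Algebra.mem_bot.1 h0
      rw [← ha, ← map_pow, hp a, map_one]
      rintro rfl
      exact div_ne_zero hs0 ((map_ne_zero θ).2 hs0) (by rw [← ha, map_zero])
    · obtain ⟨s, hs0, hs⟩ := exists_div_pow_ne_one h.hb.ne_id h.hb.invol hQ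
        (Nat.mul_pos hq1 hr.pos) (mul_sq_le_pow hq h3 hex)
      have hn : ∀ x : K, x ≠ 0 → Algebra.norm F (x ^ (q ^ 2 - 1)) = 1 := fun x hx => by
        rw [map_pow, hp _ (Algebra.norm_ne_zero_iff.2 hx)]
      have hs1 : θ s ≠ 0 := (map_ne_zero θ).2 hs0
      refine ⟨s ^ (q ^ 2 - 1), hK.alw h hw hw0 (pow_ne_zero _ hs0)
        (by rw [map_pow θ, hn s hs0, hn _ hs1]), pow_ne_zero _ hs0, fun h0 => hs ?_⟩
      obtain ⟨a, ha⟩ := Algebra.mem_bot.1 h0
      rw [map_pow θ, ← div_pow] at ha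
      have := hn _ (div_ne_zero hs0 hs1)
      rw [← ha, Algebra.norm_algebraMap] at this
      rw [pow_mul, ← ha, ← map_pow, this, map_one]
  refine hK.mem_of_fullU h hMB h2 ?_ hw hw0 (hK.fullU h hr h3 hMB hw hw0 ht ht0 ht' hu u1 u2 u3)
  rw [← finrank_mul_finrank F K V]
  have := Nat.mul_le_mul h3 h2
  omega

theorem exists_uTr [Nontrivial V] (hB : IsHerm B)
    (had : ∀ k : K, ∃ k' : K, ∀ u v, B (k • u) v = B u (k' • v)) :
    ∃ (θ : K →+* K) (b : V →ₛₗ[θ] V →ₗ[K] K) (c : Dual F K), UTr B b c := by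
  choose f hf using had
  obtain ⟨v₀, hv₀⟩ := hB.exists_self_ne_zero_top finrank_pos
  have hv : v₀ ≠ 0 := by rintro rfl; simp at hv₀
  have uniq : ∀ k k' : K, (∀ u, B u (k • v₀) = B u (k' • v₀)) → k = k' := fun k k' h =>
    smul_left_injective K hv (hB.ext_right h)
  let θ : K →+* K :=
    { toFun := f
      map_one' := uniq _ _ fun u => by rw [← hf, one_smul, one_smul]
      map_mul' := fun x y => uniq _ _ fun u => by
        rw [← hf, mul_smul (f x), ← hf, ← hf, smul_smul, mul_comm]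
      map_zero' := uniq _ _ fun u => by rw [← hf]; simp
      map_add' := fun x y => uniq _ _ fun u => by simp [← hf, add_smul] }
  have hθ : ∀ k u v, B (k • u) v = B u (θ k • v) := hf
  have h1 : ∀ a, θ (θ a) = a := fun a => uniq _ _ fun u => by
    rw [← hθ, ← hB.symm, ← hθ, hB.symm]
  have h2 : ∀ a : F, θ (algebraMap F K a) = algebraMap F K (σ a) := fun a => uniq _ _ fun u => by
    simp [← hθ]
  let c : Dual F K := B v₀ ∘ₗ (LinearMap.toSpanSingleton K V v₀).restrictScalars F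
  have hc : c ≠ 0 := fun h0 => hv₀ (by simpa [c] using LinearMap.congr_fun h0 1)
  have h3 : ∀ x, c (θ x) = σ (c x) := fun x => by
    change B v₀ (θ x • v₀) = σ (B v₀ (x • v₀))
    rw [← hθ, hB.symm]
  choose φ hφ using fun x => exists_comp_eq (K := K) hc (B x)
  have e : ∀ (k : K) x y, c (k * φ x y) = B x (k • y) := fun k x y => by
    rw [← hφ, map_smul, smul_eq_mul]
  let b : V →ₛₗ[θ] V →ₗ[K] K :=
    { toFun := φ
      map_add' := fun x y => LinearMap.ext fun v => dual_mul_ext hc fun k => by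
        simp [mul_add, e]
      map_smul' := fun a x => LinearMap.ext fun v => dual_mul_ext hc fun k => by
        rw [e, hθ, LinearMap.smul_apply, smul_eq_mul, ← mul_assoc, e, smul_smul, mul_comm] }
  refine ⟨θ, b, c, hB, ⟨fun h0 => hB.ne_id (RingHom.ext fun a => (algebraMap F K).injective ?_), h1,
    fun x y => dual_mul_ext hc fun k => ?_, fun x hx => hB.nondeg x fun y => ?_⟩, hc, h2, h3,
    fun x y => (hφ x y).symm⟩
  · rw [← h2, h0]; rfl
  · change c (k * θ (φ x y)) = c (k * φ y x)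
    conv_lhs => rw [← h1 k, ← map_mul, h3, e, ← hθ, hB.symm]
    rw [e]
  · rw [← hφ, show φ x y = 0 from hx y, map_zero]

omit [Finite K] in
theorem UTr.exists_not_normK (h : UTr B b c) (hr : 1 < finrank F K) {v : V} (hv : v ≠ 0)
    (hv0 : b v v = 0) : ∃ e ∈ sisom B, ¬ NormK K e := by
  have h0 : ∀ k : K, B v (k • v) = 0 := fun k => h.kl_sing hv0 (self_mem_kl v) (smul_mem_kl k v)
  have h1 : B v v = 0 := by simpa using h0 1
  obtain ⟨d, hd0, hd⟩ := exists_trace_zero_ne_zero h.hB.ne_id h.hB.invol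
  obtain ⟨e, he', he⟩ := h.hB.exists_transv h1 hd
  refine ⟨e, axisGrp_le_sisom h1 he', fun hn => ?_⟩
  obtain ⟨k, hk⟩ := exists_not_mem_bot (F := F) (K := K) (V := K) hr
  obtain ⟨k', hk'⟩ := hn k
  have h4 := hk' v
  rw [he, he, h0, h1] at h4
  obtain rfl : k = k' := smul_left_injective K hv (by simpa using h4)
  obtain ⟨x, hx, -⟩ := h.hB.exists_partner h1 hv
  have h5 := hk' x
  rw [he, he, hx, mul_one, smul_add, add_right_inj, smul_comm k, mul_smul,
    smul_right_inj hd0, ← algebraMap_smul K (B _ _)] at h5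
  exact hk _ fun y => by
    have h6 := smul_left_injective K hv h5
    conv_rhs => rw [← h6, algebraMap_smul]

end Abstract

theorem isMaximalIn_su_field {F : Type*} [Field F] [Fintype F] {q n r : ℕ}
    (hF : Fintype.card F = q ^ 2) (hr : r.Prime) (h3 : 3 ≤ r) (hlt : r < n)
    (hex : ¬ (q = 2 ∧ n = 6)) {K : Subalgebra F (Matrix (Fin n) (Fin n) F)}
    (hK : IsFieldSubalgebra r K) (had : IsAdjointClosedFor (hermForm n F q) K) :
    IsMaximalIn (GU n F q ⊓ specialLinear (Fin n) F)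
      (subalgebraNormalizer K ⊓ (GU n F q ⊓ specialLinear (Fin n) F)) := by
  have : Nonempty (Fin n) := ⟨⟨0, by omega⟩⟩
  obtain ⟨K', _, _, _, _, _, h0, h1, h2⟩ := exists_field_model hK
  have hB := isHerm_uForm hF n
  obtain ⟨θ, b, c, h⟩ := exists_uTr (K := K') hB fun k => by
    obtain ⟨A, hA, hx⟩ := h2 k
    obtain ⟨A', hA', hy⟩ := had A hA
    obtain ⟨k', hk'⟩ := (h1 A').1 hA'
    refine ⟨k', fun u v => ?_⟩
    rw [← hB.symm, ← hermForm_eq, ← hx, hy, hk', hermForm_eq hF, hB.symm]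
  have h4 := finrank_mul_finrank F K' (Fin n → F)
  rw [h0, finrank_fin_fun] at h4
  have h5 : 2 ≤ finrank K' (Fin n → F) := by
    by_contra h5
    have := Nat.mul_le_mul_left r (show finrank K' (Fin n → F) ≤ 1 by omega)
    omega
  refine isMaximalIn_of_toLE (NormK K') (· ∈ sisom (uForm hF n)) (mem_su_iff hF)
    (fun g => and_congr (mem_subalgebraNormalizer_iff h1 h2 g) (mem_su_iff hF g)) ?_
    fun M hM hle g hg hns => su_field_maximal hF h (h0 ▸ hr) (h0 ▸ h3) h5 ?_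
      (fun e he => hM e (NormK.of_lin he)) (fun e he => (hle e he).1) hg hns
  · obtain ⟨v, -, h6, h7⟩ := h.hb.exists_isotropic_mem (W := ⊤) (by simpa)
    obtain ⟨e, h8, h9⟩ := h.exists_not_normK (h0 ▸ hr.one_lt) h6 h7
    exact ⟨e, h8, h9⟩
  · by_contra! hc
    obtain ⟨h6, h7, h8⟩ := hc
    rw [show finrank K' (Fin n → F) = 2 by omega] at h4
    exact hex ⟨h7, by omega⟩

end H62
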