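import Cfsg.Agent.H71.El4
import Cfsg.Agent.H53.GUClass
import Cfsg.Agent.H53.SpClass
import Cfsg.Agent.H54.SpPrim

/-! Eigenvalue multisets of matrices with a scalar power, conjugacy from traces, and conjugacy of
semisimple elements inside `SL`, `SU`, `Sp`. -/

set_option autoImplicit false
set_option linter.unusedSectionVars false

namespace H62.C6

open Polynomial Matrix H53 Cfsg Cfsg.Geo

variable {ι : Type} [Fintype ι] [DecidableEq ι] {F K : Type*} [Field F] [Field K] [Algebra F K]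
  {A B : Matrix ι ι F} {s t : Multiset K} {r : ℕ} {z : F}

/-- `A` is diagonalisable over `K` with eigenvalue multiset `s`. -/
def Ev (A : Matrix ι ι F) (s : Multiset K) : Prop :=
  ∃ d : ι → K, IsConj (A.map (algebraMap F K)) (diagonal d) ∧ Finset.univ.val.map d = s

theorem exists_fun (h : s.card = Fintype.card ι) : ∃ d : ι → K, Finset.univ.val.map d = s := by
  classical
  let e : ι ≃ s.ToType := Fintype.equivOfCardEq (by rw [Multiset.card_coe, h])
  refine ⟨fun i => (e i : K), ?_⟩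
  rw [show (fun i => (e i : K)) = (fun x : s.ToType => (x : K)) ∘ e from rfl, ← Multiset.map_map,
    Multiset.map_univ_val_equiv, Multiset.map_univ_coe]

theorem map_smul_one (z : F) :
    (z • (1 : Matrix ι ι F)).map (algebraMap F K) = algebraMap F K z • 1 := by
  ext i j; by_cases h : i = j <;> simp [h, Matrix.one_apply]

theorem cp_diag (d : ι → K) :
    (diagonal d).charpoly = ((Finset.univ.val.map d).map fun a => X - C a).prod := by
  rw [charpoly_diagonal, Multiset.map_map]; rfl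

theorem exists_ev (h0 : (r : F) ≠ 0) (hz : z ≠ 0) (hs : (X ^ r - C (algebraMap F K z)).Splits)
    (h : A ^ r = z • 1) : ∃ s : Multiset K, Ev A s := by
  have r0 : r ≠ 0 := by rintro rfl; simp at h0
  have h0' : (r : K) ≠ 0 := by rwa [← map_natCast (algebraMap F K), _root_.map_ne_zero]
  have hz' : algebraMap F K z ≠ 0 := (_root_.map_ne_zero _).2 hz
  have h1 : A.map (algebraMap F K) ^ r = algebraMap F K z • 1 := by
    rw [H71.El.map_pow', h, map_smul_one]
  have h2 := isSS_of_pow_eq_smul h0' hz' h1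
  have h3 : med (A.map (algebraMap F K)) =
      H71.El.lin ((med (A.map (algebraMap F K))).map fun P => -P.coeff 0) := by
    rw [H71.El.lin, Multiset.map_map]
    refine (Multiset.map_id _).symm.trans (Multiset.map_congr rfl fun P hP => ?_)
    have e := (hs.of_dvd (X_pow_sub_C_ne_zero (Nat.pos_of_ne_zero r0) _)
      ((pow_eq_smul_one_iff_med _ _ _).1 h1 P hP)).natDegree_le_one_of_irreducible (h2 P hP)
    have e2 := (med_isPP _ P hP).monic.eq_X_add_C
      (le_antisymm e (Nat.succ_le_of_lt (h2 P hP).natDegree_pos))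
    simpa using e2
  obtain ⟨d, hd⟩ := exists_fun (H71.El.card_lin h3)
  refine ⟨_, d, (h2.isConj_iff (isSS_of_pow_eq_smul (k := r) h0' hz' ?_)).2 ?_, hd⟩
  · rw [diagonal_pow, ← diagonal_one, ← diagonal_smul]
    refine congrArg _ (funext fun i => ?_)
    simpa using (H71.El.pow_lin h3).1 h1 (d i) (hd ▸ Multiset.mem_map_of_mem _ (Finset.mem_univ i))
  · rw [cp_diag, hd, charpoly_eq_prod_med]
    exact congrArg _ h3

theorem exists_ev' [IsAlgClosed K] (h0 : (r : F) ≠ 0) (hz : z ≠ 0) (h : A ^ r = z • 1) :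
    ∃ s : Multiset K, Ev A s := exists_ev h0 hz (IsAlgClosed.splits _) h

theorem trace_eq_of_isConj (h : IsConj A B) : A.trace = B.trace := by
  obtain ⟨c, h⟩ := h
  rw [← c.inv_mul_cancel_left A, h.eq, trace_mul_comm, Units.mul_inv_cancel_right]

namespace Ev

theorem card (h : Ev A s) : s.card = Fintype.card ι := by
  obtain ⟨d, -, rfl⟩ := h; simp

theorem pow (h : Ev A s) (k : ℕ) : Ev (A ^ k) (s.map (· ^ k)) := by
  obtain ⟨d, h, rfl⟩ := h
  refine ⟨d ^ k, ?_, by rw [Multiset.map_map]; rfl⟩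
  rw [← H71.El.map_pow', ← diagonal_pow]
  exact h.pow k

theorem cp (h : Ev A s) : A.charpoly.map (algebraMap F K) = (s.map fun a => X - C a).prod := by
  obtain ⟨d, h, rfl⟩ := h
  rw [← charpoly_map, charpoly_eq_of_isConj h, cp_diag]

theorem roots (h : Ev A s) : (A.charpoly.map (algebraMap F K)).roots = s := by
  rw [h.cp, roots_multiset_prod_X_sub_C]

theorem trace (h : Ev A s) : algebraMap F K A.trace = s.sum := by
  obtain ⟨d, h, rfl⟩ := h
  rw [AddMonoidHom.map_trace, show A.map (algebraMap F K) = A.map (algebraMap F K) from rfl]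
  exact (trace_eq_of_isConj h).trans (trace_diagonal d)

theorem trace_pow (h : Ev A s) (k : ℕ) :
    algebraMap F K (A ^ k).trace = (s.map (· ^ k)).sum := (h.pow k).trace

theorem det (h : Ev A s) : algebraMap F K A.det = s.prod := by
  obtain ⟨d, h, rfl⟩ := h
  rw [RingHom.map_det]
  obtain ⟨c, hc⟩ := h
  have := congrArg Matrix.det hc.eq
  rw [det_mul, det_mul, mul_comm, det_diagonal] at this
  exact mul_right_cancel₀ (isUnit_iff_ne_zero.1 ((isUnit_iff_isUnit_det _).1 c.isUnit)) this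

theorem eq_of_smul (h : Ev A s) (e : A = z • 1) : ∀ x ∈ s, x = algebraMap F K z := by
  obtain ⟨d, ⟨c, h⟩, rfl⟩ := h
  intro x hx
  obtain ⟨i, -, rfl⟩ := Multiset.mem_map.1 hx
  have := h.eq
  rw [e, map_smul_one, Matrix.mul_smul, mul_one, ← smul_one_mul, Units.mul_left_inj] at this
  simpa using (congrFun (congrFun this i) i).symm

theorem pow_eq (h : Ev A s) (e : A ^ r = z • 1) : ∀ x ∈ s, x ^ r = algebraMap F K z :=
  fun _ hx => (h.pow r).eq_of_smul e _ (Multiset.mem_map_of_mem _ hx)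

theorem scalar (h : Ev A s) {a : K} (e : ∀ x ∈ s, x = a) : ∃ z : F, A = z • 1 := by
  obtain ⟨d, ⟨c, h⟩, rfl⟩ := h
  have h1 : diagonal d = a • (1 : Matrix ι ι K) := by
    rw [← diagonal_one, ← diagonal_smul]
    exact congrArg _ (funext fun i => by
      simpa using e _ (Multiset.mem_map_of_mem _ (Finset.mem_univ i)))
  have := h.eq
  rw [h1, smul_one_mul, ← mul_one (c : Matrix ι ι K), ← Matrix.mul_smul, mul_assoc, one_mul,
    Units.mul_right_inj] at this
  rcases isEmpty_or_nonempty ι with h2 | ⟨⟨i⟩⟩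
  · exact ⟨0, Subsingleton.elim _ _⟩
  refine ⟨A i i, Matrix.map_injective (algebraMap F K).injective ?_⟩
  have h3 := congrFun (congrFun this i) i
  simp only [map_apply, Matrix.smul_apply, one_apply_eq, smul_eq_mul, mul_one] at h3
  change A.map _ = (A i i • (1 : Matrix ι ι F)).map _
  rw [map_smul_one, h3, this]

theorem isConj (hA : Ev A s) (hB : Ev B s) (h1 : IsSS A) (h2 : IsSS B) : IsConj A B :=
  (h1.isConj_iff h2).2 (map_injective _ (algebraMap F K).injective (hA.cp.trans hB.cp.symm))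

theorem map_eq {σ : F →+* F} {φ : K →+* K} (hφ : ∀ a, φ (algebraMap F K a) = algebraMap F K (σ a))
    (hA : Ev A s) (hB : Ev B t) (h : B.charpoly = A.charpoly.map σ) : t = s.map φ := by
  have e : B.charpoly.map (algebraMap F K) = ((s.map φ).map fun a => X - C a).prod := by
    rw [h, Polynomial.map_map, show (algebraMap F K).comp σ = φ.comp (algebraMap F K) from
      RingHom.ext fun a => (hφ a).symm, ← Polynomial.map_map, hA.cp, Polynomial.map_multiset_prod,
      Multiset.map_map, Multiset.map_map]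
    exact congrArg _ (Multiset.map_congr rfl fun a _ => by simp)
  rw [← hB.roots, e, roots_multiset_prod_X_sub_C]

end Ev

theorem count_mul [DecidableEq K] {w a : K} (ha : a ^ r = w) (hw : w ≠ 0) (r0 : r ≠ 0)
    (h : ∀ x ∈ s, x ^ r = w) :
    (r : K) * s.count a = ∑ k ∈ Finset.range r, a⁻¹ ^ k * (s.map (· ^ k)).sum := by
  have a0 : a ≠ 0 := by rintro rfl; exact hw (by rw [← ha, zero_pow r0])
  induction s using Multiset.induction_on with
  | empty => simp
  | cons x s ih =>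
    simp only [Multiset.map_cons, Multiset.sum_cons, mul_add, Finset.sum_add_distrib, ← mul_pow,
      Multiset.count_cons, Nat.cast_add]
    rw [ih fun y hy => h y (Multiset.mem_cons_of_mem hy), add_comm]
    congr 1
    split_ifs with e
    · simp [← e, a0]
    · have h1 : a⁻¹ * x - 1 ≠ 0 := fun e' => e (by field_simp at e'; linear_combination -e')
      have h2 := geom_sum_mul (a⁻¹ * x) r
      rw [mul_pow, inv_pow, ha, h x (Multiset.mem_cons_self _ _), inv_mul_cancel₀ hw, sub_self] at h2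
      simp [(mul_eq_zero.1 h2).resolve_right h1]

theorem count_cast [DecidableEq K] (hA : Ev A s) (hB : Ev B t) (h0 : (r : F) ≠ 0) (hz : z ≠ 0)
    (h1 : A ^ r = z • 1) (h2 : B ^ r = z • 1) (h : ∀ k < r, (A ^ k).trace = (B ^ k).trace) (a : K) :
    (s.count a : K) = t.count a := by
  have r0 : r ≠ 0 := by rintro rfl; simp at h0
  have h0' : (r : K) ≠ 0 := by rwa [← map_natCast (algebraMap F K), _root_.map_ne_zero]
  have hz' : algebraMap F K z ≠ 0 := (_root_.map_ne_zero _).2 hz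
  by_cases ha : a ^ r = algebraMap F K z
  · refine mul_left_cancel₀ h0' ?_
    rw [count_mul ha hz' r0 (hA.pow_eq h1), count_mul ha hz' r0 (hB.pow_eq h2)]
    refine Finset.sum_congr rfl fun k hk => ?_
    rw [← hA.trace_pow, ← hB.trace_pow, h k (Finset.mem_range.1 hk)]
  · rw [Multiset.count_eq_zero_of_notMem fun e => ha (hA.pow_eq h1 a e),
      Multiset.count_eq_zero_of_notMem fun e => ha (hB.pow_eq h2 a e)]

theorem isConj_of_traces (p : ℕ) [CharP F p] (hn : Fintype.card ι < p) (h0 : (r : F) ≠ 0)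
    (hz : z ≠ 0) (h1 : A ^ r = z • 1) (h2 : B ^ r = z • 1)
    (h : ∀ k < r, (A ^ k).trace = (B ^ k).trace) : IsConj A B := by
  classical
  obtain ⟨s, hA⟩ := exists_ev' (K := AlgebraicClosure F) h0 hz h1
  obtain ⟨t, hB⟩ := exists_ev' (K := AlgebraicClosure F) h0 hz h2
  obtain rfl : s = t := Multiset.ext.2 fun a => Nat.ModEq.eq_of_lt_of_lt
    ((CharP.natCast_eq_natCast _ p).1 (count_cast hA hB h0 hz h1 h2 h a))
    ((Multiset.count_le_card _ _).trans_lt (hA.card ▸ hn))
    ((Multiset.count_le_card _ _).trans_lt (hB.card ▸ hn))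
  exact hA.isConj hB (isSS_of_pow_eq_smul h0 hz h1) (isSS_of_pow_eq_smul h0 hz h2)

theorem Ev.count_two [DecidableEq K] (hA : Ev A s) (h1 : A ^ 2 = z • 1) (hn : ∀ c : F, A ≠ c • 1)
    {a : K} (ha : a ^ 2 = algebraMap F K z) : 0 < s.count a ∧ s.count a < Fintype.card ι := by
  constructor
  · refine Nat.pos_of_ne_zero fun e => ?_
    obtain ⟨c, hc⟩ := hA.scalar (a := -a) fun x hx =>
      (sq_eq_sq_iff_eq_or_eq_neg.1 ((hA.pow_eq h1 x hx).trans ha.symm)).resolve_left
        fun e' => Multiset.count_eq_zero.1 e (e' ▸ hx)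
    exact hn c hc
  · refine lt_of_le_of_ne (hA.card ▸ Multiset.count_le_card _ _) fun e => ?_
    obtain ⟨c, hc⟩ := hA.scalar (a := a) fun x hx =>
      (Multiset.count_eq_card.1 (e.trans hA.card.symm) x hx).symm
    exact hn c hc

theorem isConj_two (p : ℕ) [CharP F p] (hn : Fintype.card ι ≤ p + 1) (h0 : (2 : F) ≠ 0)
    (hz : z ≠ 0) (h1 : A ^ 2 = z • 1) (h2 : B ^ 2 = z • 1) (n1 : ∀ c : F, A ≠ c • 1)
    (n2 : ∀ c : F, B ≠ c • 1) (h : A.trace = B.trace) : IsConj A B := by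
  classical
  have h0' : ((2 : ℕ) : F) ≠ 0 := by exact_mod_cast h0
  obtain ⟨s, hA⟩ := exists_ev' (K := AlgebraicClosure F) h0' hz h1
  obtain ⟨t, hB⟩ := exists_ev' (K := AlgebraicClosure F) h0' hz h2
  obtain rfl : s = t := Multiset.ext.2 fun a => by
    by_cases ha : a ^ 2 = algebraMap F _ z
    · have e := (CharP.natCast_eq_natCast _ p).1 (count_cast hA hB h0' hz h1 h2 (fun k hk => by
        interval_cases k <;> simp [h]) a)
      obtain ⟨a1, a2⟩ := hA.count_two h1 n1 ha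
      obtain ⟨b1, b2⟩ := hB.count_two h2 n2 ha
      exact e.eq_of_abs_lt (by rw [abs_lt]; constructor <;> omega)
    · rw [Multiset.count_eq_zero_of_notMem fun e => ha (hA.pow_eq h1 a e),
        Multiset.count_eq_zero_of_notMem fun e => ha (hB.pow_eq h2 a e)]
  exact hA.isConj hB (isSS_of_pow_eq_smul h0' hz h1) (isSS_of_pow_eq_smul h0' hz h2)

theorem ms_three {α : Type*} {u v w : α} {s : Multiset α} (h : ∀ x ∈ s, x = u ∨ x = v ∨ x = w) :
    ∃ a b c, s = Multiset.replicate a u + Multiset.replicate b v + Multiset.replicate c w := by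
  induction s using Multiset.induction_on with
  | empty => exact ⟨0, 0, 0, rfl⟩
  | cons x s ih =>
    obtain ⟨a, b, c, rfl⟩ := ih fun y hy => h y (Multiset.mem_cons_of_mem hy)
    rcases h x (Multiset.mem_cons_self _ _) with rfl | rfl | rfl
    · exact ⟨a + 1, b, c, by simp [Multiset.replicate_succ]⟩
    · exact ⟨a, b + 1, c, by simp [Multiset.replicate_succ]⟩
    · exact ⟨a, b, c + 1, by simp [Multiset.replicate_succ]⟩

theorem ms_two {α : Type*} {u v : α} {s : Multiset α} (h : ∀ x ∈ s, x = u ∨ x = v) :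
    ∃ a b, s = Multiset.replicate a u + Multiset.replicate b v := by
  obtain ⟨a, b, c, rfl⟩ := ms_three (u := u) (v := v) (w := v) fun x hx => (h x hx).imp_right Or.inl
  exact ⟨a, b + c, by rw [Multiset.replicate_add, add_assoc]⟩

/-! ### Conjugacy inside the classical groups -/

/-- semisimple elements of `Ω` that are conjugate as matrices are conjugate in `Ω` -/
def Good (Ω : Subgroup (GL ι F)) : Prop := ∀ x ∈ Ω, ∀ y ∈ Ω, IsSS (x : Matrix ι ι F) →
  IsConj (x : Matrix ι ι F) (y : Matrix ι ι F) → ∃ g ∈ Ω, g⁻¹ * x * g = y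

theorem mem_sl {g : GL ι F} : g ∈ specialLinear ι F ↔ (g : Matrix ι ι F).det = 1 :=
  ⟨fun h => congrArg Units.val (MonoidHom.mem_ker.1 h), fun h => Units.ext h⟩

theorem good_sl [Finite F] : Good (specialLinear ι F) := fun x hx y hy h1 h2 => by
  obtain ⟨c, hc⟩ := isConj_iff.1 (IsSS.isConj_sl (a := ⟨_, mem_sl.1 hx⟩) (b := ⟨_, mem_sl.1 hy⟩) h1 h2)
  refine ⟨SpecialLinearGroup.toGL c⁻¹, mem_sl.2 (c⁻¹).2, ?_⟩
  rw [map_inv, inv_inv]
  rw [← map_inv]
  exact Units.ext (congrArg Subtype.val hc)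

theorem good_su [Fintype F] {q n : ℕ} (hF : Fintype.card F = q ^ 2) :
    Good (GU n F q ⊓ specialLinear (Fin n) F) := fun x hx y hy h1 h2 => by
  obtain ⟨c, hc⟩ := isConj_iff.1 (isConj_SU_of_isSS hF (a := ⟨⟨_, mem_sl.1 hx.2⟩, hx.1⟩)
    (b := ⟨⟨_, mem_sl.1 hy.2⟩, hy.1⟩) h1 h2)
  refine ⟨suToGU n F q c⁻¹, ⟨(suToGU n F q c⁻¹).2, mem_sl.2 (c⁻¹).1.2⟩, ?_⟩
  rw [map_inv, Subgroup.coe_inv, inv_inv]
  have := congrArg (fun g => (suToGU n F q g : GL (Fin n) F)) hc
  simp only [map_mul, map_inv, Subgroup.coe_mul, Subgroup.coe_inv] at this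
  convert this using 1 <;> ext1 <;> rfl

theorem good_sp [Finite F] {m : ℕ} : Good (spGL m F) := fun x hx y hy h1 h2 => by
  obtain ⟨c, hc⟩ := isConj_iff.1 ((IsSS.isConj_sp_iff (a := ⟨_, H54.mem_spGL_iff.1 hx⟩)
    (b := ⟨_, H54.mem_spGL_iff.1 hy⟩) h1).2 h2)
  refine ⟨H54.spEquivSpGL m F c⁻¹, (H54.spEquivSpGL m F c⁻¹).2, ?_⟩
  rw [map_inv, Subgroup.coe_inv, inv_inv]
  have := congrArg (fun g => (H54.spEquivSpGL m F g).1) hc
  simp only [map_mul, map_inv, Subgroup.coe_mul, Subgroup.coe_inv] at this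
  convert this using 1 <;> ext1 <;> rfl

/-- every element of `Ω` of projective order `r` is conjugate in `Ω` into `H` -/
abbrev AllN (Ω H : Subgroup (GL ι F)) (r : ℕ) : Prop :=
  ∀ x ∈ Ω, (∃ z : F, ((x ^ r : GL ι F) : Matrix ι ι F) = z • (1 : Matrix ι ι F)) →
    (∀ z : F, (x : Matrix ι ι F) ≠ z • (1 : Matrix ι ι F)) → ∃ g ∈ Ω, g⁻¹ * x * g ∈ H

theorem ne_zero_of_unit [Nonempty ι] {x : GL ι F} (h : (x : Matrix ι ι F) = z • 1) : z ≠ 0 := by
  rintro rfl
  exact x.ne_zero (by simpa using h)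

theorem allN_of [Nonempty ι] {Ω H : Subgroup (GL ι F)} (hΩ : Good Ω) (h0 : (r : F) ≠ 0)
    (h : ∀ x ∈ Ω, ∀ z : F, z ≠ 0 → (x : Matrix ι ι F) ^ r = z • 1 →
      (∀ z : F, (x : Matrix ι ι F) ≠ z • 1) →
      ∃ y ∈ Ω, y ∈ H ∧ IsConj (x : Matrix ι ι F) (y : Matrix ι ι F)) : AllN Ω H r := by
  rintro x hx ⟨z, hz⟩ hn
  have z0 := ne_zero_of_unit hz
  rw [Units.val_pow_eq_pow_val] at hz
  obtain ⟨y, h1, h2, h3⟩ := h x hx z z0 hz hn
  obtain ⟨g, hg, e⟩ := hΩ x hx y h1 (isSS_of_pow_eq_smul h0 z0 hz) h3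
  exact ⟨g, hg, e ▸ h2⟩

theorem AllN.exists {Ω H : Subgroup (GL ι F)} (h : AllN Ω H r) {x : GL ι F} (hx : x ∈ Ω)
    (h1 : (x : Matrix ι ι F) ^ r = z • 1) (h2 : ∀ z : F, (x : Matrix ι ι F) ≠ z • 1) :
    ∃ y ∈ H, IsConj x y := by
  obtain ⟨g, -, e⟩ := h x hx ⟨z, by rw [Units.val_pow_eq_pow_val, h1]⟩ h2
  exact ⟨_, e, isConj_iff.2 ⟨g⁻¹, by rw [inv_inv]⟩⟩

end H62.C6
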