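import Cfsg.Agent.H62.C6E1
import Cfsg.Agent.H25.RowC6
import Cfsg.Agent.H19.AschExtra

/-! Normalisers of groups of symplectic type: the trace formula and the primes that occur. -/

set_option autoImplicit false
set_option linter.unusedSectionVars false

namespace H62.C6

open Matrix Cfsg Cfsg.Geo H25
open scoped commutatorElement

theorem two_mul_card_le {G : Type*} [Group G] [Finite G] {A B : Subgroup G} (h : A < B) :
    2 * Nat.card A ≤ Nat.card B := by
  obtain ⟨k, hk⟩ := Subgroup.card_dvd_of_le h.le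
  have h1 : Nat.card B ≠ Nat.card A := fun e =>
    h.ne (Subgroup.eq_of_le_of_card_ge h.le e.le)
  have h2 := Nat.card_pos (α := B)
  rw [hk] at h1 h2 ⊢
  rw [mul_comm]
  refine Nat.mul_le_mul_left _ ?_
  rcases k with _ | _ | k <;> simp_all

theorem card_modEq {G : Type*} [Group G] [Finite G] {S : Set G} {y : G} {r : ℕ} (hr : r.Prime)
    (hS : ∀ x ∈ S, y * x * y⁻¹ ∈ S) (h : ∀ x, y ^ r * x = x * y ^ r) :
    Nat.card S ≡ Nat.card ↥(S ∩ Subgroup.centralizer {y}) [MOD r] := by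
  classical
  have := Fact.mk hr
  have := Fintype.ofFinite S
  let f : Function.End S := fun x => ⟨_, hS x x.2⟩
  have hf : ∀ k (x : S), ((f ^ k) x : G) = y ^ k * x * (y ^ k)⁻¹ := fun k => by
    induction k with
    | zero => intro x; simp [Function.End.one_def]
    | succ k ih =>
      intro x
      rw [pow_succ']
      change y * ((f ^ k) x : G) * y⁻¹ = _
      rw [ih, pow_succ']; group
  have := Equiv.Perm.card_fixedPoints_modEq (f := f) (p := r) (n := 1) (funext fun x =>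
    Subtype.ext (by rw [pow_one, hf, h, mul_inv_cancel_right]; rfl))
  rw [← Nat.card_eq_fintype_card, ← Nat.card_eq_fintype_card] at this
  refine this.trans (by
    rw [Nat.card_congr (β := ↥(S ∩ Subgroup.centralizer {y})) ⟨fun x => ⟨x.1.1, x.1.2,
      Subgroup.mem_centralizer_singleton_iff.2 (mul_inv_eq_iff_eq_mul.1
        (congrArg Subtype.val x.2)).symm⟩, fun x => ⟨⟨x.1, x.2.1⟩, Subtype.ext
          (mul_inv_eq_iff_eq_mul.2 (Subgroup.mem_centralizer_singleton_iff.1 x.2.2).symm)⟩,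
      fun _ => rfl, fun _ => rfl⟩])

theorem comm_eq_iff {G : Type*} [Group G] {a b c : G} :
    ⁅c, b⁆ = ⁅c, a⁆ ↔ a⁻¹ * b * c = c * (a⁻¹ * b) := by
  simp only [commutatorElement_def]
  constructor <;> intro h
  · calc a⁻¹ * b * c = a⁻¹ * (c * b * c⁻¹ * b⁻¹)⁻¹ * c * b := by group
      _ = _ := by rw [h]; group
  · calc c * b * c⁻¹ * b⁻¹ = c * b * (a⁻¹ * b * c)⁻¹ * a⁻¹ := by group
      _ = _ := by rw [h]; group

variable {ι : Type} [Fintype ι] [DecidableEq ι] {F : Type*} [Field F] {R Ω H : Subgroup (GL ι F)}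
  {x y : GL ι F} {r : ℕ}

theorem sc_comm (h : x ∈ scalars ι F) (y : GL ι F) : x * y = y * x := by
  obtain ⟨c, hc⟩ := (mem_scalars_iff _).1 h
  ext1; simp [hc]

theorem mem_sc_iff [Nonempty ι] : x ∈ scalars ι F ↔ ∃ c : F, (x : Matrix ι ι F) = c • 1 :=
  (mem_scalars_iff _).trans ⟨fun ⟨c, h⟩ => ⟨c, h⟩, fun ⟨c, h⟩ =>
    ⟨Units.mk0 c (ne_zero_of_unit h), h⟩⟩

theorem notMem_sc_iff [Nonempty ι] : x ∉ scalars ι F ↔ ∀ c : F, (x : Matrix ι ι F) ≠ c • 1 := by
  rw [mem_sc_iff, not_exists]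

theorem conj_mem (hy : y ∈ subgroupNormalizer R) (hx : x ∈ R) : y * x * y⁻¹ ∈ R :=
  (Subgroup.mem_normalizer_iff.1 hy x).1 hx

theorem sc_le_N : scalars ι F ≤ subgroupNormalizer R := fun g hg =>
  Subgroup.mem_normalizer_iff.2 fun x => by rw [sc_comm hg, mul_inv_cancel_right]

theorem mem_N [Finite F] (h : ∀ w ∈ R, ∃ u ∈ R, (y : Matrix ι ι F) * w = u * y) :
    y ∈ subgroupNormalizer R := Subgroup.mem_normalizer_fintype fun w hw => by
  obtain ⟨u, hu, e⟩ := h w hw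
  rwa [show y * w * y⁻¹ = u from mul_inv_eq_iff_eq_mul.2 (Units.ext e)]

theorem Spans.smul_of_comm (hR : Spans R) {M : Matrix ι ι F}
    (h : ∀ x ∈ R, (x : Matrix ι ι F) * M = M * x) : ∃ c : F, M = c • 1 := by
  have h1 : ∀ a : Matrix ι ι F, a * M = M * a := fun a => by
    have ha : a ∈ Submodule.span F (matrixSet R) := hR ▸ Submodule.mem_top
    induction ha using Submodule.span_induction with
    | mem a ha => obtain ⟨x, hx, rfl⟩ := ha; exact h x hx
    | zero => simp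
    | add a b _ _ h1 h2 => rw [add_mul, mul_add, h1, h2]
    | smul c a _ h1 => rw [smul_mul_assoc, mul_smul_comm, h1]
  obtain ⟨c, hc⟩ := Matrix.mem_range_scalar_iff_commute_single'.2 fun i j => h1 (single i j 1)
  exact ⟨c, by rw [← hc, scalar_apply, smul_one_eq_diagonal]⟩

/-- spanning group with scalar commutators -/
structure Xs (R : Subgroup (GL ι F)) : Prop where
  sp : Spans R
  cm : ∀ x ∈ R, ∀ y ∈ R, ⁅x, y⁆ ∈ scalars ι F

variable [Nonempty ι] [Finite F]

theorem Xs.gspan (h : Xs R) : H19.gspan R = ⊤ := by rw [← alg_eq_gspan, ← spans_iff]; exact h.sp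

theorem Xs.card_Z (h : Xs R) :
    Nat.card (Subgroup.center R) = Nat.card ↥(R ⊓ scalars ι F) := by
  rw [H19.center_eq_of_span h.gspan, ← Subgroup.inf_subgroupOf_left,
    Nat.card_congr (Subgroup.subgroupOfEquivOfLe inf_le_left).toEquiv]

theorem Xs.card_Z_ne (h : Xs R) : (Nat.card (Subgroup.center R) : F) ≠ 0 := fun e => by
  have := Fintype.ofFinite F
  obtain ⟨k, hk⟩ := H19.card_center_dvd h.gspan
  have h1 := congrArg (Nat.cast : ℕ → F) hk
  rw [Nat.cast_sub Fintype.card_pos, Nat.cast_mul, e] at h1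
  simp at h1

theorem Xs.twirl (h : Xs R) [Fintype R] (A : Matrix ι ι F) : ∃ c : F,
    ∑ x : R, ((x : GL ι F) : Matrix ι ι F) * A * ((x : GL ι F)⁻¹ : GL ι F) = c • 1 ∧
      Fintype.card ι * c = Nat.card R * A.trace := by
  obtain ⟨c, hc⟩ := Spans.smul_of_comm h.sp (M := ∑ x : R, ((x : GL ι F) : Matrix ι ι F) * A *
      ((x : GL ι F)⁻¹ : GL ι F)) fun w hw => by
    rw [Finset.mul_sum, Finset.sum_mul]
    exact Fintype.sum_equiv (Equiv.mulLeft (⟨w, hw⟩ : R)) _ _ fun x => by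
      simp [mul_assoc]
  refine ⟨c, hc, ?_⟩
  have := congrArg trace hc
  rw [trace_sum, trace_smul, trace_one, smul_eq_mul, mul_comm] at this
  rw [← this, Finset.sum_congr rfl fun x _ => show _ = A.trace by
    rw [trace_mul_comm, Units.inv_mul_cancel_left]]
  simp

theorem Xs.trace_formula (h : Xs R) (hy : y ∈ subgroupNormalizer R)
    (hc : ∀ x ∈ R, ⁅x, y⁆ ∈ scalars ι F → x * y = y * x) :
    (Nat.card ↥(R ⊓ Subgroup.centralizer {y}) : F) = Nat.card (Subgroup.center R) *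
      ((y : Matrix ι ι F).trace * ((y⁻¹ : GL ι F) : Matrix ι ι F).trace) := by
  classical
  have := Fintype.ofFinite R
  obtain ⟨c, h1, h2⟩ := h.twirl (y : Matrix ι ι F)
  have n0 := card_ne_zero_of_comm_scalar h.sp h.cm
  have h3 := congrArg (fun a => trace (a * ((y⁻¹ : GL ι F) : Matrix ι ι F))) h1
  simp only [Finset.sum_mul, trace_sum, smul_mul_assoc, one_mul, trace_smul, smul_eq_mul] at h3
  rw [Finset.sum_congr rfl (g := fun x : R => if (x : GL ι F) * y = y * x then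
    (Fintype.card ι : F) else 0) fun x _ => ?_] at h3
  · rw [← Finset.sum_filter, Finset.sum_const, nsmul_eq_mul] at h3
    have h4 : Nat.card ↥(R ⊓ Subgroup.centralizer {y}) =
        (Finset.univ.filter fun x : R => (x : GL ι F) * y = y * x).card := by
      rw [← Fintype.card_subtype, ← Nat.card_eq_fintype_card]
      exact Nat.card_congr ⟨fun x => ⟨⟨x.1, x.2.1⟩, Subgroup.mem_centralizer_singleton_iff.1 x.2.2⟩,
        fun x => ⟨x.1.1, x.1.2, Subgroup.mem_centralizer_singleton_iff.2 x.2⟩, fun _ => rfl,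
        fun _ => rfl⟩
    rw [card_eq_of_comm_scalar h.sp h.cm] at h2
    push_cast at h2
    rw [h4]
    refine mul_left_cancel₀ (mul_ne_zero n0 n0) ?_
    linear_combination (Fintype.card ι : F) * h3 + ((y⁻¹ : GL ι F) : Matrix ι ι F).trace * h2
  · rw [← Units.val_mul, ← Units.val_mul, ← Units.val_mul, ← commutatorElement_def]
    split_ifs with e
    · rw [commutatorElement_eq_one_iff_mul_comm.2 e]; simp
    · refine trace_eq_zero_of_not_scalar h.sp h.cm ?_ fun e' => e (hc _ x.2 e')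
      rw [← commutatorElement_inv]
      exact inv_mem (commutator_mem_of_normalizer hy x.2)

theorem comm_of_coprime (hr : r.Coprime (Nat.card R)) (hy : y ∈ subgroupNormalizer R)
    (h1 : y ^ r ∈ scalars ι F) (hx : x ∈ R) (h2 : ⁅x, y⁆ ∈ scalars ι F) : x * y = y * x := by
  have h3 : ⁅x, y⁆ ∈ R := by
    rw [← commutatorElement_inv]; exact inv_mem (commutator_mem_of_normalizer hy hx)
  have h4 : ⁅x, y⁆ ^ Nat.card R = 1 := congrArg Subtype.val (pow_card_eq_one' (x := (⟨_, h3⟩ : R)))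
  have h5 : ⁅x, y⁆ ^ r * y ^ r = y ^ r := by
    rw [← Commute.mul_pow (sc_comm h2 y), show ⁅x, y⁆ * y = x * y * x⁻¹ by group, conj_pow,
      ← sc_comm h1, mul_inv_cancel_right]
  exact commutatorElement_eq_one_iff_mul_comm.1 ((pow_eq_one_iff_of_coprime hr).1
    ⟨mul_eq_right.1 h5, h4⟩)

theorem Xs.four_le (h : Xs R) (hr : r.Prime) (hd : ¬ r ∣ Nat.card R) (hy : y ∈ subgroupNormalizer R)
    (h1 : y ^ r ∈ scalars ι F) {c : GL ι F} (hc : c ∈ R ⊓ Subgroup.centralizer {y})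
    (hc' : c ∉ scalars ι F) :
    4 * Nat.card (Subgroup.center R) ≤ Nat.card ↥(R ⊓ Subgroup.centralizer {y}) := by
  have cy := Subgroup.mem_centralizer_singleton_iff.1 hc.2
  obtain ⟨a, ha, ac⟩ : ∃ a ∈ R, ⁅c, a⁆ ≠ 1 := by
    by_contra! e
    exact hc' (mem_scalars_of_comm_eq_one h.sp e)
  obtain ⟨b, hb, bc, hb'⟩ : ∃ b ∈ R, ⁅c, b⁆ = ⁅c, a⁆ ∧ b ∈ Subgroup.centralizer {y} := by
    by_contra! e
    have h2 := card_modEq (S := {b | b ∈ R ∧ ⁅c, b⁆ = ⁅c, a⁆}) hr (fun x hx => ⟨conj_mem hy hx.1, by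
      rw [← mul_inv_cancel_right ⁅c, a⁆ y, sc_comm (h.cm _ hc.1 _ ha), ← hx.2,
        conjugate_commutatorElement, ← cy, mul_inv_cancel_right]⟩) (sc_comm h1)
    rw [show {b | b ∈ R ∧ ⁅c, b⁆ = ⁅c, a⁆} ∩ (Subgroup.centralizer {y} : Set (GL ι F)) = ∅ from
      Set.eq_empty_of_forall_notMem fun b hb => e b hb.1.1 hb.1.2 hb.2] at h2
    rw [Nat.card_of_isEmpty (α := (∅ : Set (GL ι F)))] at h2
    refine hd ((Nat.modEq_zero_iff_dvd.1 h2).trans ?_)
    rw [Nat.card_congr (β := ↥(R ⊓ Subgroup.centralizer {c}))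
      (α := {b | b ∈ R ∧ ⁅c, b⁆ = ⁅c, a⁆}) ⟨fun b => ⟨a⁻¹ * (b : GL ι F),
      R.mul_mem (R.inv_mem ha) b.2.1, Subgroup.mem_centralizer_singleton_iff.2 (comm_eq_iff.1 b.2.2)⟩,
      fun b => ⟨a * (b : GL ι F), R.mul_mem ha b.2.1, comm_eq_iff.2 (by
        rw [inv_mul_cancel_left]; exact Subgroup.mem_centralizer_singleton_iff.1 b.2.2)⟩,
      fun _ => by simp, fun _ => by simp⟩]
    exact Subgroup.card_dvd_of_le inf_le_left
  have l1 : R ⊓ scalars ι F < R ⊓ Subgroup.centralizer {y} ⊓ Subgroup.centralizer {c} :=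
    lt_of_le_not_ge (fun w hw => ⟨⟨hw.1, Subgroup.mem_centralizer_singleton_iff.2 (sc_comm hw.2 _)⟩,
      Subgroup.mem_centralizer_singleton_iff.2 (sc_comm hw.2 _)⟩) fun e =>
      hc' (e ⟨hc, Subgroup.mem_centralizer_singleton_iff.2 rfl⟩).2
  have l2 : R ⊓ Subgroup.centralizer {y} ⊓ Subgroup.centralizer {c} < R ⊓ Subgroup.centralizer {y} :=
    lt_of_le_not_ge inf_le_left fun e => ac (bc ▸ commutatorElement_eq_one_iff_mul_comm.2
      (Subgroup.mem_centralizer_singleton_iff.1 (e ⟨hb, hb'⟩).2).symm)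
  have := two_mul_card_le l1
  have := two_mul_card_le l2
  rw [h.card_Z]; omega

/-- The fixed-point count of an element of prime projective order normalising `R`. -/
theorem Xs.exists_m (h : Xs R) (hr : r.Prime) (hd : ¬ r ∣ Nat.card R)
    (hy : y ∈ subgroupNormalizer R) (h1 : y ^ r ∈ scalars ι F) (h2 : y ∉ scalars ι F) :
    ∃ m, m ∣ Fintype.card ι ^ 2 ∧ m < Fintype.card ι ^ 2 ∧ r ∣ Fintype.card ι ^ 2 - m ∧
      (m : F) = (y : Matrix ι ι F).trace * ((y⁻¹ : GL ι F) : Matrix ι ι F).trace ∧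
      (m = 1 ∧ (∀ c ∈ R, c * y = y * c → c ∈ scalars ι F) ∨ 4 ≤ m) := by
  have co := hr.coprime_iff_not_dvd.2 hd
  have l1 : R ⊓ scalars ι F ≤ R ⊓ Subgroup.centralizer {y} := fun w hw =>
    ⟨hw.1, Subgroup.mem_centralizer_singleton_iff.2 (sc_comm hw.2 _)⟩
  obtain ⟨m, hm⟩ := Subgroup.card_dvd_of_le l1
  rw [← h.card_Z, mul_comm] at hm
  have e1 := card_eq_of_comm_scalar h.sp h.cm
  have z0 := Nat.card_pos (α := Subgroup.center R)
  have d1 : m ∣ Fintype.card ι ^ 2 := Nat.dvd_of_mul_dvd_mul_right z0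
    (hm ▸ e1 ▸ Subgroup.card_dvd_of_le inf_le_left)
  have d2 : m < Fintype.card ι ^ 2 := lt_of_le_of_ne (Nat.le_of_dvd (by positivity) d1) fun e => by
    have := Subgroup.eq_of_le_of_card_ge (inf_le_left (b := Subgroup.centralizer {y}) (a := R))
      (by rw [hm, e1, e])
    exact h2 (mem_scalars_of_comm_eq_one h.sp fun x hx => commutatorElement_eq_one_iff_mul_comm.2
      (Subgroup.mem_centralizer_singleton_iff.1 (this.ge hx).2).symm)
  refine ⟨m, d1, d2, ?_, ?_, ?_⟩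
  · have := card_modEq (S := R) hr (fun x hx => conj_mem hy hx) (sc_comm h1)
    change Nat.card R ≡ Nat.card ↥(R ⊓ Subgroup.centralizer {y}) [MOD r] at this
    rw [hm, e1] at this
    exact (Nat.modEq_iff_dvd' d2.le).1 (Nat.ModEq.cancel_right_of_coprime
      (Nat.Coprime.coprime_mul_left_right (e1 ▸ co)) this).symm
  · have := h.trace_formula hy fun x hx => comm_of_coprime co hy h1 hx
    rw [hm, Nat.cast_mul, mul_comm] at this
    exact mul_left_cancel₀ h.card_Z_ne this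
  · by_cases e : ∀ c ∈ R, c * y = y * c → c ∈ scalars ι F
    · refine Or.inl ⟨?_, e⟩
      have := Subgroup.card_le_of_le (show R ⊓ Subgroup.centralizer {y} ≤ R ⊓ scalars ι F from
        fun w hw => ⟨hw.1, e w hw.1 (Subgroup.mem_centralizer_singleton_iff.1 hw.2)⟩)
      rw [hm, ← h.card_Z] at this
      have m0 : m ≠ 0 := by rintro rfl; simp at d1
      have := Nat.le_of_mul_le_mul_right (this.trans (one_mul _).ge) z0
      omega
    · push Not at e
      obtain ⟨c, hc, e1, e2⟩ := e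
      have := h.four_le hr hd hy h1 ⟨hc, Subgroup.mem_centralizer_singleton_iff.2 e1⟩ e2
      rw [hm] at this
      exact Or.inr (Nat.le_of_mul_le_mul_right this z0)

theorem Xs.four (h : Xs R) (hn : Fintype.card ι = 4) (hr : r.Prime) (hd : ¬ r ∣ Nat.card R)
    (h0 : r ≠ 2) (hy : y ∈ subgroupNormalizer R) (h1 : y ^ r ∈ scalars ι F) (h2 : y ∉ scalars ι F) :
    ((r = 3 ∨ r = 5) ∧ (y : Matrix ι ι F).trace * ((y⁻¹ : GL ι F) : Matrix ι ι F).trace = 1 ∧
      ∀ c ∈ R, c * y = y * c → c ∈ scalars ι F) ∨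
      r = 3 ∧ (y : Matrix ι ι F).trace * ((y⁻¹ : GL ι F) : Matrix ι ι F).trace = 4 := by
  obtain ⟨m, d1, d2, d3, d4, d5⟩ := h.exists_m hr hd hy h1 h2
  rw [hn] at d1 d2 d3
  have k : ∀ {a b : ℕ}, a.Prime → r ∣ a ^ b → r = a := fun ha e =>
    (Nat.prime_dvd_prime_iff_eq hr ha).1 (hr.dvd_of_dvd_pow e)
  rcases d5 with ⟨rfl, d5⟩ | d5
  · exact Or.inl ⟨((Nat.Prime.dvd_mul hr (m := 3) (n := 5)).1 d3).imp
      (k (b := 1) Nat.prime_three) (k (b := 1) Nat.prime_five), by simpa using d4.symm, d5⟩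
  · interval_cases m <;> simp at d1
    · exact Or.inr ⟨(((Nat.Prime.dvd_mul hr (m := 3) (n := 2 ^ 2)).1 d3).resolve_right
        fun e => h0 (k Nat.prime_two e)) |> k (b := 1) Nat.prime_three, by simpa using d4.symm⟩
    · exact (h0 (k (b := 3) Nat.prime_two d3)).elim

theorem Xs.small (h : Xs R) (hr : r.Prime) (hd : ¬ r ∣ Nat.card R)
    (hy : y ∈ subgroupNormalizer R) (h1 : y ^ r ∈ scalars ι F) (h2 : y ∉ scalars ι F) :
    (Fintype.card ι = 2 → r = 3) ∧ (Fintype.card ι = 3 → r = 2) := by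
  obtain ⟨m, d1, d2, d3, -, d5⟩ := h.exists_m hr hd hy h1 h2
  refine ⟨fun hn => ?_, fun hn => ?_⟩ <;> rw [hn] at d1 d2 d3 <;> rcases d5 with ⟨rfl, -⟩ | d5
  · exact (Nat.prime_dvd_prime_iff_eq hr Nat.prime_three).1 d3
  · omega
  · exact (Nat.prime_dvd_prime_iff_eq hr Nat.prime_two).1 (hr.dvd_of_dvd_pow (n := 3) d3)
  · interval_cases m <;> simp at d1

theorem AllN.prime (h : AllN Ω H r) (hr : r.Prime) (hd : r ∣ H.relIndex Ω) {n : ℕ} (hn : ¬ r ∣ n)
    (hs : ∀ x ∈ Ω, ∀ c : F, (x : Matrix ι ι F) = c • 1 → c ^ n = 1) :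
    ∃ y ∈ H, y ^ r ∈ scalars ι F ∧ y ∉ scalars ι F := by
  have := Fact.mk hr
  obtain ⟨x, hx⟩ := exists_prime_orderOf_dvd_card' (G := Ω) r
    (hd.trans (Subgroup.relIndex_dvd_card H Ω))
  have h1 : (x : GL ι F) ^ r = 1 := by rw [← hx]; exact congrArg Subtype.val (pow_orderOf_eq_one x)
  have h2 : ∀ c : F, ((x : GL ι F) : Matrix ι ι F) ≠ c • 1 := fun c e => by
    have e1 := congrArg Units.val h1
    rw [Units.val_pow_eq_pow_val, e, smul_pow, one_pow, Units.val_one] at e1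
    obtain ⟨i⟩ := ‹Nonempty ι›
    have e2 : c = 1 := (pow_eq_one_iff_of_coprime (hr.coprime_iff_not_dvd.2 hn)).1
      ⟨by simpa using congrFun (congrFun e1 i) i, hs _ x.2 c e⟩
    rw [e2, one_smul] at e
    rw [show x = 1 from Subtype.ext (Units.ext e), orderOf_one] at hx
    exact hr.one_lt.ne hx
  obtain ⟨y, hy, e⟩ := h.exists (z := 1) x.2 (by rw [← Units.val_pow_eq_pow_val, h1]; simp) h2
  obtain ⟨g, rfl⟩ := isConj_iff.1 e
  refine ⟨_, hy, by rw [conj_pow, h1]; simpa using one_mem _, fun e => notMem_sc_iff.2 h2 ?_⟩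
  have := sc_comm e g
  rw [inv_mul_cancel_right, mul_right_inj] at this
  rwa [this]

theorem sl_pow (hx : x ∈ specialLinear ι F) {z : F} (h : (x : Matrix ι ι F) ^ r = z • 1) :
    z ^ Fintype.card ι = 1 := by
  have := congrArg det h
  rwa [det_pow, mem_sl.1 hx, one_pow, det_smul, det_one, mul_one, eq_comm] at this

end H62.C6
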