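import Cfsg.Agent.H62.Decomp

set_option autoImplicit false

/-! Stabilisers of decompositions into subspaces of dimension at least two are maximal in `SL(V)`. -/

namespace H62

open Module

variable {F V : Type*} [Field F] [AddCommGroup V] [Module F V] [FiniteDimensional F V]
  {ι : Type*} [Fintype ι] {D : ι → Submodule F V} {π : ι → V →ₗ[F] V}
  {M : Subgroup (V ≃ₗ[F] V)} {m : ℕ}

theorem exists_dil {φ : Dual F V} {u : V} (h : 1 + φ u ≠ 0) :
    ∃ e : V ≃ₗ[F] V, ∀ x, e x = x + φ x • u :=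
  ⟨LinearMap.equivOfDetNeZero (LinearMap.transvection φ u) (by rwa [LinearMap.transvection.det]),
    fun x => LinearMap.transvection.apply φ u x⟩

/-- The functional vanishes on all members but the `j`-th. -/
def LocOn (D : ι → Submodule F V) (j : ι) (χ : Dual F V) : Prop :=
  ∀ k, k ≠ j → ∀ v ∈ D k, χ v = 0

omit [FiniteDimensional F V] in
theorem IsProj.locOn (h : IsProj D π) (χ : Dual F V) (j : ι) : LocOn D j (χ ∘ₗ π j) :=
  fun k hk v hv => by simp [h.of_ne j k hk.symm v hv]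

omit [FiniteDimensional F V] in
theorem IsProj.loc_apply (h : IsProj D π) {χ : Dual F V} {j : ι} (hχ : LocOn D j χ) (v : V) :
    χ v = χ (π j v) := by
  conv_lhs => rw [← h.sum v, map_sum]
  exact Finset.sum_eq_single j (fun k _ hk => hχ k hk _ (h.mem k v)) (by simp)

omit [FiniteDimensional F V] in
theorem IsProj.exists_loc (h : IsProj D π) {j : ι} {x y : V} (hx : x ∈ D j) (hy : y ∈ D j)
    (hxy : x ∉ F ∙ y) : ∃ χ, LocOn D j χ ∧ χ x = 1 ∧ χ y = 0 := by
  obtain ⟨χ, h1, h2⟩ := exists_dual_pair hxy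
  exact ⟨_, h.locOn χ j, by simp [h.of_mem hx, h1], by simp [h.of_mem hy, h2]⟩

omit [FiniteDimensional F V] [Fintype ι] in
theorem LocOn.fix {i : ι} {φ : Dual F V} (hφ : LocOn D i φ) {u : V} (hu : u ∈ D i) (c : F) (k : ι)
    (v : V) (hv : v ∈ D k) : v + (c * φ v) • u ∈ D k := by
  by_cases h : k = i
  · exact h ▸ add_mem (h ▸ hv) (Submodule.smul_mem _ _ hu)
  · simpa [hφ k h v hv] using hv

omit [Fintype ι] in
theorem loc_tv (hM : ∀ e, StabD D e → LinearMap.det (e : V →ₗ[F] V) = 1 → e ∈ M) {i : ι}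
    {φ : Dual F V} (hφ : LocOn D i φ) {u : V} (hu : u ∈ D i) (h0 : φ u = 0) : HasTv M φ u :=
  hasTv_of_forall h0 fun g hg => hM g
    (.of_fix fun k v hv => by simpa [hg] using hφ.fix hu 1 k v hv) (by simp [det_of_tv hg, h0])

omit [Fintype ι] in
theorem loc_dil2 (hM : ∀ e, StabD D e → LinearMap.det (e : V →ₗ[F] V) = 1 → e ∈ M) {i j : ι}
    (hij : i ≠ j) {φ χ : Dual F V} (hφ : LocOn D i φ) (hχ : LocOn D j χ) {u z : V} (hu : u ∈ D i)
    (hz : z ∈ D j) (h1 : φ u = 1) (h2 : χ z = 1) {a : F} (ha : a ≠ 0) :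
    ∃ d ∈ M, ∀ x, d x = x + ((a - 1) * φ x) • u + ((a⁻¹ - 1) * χ x) • z := by
  obtain ⟨e, he⟩ := exists_dil (φ := (a - 1) • φ) (u := u) (by simpa [h1])
  obtain ⟨e', he'⟩ := exists_dil (φ := (a⁻¹ - 1) • χ) (u := z) (by simpa [h2])
  refine ⟨e * e', hM _ (.of_fix fun k v hv => ?_) ?_, fun x => ?_⟩
  · rw [LinearEquiv.mul_apply, he, he']
    exact hφ.fix hu _ k _ (hχ.fix hz _ k v hv)
  · simp [LinearMap.det_comp, det_of_tv he, det_of_tv he', h1, h2, ha]
  · simp only [LinearEquiv.mul_apply, he, he', map_add, map_smul, hφ j hij.symm z hz,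
      LinearMap.smul_apply, smul_eq_mul]
    module

theorem IsProj.mem_of_root (h : IsProj D π) (hm : ∀ i, finrank F (D i) = m)
    (hM : ∀ e, StabD D e → LinearMap.det (e : V →ₗ[F] V) = 1 → e ∈ M) {i j : ι} (hij : i ≠ j)
    (hm0 : 0 < m) (hR : ∀ x ∈ D i, ∀ χ, LocOn D j χ → HasTv M χ x) (e : V ≃ₗ[F] V)
    (he : LinearMap.det (e : V →ₗ[F] V) = 1) : e ∈ M := by
  classical
  have sw : ∀ a b i j, (∀ x ∈ D i, ∀ χ, LocOn D j χ → HasTv M χ x) →
      ∀ x ∈ D (Equiv.swap a b i), ∀ χ, LocOn D (Equiv.swap a b j) χ → HasTv M χ x := by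
    intro a b i j hR x hx χ hχ
    by_cases hab : a = b
    · simp only [hab, Equiv.swap_self, Equiv.refl_apply] at hx hχ
      exact hR x hx χ hχ
    obtain ⟨s, -, -, -, hs⟩ := h.exists_swap hab (LinearEquiv.ofFinrankEq _ _ (by rw [hm, hm]))
    obtain ⟨u, hu, hu0⟩ := exists_mem_notMem (W := D a) (Z := ⊥) (by simpa [hm])
    obtain ⟨φ, p1, p2, -⟩ := h.exists_loc hu (zero_mem _) (by simpa using hu0)
    have hd := (LinearEquiv.isUnit_det' s).ne_zero
    obtain ⟨d, hd'⟩ := exists_dil (φ := ((LinearMap.det (s : V →ₗ[F] V))⁻¹ - 1) • φ) (u := u)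
      (by simpa [p2])
    have p3 : ∀ k, ∀ v ∈ D k, (s * d) v ∈ D (Equiv.swap a b k) := fun k v hv => by
      rw [LinearEquiv.mul_apply, hd']
      exact hs k _ (p1.fix hu _ k v hv)
    obtain ⟨y, hy, rfl⟩ : x ∈ (D i).map (s * d : V ≃ₗ[F] V).toLinearMap := by
      rwa [Submodule.eq_of_le_of_finrank_eq (Submodule.map_le_iff_le_comap.2 (p3 i))
        (by rw [LinearEquiv.finrank_map_eq, hm, hm])]
    exact (hR y hy (χ ∘ₗ (s * d : V ≃ₗ[F] V).toLinearMap) fun k hk v hv =>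
      hχ _ ((Equiv.swap a b).injective.ne hk) _ (p3 k v hv)).conj' (hM _ (stabD_of_le hm _ _ p3)
        (by simp [LinearMap.det_comp, det_of_tv hd', p2, hd])) fun _ => rfl
  have hI := DirectSum.isInternal_submodule_of_iSupIndep_of_iSup_eq_top (A := D)
    (fun k => Submodule.disjoint_def.2 fun x hx hx' => by
      rw [← h.of_mem hx]
      exact (iSup₂_le fun l hl v hv => h.of_ne k l (Ne.symm hl) v hv :
        _ ≤ LinearMap.ker (π k)) hx')
    (eq_top_iff.2 fun v _ => h.sum v ▸ sum_mem fun k _ => Submodule.mem_iSup_of_mem k (h.mem k v))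
  refine mem_of_det_eq_one_of_basis (hI.collectedBasis fun k => finBasis F (D k))
    (fun r s hrs c => ?_) e he
  have p1 : LocOn D s.1 (c • (hI.collectedBasis fun k => finBasis F (D k)).coord s) :=
    fun k hk v hv => by
      rw [LinearMap.smul_apply, Basis.coord_apply, hI.collectedBasis_repr_of_mem_ne _ hk hv,
        smul_zero]
  have p2 := hI.collectedBasis_mem (fun k => finBasis F (D k)) r
  by_cases h1 : r.1 = s.1
  · refine loc_tv hM p1 (h1 ▸ p2) ?_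
    rw [LinearMap.smul_apply, Basis.coord_apply, Basis.repr_self, Finsupp.single_eq_of_ne hrs.symm,
      smul_zero]
  have := sw (Equiv.swap i r.1 j) s.1 _ _ (sw i r.1 i j hR)
  rw [Equiv.swap_apply_left, Equiv.swap_apply_left, Equiv.swap_apply_of_ne_of_ne
    (fun e => hij ((Equiv.swap i r.1).injective (by rw [← e, Equiv.swap_apply_left]))) h1] at this
  exact this _ p2 _ p1

theorem IsProj.root_of_mixed (h : IsProj D π) (hm : ∀ i, finrank F (D i) = m) (h2 : 2 ≤ m)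
    (hM : ∀ e, StabD D e → LinearMap.det (e : V →ₗ[F] V) = 1 → e ∈ M) {i j : ι} (hij : i ≠ j)
    {x y : V} (hx : x ∈ D i) (hx0 : x ≠ 0) {χ : Dual F V} (hχ : LocOn D j χ) (hy : y ∈ D j)
    (h1 : χ y ≠ 0) (ht : HasTv M χ x) : ∀ x ∈ D i, ∀ χ, LocOn D j χ → HasTv M χ x := by
  have room : ∀ k (v : V), ∃ z ∈ D k, z ∉ F ∙ v := fun k v => exists_mem_notMem (by
    have := finrank_span_le_card (R := F) ({v} : Set V)
    simp at this; rw [hm]; omega)
  have a1 : ∀ χ', LocOn D j χ' → HasTv M χ' x := by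
    have step : ∀ χ', LocOn D j χ' → ∀ y ∈ D j, χ y ≠ 0 → χ' y = 0 → HasTv M χ' x :=
      fun χ' h' y hy p1 p2 => by
        simpa [p1] using (loc_tv hM h' (Submodule.smul_mem _ (χ y)⁻¹ hy) (by simp [p2])).comm_left
          (by simp [p2]) ht (hχ i hij x hx) (h' i hij x hx)
    intro χ' h'
    obtain ⟨z, hz, hz0, hz'⟩ := exists_mem_notMem_ker [χ] (W := D j) (Z := ⊥) (by simp [hm]; omega)
    have p1 : χ (y + z) ≠ 0 := by simpa [hz' χ (by simp)]
    obtain ⟨η, q1, q2, q3⟩ := h.exists_loc hy (add_mem hy hz) fun e => by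
      obtain ⟨c, hc⟩ := Submodule.mem_span_singleton.1 e
      have := congrArg χ hc
      simp only [map_smul, map_add, hz' χ (by simp), add_zero, smul_eq_mul, mul_eq_right₀ h1] at this
      simp [this] at hc hz0
      exact hz0 hc
    simpa using (step (χ' - χ' y • η) (fun k hk v hv => by simp [h' k hk v hv, q1 k hk v hv]) y hy h1
      (by simp [q2])).add_left (step (χ' y • η) (fun k hk v hv => by simp [q1 k hk v hv]) _
        (add_mem hy hz) p1 (by rw [LinearMap.smul_apply, q3, smul_zero]))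
        (by simp [h' i hij x hx, q1 i hij x hx])
  intro x' hx' χ' h'
  have step : ∀ x' ∈ D i, x' ∉ F ∙ x → HasTv M χ' x' := fun x' p1 p2 => by
    obtain ⟨η, q1, q2, q3⟩ := h.exists_loc hx p1 (notMem_span_symm hx0 p2)
    simpa [q2] using (loc_tv hM q1 p1 q3).comm_right q3 (a1 χ' h') (h' i hij x hx) (h' i hij _ p1)
  by_cases h3 : x' ∈ F ∙ x
  · obtain ⟨z, hz, hz'⟩ := room i x
    simpa using (step _ (add_mem hx' hz) fun e => hz' (by simpa using sub_mem e h3)).sub_right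
      (step z hz hz') (h' i hij z hz)
  · exact step x' hx' h3

theorem IsProj.mem_of_tv (h : IsProj D π) (hm : ∀ i, finrank F (D i) = m) (h2 : 2 ≤ m)
    (hM : ∀ e, StabD D e → LinearMap.det (e : V →ₗ[F] V) = 1 → e ∈ M) {k : ι} {ψ : Dual F V}
    {w y : V} (ht : HasTv M ψ w) (h0 : ψ w = 0) (hw : w ≠ 0) (hk : π k w = 0) (hy : y ∈ D k)
    (h1 : ψ y ≠ 0) (e : V ≃ₗ[F] V) (he : LinearMap.det (e : V →ₗ[F] V) = 1) : e ∈ M := by
  have room : ∀ k (v : V), ∃ z ∈ D k, z ∉ F ∙ v := fun k v => exists_mem_notMem (by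
    have := finrank_span_le_card (R := F) ({v} : Set V)
    simp at this; rw [hm]; omega)
  obtain ⟨z, hz, hz'⟩ := room k y
  obtain ⟨χ, p1, p2, p3⟩ := h.exists_loc hz hy hz'
  have p4 : χ w = 0 := by rw [h.loc_apply p1, hk, map_zero]
  obtain ⟨j, hj⟩ := h.exists_ne_zero hw
  have hjk : j ≠ k := fun e => hj (e ▸ hk)
  obtain ⟨x, hx, hx'⟩ := room j (π j w)
  obtain ⟨η, q1, q2, q3⟩ := h.exists_loc (h.mem j w) hx (notMem_span_symm hj hx')
  have := (loc_tv hM q1 hx q3).comm_right q3 ((loc_tv hM p1 hy p3).comm_left p3 ht h0 p4)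
    (by simp [p4]) (by simp [p1 j hjk x hx])
  rw [h.loc_apply q1, q2, one_smul] at this
  exact h.mem_of_root hm hM hjk (by omega) (h.root_of_mixed hm h2 hM hjk hx
    (fun e => hx' (by simp [e])) (fun l hl v hv => by simp [p1 l hl v hv]) hz (by simpa [p2]) this)
    e he

theorem sl_decomp_maximal (h : IsProj D π) (hm : ∀ i, finrank F (D i) = m) (h2 : 2 ≤ m)
    (hq : 3 ≤ m ∨ ∃ a : F, a ≠ 0 ∧ a ≠ 1 ∧ (a * a ≠ 1 ∨ 3 ≤ Fintype.card ι))
    (hM : ∀ e, StabD D e → LinearMap.det (e : V →ₗ[F] V) = 1 → e ∈ M) {g : V ≃ₗ[F] V} (hg : g ∈ M)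
    (hns : ¬ StabD D g) (e : V ≃ₗ[F] V) (he : LinearMap.det (e : V →ₗ[F] V) = 1) : e ∈ M := by
  by_contra hc
  obtain ⟨i, v, hv, j, k, hjk, hj, hk⟩ := h.exists_two_components (by omega) hm hns
  obtain ⟨z, hz, hz'⟩ := exists_mem_notMem (W := D i) (Z := F ∙ v) (by
    have := finrank_span_le_card (R := F) ({v} : Set V)
    simp at this; rw [hm]; omega)
  obtain ⟨φ, p1, p2, p3⟩ := h.exists_loc hz hv hz'
  have ht := (loc_tv hM p1 hv p3).conj hg
  have ht' : ∀ c : F, HasTv M (φ ∘ₗ (g.symm : V →ₗ[F] V)) (c • g v) := fun c => by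
    simpa using (loc_tv hM p1 (Submodule.smul_mem _ c hv) (by simp [p3])).conj hg
  have h0 : (φ ∘ₗ (g.symm : V →ₗ[F] V)) (g v) = 0 := by simpa
  obtain ⟨l, y, hy, hl⟩ := h.exists_dual_ne_zero (φ := φ ∘ₗ (g.symm : V →ₗ[F] V))
    fun e => by simpa [p2] using LinearMap.congr_fun e (g z)
  generalize φ ∘ₗ (g.symm : V →ₗ[F] V) = ψ at ht ht' h0 hl
  generalize g v = w at *
  have key : ∀ j l, j ≠ l → π j w ≠ 0 → (∃ y ∈ D l, ψ y ≠ 0) →
      m = 2 ∧ ψ (π j w) = 0 ∧ ∃ y ∈ D j, ψ y ≠ 0 := by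
    rintro j l hjl hj ⟨y, hy, hl⟩
    have c1 : ∀ x ∈ D j, ψ x = 0 → x ∈ F ∙ π j w := fun x hx p => by
      by_contra h3
      obtain ⟨η, q1, q2, q3⟩ := h.exists_loc (h.mem j w) hx (notMem_span_symm hj h3)
      have := (loc_tv hM q1 hx q3).comm_right q3 ht h0 p
      rw [h.loc_apply q1, q2, one_smul] at this
      exact hc (h.mem_of_tv hm h2 hM this p (fun e => h3 (by simp [e])) (h.of_ne l j hjl.symm x hx)
        hy hl e he)
    have c2 := finrank_span_singleton (K := F) hj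
    refine ⟨by_contra fun h3 => ?_, ?_, by_contra fun h3 => ?_⟩
    · obtain ⟨x, hx, q1, q2⟩ := exists_mem_notMem_ker [ψ] (W := D j) (Z := F ∙ π j w)
        (by simp [hm, c2]; omega)
      exact q1 (c1 x hx (q2 ψ (by simp)))
    · obtain ⟨x, hx, q1, q2⟩ := exists_mem_notMem_ker [ψ] (W := D j) (Z := ⊥) (by simp [hm]; omega)
      obtain ⟨c, rfl⟩ := Submodule.mem_span_singleton.1 (c1 x hx (q2 ψ (by simp)))
      simpa [show c ≠ 0 by rintro rfl; simp at q1] using q2 ψ (by simp)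
    · obtain ⟨x, hx, q1⟩ := exists_mem_notMem (W := D j) (Z := F ∙ π j w) (by rw [hm, c2]; omega)
      exact q1 (c1 x hx (by_contra fun q => h3 ⟨x, hx, q⟩))
  have c3 : ∃ y ∈ D j, ψ y ≠ 0 := by
    by_cases h3 : j = l
    · exact ⟨y, h3 ▸ hy, hl⟩
    · exact (key j l h3 hj ⟨y, hy, hl⟩).2.2
  obtain ⟨hm2, -, y', hy', c4⟩ := key k j hjk.symm hk c3
  obtain ⟨a, ha0, ha1, ha⟩ := hq.resolve_left (by omega)
  have c5 := (key j k hjk hj ⟨y', hy', c4⟩).2.1
  have c6 : ∀ l, l ≠ j → ψ (π l w) = 0 ∧ HasTv M ψ ((a - 1) • π j w + (a⁻¹ - 1) • π l w) := by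
    intro l hl
    obtain ⟨z, q1, q2, q3, q4⟩ : ∃ z ∈ D l, z ≠ 0 ∧ ψ z = 0 ∧ π l w ∈ F ∙ z := by
      by_cases h3 : π l w = 0
      · obtain ⟨x, hx, q1, q2⟩ := exists_mem_notMem_ker [ψ] (W := D l) (Z := ⊥) (by simp [hm]; omega)
        exact ⟨x, hx, by simpa using q1, q2 ψ (by simp), by simp [h3]⟩
      · exact ⟨_, h.mem l w, h3, (key l j hl h3 c3).2.1, Submodule.mem_span_singleton_self _⟩
    obtain ⟨c, hc⟩ := Submodule.mem_span_singleton.1 q4
    obtain ⟨χ, r1, r2, -⟩ := h.exists_loc (h.mem j w) (zero_mem _) (by simpa using hj)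
    obtain ⟨χ', r3, r4, -⟩ := h.exists_loc q1 (zero_mem _) (by simpa using q2)
    obtain ⟨d, hd, hd'⟩ := loc_dil2 hM hl.symm r1 r3 (h.mem j w) q1 r2 r4 ha0
    refine ⟨by simp [← hc, q3], ?_⟩
    convert (ht.conj' (ψ := ψ) hd fun x => by simp [hd', c5, q3]).sub_right ht h0 using 1
    rw [hd', h.loc_apply r1, h.loc_apply r3, r2, ← hc]
    simp only [map_smul, r4, smul_eq_mul]
    module
  by_cases h3 : ∃ l, l ≠ j ∧ l ≠ k
  · obtain ⟨l, q1, q2⟩ := h3
    refine hc (h.mem_of_tv hm h2 hM (c6 l q1).2 (by simp [c5, (c6 l q1).1]) (fun e => ?_)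
      (by simp [h.proj_proj_ne hjk.symm, h.proj_proj_ne q2.symm]) hy' c4 e he)
    simpa [h.proj_proj, h.proj_proj_ne q1.symm, sub_eq_zero, ha1, hj] using congrArg (π j) e
  classical
  replace ha := ha.resolve_right fun ha => h3 (by
    simpa using Finset.exists_mem_notMem_of_card_lt_card (s := {j, k}) (t := Finset.univ)
      (Finset.card_le_two.trans_lt ha))
  push Not at h3
  have q1 : π j w + π k w = w := (Fintype.sum_eq_add (f := fun l => π l w) j k hjk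
    fun l q => (q.2 (h3 l q.1)).elim).symm.trans (h.sum w)
  have q2 : HasTv M ψ ((a - a⁻¹) • π j w) := by
    convert (c6 k hjk.symm).2.sub_right (ht' (a⁻¹ - 1)) (by simp [h0]) using 1
    nth_rw 4 [← q1]
    module
  refine hc (h.mem_of_tv hm h2 hM q2 (by simp [c5]) (smul_ne_zero (sub_ne_zero.2 fun e => ha ?_) hj)
    (by simp [h.proj_proj_ne hjk.symm]) hy' c4 e he)
  nth_rw 2 [e]
  exact mul_inv_cancel₀ ha0

end H62
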