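/- Elements of prime order and geometric subgroups of isometry groups: the bridge from matrices to
endomorphisms, and the subgroups of orthogonal type of symplectic groups in characteristic two. -/
import Cfsg.Agent.H58.ElCh3
import Cfsg.Agent.H58.ElImp3
import Cfsg.Agent.H58.ElU2
import Cfsg.Agent.H58.ElBr
import Cfsg.Agent.H60.Bridge

set_option autoImplicit false

open Polynomial Module Matrix H53 H58
open H59 (perp mem_perp glEquiv)

namespace H62.El

variable {F : Type*} [Field F] {V : Type*} [AddCommGroup V] [Module F V] {r : ℕ}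

/-- all elements of projective order `r` satisfy `Φ` -/
abbrev All (I : End F V → Prop) (r : ℕ) (Φ : End F V → Prop) : Prop :=
  ∀ f, I f → (∃ z : F, f ^ r = z • 1) → (∀ z : F, f ≠ z • 1) → Φ f

/-- `f` is conjugate to an element with property `P` -/
def Cj (I P : End F V → Prop) (f : End F V) : Prop :=
  ∃ e : V ≃ₗ[F] V, I e ∧ ∃ h, P h ∧ ∀ v, e (h v) = f (e v)

section mat
variable {ι : Type} [Fintype ι] [DecidableEq ι] {T H : Subgroup (GL ι F)}
  {I P : End F (ι → F) → Prop}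

theorem toLin'_glEquiv (g : GL ι F) :
    (glEquiv ι F g : End F (ι → F)) = toLin' (g : Matrix ι ι F) := LinearMap.ext fun _ => rfl

theorem toLin'_symm (e : (ι → F) ≃ₗ[F] (ι → F)) :
    toLin' (((glEquiv ι F).symm e : GL ι F) : Matrix ι ι F) = e := by
  rw [← toLin'_glEquiv, MulEquiv.apply_symm_apply]

theorem exists_gl {f : End F (ι → F)} (h : IsUnit f) :
    ∃ x : GL ι F, toLin' (x : Matrix ι ι F) = f :=
  ⟨(glEquiv ι F).symm (LinearEquiv.ofBijective f ((End.isUnit_iff f).1 h)), toLin'_symm _⟩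

theorem gl_iff (hT : ∀ g : GL ι F, g ∈ T ↔ I (toLin' (g : Matrix ι ι F))) (hI : ∀ f, I f → IsUnit f)
    (hH : ∀ g ∈ T, g ∈ H ↔ P (toLin' (g : Matrix ι ι F))) :
    (∀ x ∈ T, (∃ z : F, ((x ^ r : GL ι F) : Matrix ι ι F) = z • (1 : Matrix ι ι F)) →
      (∀ z : F, (x : Matrix ι ι F) ≠ z • (1 : Matrix ι ι F)) → ∃ g ∈ T, g⁻¹ * x * g ∈ H) ↔
    All I r (Cj I P) := by
  have key : ∀ x ∈ T, (∃ g ∈ T, g⁻¹ * x * g ∈ H) ↔ Cj I P (toLin' (x : Matrix ι ι F)) := by
    intro x hx
    constructor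
    · rintro ⟨g, hg, h⟩
      refine ⟨glEquiv ι F g, (hT g).1 hg, _,
        (hH _ (T.mul_mem (T.mul_mem (T.inv_mem hg) hx) hg)).1 h, fun v => ?_⟩
      simp [H59.glEquiv_apply, ← mul_assoc]
    · rintro ⟨e, he, h, h1, h2⟩
      obtain ⟨g, rfl⟩ := (glEquiv ι F).surjective e
      have hg := (hT g).2 he
      refine ⟨g, hg, (hH _ (T.mul_mem (T.mul_mem (T.inv_mem hg) hx) hg)).2 ?_⟩
      convert h1 using 1
      refine LinearMap.ext fun v => (glEquiv ι F g).injective ?_
      rw [h2]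
      simp [H59.glEquiv_apply, ← mul_assoc]
  constructor
  · intro H f hf h1 h2
    obtain ⟨x, rfl⟩ := exists_gl (hI f hf)
    exact (key x ((hT x).2 hf)).1 (H x ((hT x).2 hf)
      (by simpa only [toLin'_pow_iff, Units.val_pow_eq_pow_val] using h1)
      (by simpa only [Ne, toLin'_eq_smul_iff] using h2))
  · intro H x hx h1 h2
    exact (key x hx).2 (H _ ((hT x).1 hx)
      (by simpa only [toLin'_pow_iff, Units.val_pow_eq_pow_val] using h1)
      (by simpa only [Ne, toLin'_eq_smul_iff] using h2))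

theorem relIndex_mul_dvd (hT : ∀ g : GL ι F, g ∈ T ↔ I (toLin' (g : Matrix ι ι F)))
    (hH : ∀ g ∈ T, g ∈ H ↔ P (toLin' (g : Matrix ι ι F))) {T' : Subgroup ((ι → F) ≃ₗ[F] (ι → F))}
    (hT' : ∀ e, e ∈ T' ↔ I e) {Γ : Type*} [Group Γ] (φ : Γ →* ((ι → F) ≃ₗ[F] (ι → F)))
    (hi : Function.Injective φ) (h : ∀ g, I (φ g) ∧ P (φ g)) :
    H.relIndex T * Nat.card Γ ∣ Nat.card T' := by
  have h1 : ∀ g, (glEquiv ι F).symm (φ g) ∈ T := fun g => (hT _).2 (by rw [toLin'_symm]; exact (h g).1)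
  let ψ : Γ →* H.subgroupOf T := (((glEquiv ι F).symm.toMonoidHom.comp φ).codRestrict T h1).codRestrict _
    fun g => (hH _ (h1 g)).2 (by rw [toLin'_symm]; exact (h g).2)
  have h2 : Function.Injective ψ := fun a b e =>
    hi ((glEquiv ι F).symm.injective (congrArg (fun x => x.1.1) e))
  have h3 : Nat.card T = Nat.card T' :=
    Nat.card_congr (H59.subEquiv (glEquiv ι F) T T' fun g => by rw [hT, hT']; rfl).toEquiv
  rw [← h3, ← Subgroup.index_mul_card (H.subgroupOf T)]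
  exact Nat.mul_dvd_mul_left _ (Subgroup.card_dvd_of_injective ψ h2)

theorem mem_spGL {d : ℕ} (g : GL (Fin d ⊕ Fin d) F) :
    g ∈ Cfsg.spGL d F ↔ Inv (H54.spB (Fin d) F) (toLin' (g : Matrix _ _ F)) := by
  simp only [H53.Inv, ← H54.sympForm_eq]; rfl

theorem card_isom_spB [Finite F] (d : ℕ) :
    Nat.card (H59.isom (H54.spB (Fin d) F)) = H54.spOrder (Nat.card F) d :=
  H54.card_Isom H54.spB_nondegenerate H54.spB_isAlt (by simp [two_mul])

end mat

theorem cj_inv_iff {σ : F →+* F} {B : V →ₛₗ[σ] V →ₗ[F] F} {P : End F V → Prop} {f : End F V} :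
    Cj (Inv B) P f ↔ ∃ h, P h ∧ Iso B h B f :=
  ⟨fun ⟨e, h1, h, h2, h3⟩ => ⟨h, h2, e, h3, h1⟩, fun ⟨h, h2, e, h3, h1⟩ => ⟨e, h1, h, h2, h3⟩⟩

theorem cj_qinv_iff {Q : QuadraticForm F V} {P : End F V → Prop} {f : End F V} :
    Cj (QInv Q) P f ↔ ∃ h, P h ∧ QIso Q h Q f :=
  ⟨fun ⟨e, h1, h, h2, h3⟩ => ⟨h, h2, e, h3, h1⟩, fun ⟨h, h2, e, h3, h1⟩ => ⟨e, h1, h, h2, h3⟩⟩

theorem Cj.neg {I P : End F V → Prop} (hP : ∀ h, P h → P (-h)) {f : End F V} (h : Cj I P (-f)) :
    Cj I P f := by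
  obtain ⟨e, h1, h, h2, h3⟩ := h
  exact ⟨e, h1, -h, hP h h2, fun v => by simp [h3]⟩

theorem Cj.smul {I P : End F V → Prop} (hP : ∀ (c : F) h, c ≠ 0 → P h → P (c • h)) (c : F)
    (f : End F V) (hc : c ≠ 0) (h : Cj I P (c • f)) : Cj I P f := by
  obtain ⟨e, h1, h, h2, h3⟩ := h
  exact ⟨e, h1, c⁻¹ • h, hP _ h (inv_ne_zero hc) h2, fun v => by simp [h3, hc]⟩

theorem rkOn_top (f : End F V) : rkOn f ⊤ = finrank F (LinearMap.range (f - 1)) := by
  rw [rkOn, Submodule.map_top]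

theorem ne_smul_of_rank {f : End F V} (h0 : 0 < finrank F (LinearMap.range (f - 1)))
    (h1 : finrank F (LinearMap.range (f - 1)) < finrank F V) (z : F) : f ≠ z • 1 := by
  rintro rfl
  by_cases hz : z = 1
  · rw [hz, one_smul, sub_self, LinearMap.range_zero, finrank_bot] at h0
    exact h0.false
  · rw [LinearMap.range_eq_top.2 fun v => ⟨(z - 1)⁻¹ • v, by
      rw [map_smul, show (z • 1 - 1 : End F V) v = (z - 1) • v by simp [sub_smul],
        inv_smul_smul₀ (sub_ne_zero.2 hz)]⟩, finrank_top] at h1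
    exact h1.false

section two
variable [Finite F] [FiniteDimensional F V] {B : V →ₗ[F] V →ₗ[F] F} {Q : QuadraticForm F V}
  {f : End F V} {d : ℕ}

theorem cj_quad_iff (hQ : Q.polarBilin.Nondegenerate) (he : Even (finrank F V)) :
    Cj (Inv Q.polarBilin) (QInv Q) f ↔
      ∃ R : QuadraticForm F V, R.polarBilin = Q.polarBilin ∧ QInv R f ∧ (IsPlus R ↔ IsPlus Q) := by
  rw [cj_inv_iff]
  constructor
  · rintro ⟨h, h1, e, h2, h3⟩
    have h4 : QIso Q h (Q.comp e.symm.toLinearMap) f := ⟨e, h2, fun v => by simp⟩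
    refine ⟨_, ?_, h4.symm.qinv h1, h4.isPlus_iff.symm⟩
    ext x y
    obtain ⟨x, rfl⟩ := e.surjective x
    obtain ⟨y, rfl⟩ := e.surjective y
    rw [h3]
    simp [QuadraticMap.polar, ← map_add]
  · rintro ⟨R, h1, h2, h3⟩
    obtain ⟨e, h4⟩ := exists_equiv_of_isPlus_iff (h1 ▸ hQ : R.polarBilin.Nondegenerate) hQ rfl he h3
    have h5 := exists_qiso_of_isometry e h4 f
    exact ⟨_, h5.symm.qinv h2, by simpa only [h1] using h5.symm.iso⟩

/-- An involution of a symplectic group in characteristic two preserves forms of both types, unless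
it is of type `a` with maximal rank. -/
theorem exists_qinv_type (h2 : (2 : F) = 0) (hB : IsSF (σ := RingHom.id F) (-1) B)
    (ha : ∀ x, B x x = 0) (hf : Inv B f) (h : f ^ 2 = 1) (hd : finrank F V = 2 * d) {η : Prop}
    (H : η ∨ Odd d) :
    ∃ R : QuadraticForm F V, R.polarBilin = B ∧ QInv R f ∧ (IsPlus R ↔ η) := by
  have : CharP F 2 := CharTwo.of_one_ne_zero_of_two_eq_zero one_ne_zero h2
  obtain ⟨Q, rfl, hQ⟩ := exists_qinv_of_char_two h2 hB ha hf
  have hN : Q.polarBilin.Nondegenerate := ⟨hB.nondeg, fun x hx => hB.nondeg x fun y => by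
    rw [hB.symm, hx, map_zero, mul_zero]⟩
  by_cases h1 : ∃ v, f v = v ∧ Q v ≠ 0
  · obtain ⟨v, hv, hv'⟩ := h1
    obtain ⟨w, hw⟩ : ∃ w, Q.polarBilin v w = 1 := by
      obtain ⟨w, hw⟩ := not_forall.1 fun h => hv' (by rw [hB.nondeg v h, map_zero])
      exact ⟨(Q.polarBilin v w)⁻¹ • w, by rw [map_smul, smul_eq_mul, inv_mul_cancel₀ hw]⟩
    obtain ⟨h3, h4⟩ := nd_span_pair hB ha (hw ▸ one_ne_zero : Q.polarBilin v w ≠ 0)
    let R : F → QuadraticForm F V := fun c =>
      Q + c • QuadraticMap.linMulLin (Q.polarBilin v) (Q.polarBilin v)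
    have hR : ∀ c x, R c x = Q x + c * (Q.polarBilin v x * Q.polarBilin v x) := fun _ _ => rfl
    have h5 : ∀ c, (R c).polarBilin = Q.polarBilin := fun c => by
      ext x y
      simp only [QuadraticMap.polarBilin_apply_apply, QuadraticMap.polar, hR, map_add]
      linear_combination (c * (Q (v + x) - Q v - Q x) * (Q (v + y) - Q v - Q y)) * h2
    have h6 : ∀ θ : Prop, ∃ c, Pl (R c) (Submodule.span F {v, w}) ↔ θ := fun θ => by
      simp only [pl_iff_of_two h4]
      by_cases hθ : θ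
      · refine ⟨Q w, iff_of_true ⟨w, Submodule.subset_span (by simp), ?_, ?_⟩ hθ⟩
        · rintro rfl; simp at hw
        · rw [hR, hw]; linear_combination Q w * h2
      · obtain ⟨c, hc⟩ := not_forall.1 (mt (Finite.injective_iff_surjective
          (f := fun a : F => Q v * a ^ 2 + a)).2 fun hi => by
            have := @hi 0 (Q v)⁻¹ (by field_simp; linear_combination -h2)
            exact inv_ne_zero hv' this.symm)
        refine ⟨c + Q w, iff_of_false ?_ hθ⟩
        rintro ⟨z, hz, h7, h8⟩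
        obtain ⟨a, b, rfl⟩ := Submodule.mem_span_pair.1 hz
        have h9 : Q (a • v + b • w) = a ^ 2 * Q v + b ^ 2 * Q w + a * b := by
          rw [QuadraticMap.map_add Q, ← QuadraticMap.polarBilin_apply_apply]
          simp only [map_smul, LinearMap.smul_apply, hw, QuadraticMap.map_smul, smul_eq_mul]
          ring
        simp only [hR, h9, map_add, map_smul, ha, hw, smul_eq_mul] at h8
        by_cases hb : b = 0
        · subst hb
          have : a = 0 := by simpa [hv'] using h8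
          simp [this] at h7
        · exact hc ⟨a / b, by field_simp; linear_combination h8 - (b ^ 2 * Q w + b ^ 2 * c) * h2⟩
    obtain ⟨c, hc⟩ := h6 (η ↔ Pl Q (perp Q.polarBilin (Submodule.span F {v, w})))
    refine ⟨R c, h5 c, fun x => by rw [hR, hR, hQ, ← hf v x, hv], ?_⟩
    rw [isPlus_iff_perp (h5 c ▸ hN) (h5 c ▸ h3) (by simp [h4]) (by simp [hd]), hc, h5]
    have : Pl (R c) (perp Q.polarBilin (Submodule.span F {v, w})) ↔
        Pl Q (perp Q.polarBilin (Submodule.span F {v, w})) := by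
      simp only [pl_iff]
      refine exists_congr fun U => and_congr_right fun hU => and_congr_right fun _ =>
        forall₂_congr fun x hx => ?_
      rw [hR, mem_perp.1 (hU hx) v (Submodule.subset_span (by simp)), mul_zero, mul_zero, add_zero]
    tauto
  · push Not at h1
    have h3 : ∀ v ∈ (⊤ : Submodule F V), Q.polarBilin (f v - v) v = 0 := fun v _ =>
      atype_of_ts hQ (h1 _ (by
        have := LinearMap.congr_fun (sub_one_sq_of_char_two h2 h) v
        simpa [sq, sub_eq_zero] using this))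
    have h4 := two_mul_rkOn_le hB h2 hf h (st_top f) (nd_top hB)
    have h5 : TS Q (LinearMap.ker (f - 1)) := fun v hv => h1 v (by simpa [sub_eq_zero] using hv)
    have h6 := h5.ti.two_mul_le hB
    have h7 := LinearMap.finrank_range_add_finrank_ker (f - 1)
    have h8 := even_rkOn hB h3 (st_top f) (nd_top hB)
    have h9 := pl_of_rkOn h2 hQ (st_top f) h3
    simp only [rkOn_top, finrank_top] at h4 h8 h9
    refine ⟨Q, rfl, hQ, iff_of_true (pl_top.1 (h9 (by omega))) (H.resolve_right ?_)⟩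
    rwa [Nat.not_odd_iff_even, ← show finrank F (LinearMap.range (f - 1)) = d by omega]

theorem quad_two (h2 : (2 : F) = 0) (hQ : Q.polarBilin.Nondegenerate) (hd : finrank F V = 2 * d)
    (h0 : 0 < d) :
    All (Inv Q.polarBilin) 2 (Cj (Inv Q.polarBilin) (QInv Q)) ↔ (IsPlus Q ∨ Odd d) := by
  have : CharP F 2 := CharTwo.of_one_ne_zero_of_two_eq_zero one_ne_zero h2
  have : Nontrivial V := Module.nontrivial_of_finrank_pos (R := F) (by omega)
  have hB := isSF_polar hQ
  have ha := polar_self_of_char_two (Q := Q) h2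
  have he : Even (finrank F V) := by simp [hd]
  refine ⟨fun H => ?_, fun H f hf ⟨z, h1⟩ _ => (cj_quad_iff hQ he).2
    (exists_qinv_type h2 (isSF_neg_one hB ha) ha hf (sq_eq_one_of_char_two hB h2 hf h1) hd H)⟩
  by_contra! h
  obtain ⟨U, h1, h3⟩ := exists_ti_alt hB ha hd.ge
  obtain ⟨f, h4, h5, h6⟩ := exists_atype hB h3 (h1 ▸ Nat.not_odd_iff_even.1 h.2)
  obtain ⟨R, h7, h8, h9⟩ := (cj_quad_iff hQ he).1 (H f h4
    ⟨1, by rw [one_smul]; exact pow_char_of_sq 2 (sq_eq_zero_of_ti hB h4 (h5 ▸ h3))⟩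
    (ne_smul_of_rank (by rw [h5]; omega) (by rw [h5]; omega)))
  refine h.1 (h9.1 (pl_top.1 (pl_of_rkOn h2 h8 (st_top f) (fun v _ => h7 ▸ h6 v) ?_)))
  rw [rkOn_top, h5, h1, finrank_top, hd]

theorem quad_odd (h2 : (2 : F) = 0) (hQ : Q.polarBilin.Nondegenerate) (hd : finrank F V = 2 * (d + 1))
    (hr : r.Prime) (hr2 : r ≠ 2) {X : ℕ} (hX : r ∣ X)
    (h : X * Nat.card (H56.O Q) ∣ H54.spOrder (Nat.card F) (d + 1)) :
    ¬ All (Inv Q.polarBilin) r (Cj (Inv Q.polarBilin) (QInv Q)) := by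
  classical
  intro H
  have : CharP F 2 := CharTwo.of_one_ne_zero_of_two_eq_zero one_ne_zero h2
  have : Nontrivial V := Module.nontrivial_of_finrank_pos (R := F) (by omega)
  have hB := isSF_polar hQ
  have ha := polar_self_of_char_two (Q := Q) h2
  have h0 := natCast_ne_zero_of_prime_ne (F := F) 2 hr hr2
  have hq : 1 < Nat.card F := Finite.one_lt_card
  have h1 : X ∣ Nat.card F ^ (d + 1) * sg (Nat.card F) (d + 1) (¬ IsPlus Q) := by
    have := ordO_pos (n := 2 * (d + 1)) (ε := IsPlus Q) hq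
    rw [card_O_eq hQ, hd] at h
    refine (dvd_mul_right X 2).trans (Nat.dvd_of_mul_dvd_mul_right this ?_)
    rw [mul_right_comm]
    refine (mul_dvd_mul_right h 2).trans (dvd_of_eq ?_)
    rw [ordO_even, H54.spOrder, Finset.prod_range_succ, ← sg_mul_sg (ε := IsPlus Q)]
    ring
  obtain ⟨a, h3, h4, h5⟩ := blk_of_dvd_sg Nat.card_pos hr hr2 rfl (orderOf_card_pos h0) d.succ_pos
    ((hr.dvd_mul.1 (hX.trans h1)).resolve_left fun h =>
      not_dvd_card_of_ne_zero hr h0 (hr.dvd_of_dvd_pow h))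
  obtain ⟨s, h6, h7, h8⟩ := (dich_id hr hr2 h0).blk_exists a
  have h9 : s.card * orderOf (Nat.card F : ZMod r) + 0 = finrank F V := by
    rw [h8, blk_mul rfl, h4, hd, add_zero]
  obtain ⟨f, h10, h11⟩ := exists_inv_alt_cyc (isSF_neg_one hB ha) ha
    (lt_of_le_of_ne hr.two_le hr2.symm) h0 h6 h7 h9
  rw [All, forall_odd_iff hB (hr.odd_of_ne_two hr2) _ _ (fun _ h => h) (fun _ h => Inv.neg' h)
    fun _ => Cj.neg fun _ h => QInv.neg' h] at H
  obtain ⟨R, h12, h13, h14⟩ := (cj_quad_iff hQ (by simp [hd])).1 (H f h10 (pow_eq_one_of_ed h0 h6 h11)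
    ((ne_one_iff_of_ed hr.ne_one h0 h6 h11).2 (by
      rintro rfl
      simp only [Multiset.card_zero] at h8
      split_ifs at h8 <;> omega)))
  have := (exists_qinv_blk_iff (h12 ▸ hQ : R.polarBilin.Nondegenerate) hr hr2 h0 h6 h7 rfl h8 h9).2
    ⟨f, h13, h11⟩ rfl
  tauto

end two

end H62.El
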