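/- Elements of prime order of unitary groups and pairs of complementary totally singular subspaces. -/
import Cfsg.Agent.H62.ElK0
import Cfsg.Agent.H59.Para
import Cfsg.Agent.H71.El1

set_option autoImplicit false

open Polynomial Module Matrix H53 H58
open H59 (perp mem_perp glEquiv frob frob_ne_id frob_frob)
open scoped Pointwise

namespace H62.El

variable {F : Type*} [Field F] {V : Type*} [AddCommGroup V] [Module F V] {r : ℕ}
  {σ : F →+* F} {ε : F} {B : V →ₛₗ[σ] V →ₗ[F] F} {U W : Submodule F V} {f g : End F V}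

/-- `f` fixes or interchanges `U` and `W` -/
def SP (U W : Submodule F V) (f : End F V) : Prop :=
  U.map f = U ∧ W.map f = W ∨ U.map f = W ∧ W.map f = U

/-- complementary totally isotropic subspaces -/
structure Pr (B : V →ₛₗ[σ] V →ₗ[F] F) (U W : Submodule F V) : Prop where
  compl : IsCompl U W
  left : TI B U
  right : TI B W

theorem SP.smul (c : F) (f : End F V) (hc : c ≠ 0) (h : SP U W f) : SP U W (c • f) := by
  simpa only [SP, Submodule.map_smul _ _ c hc] using h

theorem Pr.symm (h : Pr B U W) : Pr B W U := ⟨h.compl.symm, h.right, h.left⟩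

theorem Cj.pair {I : End F V → Prop} (hI : ∀ f, I f → Inv B f) (h : Pr B U W)
    (H : Cj I (SP U W) f) : ∃ U W, Pr B U W ∧ SP U W f := by
  obtain ⟨e, h1, g, h2, h3⟩ := H
  have h4 : ∀ A : Submodule F V, (A.map (e : End F V)).map f = (A.map g).map (e : End F V) := fun A => by
    rw [← Submodule.map_comp, ← Submodule.map_comp]
    exact congrArg (A.map ·) (LinearMap.ext fun v => (h3 v).symm)
  have h5 : ∀ A, TI B A → TI B (A.map (e : End F V)) := fun A hA => by
    rintro _ ⟨y, hy, rfl⟩ _ ⟨x, hx, rfl⟩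
    exact (hI _ h1 x y).trans (hA hy x hx)
  refine ⟨_, _, ⟨(Submodule.orderIsoMapComap e).isCompl h.compl, h5 U h.left, h5 W h.right⟩, ?_⟩
  change SP (U.map (e : End F V)) (W.map (e : End F V)) f
  rw [SP, h4, h4]
  exact h2.imp (fun h => by rw [h.1, h.2]; exact ⟨rfl, rfl⟩) fun h => by rw [h.1, h.2]; exact ⟨rfl, rfl⟩

theorem Pr.eq_zero (hB : IsSF ε B) (h : Pr B U W) {w : V} (hw : w ∈ W) (h0 : ∀ u ∈ U, B u w = 0) :
    w = 0 := hB.nondeg' w fun x => by
  obtain ⟨a, b, rfl⟩ := H59.exists_add_eq_of_isCompl h.compl x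
  rw [map_add, LinearMap.add_apply, h0 a a.2, h.right hw b b.2, add_zero]

theorem Pr.eq_one (hB : IsSF ε B) (h : Pr B U W) (hg : Inv B g) (h1 : ∀ u ∈ U, g u = u)
    (h2 : St g W) : g = 1 := LinearMap.ext fun x => by
  obtain ⟨a, b, rfl⟩ := H59.exists_add_eq_of_isCompl h.compl x
  rw [map_add, h1 a a.2, sub_eq_zero.1 (h.eq_zero hB (W.sub_mem (h2 b b.2) b.2) fun u hu => by
    rw [map_sub, ← hg u b, h1 u hu, sub_self])]
  rfl

variable [FiniteDimensional F V]

theorem Pr.dim (hB : IsSF ε B) (h : Pr B U W) :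
    2 * finrank F U = finrank F V ∧ finrank F W = finrank F U := by
  have h1 := Submodule.finrank_add_eq_of_isCompl h.compl
  have h2 := h.left.two_mul_le hB
  have h3 := h.right.two_mul_le hB
  omega

theorem Pr.perp_eq (hB : IsSF ε B) (h : Pr B U W) : perp B W = W :=
  (Submodule.eq_of_le_of_finrank_eq h.right (by
    have := h.dim hB
    have := hB.finrank_add_finrank_perp W
    omega)).symm

theorem Pr.exists_ext (hB : IsSF ε B) (h : Pr B U W) (e : U ≃ₗ[F] U) :
    ∃ g : End F V, Inv B g ∧ (∀ u : U, g u = e u) ∧ St g W := by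
  obtain ⟨t, ht⟩ := hB.exists_adj (LinearMap.ofIsCompl h.compl (U.subtype ∘ₗ e.symm) W.subtype)
  have h1 : St t W := by
    have := ht.perp_mapsTo (A := W) fun v hv => by
      rw [LinearMap.ofIsCompl_apply_right h.compl (v := ⟨v, hv⟩)]; exact hv
    rwa [h.perp_eq hB] at this
  have h2 : ∀ (u : U) (w : W), B (e u) (t w) = B u w := fun u w => by
    rw [← ht, LinearMap.ofIsCompl_apply_left]; simp
  refine ⟨LinearMap.ofIsCompl h.compl (U.subtype ∘ₗ e) (t ∘ₗ W.subtype), fun x y => ?_,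
    fun u => by simp, fun v hv => ?_⟩
  · obtain ⟨a, b, rfl⟩ := H59.exists_add_eq_of_isCompl h.compl x
    obtain ⟨c, d, rfl⟩ := H59.exists_add_eq_of_isCompl h.compl y
    simp [h2, h.left c.2 a a.2, h.right d.2 b b.2, h.left (e c).2 _ (e a).2,
      h.right (h1 d d.2) _ (h1 b b.2), hB.symm (e c : V) (t b), hB.symm (c : V) b]
  · rw [LinearMap.ofIsCompl_apply_right h.compl (v := ⟨v, hv⟩)]
    exact h1 v hv

theorem Pr.glo_dvd [Finite F] (hB : IsSF ε B) (h : Pr B U W) : glo (Nat.card F) (finrank F U) ∣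
    Nat.card ↥(H59.isom B ⊓ MulAction.stabilizer (V ≃ₗ[F] V) (U, W)) := by
  let ρ : ↥(H59.isom B ⊓ MulAction.stabilizer (V ≃ₗ[F] V) (U, W)) →* U ≃ₗ[F] U :=
    { toFun := fun g => g.1.ofSubmodules U U (congrArg Prod.fst g.2.2)
      map_one' := rfl
      map_mul' := fun _ _ => rfl }
  rw [← card_linearEquiv_eq]
  refine Subgroup.card_dvd_of_surjective ρ fun e => ?_
  obtain ⟨g, h2, h3, h4⟩ := h.exists_ext hB e
  let g' := LinearEquiv.ofBijective g ((End.isUnit_iff g).1 (h2.isUnit hB))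
  exact ⟨⟨g', h2, Prod.ext (smul_eq_of_equiv g' e h3) (h4.map_eq (h2.injective hB))⟩,
    LinearEquiv.ext fun u => Subtype.ext (h3 u)⟩

theorem Pr.exists_fix (h2 : 2 ≤ finrank F U) (p : V) : ∃ u ∈ U, u ≠ 0 ∧ B p u = 0 := by
  have h3 := LinearMap.finrank_range_add_finrank_ker ((B p).domRestrict U)
  have h4 := (LinearMap.range ((B p).domRestrict U)).finrank_le
  rw [finrank_self] at h4
  obtain ⟨u, h5, h6⟩ := (Submodule.ne_bot_iff (LinearMap.ker ((B p).domRestrict U))).1 fun e => by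
    rw [e, finrank_bot] at h3
    omega
  exact ⟨u, u.2, fun e => h6 (Subtype.ext e), h5⟩

theorem Pr.not_rk1 (hB : IsSF ε B) (h : Pr B U W) (h2 : 2 ≤ finrank F U) {p : V} {c : F}
    (hp : p ≠ 0) (hc : c ≠ 0) (hg : ∀ x, g x = x + (c * B p x) • p) : ¬ SP U W g := by
  rintro (⟨h3, h4⟩ | ⟨h3, -⟩)
  · have key : ∀ A, TI B A → A.map g = A → ∀ x ∈ A, B p x = 0 := fun A h5 h6 x hx => by
      by_contra e
      have := A.sub_mem (h6.le ⟨x, hx, rfl⟩) hx
      rw [hg, add_sub_cancel_left, A.smul_mem_iff (mul_ne_zero hc e)] at this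
      exact e (h5 hx p this)
    refine hp (hB.nondeg p fun x => ?_)
    obtain ⟨a, b, rfl⟩ := H59.exists_add_eq_of_isCompl h.compl x
    rw [map_add, key U h.left h3 a a.2, key W h.right h4 b b.2, add_zero]
  · obtain ⟨u, h4, h5, h6⟩ := Pr.exists_fix (B := B) h2 p
    refine h5 (Submodule.disjoint_def.1 h.compl.1 u h4 (h3.le ⟨u, h4, ?_⟩))
    rw [hg, h6, mul_zero, zero_smul, add_zero]

theorem ne_smul_rk1 (hB : IsSF ε B) (h2 : 2 ≤ finrank F V) {p : V} {c : F}
    (hp : p ≠ 0) (hc : c ≠ 0) (hg : ∀ x, g x = x + (c * B p x) • p) (z : F) : g ≠ z • 1 := by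
  rintro rfl
  obtain ⟨u, -, h5, h6⟩ := Pr.exists_fix (B := B) (U := ⊤) (by simpa using h2) p
  have h7 := hg u
  rw [h6, mul_zero, zero_smul, add_zero] at h7
  obtain rfl : z = 1 := smul_left_injective F h5 (h7.trans (one_smul F u).symm)
  refine hp (hB.nondeg p fun x => ?_)
  simpa [hp, hc] using hg x

open Classical in
theorem Pr.not_count (hB : IsSF ε B) (h : Pr B U W) (hf : Inv B f) (hr : Odd r) (h0 : (r : F) ≠ 0)
    (h1 : f ^ r = 1) {φ : F[X]} (hm : φ.Monic) (hφ : pstar σ φ = φ) (hc : (ed f).count φ = 1) :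
    ¬ SP U W f := by
  have hs := ss_of_pow_eq_one h0 h1
  rintro (⟨h2, h3⟩ | ⟨h2, h3⟩)
  · have key : ∀ X, TI B X → X.map f = X → (edOn f X).count φ = 0 := fun X h4 h5 => by
      have := Multiset.count_le_of_le φ (add_map_pstar_le hB hf hs (st_iff_map.2 h5.le) h4)
      rw [Multiset.count_add, count_map_pstar hB.invol (fun P hP => (edOn_isPP _ _ P hP).monic) hm,
        hφ] at this
      omega
    rw [ed_eq_edOn_add (st_iff_map.2 h2.le) (st_iff_map.2 h3.le) h.compl, Multiset.count_add,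
      key U h.left h2, key W h.right h3] at hc
    omega
  · obtain ⟨k, rfl⟩ := hr
    have h4 : ∀ k, U.map (f ^ (2 * k + 1)) = W := fun k => by
      induction k with
      | zero => simpa using h2
      | succ k ih => rw [show 2 * (k + 1) + 1 = 2 * k + 1 + 1 + 1 by ring, ← map_pow_succ,
          ← map_pow_succ, ih, h3, h2]
    have h5 := h4 k
    rw [h1, End.one_eq_id, Submodule.map_id] at h5
    subst h5
    have h6 := (h.dim hB).1
    rw [disjoint_self.1 h.compl.1, finrank_bot, ← dg_ed f] at h6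
    rw [eq_of_le_of_dg_eq (Multiset.zero_le _) (ed_isPP f) (by simp [← h6]) |>.symm] at hc
    simp at hc

section herm
variable [Fintype F] {q : ℕ} {hF : Fintype.card F = q ^ 2} {B : V →ₛₗ[frob hF] V →ₗ[F] F}

/-- isometries of determinant one -/
abbrev SU (B : V →ₛₗ[frob hF] V →ₗ[F] F) (f : End F V) : Prop := Inv B f ∧ LinearMap.det f = 1

theorem Pr.cj_of_iso (hB : IsSF 1 B) (h : Pr B U W) (h0 : 0 < finrank F U) (h1 : St g U) (h2 : St g W)
    (hg : Inv B g) (h3 : Iso B g B f) : Cj (SU B) (SP U W) f := by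
  obtain ⟨e, h4, h5⟩ := h3
  have hH := hB.isHerm (frob_ne_id hF)
  obtain ⟨u, hu, h6⟩ := (Submodule.ne_bot_iff U).1 fun e => by rw [e, finrank_bot] at h0; omega
  obtain ⟨w, hw, h7⟩ : ∃ w ∈ W, B u w = 1 := by
    by_contra! H
    refine h6 (h.symm.eq_zero hB hu fun w hw => hB.eq_zero_comm.1 (by_contra fun e => ?_))
    exact H _ (W.smul_mem (B u w)⁻¹ hw) (by rw [map_smul, smul_eq_mul, inv_mul_cancel₀ e])
  have h8 : Inv B e := h5
  obtain ⟨l, h9, h10⟩ := H59.exists_div_eq_of_norm_one (frob_ne_id hF) (frob_frob hF)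
    (c := frob hF (LinearMap.det (e : End F V))) (by rw [frob_frob, mul_comm, h8.det_mul_det hB])
  obtain ⟨k, h11, h12, h13⟩ := hH.exists_hypScale (h.left hu u hu) (h.right hw w hw) h7 h9
  have h14 : ∀ A, St (k : End F V) A → St g A → A.map (k.symm.conj g) = A := fun A h1 h2 => by
    have : A.map (k : End F V) = A := h1.map_eq k.injective
    rw [LinearEquiv.conj_apply, Submodule.map_comp, Submodule.map_comp, LinearEquiv.symm_symm, this,
      h2.map_eq (hg.injective hB)]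
    exact (Submodule.map_symm_eq_iff k).2 this
  refine ⟨k.trans e, ⟨fun x y => (h5 _ _).trans (h11 x y), ?_⟩, k.symm.conj g,
    .inl ⟨h14 U (fun x hx => ?_) h1, h14 W (fun x hx => ?_) h2⟩, fun v => by
      simp [LinearEquiv.conj_apply, h4]⟩
  · rw [LinearEquiv.coe_trans, LinearMap.det_comp, ← LinearEquiv.coe_det k, h12,
      div_eq_of_eq_mul (hH.conj_ne_zero h9) h10, h8.det_mul_det hB]
  · rw [LinearEquiv.coe_coe, h13, h.left hx u hu, mul_zero, zero_smul, add_zero]
    exact U.add_mem hx (U.smul_mem _ hu)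
  · rw [LinearEquiv.coe_coe, h13, h.right hx w hw, mul_zero, zero_smul, add_zero]
    exact W.add_mem hx (W.smul_mem _ hw)

theorem Pr.cj_of_ed (hB : IsSF 1 B) (h : Pr B U W) (h0 : 0 < finrank F U) (hf : Inv B f)
    {w : Multiset F[X]} (h1 : ∀ P ∈ w, ∃ a ≠ 0, P = X - C a)
    (h2 : ed f = w + w.map (pstar (frob hF))) : Cj (SU B) (SP U W) f := by
  have h3 := h.dim hB
  have h4 := dg_ed f
  rw [h2, dg_add, dg_map_pstar] at h4
  obtain ⟨e, h5⟩ := exists_ed_eq (V := U) (s := w) (fun P hP => ed_isPP f P (h2 ▸ by simp [hP]))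
    (by change dgs w = _; omega)
  have h6 : 1 < Fintype.card F := Fintype.one_lt_card
  have h7 : e ^ (Fintype.card F - 1) = 1 := by
    rw [← one_smul F (1 : End F U), pow_eq_smul_one_iff_ed, h5]
    intro P hP
    obtain ⟨a, ha, rfl⟩ := h1 P hP
    simp [dvd_iff_isRoot, FiniteField.pow_card_sub_one_eq_one a ha]
  obtain ⟨g, h8, h9, h10⟩ := h.exists_ext hB (LinearEquiv.ofBijective e
    ((End.isUnit_iff e).1 (IsUnit.of_pow_eq_one h7 (by omega))))
  have h11 : St g U := fun u hu => by rw [h9 ⟨u, hu⟩]; exact Subtype.prop _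
  have h12 : g.restrict h11 = e := LinearMap.ext fun u => Subtype.ext (h9 u)
  have h13 : g ^ (Fintype.card F - 1) = 1 := h.eq_one hB (h8.pow _) (fun u hu => by
    have := LinearMap.congr_fun h7 ⟨u, hu⟩
    rw [← h12, End.pow_restrict] at this
    exact congrArg Subtype.val this) (h10.pow _)
  have h14 := add_map_pstar_le hB h8 (ss_of_pow_eq_one (by
    rw [Nat.cast_sub h6.le, FiniteField.cast_card_eq_zero]; simp) h13) h11 h.left
  rw [edOn_eq h11, h12, h5, ← h2] at h14
  exact h.cj_of_iso hB h0 h11 h10 h8 (iso_of_sim hB hB h8 hf (.inl (frob_ne_id hF))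
    (sim_of_ed_eq (eq_of_le_of_dg_eq h14 (ed_isPP g) (by rw [dg_ed, dg_ed])).symm))

theorem all_su_iff {Φ : End F V → Prop} : All (SU B) r Φ ↔ AllU B r Φ :=
  ⟨fun H f h1 h2 => H f ⟨h1, h2⟩, fun H f h => H f h.1 h.2⟩

theorem u_pair_char (p : ℕ) [Fact p.Prime] [CharP F p] (hB : IsSF 1 B) (h : Pr B U W)
    (h2 : 2 ≤ finrank F U) : ¬ All (SU B) p (Cj (SU B) (SP U W)) := by
  intro H
  have hH := hB.isHerm (frob_ne_id hF)
  obtain ⟨u, hu, h6⟩ := (Submodule.ne_bot_iff U).1 fun e => by rw [e, finrank_bot] at h2; omega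
  obtain ⟨c, h3, h4⟩ := H59.exists_trace_zero_ne_zero (frob_ne_id hF) (frob_frob hF)
  have h5 := h.left hu u hu
  have h7 : c + frob hF c + c * frob hF c * B u u = 0 := by rw [h4, h5, mul_zero, add_zero]
  have h8 := H59.qref_apply u c h7
  have h9 := h.dim hB
  obtain ⟨U', W', h10, h11⟩ := Cj.pair (fun _ h => h.1) h (H (H59.qref B u c h7)
    ⟨hH.qref_mem_isom u c h7, by rw [← LinearEquiv.coe_det, H59.det_qref, h5, mul_zero, add_zero]⟩
    ⟨1, by rw [one_smul]; exact pow_char_of_sq p (LinearMap.ext fun x => by simp [sq, h8, h5])⟩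
    (ne_smul_rk1 hB (by omega) h6 h3 h8))
  exact h10.not_rk1 hB (by have := h10.dim hB; omega) h6 h3 h8 h11

theorem ordGU_two_mul (q m : ℕ) : H59.ordGU q (2 * m) = glo (q ^ 2) m *
    ∏ j ∈ Finset.range m, (q ^ (2 * j + 1) * (q ^ (2 * j + 1) + 1)) := by
  induction m with
  | zero => simp [H59.ordGU, glo]
  | succ m ih =>
    rw [Nat.mul_succ, H59.ordGU_succ, H59.ordGU_succ, ih, glo_succ, Finset.prod_range_succ,
      if_pos (by simp [parity_simps]), if_neg (by simp [parity_simps]), ← pow_mul, ← pow_mul,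
      ← show 2 * m + 1 + 1 = 2 * (m + 1) by ring]
    generalize q ^ (2 * m + 1 + 1) - 1 = a
    ring

theorem u_pair_odd (hB : IsSF 1 B) (h : Pr B U W) (h2 : 2 ≤ finrank F U) (hr : r.Prime) (hr2 : r ≠ 2)
    (h0 : (r : F) ≠ 0) {X : ℕ} (hX : r ∣ X)
    (hd : X * Nat.card ↥(H59.isom B ⊓ MulAction.stabilizer (V ≃ₗ[F] V) (U, W)) ∣
      Nat.card (H59.isom B)) : ¬ All (SU B) r (Cj (SU B) (SP U W)) := by
  classical
  intro H
  have h3 := h.dim hB
  have : Nontrivial V := Module.nontrivial_of_finrank_pos (R := F) (by omega)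
  have hq := H59.two_le_q hF
  have hrq : ¬ r ∣ q := fun e => not_dvd_card_of_ne_zero hr h0 (by
    rw [natCard_sq hF]; exact e.trans (dvd_pow_self q two_ne_zero))
  replace hd := (mul_dvd_mul_left X (h.glo_dvd hB)).trans hd
  rw [(hB.isHerm (frob_ne_id hF)).card_isom hF, ← h3.1, ordGU_two_mul, natCard_sq hF] at hd
  obtain ⟨j, h4, h5⟩ := exists_dvd_of_dvd_prod hr hrq
    (hX.trans (dvd_of_mul_dvd_mul (glo_pos (by nlinarith) _) hd))
  have h6 := orderOf_card_pos h0
  have h7 := orderOf_sq_eq (q := q) (r := r) rfl rfl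
  rw [← natCard_sq hF] at h7
  have h8 : 0 < orderOf (q : ZMod r) := by split_ifs at h7 <;> omega
  obtain ⟨a, h9, h10, h11⟩ := blk_of_dvd_add hr hr2 rfl h8 h5
  obtain ⟨h12, h13⟩ := Classical.not_imp.1 h11
  rw [if_pos h12] at h10 h7
  obtain ⟨b, h14⟩ := h12
  have h15 : a * b = 2 * j + 1 := by rw [h14, mul_add] at h10; omega
  have h16 : Odd b := (Nat.odd_mul.1 (h15 ▸ odd_two_mul_add_one j)).2
  have h17 := Nat.le_mul_of_pos_left b h9
  have hD := dich_frob (hF := hF) hr hr2 h0 rfl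
  have h18 : ∀ φ ∈ cycF F r, pstar (frob hF) φ = φ := fun φ hφ => (hD.iff φ hφ).2 (by
    obtain ⟨k, hk⟩ := h16; omega)
  rw [all_su_iff, su_split hB _ (Cj.smul SP.smul)] at H
  have key : ∀ (s : Multiset F[X]) N, (∀ P ∈ s, P ∈ cycF F r) → s.card * b + N = finrank F V → 0 < N →
      ∀ φ, s.count φ = 1 → (∀ g, Inv B g → g ^ r = 1 →
        ed g = s + Multiset.replicate N (Polynomial.X - 1) →
        ∃ c : F, c ^ (q + 1) = 1 ∧ c ^ finrank F V * LinearMap.det g = 1) → False := by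
    intro s N k1 k2 k3 φ k4 k5
    have k6 : φ ∈ s := Multiset.count_pos.1 (by omega)
    have k7 : φ ≠ Polynomial.X - 1 := fun e => irreducible_X_sub_one.not_isUnit
      (isCoprime_self.1 (e ▸ isCoprime_sub_one_of_mem_cycF hr.ne_one h0 (k1 φ k6)))
    obtain ⟨g, k8, k9⟩ := exists_inv_herm_cyc hB h0 k1 (map_eq_of_fix fun P hP => h18 P (k1 P hP))
      (N := N) (by rw [h7, ← k2]; congr 2; omega)
    have k10 := pow_eq_one_of_ed h0 k1 k9
    obtain ⟨U', W', k11, k12⟩ := Cj.pair (fun _ h => h.1) h (H.1 g k8 k10 (ne_smul_of_mem_ed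
      (k9 ▸ Multiset.mem_add.2 (.inl k6))
      (k9 ▸ Multiset.mem_add.2 (.inr (Multiset.mem_replicate.2 ⟨k3.ne', rfl⟩))) k7) (k5 g k8 k10 k9))
    exact k11.not_count hB k8 (hr.odd_of_ne_two hr2) h0 k10 ((mem_cycF h0).1 (k1 φ k6)).1
      (h18 φ (k1 φ k6)) (by simp [k9, k4, Multiset.count_replicate, k7.symm]) k12
  obtain ⟨φ, hφ⟩ := hD.ne
  by_cases h19 : r ∣ q + 1
  · obtain ⟨ω, k1, rfl⟩ := lin_of_mem_cycF h0 (h19.trans (succ_dvd_card hF)) hφ
    have k2 : ω ≠ 0 := ne_zero_pow hr.ne_zero (k1 ▸ one_ne_zero)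
    have k3 := ((dich_id hr hr2 h0).mem _ hφ)
    have k4 := mt ((dich_id hr hr2 h0).iff _ hφ).1 (by
      rw [h7, h14, Nat.not_even_iff_odd]; convert h16; omega)
    rw [pstar_X_sub_C k2, RingHom.id_apply] at k3 k4
    have k5 := (dvd_succ_iff hr hr2 rfl h8).1 h19
    refine key (Multiset.replicate 1 (Polynomial.X - C ω) + Multiset.replicate 1 (Polynomial.X - C ω⁻¹))
      (finrank F V - 2) (by simp [hφ, k3]) (by simp; omega) (by omega) (Polynomial.X - C ω)
      (by rw [Multiset.count_add, Multiset.count_replicate_self, Multiset.count_replicate, if_neg k4])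
      fun g _ _ k6 => ⟨1, one_pow _, ?_⟩
    rw [det_of_add k6, dg_two]
    simp [k2]
  · exact key {φ} (finrank F V - b) (by simpa using hφ) (by simp; omega) (by omega) φ (by simp)
      fun g k1 k2 _ => exists_scale hB hr (.inl h19) k1 k2

theorem u_pair_two (hB : IsSF 1 B) (h : Pr B U W) (h1 : 2 ≤ finrank F U) (h2 : (2 : F) ≠ 0) :
    All (SU B) 2 (Cj (SU B) (SP U W)) ↔ padicValNat 2 (q + 1) ≤ padicValNat 2 (finrank F V) := by
  have h3 := h.dim hB
  have : Nontrivial V := Module.nontrivial_of_finrank_pos (R := F) (by omega)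
  have hH := hB.isHerm (frob_ne_id hF)
  rw [all_su_iff, su_split hB _ (Cj.smul SP.smul), and_iff_left fun f hf => ?_, ← not_lt,
    ← exists_mu_pow_neg_iff h2 (succ_dvd_card hF) finrank_pos.ne']
  · refine ⟨fun H ⟨b, h4, h5⟩ => ?_, fun H g h4 h5 _ ⟨c, h6, h7⟩ => ?_⟩
    · obtain ⟨p, -, h6⟩ := hH.exists_self_ne_zero_of_disjoint (nd_top hB) top_ne_bot
      have h7 : p ≠ 0 := by rintro rfl; simp at h6
      have h8 : -2 / B p p ≠ 0 := div_ne_zero (neg_ne_zero.2 h2) h6
      have h9 : -2 / B p p + frob hF (-2 / B p p) + -2 / B p p * frob hF (-2 / B p p) * B p p = 0 := by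
        rw [map_div₀, hH.self_fixed, map_neg, map_ofNat]; field_simp; ring
      have h10 := H59.qref_apply p _ h9
      obtain ⟨U', W', h11, h12⟩ := Cj.pair (fun _ h => h.1) h (H (H59.qref B p _ h9)
        (hH.qref_mem_isom p _ h9) (LinearMap.ext fun x => by
          simp only [sq, End.mul_apply, LinearEquiv.coe_coe, h10, map_add, map_smul, smul_eq_mul,
            End.one_apply, div_mul_cancel₀ _ h6]
          module) (ne_smul_rk1 hB (by omega) h7 h8 h10)
        ⟨b, h4, by rw [h5, ← LinearEquiv.coe_det, H59.det_qref]; field_simp; ring⟩)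
      exact h11.not_rk1 hB (by have := h11.dim hB; omega) h7 h8 h10 h12
    · obtain ⟨a, b, h8, h9⟩ := exists_ed_of_sq (f := g) (y := 1) h2 one_ne_zero (by simpa using h5)
      rcases Nat.even_or_odd b with ⟨b, rfl⟩ | e
      · obtain ⟨a, rfl⟩ : ∃ k, a = k + k := ⟨a / 2, by omega⟩
        refine h.cj_of_ed hB (by omega) h4 (w := Multiset.replicate a (X - C 1) +
          Multiset.replicate b (X - C (-1))) (fun P hP => ?_) ?_
        · rcases Multiset.mem_add.1 hP with e | e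
          exacts [⟨1, one_ne_zero, Multiset.eq_of_mem_replicate e⟩,
            ⟨-1, by simp, Multiset.eq_of_mem_replicate e⟩]
        · rw [h9, Multiset.map_add, Multiset.map_replicate, Multiset.map_replicate,
            pstar_X_sub_C one_ne_zero, pstar_X_sub_C (by simp), Multiset.replicate_add,
            Multiset.replicate_add, add_add_add_comm]
          simp
      · rw [det_of_two h9, e.neg_one_pow, one_pow, one_mul, mul_neg_one, neg_eq_iff_eq_neg] at h7
        exact (H ⟨c, h6, h7⟩).elim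
  · obtain ⟨k, y, -, h4, -, -, h5, -, h6⟩ := hf.two hB h2
    exact h.cj_of_ed hB (by omega) hf.1 (w := Multiset.replicate k (X - C y))
      (fun P hP => ⟨y, h4, Multiset.eq_of_mem_replicate hP⟩) (by rw [h6, Multiset.map_replicate, h5])

end herm

theorem relIndex_inf_dvd {G : Type*} [Group G] [Finite G] (H T N : Subgroup G) [N.Normal] :
    H.relIndex (T ⊓ N) ∣ H.relIndex T := by
  have := H71.El.relIndex_dvd_index (H.subgroupOf T) (N.subgroupOf T)
  rwa [← Subgroup.inf_subgroupOf_left N T, Subgroup.relIndex_subgroupOf inf_le_left] at this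

end H62.El
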