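/- Elements of prime order of isometry groups: test elements, involutions, and the stabilisers of
tensor decompositions of symplectic spaces. -/
import Cfsg.Agent.H62.ElK1
import Cfsg.Agent.H62.TenSpMat
import Cfsg.Agent.H71.El6

set_option autoImplicit false

open Polynomial Module H53 H58 H56
open H59 (perp mem_perp)

namespace H62.El

variable {F : Type*} [Field F] {V : Type*} [AddCommGroup V] [Module F V] {r c d : ℕ} {ε : F}
  {f g : End F V} {A : Submodule F V} {P : End F V → Prop}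

/-- the dimension of the fixed space -/
noncomputable abbrev fd (f : End F V) : ℕ := kd f (X - C 1)

open Classical in
variable (F) in
/-- the least codimension of the fixed space of an element of order `r` of a symplectic group -/
noncomputable def tb (r : ℕ) : ℕ := if (r : F) = 0 then 1 else
  if Even (orderOf (Nat.card F : ZMod r)) then orderOf (Nat.card F : ZMod r) else
    2 * orderOf (Nat.card F : ZMod r)

theorem tb_char (h : (r : F) = 0) : tb F r = 1 := if_pos h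

theorem tb_eq (h : (r : F) ≠ 0) : tb F r = if Even (orderOf (Nat.card F : ZMod r)) then
    orderOf (Nat.card F : ZMod r) else 2 * orderOf (Nat.card F : ZMod r) := by
  rw [tb, if_neg h]

theorem tb_pos [Finite F] : 0 < tb F r := by
  by_cases h : (r : F) = 0
  · simp [tb_char h]
  · exact blk_pos (orderOf_card_pos h) (tb_eq h)

theorem tb_of_dvd [Finite F] (hr : r.Prime) (h : r ∣ Nat.card F - 1) : tb F r = 2 := by
  have h0 : (r : F) ≠ 0 := fun e => by
    have : CharP F r := (CharP.charP_iff_prime_eq_zero hr).2 e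
    have : Fact r.Prime := ⟨hr⟩
    exact hr.one_lt.not_ge (Nat.le_of_dvd one_pos ((Nat.dvd_add_right h).1 (by
      rw [Nat.sub_add_cancel Nat.card_pos]; exact char_dvd_card r)))
  simp [tb_eq h0, (orderOf_eq_one_iff_dvd Nat.card_pos).2 h]

theorem tb_two [Finite F] (h2 : (2 : F) ≠ 0) : tb F 2 = 2 :=
  tb_of_dvd Nat.prime_two (Nat.Odd.sub_odd (H71.El.odd_card_iff.2 h2) odd_one).two_dvd

theorem fd_eq (f : End F V) : fd f = finrank F (LinearMap.ker (f - 1)) := by
  rw [fd, kd, map_sub, aeval_X, C_1, map_one]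

theorem coe_pow' (e : V ≃ₗ[F] V) (n : ℕ) : ((e ^ n : V ≃ₗ[F] V) : End F V) = (e : End F V) ^ n :=
  map_pow LinearEquiv.automorphismGroup.toLinearMapMonoidHom e n

variable [FiniteDimensional F V]

theorem fd_add (f : End F V) : fd f + finrank F (LinearMap.range (f - 1)) = finrank F V := by
  rw [fd_eq, add_comm, LinearMap.finrank_range_add_finrank_ker]

theorem fd_of_ed {s : Multiset F[X]} {N : ℕ} (h1 : r ≠ 1) (h0 : (r : F) ≠ 0)
    (hs : ∀ P ∈ s, P ∈ cycF F r) (h : ed f = s + Multiset.replicate N (X - 1)) : fd f = N := by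
  classical
  rw [fd, kd_eq_kds, H71.El.kds_X_sub_C (ed_isPP f), h, Multiset.countP_add,
    Multiset.countP_eq_zero.2 fun P hP e => not_isUnit_X_sub_C (1 : F)
      ((isCoprime_sub_one_of_mem_cycF h1 h0 (hs P hP)).isUnit_of_dvd' (dvd_iff_isRoot.2 e) dvd_rfl),
    Multiset.countP_eq_card.2 (by simp +contextual [Multiset.mem_replicate])]
  simp

theorem pow_eq_one_of_sim (h : Sim g f) (h1 : f ^ r = 1) : g ^ r = 1 := by
  simpa using (pow_eq_smul_one_iff_ed g r 1).2
    (h.ed_eq ▸ (pow_eq_smul_one_iff_ed f r 1).1 (by simpa using h1))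

section sesq
variable {σ : F →+* F} {B : V →ₛₗ[σ] V →ₗ[F] F}

theorem exists_blk_mul [Finite F] (hr : r.Prime) (h0 : (r : F) ≠ 0) (hB : IsSF ε B) {sd : Prop}
    [Decidable sd] (hD : Dich (cycF F r) (pstar σ) sd) (hc : c = if sd then
      orderOf (Nat.card F : ZMod r) else 2 * orderOf (Nat.card F : ZMod r)) (hf : Inv B f)
    (h : f ^ r = 1) : ∃ a, fd f + a * c = finrank F V := by
  classical
  obtain ⟨s, N, h1, h2⟩ := exists_ed_of_pow_eq_one hr h0 h
  obtain ⟨a, h3, -⟩ := hD.exists_blk h1 (map_pstar_add_replicate_iff.1 (h2 ▸ hf.map_pstar_ed hB))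
  exact ⟨a, by rw [fd_of_ed hr.ne_one h0 h1 h2, ← dg_ed f, h2, dg_cyc h0 h1, h3, blk_mul hc, add_comm]⟩

theorem fd_of_invol (hB : IsSF ε B) (h2 : (2 : F) ≠ 0) (hA : ND B A) (h1 : ∀ v ∈ A, f v = -v)
    (h3 : ∀ v ∈ perp B A, f v = v) : fd f + finrank F A = finrank F V := by
  rw [← hB.finrank_add_finrank_perp A, add_comm, fd_eq, add_right_inj]
  refine congrArg (fun U : Submodule F V => finrank F U) (le_antisymm (fun v hv => ?_)
    fun v hv => by simp [h3 v hv])
  obtain ⟨a, b, rfl⟩ := H59.exists_add_eq_of_isCompl (hB.isCompl_perp hA) v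
  have h4 : (2 : F) • (a : V) = 0 := by
    rw [LinearMap.mem_ker, LinearMap.sub_apply, map_add, h1 a a.2, h3 b b.2, End.one_apply] at hv
    rw [two_smul, ← neg_eq_zero, ← hv]; abel
  rw [(smul_eq_zero_iff_right h2).1 h4, zero_add]
  exact b.2

theorem ed_of_invol (hB : IsSF ε B) (h2 : (2 : F) ≠ 0) (hf : Inv B f) (h : f ^ 2 = 1) :
    ed f = Multiset.replicate (finrank F V - fd f) (X - C (-1)) +
      Multiset.replicate (fd f) (X - C 1) := by
  obtain ⟨A, hA, h1, h3, -⟩ := exists_invol_split hB h2 hf h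
  have h4 : St f A := fun v hv => h1 v hv ▸ neg_mem hv
  have h5 := fd_of_invol hB h2 hA h1 h3
  have h6 := hB.finrank_add_finrank_perp A
  rw [ed_eq_edOn_add_perp hB hf h4 hA, edOn_eq_replicate h4 (c := -1) (by simpa using h1),
    edOn_eq_replicate (hf.perp_mapsTo hB h4) (c := 1) (by simpa using h3)]
  congr 2 <;> omega

end sesq

variable [Finite F] {B : V →ₗ[F] V →ₗ[F] F}

theorem iso_of_sq_neg (h2 : (2 : F) ≠ 0) (hB : IsSF (σ := RingHom.id F) ε B) (hf : Inv B f)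
    (hg : Inv B g) (h1 : f ^ 2 = -1) (h3 : g ^ 2 = -1) (hd : finrank F V = 2 * d) : Iso B f B g := by
  refine iso_of_sim hB hB hf hg (.inr ?_) (sim_of_ed_eq (multiset_eq_of_prod_eq
    (fun P hP => ⟨(ed_isPP _ P hP).monic, irreducible_of_ss (ss_of_sq_eq_neg h2 h1) P hP⟩)
    (fun P hP => ⟨(ed_isPP _ P hP).monic, irreducible_of_ss (ss_of_sq_eq_neg h2 h3) P hP⟩) ?_))
  · rw [h1, show (-1 - 1 : End F V) = (-2 : F) • 1 by module]
    exact isUnit_one.smul (Units.mk0 _ (neg_ne_zero.2 h2))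
  · rw [← charpoly_eq_prod_ed, ← charpoly_eq_prod_ed, charpoly_of_sq_eq_neg h2 hB hf h1 hd,
      charpoly_of_sq_eq_neg h2 hB hg h3 hd]

theorem exists_tb_mul (hr : r.Prime) (h2 : r ≠ 2) (h0 : (r : F) ≠ 0)
    (hB : IsSF (σ := RingHom.id F) ε B) (hf : Inv B f) (h : f ^ r = 1) :
    ∃ a, fd f + a * tb F r = finrank F V :=
  exists_blk_mul hr h0 hB (dich_id hr h2 h0) (tb_eq h0) hf h

theorem tb_le (hr : r.Prime) (h2 : r ≠ 2) (h0 : (r : F) ≠ 0)
    (hB : IsSF (σ := RingHom.id F) ε B) (hf : Inv B f) (h : f ^ r = 1) (h1 : f ≠ 1) :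
    tb F r ≤ finrank F V := by
  obtain ⟨_ | a, h3⟩ := exists_tb_mul hr h2 h0 hB hf h
  · rw [zero_mul, add_zero, fd_eq] at h3
    exact (h1 (sub_eq_zero.1 (LinearMap.ker_eq_top.1 (Submodule.eq_top_of_finrank_eq h3)))).elim
  · rw [← h3, Nat.succ_mul]; omega

omit [Finite F] in
theorem ne_smul_of_fd (hB : IsSF (σ := RingHom.id F) ε B) (hf : Inv B f) (h : f ^ r = 1)
    (hc : fd f + c = finrank F V) (h0 : 0 < c) (h1 : Odd r ∨ c < finrank F V) (z : F) :
    f ≠ z • 1 := by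
  have h2 := fd_add f
  rcases h1 with h1 | h1
  · rintro rfl
    have : Nontrivial V := Module.nontrivial_of_finrank_pos (R := F) (by omega)
    rw [_root_.smul_pow, one_pow, ← Algebra.algebraMap_eq_smul_one, map_eq_one_iff _
      (algebraMap F (End F V)).injective] at h
    obtain ⟨k, rfl⟩ := h1
    rw [pow_succ, pow_mul, sq, show z * z = 1 from mul_eq_one_of_inv_smul hB hf, one_pow,
      one_mul] at h
    rw [h, one_smul] at hc h2
    rw [sub_self, LinearMap.range_zero, finrank_bot] at h2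
    omega
  · exact ne_smul_of_rank (by omega) (by omega) z

section alt
variable (hB : IsSF (σ := RingHom.id F) (-1) B) (ha : ∀ x, B x x = 0)
include hB ha

theorem exists_test (hr : r.Prime) (h : tb F r ≤ finrank F V) :
    ∃ f, Inv B f ∧ f ^ r = 1 ∧ fd f + tb F r = finrank F V := by
  classical
  have h1 := tb_pos (F := F) (r := r)
  by_cases h0 : (r : F) = 0
  · have : CharP F r := (CharP.charP_iff_prime_eq_zero hr).2 h0
    have : Fact r.Prime := ⟨hr⟩
    have : Nontrivial V := Module.nontrivial_of_finrank_pos (R := F) (by omega)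
    obtain ⟨v, hv⟩ := exists_ne (0 : V)
    obtain ⟨e, -, he⟩ := hasSp_of_forall (B := B) (H := ⊤) ha (v := v) (c := 1) fun _ _ => trivial
    refine ⟨e, isom_of_sp ha he, pow_char_of_sq r (LinearMap.ext fun x => by simp [sq, he, ha]), ?_⟩
    rw [← fd_add (e : End F V), tb_char h0, add_right_inj, eq_comm, ← finrank_span_singleton (K := F) hv]
    refine congrArg (fun U : Submodule F V => finrank F U) (le_antisymm ?_ ?_)
    · rintro _ ⟨x, rfl⟩
      exact Submodule.mem_span_singleton.2 ⟨B x v, by simp [he]⟩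
    · obtain ⟨x, hx⟩ := not_forall.1 (mt (hB.nondeg' v) hv)
      exact (Submodule.span_singleton_le_iff_mem _ _).2 ⟨(B x v)⁻¹ • x, by
        simp [he, smul_smul, hx]⟩
  by_cases h2 : r = 2
  · subst h2
    rw [tb_two (by simpa using h0)] at h ⊢
    obtain ⟨A, h3, h4⟩ := exists_nd_alt hB ha h even_two
    obtain ⟨f, h5, h6, h7, h8⟩ := exists_invol_of_nd hB h3
    exact ⟨f, h5, h6, h4 ▸ fd_of_invol hB (by simpa using h0) h3 h7 h8⟩
  obtain ⟨s, h3, h4, h5⟩ := (dich_id hr h2 h0).blk_exists 1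
  obtain ⟨f, h6, h7⟩ := exists_inv_alt_cyc hB ha (lt_of_le_of_ne hr.two_le (Ne.symm h2)) h0 h3 h4
    (N := finrank F V - tb F r) (by rw [h5, blk_mul (tb_eq h0)]; omega)
  exact ⟨f, h6, pow_eq_one_of_ed h0 h3 h7, by rw [fd_of_ed hr.ne_one h0 h3 h7]; omega⟩

theorem not_all_sp (hr : r.Prime) (h : tb F r ≤ finrank F V) (h3 : 3 ≤ finrank F V)
    (hP : ∀ h, P h → Inv B h → h ^ r = 1 → fd h + tb F r ≠ finrank F V) :
    ¬ All (Inv B) r (Cj (Inv B) P) := fun H => by
  obtain ⟨f, h1, h2, h4⟩ := exists_test hB ha hr h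
  obtain ⟨g, h5, h6⟩ := cj_inv_iff.1 (H f h1 ⟨1, by rw [h2, one_smul]⟩
    (ne_smul_of_fd hB h1 h2 h4 tb_pos (hr.eq_two_or_odd'.symm.imp_right (by
      rintro rfl
      by_cases h0 : (2 : F) = 0
      · rw [tb_char (by simpa using h0)]; omega
      · rw [tb_two h0]; omega))))
  exact hP g h5 (h6.inv h1) (pow_eq_one_of_sim h6.sim h2) (by rw [fd, h6.sim.kd_eq, h4])

theorem all_two_sp (h2 : (2 : F) ≠ 0) (hd : finrank F V = 2 * d) (h0 : 0 < d)
    (h1 : ∀ m, 0 < m → m < d → ∃ g, P g ∧ Inv B g ∧ g ^ 2 = 1 ∧ fd g + 2 * m = 2 * d)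
    (h3 : ∃ g, P g ∧ Inv B g ∧ g ^ 2 = -1) : All (Inv B) 2 (Cj (Inv B) P) := by
  have : Nontrivial V := Module.nontrivial_of_finrank_pos (R := F) (by omega)
  refine (forall_two_iff hB h2 _ _ fun _ h => h).2 ⟨fun f hf h4 h5 h6 => ?_, fun f hf h4 => ?_⟩
  · obtain ⟨A, hA, h7, h8, -⟩ := exists_invol_split hB h2 hf h4
    have h9 := ne_one_iff_of_invol hB h2 hA h7 h8
    obtain ⟨m, hm⟩ := H54.even_finrank_of_isAlt (hB.restrict hA).nondegenerate fun x => ha x
    obtain ⟨g, h10, h11, h12, h13⟩ := h1 m (by have := h9.1.1 h5; omega) (by have := h9.2.1 h6; omega)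
    have h14 := fd_of_invol hB h2 hA h7 h8
    refine cj_inv_iff.2 ⟨g, h10, iso_of_sim_alt hB ha hB ha h11 hf (sim_of_ed_eq ?_) ?_⟩
    · rw [ed_of_invol hB h2 h11 h12, ed_of_invol hB h2 hf h4, show fd g = fd f by omega]
    · simp +contextual [ed_of_invol hB h2 h11 h12, Multiset.mem_replicate, or_imp]
  · obtain ⟨g, h5, h6, h7⟩ := h3
    exact cj_inv_iff.2 ⟨g, h5, iso_of_sq_neg h2 hB h6 hf h7 h4 hd⟩

end alt

section ten
variable {E W : Type*} [AddCommGroup E] [Module F E] [FiniteDimensional F E] [AddCommGroup W]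
  [Module F W] [FiniteDimensional F W] (T : Ten F E W V) {B₁ : E →ₗ[F] E →ₗ[F] F}
  {B₂ : W →ₗ[F] W →ₗ[F] F} {ε₁ ε₂ : F}

/-- `f` is a tensor product of automorphisms -/
def TP (f : End F V) : Prop := ∃ g ∈ T.grp, (g : End F V) = f

omit [Finite F] in
theorem ten_rank {α : E ≃ₗ[F] E} {β : W ≃ₗ[F] W} {e : E} {w : W} (he : α e ∉ F ∙ e)
    (hw : β w ∉ F ∙ w) :
    fd (T.tm α β : End F V) + finrank F E + finrank F W ≤ finrank F V + 2 := by
  obtain ⟨E', h1⟩ := (Submodule.span F {e, α.symm e}).exists_isCompl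
  have h2 := Submodule.finrank_add_eq_of_isCompl h1
  have h3 : finrank F (Submodule.span F {e, α.symm e}) ≤ 2 := by
    classical
    exact (finrank_span_le_card _).trans (by rw [Set.toFinset_insert]; simpa using Finset.card_le_two)
  obtain ⟨ψ, h4, h5⟩ := exists_dual_pair hw
  obtain ⟨l, h6, h7⟩ := exists_dual_pair he
  let L : W × E' →ₗ[F] V := (T.t e).coprod (T.t.flip w ∘ₗ E'.subtype)
  have h8 : Function.Injective (((T.tm α β : End F V) - 1) ∘ₗ L) := by
    refine (injective_iff_map_eq_zero _).2 fun ⟨x, y⟩ h => ?_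
    have h9 : T.t (α e) (β x) + T.t (α y) (β w) = T.t e x + T.t y w := by
      simpa [L, sub_eq_zero] using h
    have h10 := congrArg (fun z => α.symm (T.cR ψ z)) h9
    simp only [map_add, Ten.cR_t, h4, h5, map_smul, LinearEquiv.symm_apply_apply, one_smul,
      zero_smul, map_zero, add_zero] at h10
    obtain rfl : y = 0 := Subtype.ext (Submodule.disjoint_def.1 h1.disjoint _
      (Submodule.mem_span_pair.2 ⟨-ψ (β x), ψ x, by rw [← h10]; module⟩) y.2)
    simpa [h6, h7] using congrArg (T.cL l) h9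
  have h9 := Submodule.finrank_mono (LinearMap.range_comp_le_range L ((T.tm α β : End F V) - 1))
  rw [LinearMap.finrank_range_of_inj h8, finrank_prod] at h9
  have := fd_add (T.tm α β : End F V)
  omega

omit [Finite F] in
theorem fd_rt (β : W ≃ₗ[F] W) : fd (T.rt β : End F V) = finrank F E * fd (β : End F W) := by
  rw [fd, fd, show (T.rt β : End F V) = H71.El.rtA T β from rfl, kd_eq_kds, H71.El.ed_rtA,
    H71.El.kds_nsmul, ← kd_eq_kds]

omit [Finite F] [FiniteDimensional F V] [FiniteDimensional F E] [FiniteDimensional F W] in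
theorem tm_pow (α : E ≃ₗ[F] E) (β : W ≃ₗ[F] W) (r : ℕ) :
    T.tm (α ^ r) (β ^ r) = T.tm α β ^ r := by
  induction r with
  | zero => simp
  | succ r ih => rw [pow_succ, pow_succ, pow_succ, ← ih, T.tm_mul]

variable {T} (h₁ : IsSF (σ := RingHom.id F) ε₁ B₁) (h₂ : IsSF (σ := RingHom.id F) ε₂ B₂)
  (hT : ∀ e e' w w', B (T.t e w) (T.t e' w') = B₁ e e' * B₂ w w')
include h₁ h₂ hT

theorem ten_rt (hr : r.Prime) (h2 : r ≠ 2) (h0 : (r : F) ≠ 0) (ha : 2 ≤ finrank F E)
    {β : W ≃ₗ[F] W} (hf : Inv B (T.rt β)) (h : (T.rt β : End F V) ^ r = 1) :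
    fd (T.rt β : End F V) + tb F r ≠ finrank F V := fun h3 => by
  have : Nontrivial E := Module.nontrivial_of_finrank_pos (R := F) (by omega)
  obtain ⟨e, he⟩ := exists_ne (0 : E)
  obtain ⟨e', h4⟩ := not_forall.1 (mt (h₁.nondeg e) he)
  obtain ⟨a, h5⟩ := exists_tb_mul (f := β) hr h2 h0 h₂
    (fun x y => mul_left_cancel₀ h4 (by simpa [hT] using hf (T.t e x) (T.t e' y)))
    (LinearMap.ext fun w => (T.t_right_inj he).1 (by
      have := LinearMap.congr_fun h (T.t e w)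
      rwa [← coe_pow', ← map_pow, LinearEquiv.coe_coe, T.rt_t, ← LinearEquiv.coe_coe,
        coe_pow'] at this))
  rw [fd_rt, T.finrank_eq, ← h5, mul_add, add_right_inj, ← mul_assoc, eq_comm,
    Nat.mul_eq_right tb_pos.ne', mul_eq_one] at h3
  omega

theorem ten_odd (hr : r.Prime) (h2 : r ≠ 2) (h0 : (r : F) ≠ 0) (ha : 2 ≤ finrank F E)
    (hb : 3 ≤ finrank F W) (h1 : TP T f) (hf : Inv B f) (h : f ^ r = 1) :
    fd f + tb F r ≠ finrank F V := fun h3 => by
  obtain ⟨_, ⟨α, β, rfl⟩, rfl⟩ := h1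
  by_cases h4 : ∀ e, α e ∈ F ∙ e
  · obtain ⟨β', e⟩ := T.exists_eq_rt β h4
    rw [e] at hf h h3
    exact ten_rt h₁ h₂ hT hr h2 h0 ha hf h h3
  by_cases h5 : ∀ w, β w ∈ F ∙ w
  · obtain ⟨α', e⟩ := T.swap.exists_eq_rt α h5
    rw [← T.swap_tm, e] at hf h h3
    exact ten_rt (T := T.swap) h₂ h₁ (by simp [hT, mul_comm]) hr h2 h0 (by omega) hf h h3
  obtain ⟨e, h4⟩ := not_forall.1 h4
  obtain ⟨w, h5⟩ := not_forall.1 h5
  have h6 := ten_rank T h4 h5
  by_cases h7 : r ∣ Nat.card F - 1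
  · rw [tb_of_dvd hr h7] at h3; omega
  have : Nontrivial W := Module.nontrivial_of_finrank_pos (R := F) (by omega)
  have : Nontrivial E := Module.nontrivial_of_finrank_pos (R := F) (by omega)
  obtain ⟨z, hz⟩ := H71.El.exists_smul_of_tm T (α := α ^ r) (β := β ^ r) (by
    rw [tm_pow]; exact LinearEquiv.toLinearMap_injective (by rw [coe_pow', h]; rfl))
  obtain ⟨μ, rfl⟩ := exists_pow_eq_of_not_dvd hr h7 z
  rw [coe_pow'] at hz
  have h8 : μ ≠ 0 := by
    rintro rfl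
    rw [zero_pow hr.ne_zero, zero_smul] at hz
    exact not_isUnit_zero (hz ▸ ((End.isUnit_iff _).2 α.bijective).pow r)
  have h9 := smul_pow_eq_one h8 hz
  obtain ⟨x, hx⟩ := exists_ne (0 : W)
  obtain ⟨y, hy⟩ := not_forall.1 (mt (h₂.nondeg (β x)) (by simpa using hx))
  obtain ⟨y, rfl⟩ := β.surjective y
  have h10 : ∀ u v, B₁ ((μ⁻¹ • (α : End F E)) u) ((μ⁻¹ • (α : End F E)) v) =
      (μ⁻¹ * μ⁻¹ * B₂ x y / B₂ (β x) (β y)) * B₁ u v := fun u v => by
    have := hf (T.t u x) (T.t v y)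
    simp only [LinearEquiv.coe_coe, Ten.tm_t, hT] at this
    simp only [LinearMap.smul_apply, map_smul, smul_eq_mul, LinearEquiv.coe_coe]
    field_simp
    rw [this, mul_comm]
  have h11 : (μ⁻¹ • (α : End F E)) ≠ 1 := fun h => h4 (Submodule.mem_span_singleton.2 ⟨μ, by
    rw [← one_smul F (α e), ← mul_inv_cancel₀ h8, mul_smul]
    exact congrArg _ (LinearMap.congr_fun h e).symm⟩)
  generalize μ⁻¹ • (α : End F E) = γ, μ⁻¹ * μ⁻¹ * B₂ x y / B₂ (β x) (β y) = κ at h9 h10 h11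
  have h12 : ∀ n u v, B₁ ((γ ^ n) u) ((γ ^ n) v) = κ ^ n * B₁ u v := fun n u v => by
    induction n with
    | zero => simp
    | succ n ih => rw [pow_succ', End.mul_apply, End.mul_apply, h10, ih, pow_succ', mul_assoc]
  obtain ⟨u, hu⟩ := exists_ne (0 : E)
  obtain ⟨v, hv⟩ := not_forall.1 (mt (h₁.nondeg u) hu)
  obtain rfl : κ = 1 := eq_one_of_pow_eq_one_of_not_dvd hr h7
    (mul_right_cancel₀ hv (by rw [← h12, h9, one_mul]; rfl))
  have := tb_le hr h2 h0 h₁ (fun u v => by rw [h10, one_mul]) h9 h11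
  omega

omit h₁ h₂ [Finite F] [FiniteDimensional F V] [FiniteDimensional F E] [FiniteDimensional F W] in
theorem inv_tm {α : E ≃ₗ[F] E} {β : W ≃ₗ[F] W} (hα : Inv B₁ α) (hβ : Inv B₂ β) :
    Inv B (T.tm α β) := fun x y => by
  have : (B.compl₁₂ (T.tm α β : End F V) (T.tm α β : End F V)) = B :=
    T.hom_ext fun e w => T.hom_ext fun e' w' => by
      simpa [hT] using congrArg₂ (· * ·) (hα e e') (hβ w w')
  exact LinearMap.congr_fun₂ this x y

end ten

theorem ten_main {E W : Type*} [AddCommGroup E] [Module F E] [FiniteDimensional F E]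
    [AddCommGroup W] [Module F W] [FiniteDimensional F W] {T : Ten F E W V}
    {B₁ : E →ₗ[F] E →ₗ[F] F} {B₂ : W →ₗ[F] W →ₗ[F] F} (h : SpO T B₁ B₂ B) (ha : 2 ≤ finrank F E)
    (hb : 3 ≤ finrank F W) (hr : r.Prime) (hΩ : r ∣ Nat.card (H59.isom B)) :
    All (Inv B) r (Cj (Inv B) (TP T)) ↔ r = 2 ∧ finrank F E = 2 := by
  have hB := isSF_of_isAlt h.nd h.alt
  have h₁ := isSF_of_isAlt h.nd₁ h.alt₁
  have h₂ : IsSF (σ := RingHom.id F) 1 B₂ :=
    ⟨fun _ => rfl, by simp, fun x y => by simp [h.sym₂ y x], h.nd₂.1⟩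
  have hn := T.finrank_eq
  have h6 : 6 ≤ finrank F V := by nlinarith
  have key : tb F r ≤ 2 → ¬ finrank F E ∣ tb F r → ¬ All (Inv B) r (Cj (Inv B) (TP T)) :=
    fun h1 h2 => not_all_sp hB h.alt hr (by omega) (by omega) fun f ⟨g, hg, e⟩ _ _ h3 => by
      subst e
      have h4 := fd_add (g : End F V)
      obtain ⟨β, rfl⟩ := T.exists_eq_rt_of_finrank hg
        (by omega : finrank F (LinearMap.range ((g : End F V) - 1)) < finrank F W)
      rw [fd_rt, hn] at h3
      exact h2 ((Nat.dvd_add_right (dvd_mul_right _ _)).1 (h3 ▸ dvd_mul_right _ _))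
  by_cases h2 : r = 2
  · subst h2
    rw [tb_two h.two] at key
    refine ⟨fun H => ⟨rfl, le_antisymm (Nat.le_of_dvd two_pos (of_not_not (key le_rfl · H))) ha⟩,
      fun H => all_two_sp hB h.alt h.two (hn.trans (by rw [H.2])) (by omega) (fun m _ h3 => ?_) ?_⟩
    · obtain ⟨Q, rfl⟩ := exists_qinv_of_two_ne h.two h₂
      obtain ⟨A, -, h4, h5⟩ := exists_nd_le_two_ne h.two h.nd₂ (nd_top h₂) (j := m) (by simp; omega)
      obtain ⟨β, h7, h8, h9, h10⟩ := exists_invol_of_nd h₂ h4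
      obtain ⟨β, rfl⟩ : ∃ γ : W ≃ₗ[F] W, (γ : End F W) = β :=
        ⟨.ofBijective β ((End.isUnit_iff _).1 (h7.isUnit h₂)), rfl⟩
      refine ⟨T.rt β, ⟨_, T.rt_mem β, rfl⟩, inv_tm h.eq Inv.one h7,
        (map_pow (H71.El.rtA T) _ 2).symm.trans (by rw [h8, map_one]), ?_⟩
      rw [fd_rt, H.2, ← fd_of_invol h₂ h.two h4 h9 h10, h5, mul_add]
    · obtain ⟨α, h7, h8⟩ := exists_sq_eq_neg_alt h.two h₁ h.alt₁
      obtain ⟨α, rfl⟩ : ∃ γ : E ≃ₗ[F] E, (γ : End F E) = α :=
        ⟨.ofBijective α ((End.isUnit_iff _).1 (h7.isUnit h₁)), rfl⟩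
      exact ⟨T.swap.rt α, ⟨_, T.swap_grp ▸ T.swap.rt_mem α, rfl⟩,
        inv_tm (T := T.swap) (B₁ := B₂) (by simp [h.eq, mul_comm]) Inv.one h7,
        (map_pow (H71.El.rtA T.swap) _ 2).symm.trans (by rw [h8, map_neg, map_one])⟩
  refine iff_of_false ?_ (by simp [h2])
  by_cases h0 : (r : F) = 0
  · rw [tb_char h0] at key
    exact key one_le_two fun e => by have := Nat.le_of_dvd one_pos e; omega
  obtain ⟨g, h3, h4, h5⟩ := exists_elt_of_dvd hr hΩ
  exact not_all_sp hB h.alt hr (tb_le hr h2 h0 hB h3 h4 h5) (by omega)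
    fun f => ten_odd h₁ h₂ h.eq hr h2 h0 ha hb

end H62.El
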