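/- Elements of prime order of symplectic groups and normalisers of extension fields. -/
import Cfsg.Agent.H62.ElK2

set_option autoImplicit false

open Polynomial Module H53 H58 H56
open H59 (perp mem_perp frob)
open H71.El (NK)

namespace H62.El

section arith
variable {X a b G R q r k : ℕ}

theorem dvd_of_cancel (h : X * (a * G) ∣ b * (G * R)) (hG : 0 < G) : X ∣ b * R :=
  Nat.dvd_of_mul_dvd_mul_right hG ((Dvd.intro a (by ring)).trans (h.trans (dvd_of_eq (by ring))))

theorem prod_range_split (g : ℕ → ℕ) (hk : 0 < k) (m : ℕ) :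
    ∏ i ∈ Finset.range (k * m), g (i + 1) = (∏ i ∈ Finset.range m, g (k * (i + 1))) *
      ∏ i ∈ Finset.range (k * m) with ¬ k ∣ i + 1, g (i + 1) := by
  rw [← Finset.prod_filter_mul_prod_filter_not (Finset.range (k * m)) fun i => k ∣ i + 1]
  congr 1
  refine (Finset.prod_bij (fun i _ => k * (i + 1) - 1) (fun i hi => ?_) (fun i _ j _ h => ?_)
    (fun j hj => ?_) fun i _ => ?_).symm
  · have : k * (i + 1) ≤ k * m := Nat.mul_le_mul_left k (Finset.mem_range.1 hi)
    have : 0 < k * (i + 1) := Nat.mul_pos hk i.succ_pos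
    simp only [Finset.mem_filter, Finset.mem_range, Nat.sub_add_cancel this, dvd_mul_right, and_true]
    omega
  · have : 0 < k * (i + 1) := Nat.mul_pos hk i.succ_pos
    have : 0 < k * (j + 1) := Nat.mul_pos hk j.succ_pos
    simpa [hk.ne'] using (by omega : k * (i + 1) = k * (j + 1))
  · obtain ⟨h1, _ | i, h2⟩ := Finset.mem_filter.1 hj
    · omega
    · exact ⟨i, Finset.mem_range.2 (Nat.le_of_mul_le_mul_left
        (by have := Finset.mem_range.1 h1; omega : k * (i + 1) ≤ k * m) hk), by omega⟩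
  · rw [Nat.sub_add_cancel (Nat.mul_pos hk i.succ_pos)]

theorem exists_dvd_of_prod (hr : r.Prime) (hq : ¬ r ∣ q) {s : Finset ℕ} {g : ℕ → ℕ}
    (h : r ∣ q ^ a * ∏ i ∈ s, g i) : ∃ i ∈ s, r ∣ g i :=
  (hr.prime.dvd_finset_prod_iff g).1 ((hr.dvd_mul.1 h).resolve_left fun e => hq (hr.dvd_of_dvd_pow e))

end arith

variable {F K : Type*} [Field F] [Field K] [Algebra F K] {V : Type*} [AddCommGroup V] [Module F V]
  [Module K V] [IsScalarTower F K V] {r d j X : ℕ} {ε : F} {ε' : K} {f : End F V} {τ : K →+* K}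
  {B : V →ₗ[F] V →ₗ[F] F} {b : V →ₛₗ[τ] V →ₗ[K] K} {c : Dual F K}

theorem tb_dvd [Finite F] (h0 : (r : F) ≠ 0) (h : r ∣ Nat.card F ^ (2 * j) - 1) :
    tb F r ∣ 2 * j := by
  rw [← orderOf_zmod_dvd_iff Nat.card_pos] at h
  rw [tb_eq h0]
  split_ifs with h1
  · exact h
  · exact Nat.mul_dvd_mul_left 2
      ((Nat.coprime_two_right.2 (Nat.not_even_iff_odd.1 h1)).dvd_of_dvd_mul_left h)

theorem tb_lt [Finite F] (hr : r.Prime) (h2 : r ≠ 2) (h0 : (r : F) ≠ 0) : tb F r < r := by
  have := Fact.mk hr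
  obtain ⟨j, hj⟩ := hr.even_sub_one h2
  have := hr.two_le
  have := Nat.le_of_dvd (by omega) (tb_dvd (j := j) h0 ((orderOf_zmod_dvd_iff Nat.card_pos _).1
    (two_mul j ▸ hj ▸ ZMod.orderOf_dvd_card_sub_one
      (mt (ZMod.natCast_eq_zero_iff _ _).1 (not_dvd_card_of_ne_zero hr h0)))))
  omega

variable (F) in
/-- restriction of scalars -/
def rs : End K V →+* End F V where
  toFun g := g.restrictScalars F
  map_one' := rfl
  map_mul' _ _ := rfl
  map_zero' := rfl
  map_add' _ _ := rfl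

@[simp] theorem rs_apply (g : End K V) (v : V) : rs F g v = g v := rfl

theorem rs_inj : Function.Injective (rs F : End K V → End F V) :=
  LinearMap.restrictScalars_injective F

theorem nk_rs (g : End K V) : NK K (rs F g) := fun k => ⟨k, by simp⟩

theorem exists_rs (h : ∀ (k : K) v, f (k • v) = k • f v) : ∃ g : End K V, rs F g = f :=
  ⟨⟨⟨f, f.map_add⟩, h⟩, rfl⟩

theorem kd_rs (g : End K V) (P : F[X]) :
    kd (rs F g) P = finrank F K * kd g (P.map (algebraMap F K)) := by
  have : aeval (rs F g) P = rs F (aeval g (P.map (algebraMap F K))) := by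
    induction P using Polynomial.induction_on' with
    | add P Q h1 h2 => simp [h1, h2]
    | monomial n a =>
      rw [map_monomial, aeval_monomial, aeval_monomial, map_mul, map_pow]
      exact congrArg (· * _) (LinearMap.ext fun v => by simp)
  rw [kd, kd, this]
  exact (Module.finrank_mul_finrank F K (LinearMap.ker (aeval g (P.map (algebraMap F K))))).symm

theorem fd_rs (g : End K V) : fd (rs F g) = finrank F K * fd g := by simp [fd, kd_rs]

theorem cast_ne (h : (r : F) ≠ 0) : (r : K) ≠ 0 := by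
  rwa [← map_natCast (algebraMap F K), _root_.map_ne_zero]

theorem two_ne (h : (2 : F) ≠ 0) : (2 : K) ≠ 0 := cast_ne (r := 2) h

theorem ext_basis {ι U : Type*} [Fintype ι] [AddCommGroup U] [Module F U] (β : Basis ι K V)
    {f g : V →ₗ[F] U} (h : ∀ (k : K) i, f (k • β i) = g (k • β i)) : f = g :=
  LinearMap.ext fun v => by rw [← β.sum_repr v]; simp only [map_sum, h]

/-- `B` is obtained from the `K`-form `b` by the functional `c`. -/
structure Tr (B : V →ₗ[F] V →ₗ[F] F) (b : V →ₛₗ[τ] V →ₗ[K] K) (c : Dual F K) : Prop where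
  ne : c ≠ 0
  eq : ∀ x y, B x y = c (b x y)

theorem Tr.inv_iff (h : Tr B b c) {g : End K V} : Inv B (rs F g) ↔ Inv b g :=
  ⟨fun H x y => dual_mul_ext h.ne fun k => by simpa [h.eq] using H x (k • y),
    fun H x y => by simp [h.eq, H x y]⟩

theorem Tr.exists_semi {ι : Type*} [Fintype ι] (h : Tr B b c) (β : Basis ι K V) (ψ : K ≃ₐ[F] K)
    (hψ : ∀ a, ψ (ψ a) = a) (hτ : ∀ a, τ (ψ a) = ψ (τ a)) {l : K} {z : F}
    (hl : ψ l * l = algebraMap F K z)
    (hβ : ∀ i j k, c (ψ k * (τ l * l * b (β i) (β j))) = c (k * b (β i) (β j))) :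
    ∃ y : End F V, (∀ k v, y (k • v) = ψ k • y v) ∧ (∀ i, y (β i) = l • β i) ∧ Inv B y ∧
      y ^ 2 = z • 1 := by
  classical
  let y : End F V :=
    { toFun := fun v => ∑ i, (ψ (β.repr v i) * l) • β i
      map_add' := fun u v => by simp [add_mul, add_smul, Finset.sum_add_distrib]
      map_smul' := fun a v => by
        rw [← algebraMap_smul K a v, RingHom.id_apply, ← algebraMap_smul K a]
        simp only [map_smul, Finsupp.smul_apply, smul_eq_mul, map_mul, AlgEquiv.commutes,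
          Finset.smul_sum, smul_smul, mul_assoc] }
  have h1 : ∀ k v, y (k • v) = ψ k • y v := fun k v => by
    simp [y, Finset.smul_sum, smul_smul, mul_assoc]
  have h2 : ∀ i, y (β i) = l • β i := fun i => by
    simp [y, Finsupp.single_apply, apply_ite, ite_smul]
  refine ⟨y, h1, h2, LinearMap.congr_fun₂ (?_ : B.compl₁₂ y y = B), ext_basis β fun k i => ?_⟩
  · refine ext_basis β fun k i => ext_basis β fun m j => ?_
    simp only [LinearMap.compl₁₂_apply, h1, h2, h.eq, map_smul, map_smulₛₗ, LinearMap.smul_apply,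
      smul_eq_mul, hτ]
    rw [← mul_assoc m, ← hβ, map_mul ψ]
    exact congrArg c (by ring)
  · rw [sq, End.mul_apply, h1, h2, h1, h1, h2, hψ, smul_smul (ψ l), hl, algebraMap_smul, smul_comm]
    rfl

variable [Finite K] [FiniteDimensional F V]

theorem exists_tr (hB : IsSF (σ := RingHom.id F) ε B) (hτ : ∀ a, τ (τ a) = a)
    (h : ∀ (k : K) u v, B (k • u) v = B u (τ k • v)) (hc : c ≠ 0) (h1 : ε' * τ ε' = 1)
    (h2 : ∀ a, ε * c (τ a) = c (ε' * a)) : ∃ b : V →ₛₗ[τ] V →ₗ[K] K, Tr B b c ∧ IsSF ε' b := by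
  choose φ hφ using fun x => exists_comp_eq (K := K) hc (B x)
  have e : ∀ (k : K) x y, c (k * φ x y) = B x (k • y) := fun k x y => by
    rw [← hφ, map_smul, smul_eq_mul]
  let b : V →ₛₗ[τ] V →ₗ[K] K :=
    { toFun := φ
      map_add' := fun x y => LinearMap.ext fun v => dual_mul_ext hc fun k => by
        simp [mul_add, e]
      map_smul' := fun a x => LinearMap.ext fun v => dual_mul_ext hc fun k => by
        rw [e, h, LinearMap.smul_apply, smul_eq_mul, ← mul_assoc, e, smul_smul, mul_comm] }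
  refine ⟨b, ⟨hc, fun x y => (hφ x y).symm⟩, hτ, h1, fun x y => dual_mul_ext hc fun k => ?_,
    fun x hx => hB.nondeg x fun y => by rw [← hφ, show φ x y = 0 from hx y, map_zero]⟩
  change c (k * φ y x) = c (k * (ε' * τ (φ x y)))
  rw [e, hB.symm, h, ← e, mul_left_comm, ← h2, map_mul τ, hτ]
  rfl

omit [FiniteDimensional F V] in
theorem exists_aut [Nontrivial V] {ψ : K → K} {L R : K → V → V} (h : ∀ k v, L k v = ψ k • R 1 v)
    (h0 : ∃ v, R 1 v ≠ 0) (h1 : ∀ v, L 1 v = R 1 v) (h2 : ∀ x y v, L (x + y) v = L x v + L y v)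
    (h3 : ∀ x y v, L (x * y) v = ψ x • ψ y • R 1 v)
    (h4 : ∀ a v, L (algebraMap F K a) v = a • R 1 v) : ∃ ψ' : K ≃ₐ[F] K, ∀ k, ψ' k = ψ k := by
  obtain ⟨v, hv⟩ := h0
  have u := smul_left_injective K hv
  let φ : K →ₐ[F] K := AlgHom.mk' (RingHom.mk' ⟨⟨ψ, u (by simp only [← h, h1, one_smul])⟩,
    fun x y => u (by simp only [← h, h3, mul_smul])⟩ fun x y => u (by
      simp only [MonoidHom.coe_mk, OneHom.coe_mk, add_smul, ← h, h2])) fun a x => u (by
      change ψ (a • x) • R 1 v = (a • ψ x) • R 1 v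
      rw [← h, Algebra.smul_def, h3, smul_assoc, smul_comm, ← h, h4, smul_comm])
  exact ⟨.ofBijective φ (Finite.injective_iff_bijective.1 φ.injective), fun _ => rfl⟩

theorem kl_of_pow (h : NK K f) (h1 : f ^ r = 1) (hr : r ≠ 0) (h2 : r.Coprime (finrank F K)) :
    ∃ g : End K V, rs F g = f := by
  have := Finite.of_injective _ (algebraMap F K).injective
  choose ψ hψ using h
  rcases subsingleton_or_nontrivial V with _ | _
  · exact ⟨0, Subsingleton.elim _ _⟩
  obtain ⟨v, hv⟩ := exists_ne (0 : V)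
  obtain ⟨φ, hφ⟩ := exists_aut (F := F) (L := fun k v => f (k • v)) (R := fun _ v => f v) hψ
    ⟨v, fun e => hv (injective_of_pow hr (c := 1) (by simpa using h1) one_ne_zero
      (e.trans (map_zero f).symm))⟩ (by simp) (by simp [add_smul])
    (fun x y v => by rw [mul_smul, hψ, hψ]) (by simp)
  have h3 : ∀ n k v, (f ^ n) (k • v) = (φ ^ n) k • (f ^ n) v := fun n k v => by
    induction n with
    | zero => rfl
    | succ n ih => rw [pow_succ', pow_succ', End.mul_apply, ih, hψ, ← hφ]; rfl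
  have h4 : φ ^ r = 1 := AlgEquiv.ext fun k => smul_left_injective K hv (by
    simpa [h1] using (h3 r k v).symm)
  have h5 := orderOf_dvd_natCard φ
  rw [IsGalois.card_aut_eq_finrank] at h5
  obtain rfl : φ = 1 := orderOf_eq_one_iff.1
    (Nat.eq_one_of_dvd_coprimes h2 (orderOf_dvd_of_pow_eq_one h4) h5)
  exact exists_rs fun k v => by rw [hψ, ← hφ]; rfl

omit [Finite K] in
theorem kl_of_fd (hk : (finrank F K).Prime) (h : NK K f) (h1 : finrank F V < 2 * fd f) :
    ∃ g : End K V, rs F g = f := by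
  let S : Subalgebra F K :=
    { carrier := {k | ∀ v, f (k • v) = k • f v}
      mul_mem' := fun {x y} hx hy v => by rw [mul_smul, hx, hy, mul_smul]
      add_mem' := fun {x y} hx hy v => by rw [add_smul, map_add, hx, hy, add_smul]
      algebraMap_mem' := fun c v => by simp }
  refine exists_rs fun k => by_contra fun hk1 => ?_
  obtain ⟨k', hk'⟩ := h k
  have h2 : k' - k ≠ 0 := fun e => hk1 (sub_eq_zero.1 e ▸ hk')
  have h3 : k ≠ 0 := by rintro rfl; simp at hk1
  let u : V ≃ₗ[F] V := (LinearEquiv.smulOfNeZero K V k h3).restrictScalars F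
  have h4 : Disjoint (LinearMap.ker (f - 1)) ((LinearMap.ker (f - 1)).map u.toLinearMap) := by
    rw [Submodule.disjoint_def]
    rintro _ h4 ⟨w, h5, rfl⟩
    have h6 : f (k • w) - k • w = 0 := h4
    rw [hk', show f w = w from sub_eq_zero.1 h5, ← sub_smul, smul_eq_zero_iff_right h2] at h6
    rw [h6, map_zero]
  have h5 := finrank_sup_of_disjoint h4
  have := Submodule.finrank_le (LinearMap.ker (f - 1) ⊔ (LinearMap.ker (f - 1)).map u.toLinearMap)
  rw [LinearEquiv.finrank_map_eq, ← fd_eq] at h5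
  omega

omit [FiniteDimensional F V] in
theorem exists_adj_aut [Nontrivial V] (hB : IsSF (σ := RingHom.id F) ε B)
    (h : ∀ k : K, ∃ k' : K, ∀ u v, B (k • u) v = B u (k' • v)) :
    ∃ ψ : K ≃ₐ[F] K, (∀ k u v, B (k • u) v = B u (ψ k • v)) ∧ ∀ k, ψ (ψ k) = k := by
  choose ψ hψ using h
  obtain ⟨v, hv⟩ := exists_ne (0 : V)
  obtain ⟨φ, hφ⟩ := exists_aut (F := F) (ψ := ψ) (L := fun k v => ψ k • v) (R := fun _ v => v)
    (fun _ _ => rfl) ⟨v, hv⟩ (fun v => hB.ext_right fun u => by rw [← hψ, one_smul])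
    (fun x y v => hB.ext_right fun u => by simp [← hψ, add_smul])
    (fun x y v => hB.ext_right fun u => by rw [← hψ, ← hψ, ← hψ, smul_smul, mul_comm])
    fun a v => hB.ext_right fun u => by simp [← hψ]
  refine ⟨φ, by simpa only [hφ] using hψ, fun k => smul_left_injective K hv (hB.ext_right fun u => ?_)⟩
  simp only [hφ]
  rw [← hψ, hB.symm, ← hψ, ← hB.symm]

omit [Finite K] in
theorem relIndex_c3 {ι : Type} [Fintype ι] [DecidableEq ι] [Module K (ι → F)]
    [IsScalarTower F K (ι → F)] {T H : Subgroup (GL ι F)} {I : End F (ι → F) → Prop}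
    (hT : ∀ g : GL ι F, g ∈ T ↔ I (Matrix.toLin' (g : Matrix ι ι F)))
    (hH : ∀ g : GL ι F, g ∈ H ↔ NK K (Matrix.toLin' (g : Matrix ι ι F)))
    {T' : Subgroup ((ι → F) ≃ₗ[F] (ι → F))} (hT' : ∀ e, e ∈ T' ↔ I e)
    (Γ : Subgroup ((ι → F) ≃ₗ[K] (ι → F))) (h : ∀ g ∈ Γ, I (rs F (g : End K (ι → F)))) :
    H.relIndex T * Nat.card Γ ∣ Nat.card T' :=
  relIndex_mul_dvd hT (fun g _ => hH g) hT' (MonoidHom.mk' (fun g : Γ => g.1.restrictScalars F)
    fun _ _ => rfl) (fun _ _ e => Subtype.ext (LinearEquiv.restrictScalars_injective F e))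
    fun g => ⟨h g g.2, nk_rs (g.1 : End K (ι → F))⟩

variable [Finite F] (hB : IsSF (σ := RingHom.id F) (-1) B) (ha : ∀ x, B x x = 0)
include hB ha

omit [Finite K] in
theorem not_all_char (hk : (finrank F K).Prime) (hr : r.Prime) (h0 : (r : F) = 0)
    (h3 : 3 ≤ finrank F V) : ¬ All (Inv B) r (Cj (Inv B) (NK K)) :=
  not_all_sp hB ha hr (by rw [tb_char h0]; omega) h3 fun h h1 _ _ h2 => by
    rw [tb_char h0] at h2
    obtain ⟨g, rfl⟩ := kl_of_fd hk h1 (by omega)
    rw [fd_rs, ← Module.finrank_mul_finrank F K V] at h2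
    exact hk.not_dvd_one ((Nat.dvd_add_right (dvd_mul_right _ _)).1 (h2 ▸ dvd_mul_right _ _))

theorem sp_field (hk : (finrank F K).Prime) (hsa : ∀ (k : K) u v, B (k • u) v = B u (k • v))
    (halt : ∀ (k : K) v, B (k • v) v = 0) (hd : finrank F V = 2 * d) (h2 : 2 ≤ d) (hr : r.Prime)
    (hX : r ∣ X) (hΩ : ∀ Γ : Subgroup (V ≃ₗ[K] V), (∀ g ∈ Γ, Inv B (rs F (g : End K V))) →
      X * Nat.card Γ ∣ Nat.card (H59.isom B)) : All (Inv B) r (Cj (Inv B) (NK K)) ↔
      r = 2 ∧ d = 2 ∧ finrank F K = 2 ∧ (2 : F) ≠ 0 := by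
  have := Module.Finite.of_restrictScalars_finite F K V
  obtain ⟨b, h, hb⟩ := exists_tr (τ := RingHom.id K) (ε' := -1) hB (fun _ => rfl) hsa
    (Algebra.trace_ne_zero F K) (by simp) (by simp)
  have hb' : ∀ x, b x x = 0 := fun x => dual_mul_ext h.ne fun k => by
    simpa [h.eq] using halt k x
  obtain ⟨m, hm⟩ := H54.even_finrank_of_isAlt hb.nondegenerate hb'
  have hn := Module.finrank_mul_finrank F K V
  rw [← two_mul] at hm
  rw [hm, hd, mul_left_comm, mul_right_inj' two_ne_zero] at hn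
  by_cases h0 : (r : F) = 0
  · refine iff_of_false (not_all_char hB ha hk hr h0 (by omega)) ?_
    rintro ⟨rfl, -, -, h3⟩
    exact h3 (by simpa using h0)
  have key : ∀ g : End K V, Inv B (rs F g) → rs F g ^ r = 1 →
      fd (rs F g) + tb F r = finrank F V → 2 * finrank F K ∣ tb F r := fun g h3 h4 h5 => by
    rw [h.inv_iff] at h3
    rw [← map_pow, ← map_one (rs F (K := K)), rs_inj.eq_iff] at h4
    obtain ⟨a, h6⟩ : ∃ a, fd g + 2 * a = 2 * m := by
      by_cases h7 : r = 2
      · obtain ⟨A, hA, h8, h9, -⟩ := exists_invol_split hb (cast_ne (h7 ▸ h0)) h3 (h7 ▸ h4)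
        obtain ⟨a, e⟩ := H54.even_finrank_of_isAlt (hb.restrict hA).nondegenerate fun x => hb' x
        exact ⟨a, by rw [← hm, two_mul, ← e, fd_of_invol hb (cast_ne (h7 ▸ h0)) hA h8 h9]⟩
      · obtain ⟨a, e⟩ := exists_tb_mul hr h7 (cast_ne h0) hb h3 h4
        obtain ⟨t, ht⟩ := even_blk (tb_eq (cast_ne (K := K) h0))
        exact ⟨a * t, by rw [← hm, ← e, ht]; ring⟩
    rw [fd_rs, hd, ← hn, mul_left_comm, ← h6, mul_add, add_right_inj] at h5
    exact ⟨a, by rw [h5]; ring⟩
  have h1 := hk.two_le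
  by_cases h3 : r = 2
  · subst h3
    replace h0 : (2 : F) ≠ 0 := by simpa using h0
    rw [tb_two h0] at key
    refine ⟨fun H => ?_, fun H => all_two_sp hB ha h0 hd (by omega) (fun j _ _ => ?_) ?_⟩
    · obtain rfl : d = 2 := by_contra fun h4 => not_all_sp hB ha hr (by rw [tb_two h0]; omega)
        (by omega) (fun f h5 h6 h7 h8 => by
          rw [tb_two h0] at h8
          obtain ⟨g, rfl⟩ := kl_of_fd hk h5 (by omega)
          have := Nat.le_of_dvd two_pos (key g h6 h7 h8)
          omega) H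
      exact ⟨rfl, rfl, le_antisymm (Nat.le_of_dvd two_pos ⟨m, hn.symm⟩) h1, h0⟩
    · obtain ⟨ψ, x, hx⟩ := exists_aut_ne (F := F) (K := K) (by omega)
      have h4 : ψ * ψ = 1 := by
        rw [← sq, ← H.2.2.1, ← IsGalois.card_aut_eq_finrank, pow_card_eq_one']
      obtain ⟨s, t, β, e1, e2, e3, e4⟩ := H54.exists_symplectic_basis_radical (B := b) hb'
      obtain ⟨y, h5, h6, h7, h8⟩ := h.exists_semi β ψ (DFunLike.congr_fun h4) (fun _ => rfl)
        (l := 1) (z := 1) (by simp) fun i j k => by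
          rw [← Algebra.trace_eq_of_algEquiv ψ (k * _), map_mul ψ]
          rcases i with (i | i) | i <;> rcases j with (j | j) | j <;>
            simp [e1, e2, e3, e4, hb.symm (β (.inr _)), hb.symm (β (.inl (.inl _))) (β (.inl (.inr _))),
              apply_ite ψ]
      rw [one_smul] at h8
      obtain ⟨A, hA, h9, h10, -⟩ := exists_invol_split hB h0 h7 h8
      obtain ⟨a, e⟩ := H54.even_finrank_of_isAlt (hB.restrict hA).nondegenerate fun x => ha x
      have h11 := ne_one_iff_of_invol hB h0 hA h9 h10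
      have h12 := fd_of_invol hB h0 hA h9 h10
      have : Nontrivial V := Module.nontrivial_of_finrank_pos (R := F) (by omega)
      obtain ⟨i⟩ := β.index_nonempty
      have h13 := h11.1.1 fun e => hx (smul_left_injective K (β.ne_zero i) (by
        simpa [e] using (h5 x (β i)).symm))
      have h14 := h11.2.1 fun e => β.ne_zero i (by
        simpa [e, neg_eq_iff_add_eq_zero, ← two_smul F, h0] using h6 i)
      exact ⟨y, fun k => ⟨_, h5 k⟩, h7, h8, by omega⟩
    · obtain ⟨g, h4, h5⟩ := exists_sq_eq_neg_alt (two_ne h0) hb hb'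
      exact ⟨_, nk_rs g, h.inv_iff.2 h4, by rw [← map_pow, h5, map_neg, map_one]⟩
  refine iff_of_false ?_ (by simp [h3])
  have h4 := hΩ (H59.isom b) fun g hg => h.inv_iff.2 hg
  rw [show Nat.card (H59.isom b) = _ from H54.card_Isom hb.nondegenerate hb' hm,
    show Nat.card (H59.isom B) = _ from H54.card_Isom hB.nondegenerate ha hd, H54.spOrder,
    H54.spOrder, ← hn, prod_range_split (fun j => Nat.card F ^ (2 * j) - 1) hk.pos,
    Module.natCard_eq_pow_finrank (K := F) (V := K)] at h4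
  simp only [← pow_mul, mul_left_comm (finrank F K)] at h4
  obtain ⟨j, h5, h6⟩ := exists_dvd_of_prod hr (not_dvd_card_of_ne_zero hr h0) (hX.trans
    (dvd_of_cancel h4 (Finset.prod_pos fun i _ => Nat.sub_pos_of_lt
      (Nat.one_lt_pow (by positivity) Finite.one_lt_card))))
  simp only [Finset.mem_filter, Finset.mem_range] at h5
  have h7 := tb_dvd h0 h6
  have h8 := Nat.le_of_dvd (by omega) h7
  refine not_all_sp hB ha hr (by omega) (by omega) fun f h9 h10 h11 h12 => ?_
  obtain ⟨g, rfl⟩ : ∃ g : End K V, rs F g = f := by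
    by_cases h13 : r = finrank F K
    · have := tb_lt hr h3 h0
      have := Nat.le_of_dvd (by omega) ⟨m, hn.symm⟩
      exact kl_of_fd hk h9 (by omega)
    · exact kl_of_pow h9 h11 hr.ne_zero ((Nat.coprime_primes hr hk).2 h13)
  exact h5.2 (Nat.dvd_of_mul_dvd_mul_left two_pos ((key g h10 h11 h12).trans h7))

theorem sp_unit (h2 : (2 : F) ≠ 0) (hk : finrank F K = 2)
    (had : ∀ k : K, ∃ k' : K, ∀ u v, B (k • u) v = B u (k' • v))
    (hns : ¬ ∀ (k : K) u v, B (k • u) v = B u (k • v)) (hd : finrank F V = 2 * d) (h1 : 2 ≤ d)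
    (hr : r.Prime) (hX : r ∣ X) (hΩ : ∀ Γ : Subgroup (V ≃ₗ[K] V),
      (∀ g ∈ Γ, Inv B (rs F (g : End K V))) → X * Nat.card Γ ∣ Nat.card (H59.isom B)) :
    All (Inv B) r (Cj (Inv B) (NK K)) ↔ r = 2 := by
  have := Module.Finite.of_restrictScalars_finite F K V
  have := Fintype.ofFinite K
  have : Nontrivial V := Module.nontrivial_of_finrank_pos (R := F) (by omega)
  obtain ⟨ψ, e1, e2⟩ := exists_adj_aut hB had
  have e3 : (ψ : K →+* K) ≠ RingHom.id K := fun e => hns fun k u v => by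
    rw [e1, show ψ k = k from DFunLike.congr_fun e k]
  obtain ⟨q, hK, e4⟩ := H59.exists_card_eq_sq e3 e2
  obtain rfl : q = Nat.card F := Nat.pow_left_injective two_ne_zero (by
    simp only [← hK]
    rw [← hk, ← Module.natCard_eq_pow_finrank, Nat.card_eq_fintype_card])
  replace e4 : ∀ a, frob hK a = ψ a := fun a => (DFunLike.congr_fun e4 a).symm
  obtain ⟨δ, e5, e6⟩ := H59.exists_trace_zero_ne_zero e3 e2
  let c : Dual F K := Algebra.trace F K ∘ₗ LinearMap.mul F K δ
  have e7 : ∀ a, c (ψ a) = -c a := fun a => by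
    change Algebra.trace F K (δ * ψ a) = -Algebra.trace F K (δ * a)
    rw [← Algebra.trace_eq_of_algEquiv ψ, map_mul ψ, e2, ← map_neg, ← neg_mul,
      neg_eq_of_add_eq_zero_right e6]
    rfl
  obtain ⟨b, h, hb⟩ := exists_tr (τ := frob hK) (ε' := 1) (c := c) hB (H59.frob_frob hK)
    (by simpa only [e4] using e1) (fun e => Algebra.trace_ne_zero F K (LinearMap.ext fun a => by
      simpa [c, e5] using LinearMap.congr_fun e (δ⁻¹ * a))) (by simp) (by simp [e4, e7])
  have hH := hb.isHerm (H59.frob_ne_id hK)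
  have hn := Module.finrank_mul_finrank F K V
  rw [hk, hd, mul_right_inj' two_ne_zero] at hn
  by_cases h3 : r = 2
  · refine iff_of_true (h3 ▸ all_two_sp hB ha h2 hd (by omega) (fun m _ _ => ?_) ?_) h3
    · obtain ⟨A, -, h4, h5⟩ := exists_nd_le_herm hb (nd_top hb) (m := m) (by simp; omega)
      obtain ⟨g, h6, h7, h8, h9⟩ := exists_invol_of_nd hb h4
      exact ⟨_, nk_rs g, h.inv_iff.2 h6, by rw [← map_pow, h7, map_one], by
        rw [fd_rs, hk, ← hn, ← fd_of_invol hb (two_ne h2) h4 h8 h9, h5, mul_add]⟩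
    · obtain ⟨β, hβ⟩ := hH.exists_orthonormal_basis
      obtain ⟨l, hl⟩ := H59.exists_norm_eq' e3 e2 (μ := -1) (by simp)
      replace hl : ψ l * l = -1 := hl
      obtain ⟨y, h5, -, h7, h8⟩ := h.exists_semi β ψ e2 (by simp [e4]) (l := l) (z := -1)
        (by simpa using hl) fun i j k => by
          rw [e4, hl, hβ]
          split_ifs <;> simp [e7]
      exact ⟨y, fun k => ⟨_, h5 k⟩, h7, by simpa using h8⟩
  refine iff_of_false ?_ h3
  by_cases h0 : (r : F) = 0
  · exact not_all_char hB ha (hk ▸ Nat.prime_two) hr h0 (by omega)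
  have h4 := hΩ (H59.isom b) fun g hg => h.inv_iff.2 hg
  have hq : 1 < Nat.card F := Finite.one_lt_card
  rw [hH.card_isom, show Nat.card (H59.isom B) = _ from H54.card_Isom hB.nondegenerate ha hd,
    H54.spOrder, H59.ordGU, hn, Finset.prod_congr rfl (g := fun i => sg (Nat.card F) (i + 1) (Even (i + 1)))
      fun i _ => by by_cases e : Even i <;> simp [sg, e, Nat.even_add_one],
    Finset.prod_congr rfl fun i _ => (sg_mul_sg (ε := Even (i + 1))).symm,
    Finset.prod_mul_distrib] at h4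
  obtain ⟨j, h5, h6⟩ := exists_dvd_of_prod hr (not_dvd_card_of_ne_zero hr h0) (hX.trans
    (dvd_of_cancel h4 (Finset.prod_pos fun i _ => sg_pos hq i.succ_pos)))
  obtain ⟨a, h7, h8, h9⟩ := blk_of_dvd_sg Nat.card_pos hr h3 rfl (orderOf_card_pos h0) j.succ_pos h6
  have h10 : ¬ orderOf (Nat.card F : ZMod r) % 4 = 2 := fun e => by
    obtain ⟨t, ht⟩ : ∃ t, orderOf (Nat.card F : ZMod r) = 2 * (2 * t + 1) :=
      ⟨orderOf (Nat.card F : ZMod r) / 4, by omega⟩
    rw [ht, if_pos (even_two_mul _), mul_left_comm, mul_right_inj' two_ne_zero] at h8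
    rw [ht, ← show _ = j + 1 from h8, Nat.even_mul] at h9
    have := even_two_mul (2 * t + 1)
    have := Nat.not_even_iff_odd.2 (odd_two_mul_add_one t)
    tauto
  rw [← tb_eq h0] at h8
  have h11 := Nat.le_of_dvd (by omega) (Dvd.intro_left a h8)
  rw [Finset.mem_range] at h5
  refine not_all_sp hB ha hr (by omega) (by omega) fun f h12 h13 h14 h15 => ?_
  obtain ⟨g, rfl⟩ := kl_of_pow h12 h14 hr.ne_zero (hk ▸ (Nat.coprime_primes hr Nat.prime_two).2 h3)
  obtain ⟨t, h16⟩ := exists_blk_mul (c := tb F r) hr (cast_ne h0) hb (dich_frob hr h3 (cast_ne h0) rfl)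
    (by rw [if_neg h10, natCard_sq hK, orderOf_sq_eq rfl rfl, tb_eq h0]
        split_ifs with e
        exacts [(Nat.two_mul_div_two_of_even e).symm, rfl])
    (h.inv_iff.1 h13) (rs_inj (by rw [map_pow, h14, map_one]))
  rw [fd_rs, hk, hd, ← hn, ← h16, mul_add, add_right_inj, ← mul_assoc, eq_comm,
    Nat.mul_eq_right tb_pos.ne'] at h15
  omega

end H62.El
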