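/- Elements of prime order of orthogonal groups and normalisers of quadratic extension fields. -/
import Cfsg.Agent.H62.ElK3

set_option autoImplicit false

open Polynomial Module H53 H58
open H59 (perp mem_perp)
open H56 (O SqCl sqcl refl spinor)
open H71.El (NK)
open QuadraticMap (polar)

namespace H62.El

section arith
variable {X q r d i c : ℕ} {ε η : Prop}

theorem exists_odd_of_dvd (hq : 1 < q) (hr : r.Prime) (h2 : r ≠ 2) (h0 : ¬ r ∣ q) (hX : r ∣ X)
    (hd : 0 < d) (h : X * ordO (q ^ 2) d η ∣ ordO q (2 * d) ε) (he : Even d → (η ↔ ε)) :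
    (∃ j < d, Odd j ∧ r ∣ q ^ (2 * j) - 1) ∨ (Odd d ∧ r ∣ sg q d ε) := by
  have h1 : ∀ {a m : ℕ}, r ∣ 2 * q ^ a * ∏ i ∈ Finset.range (2 * m) with ¬ 2 ∣ i + 1,
      (q ^ (2 * (i + 1)) - 1) → ∃ j ≤ 2 * m, Odd j ∧ r ∣ q ^ (2 * j) - 1 := fun h => by
    rw [mul_assoc] at h
    obtain ⟨j, h3, h4⟩ := exists_dvd_of_prod hr h0 ((hr.dvd_mul.1 h).resolve_left
      fun e => h2 ((Nat.prime_dvd_prime_iff_eq hr Nat.prime_two).1 e))
    simp only [Finset.mem_filter, Finset.mem_range] at h3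
    exact ⟨j + 1, h3.1, Nat.odd_iff.2 (by omega), h4⟩
  have h3 : ∀ m, 0 < ∏ i ∈ Finset.range m, (q ^ (2 * (2 * (i + 1))) - 1) := fun m =>
    Finset.prod_pos fun i _ => Nat.sub_pos_of_lt (Nat.one_lt_pow (by omega) hq)
  obtain ⟨m, rfl | rfl⟩ : ∃ m, d = 2 * m + 1 ∨ d = 2 * (m + 1) := ⟨(d - 1) / 2, by omega⟩
  · rw [ordO_odd, ordO_even, prod_range_split (fun j => q ^ (2 * j) - 1) two_pos] at h
    simp only [← pow_mul] at h
    have h4 := hX.trans (dvd_of_cancel h (h3 m))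
    rw [mul_right_comm] at h4
    rcases hr.dvd_mul.1 h4 with h4 | h4
    · obtain ⟨j, h5, h6⟩ := h1 h4
      exact .inl ⟨j, by omega, h6⟩
    · exact .inr ⟨odd_two_mul_add_one m, h4⟩
  · rw [ordO_congr he, ordO_even, show 2 * (m + 1) = 2 * m + 1 + 1 by ring, ordO_even,
      Finset.prod_range_succ, prod_range_split (fun j => q ^ (2 * j) - 1) two_pos,
      show sg (q ^ 2) (m + 1) ε = sg q (2 * m + 1 + 1) ε by simp only [sg, ← pow_mul]; rfl] at h
    simp only [← pow_mul] at h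
    rw [mul_assoc (2 * _), mul_assoc (2 * _), mul_assoc (∏ _ ∈ _, _), ← mul_assoc (sg _ _ _)] at h
    have h4 := hX.trans (dvd_of_cancel h (Nat.mul_pos (sg_pos hq (by omega)) (h3 m)))
    rw [← mul_assoc] at h4
    rcases hr.dvd_mul.1 h4 with h4 | h4
    · obtain ⟨j, h5, h6⟩ := h1 h4
      exact .inl ⟨j, by omega, h6⟩
    · exact .inl ⟨_, by omega, odd_two_mul_add_one m, h4⟩

end arith

variable {F K : Type*} [Field F] [Field K] [Algebra F K] {V : Type*} [AddCommGroup V] [Module F V]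
  [Module K V] [IsScalarTower F K V] {r d M : ℕ} {f g y : End F V} {Q : QuadraticForm F V}
  {R : QuadraticForm K V} {A U : Submodule K V} {κ : K}

theorem sqcl_mul_iff [Finite K] {x y a b : SqCl K} : x * y = a * b ↔ (x = a ↔ y = b) := by
  refine ⟨fun h => ⟨fun e => mul_left_cancel (e ▸ h), fun e => mul_right_cancel (e ▸ h)⟩, fun h => ?_⟩
  by_cases e : x = a
  · rw [e, h.1 e]
  have h1 : ∀ {u v : SqCl K}, u ≠ v → u * v ≠ 1 := fun e h => e (by
    rwa [mul_eq_one_iff_eq_inv, H56.SqCl.inv_eq] at h)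
  rw [← mul_inv_eq_one, H56.SqCl.inv_eq, mul_mul_mul_comm,
    H56.SqCl.eq_of_ne_one (h1 e) (h1 (mt h.2 e)), H56.SqCl.mul_self]

theorem nk_mul (hf : NK K f) (hg : NK K g) : NK K (f * g) := fun k => by
  obtain ⟨l, hl⟩ := hg k
  exact (hf l).imp fun m hm v => by rw [End.mul_apply, hl, hm]; rfl

theorem finrank_rs (A : Submodule K V) :
    finrank F (A.restrictScalars F) = finrank F K * finrank K A :=
  (Module.finrank_mul_finrank F K A).symm

/-- `Q` is the trace of the form `R` over the quadratic extension `K`. -/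
structure QT (Q : QuadraticForm F V) (R : QuadraticForm K V) : Prop where
  two : (2 : F) ≠ 0
  deg : finrank F K = 2
  nd : R.polarBilin.Nondegenerate
  eq : ∀ v, Q v = Algebra.trace F K (R v)

variable [Finite F] [Finite K]

namespace QT
variable (h : QT Q R)
include h

theorem tr : Tr Q.polarBilin R.polarBilin (Algebra.trace F K) :=
  ⟨Algebra.trace_ne_zero F K, fun x y => by simp [polar, h.eq]⟩

theorem perp_rs (A : Submodule K V) :
    perp Q.polarBilin (A.restrictScalars F) = (perp R.polarBilin A).restrictScalars F :=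
  Submodule.ext fun y => ⟨fun H x hx => dual_mul_ext h.tr.ne fun k => by
    simpa [h.tr.eq] using H (k • x) (A.smul_mem k hx), fun H x hx => by rw [h.tr.eq, H x hx, map_zero]⟩

theorem nd_rs (hA : ND R.polarBilin A) : ND Q.polarBilin (A.restrictScalars F) := by
  rw [ND, h.perp_rs, Submodule.disjoint_def]
  exact fun x => Submodule.disjoint_def.1 hA x

theorem ndQ : Q.polarBilin.Nondegenerate := by
  have : ∀ x, (∀ y, Q.polarBilin x y = 0) → x = 0 := fun x hx => h.nd.1 x fun y =>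
    dual_mul_ext h.tr.ne fun k => by simpa [h.tr.eq] using hx (k • y)
  exact ⟨this, fun x hx => this x fun y => (QuadraticMap.polar_comm Q x y).trans (hx y)⟩

theorem qinv_iff {g : End K V} : QInv Q (rs F g) ↔ QInv R g :=
  ⟨fun H => qinv_of_inv_of_two_ne (two_ne h.two) (h.tr.inv_iff.1 H.inv),
    fun H v => by rw [h.eq, h.eq, rs_apply, H]⟩

theorem exists_aut : ∃ (ψ : K ≃ₐ[F] K) (κ : K), (∀ a, ψ (ψ a) = a) ∧ κ ≠ 0 ∧ ψ κ = -κ ∧
    Algebra.trace F K κ = 0 := by
  obtain ⟨ψ, x, hx⟩ := exists_aut_ne (F := F) (K := K) (by rw [h.deg]; exact one_lt_two)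
  have h1 : ∀ a, ψ (ψ a) = a := DFunLike.congr_fun (show ψ * ψ = 1 by
    rw [← sq, ← h.deg, ← IsGalois.card_aut_eq_finrank, pow_card_eq_one'])
  exact ⟨ψ, ψ x - x, h1, sub_ne_zero.2 hx, by simp [h1], by
    rw [map_sub, Algebra.trace_eq_of_algEquiv, sub_self]⟩

theorem exists_smul (h1 : κ ≠ 0) (h2 : Algebra.trace F K κ = 0) (a : K)
    (ha : Algebra.trace F K a = 0) : ∃ s : F, s • κ = a := by
  have h3 := LinearMap.finrank_range_add_finrank_ker (Algebra.trace F K)
  rw [LinearMap.range_eq_top.2 (Algebra.trace_surjective F K), finrank_top, finrank_self, h.deg] at h3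
  exact ((finrank_eq_one_iff_of_nonzero' (⟨_, h2⟩ : LinearMap.ker (Algebra.trace F K))
    fun e => h1 (congrArg Subtype.val e)).1 (by omega) ⟨a, ha⟩).imp fun s hs => congrArg Subtype.val hs

theorem isSquare (s : F) : IsSquare (algebraMap F K s) :=
  H71.El.isSquare_map (two_ne h.two) (by rw [← h.deg, ← Module.natCard_eq_pow_finrank]) s

variable [FiniteDimensional F V] [FiniteDimensional K V]

theorem pl_iff_disc (h1 : κ ≠ 0) (h2 : Algebra.trace F K κ = 0) (hA : ND R.polarBilin A) :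
    Pl Q (A.restrictScalars F) ↔ disc (R.restrict A) = sqcl (2 * κ) ^ finrank K A := by
  have h4 := two_ne (K := K) h.two
  have key : ∀ U : Submodule K V, ND R.polarBilin U → finrank K U = 1 →
      (Pl Q (U.restrictScalars F) ↔ disc (R.restrict U) = sqcl (2 * κ)) := fun U hU h5 => by
    let b := Module.finBasisOfFinrankEq K U h5
    have h6 : gram (R.restrict U) b = 2 * R (b 0) := by simp [gram, two_mul]
    have h7 := h6 ▸ gram_ne_zero (nondeg_restrict h.nd hU) b
    rw [pl_iff_of_two (by rw [finrank_rs, h.deg, h5]), disc_eq b, h6,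
      H56.sqcl_eq_iff h7 (mul_ne_zero h4 h1)]
    constructor
    · rintro ⟨z, hz, h8, h9⟩
      obtain ⟨k, rfl⟩ : ∃ k : K, k • (b 0 : V) = z :=
        ⟨_, by simpa using congrArg Subtype.val (b.sum_repr ⟨z, hz⟩)⟩
      obtain ⟨s, hs⟩ := h.exists_smul h1 h2 _ (h.eq _ ▸ h9)
      obtain ⟨t, ht⟩ := h.isSquare s
      have h10 := left_ne_zero_of_smul h8
      rw [H56.Q_smul, Algebra.smul_def, ht] at hs
      have h11 : t ≠ 0 := by
        rintro rfl
        exact h7 (by simpa [h10, h4] using hs.symm)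
      exact ⟨k / t, div_ne_zero h10 h11, by field_simp; linear_combination hs⟩
    · rintro ⟨c, h8, h9⟩
      exact ⟨c • b 0, U.smul_mem c (b 0).2, smul_ne_zero h8 (by simpa using b.ne_zero 0), by
        rw [h.eq, H56.Q_smul, ← h2, mul_left_cancel₀ h4 (h9.trans (mul_left_comm _ _ _))]⟩
  generalize hn : finrank K A = n
  induction n generalizing A with
  | zero =>
    rw [disc_eq (Module.finBasisOfFinrankEq K A hn)]
    obtain rfl := Submodule.finrank_eq_zero.1 hn
    simp [gram, pl_bot]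
  | succ n ih =>
    obtain ⟨U, h5, h6, h7⟩ := exists_nd_le_two_ne h4 h.nd hA (j := 1) (by omega)
    obtain ⟨h8, h9, h10⟩ := h6.inf_perp (isSF_polar h.nd) hA h5
    have h11 := ih h8 (by omega)
    rw [← h9, Submodule.restrictScalars_sup, pl_sup_iff h.ndQ (h.nd_rs h6) (h.nd_rs h8)
      (by rw [h.perp_rs]; exact fun _ hx => hx.2) (by simp [finrank_rs, h.deg])
      (by simp [finrank_rs, h.deg]), disc_sup h.nd h6 h8 inf_le_right, pow_succ', sqcl_mul_iff]
    exact iff_congr (key U h6 h7) h11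

theorem exists_nd_pl {a : ℕ} (h0 : 0 < a) (ha : a < finrank K V) (η : Prop) :
    ∃ A : Submodule K V, ND R.polarBilin A ∧ finrank K A = a ∧
      (Pl Q (A.restrictScalars F) ↔ η) := by
  obtain ⟨-, κ, -, h1, -, h4⟩ := h.exists_aut
  obtain ⟨δ', h2⟩ : ∃ δ', δ' = sqcl (2 * κ) ^ a ↔ η := by
    by_cases e : η
    · exact ⟨_, iff_of_true rfl e⟩
    · have := H56.card_SqCl (two_ne (K := K) h.two)
      have : Nontrivial (SqCl K) := Finite.one_lt_card_iff_nontrivial.1 (by omega)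
      exact (exists_ne _).imp fun _ h => iff_of_false h e
  obtain ⟨A, -, h3, rfl, rfl⟩ := exists_nd_disc (two_ne h.two) h.nd (nd_top (isSF_polar h.nd)) h0
    (by simpa using ha) δ'
  exact ⟨A, h3, rfl, (h.pl_iff_disc h1 h4 h3).trans h2⟩

theorem isPlus_iff (h1 : κ ≠ 0) (h2 : Algebra.trace F K κ = 0) :
    IsPlus Q ↔ disc R = sqcl (2 * κ) ^ finrank K V := by
  rw [← pl_top, ← Submodule.restrictScalars_top F K, h.pl_iff_disc h1 h2 (nd_top (isSF_polar h.nd)),
    finrank_top, disc_of_equiv (Q := R.restrict ⊤) (Q' := R) Submodule.topEquiv fun _ => rfl]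

theorem isPlus_iff_of_even (he : Even (finrank K V)) : IsPlus R ↔ IsPlus Q := by
  obtain ⟨-, κ, -, h1, -, h2⟩ := h.exists_aut
  obtain ⟨m, hm⟩ := he.two_dvd
  rw [h.isPlus_iff h1 h2, isPlus_iff_disc (two_ne h.two) h.nd hm, hm, pow_mul, sq, H56.SqCl.mul_self,
    H56.sqcl_eq_one_iff'.2 (by simpa using h.isSquare (-1))]

theorem exists_y {ι : Type*} [Fintype ι] [DecidableEq ι] {ψ : K ≃ₐ[F] K} (hψ : ∀ a, ψ (ψ a) = a)
    {l ν : K} (h1 : ψ l * l = -1) (h2 : ψ ν = l * l * ν) (β : Basis ι K V)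
    (hβ : ∀ i j, polar R (β i) (β j) = if i = j then 2 * ν else 0) :
    ∃ y : End F V, (∀ k v, y (k • v) = ψ k • y v) ∧ (∀ i, y (β i) = l • β i) ∧ QInv Q y ∧
      y ^ 2 = -1 := by
  obtain ⟨y, h3, h4, h5, h6⟩ := h.tr.exists_semi β ψ hψ (fun _ => rfl) (l := l) (z := -1)
    (by simpa using h1) fun i j k => by
      rw [← Algebra.trace_eq_of_algEquiv ψ (k * _), QuadraticMap.polarBilin_apply_apply, hβ]
      split_ifs
      · rw [map_mul ψ, map_mul ψ, h2, map_ofNat, mul_left_comm 2]; rfl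
      · simp
  exact ⟨y, h3, h4, qinv_of_inv_of_two_ne h.two h5, by simpa using h6⟩

theorem exists_basis (hf : QInv Q f) (h1 : f ^ 2 = -1) : ∃ (ψ : K ≃ₐ[F] K) (l ν : K)
    (β : Basis (Fin (finrank K V)) K V), (∀ a, ψ (ψ a) = a) ∧ ψ l * l = -1 ∧ ψ ν = l * l * ν ∧
      ν ≠ 0 ∧ ∀ i j, polar R (β i) (β j) = if i = j then 2 * ν else 0 := by
  obtain ⟨ψ, κ, h2, h3, h4, h5⟩ := h.exists_aut
  have h0 := two_ne (K := K) h.two
  obtain ⟨l, hl⟩ := H59.exists_norm_eq' (σ := (ψ : K →+* K)) (fun e => h3 (by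
    have : κ = -κ := (DFunLike.congr_fun e κ).symm.trans h4
    simpa [h0] using (by linear_combination this : 2 * κ = 0))) h2 (μ := -1) (by simp)
  replace hl : ψ l * l = -1 := hl
  obtain ⟨ν, h6, h7⟩ : ∃ ν, ν ≠ 0 ∧ ψ ν = l * l * ν := by
    by_cases e : l * l = -1
    · exact ⟨κ, h3, by rw [e, h4, neg_one_mul]⟩
    · refine ⟨1 + ψ (l * l), fun e' => e (ψ.injective (by
        rw [map_neg, map_one, eq_neg_of_add_eq_zero_right e'])), ?_⟩
      rw [map_add, map_one, h2, map_mul]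
      linear_combination (1 - ψ l * l) * hl
  let β := Module.finBasis K V
  let R' := (QuadraticMap.weightedSumSquares K fun _ => ν).comp β.equivFun.toLinearMap
  have h8 : ∀ i j, polar R' (β i) (β j) = if i = j then 2 * ν else 0 := fun i j => by
    rw [show polar R' (β i) (β j) = polar (QuadraticMap.weightedSumSquares K fun _ => ν)
      (β.equivFun (β i)) (β.equivFun (β j)) by simp [polar, R'], polar_wss]
    simp [Finsupp.single_apply, eq_comm]
  have h9 : QT ((Algebra.trace F K).compQuadraticMap' R') R' :=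
    ⟨h.two, h.deg, nondegenerate_of_gramB β (by
      rw [← gram_eq_gramB, gram, show (Matrix.of fun i j => polar R' (β i) (β j)) =
        Matrix.diagonal fun _ => 2 * ν from Matrix.ext fun i j => h8 i j]
      simp [h0, h6]), fun _ => rfl⟩
  obtain ⟨y, -, -, h10⟩ := h9.exists_y h2 hl h7 β h8
  have hd : finrank F V = 2 * finrank K V := by rw [← h.deg, Module.finrank_mul_finrank]
  have h11 := ((exists_sq_eq_neg_iff h.two h9.ndQ hd).1 ⟨y, h10⟩).trans
    ((exists_sq_eq_neg_iff h.two h.ndQ hd).1 ⟨f, hf, h1⟩).symm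
  rw [h9.isPlus_iff h3 h5, h.isPlus_iff h3 h5, ← sqcl_mul_iff, H56.SqCl.mul_self,
    mul_eq_one_iff_eq_inv, H56.SqCl.inv_eq] at h11
  obtain ⟨e, he⟩ := exists_equiv_of_disc h0 h9.nd h.nd rfl h11
  exact ⟨ψ, l, ν, β.map e, h2, hl, h7, h6, fun i j => by
    rw [← h8]; simp only [Basis.map_apply, polar, ← map_add, he]⟩

theorem cj_om (hd : 1 < finrank K V) (hy : NK K y) (e : O Q) (he : ∀ v, e (y v) = f (e v)) {x : V}
    (hx : Q x ≠ 0) (h1 : NK K ((refl Q x).lin * y * (refl Q x).lin)) : Cj (InOm Q) (NK K) f := by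
  have hc := H56.mem_commutator_iff_of_two_ne h.ndQ h.two
  obtain ⟨A, h2, h3, h4⟩ := h.exists_nd_pl one_pos hd (sqcl (-1 : F) ≠ 1)
  obtain ⟨g, h5, h6, h7, h8⟩ := exists_invol_of_nd (isSF_polar h.nd) h2
  replace h5 := qinv_of_inv_of_two_ne (two_ne h.two) h5
  obtain ⟨s, hs⟩ := (h.qinv_iff.2 h5).exists_lin_eq h.ndQ
  have h9 : LinearMap.det s.lin = 1 := by
    obtain ⟨t, rfl⟩ := h5.exists_lin_eq h.nd
    rw [hs, show LinearMap.det (rs F t.lin) = _ from LinearMap.det_restrictScalars]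
    rcases t.det_eq_or h.nd with e | e
    · rw [e, map_one]
    · rw [e, ← map_one (algebraMap F K), ← map_neg, Algebra.norm_algebraMap, h.deg, neg_one_sq]
  have h10 : spinor h.ndQ s ≠ 1 := fun e => by
    have h11 := ((inOm_iff_of_invol h.two h.ndQ (h.qinv_iff.2 h5) (h.nd_rs h2) h7
      (h.perp_rs A ▸ h8)).1 ⟨s, (hc s).2 ⟨h9, e⟩, hs⟩).2
    rw [Pl, isPlus_iff_disc h.two (nondeg_restrict h.ndQ (h.nd_rs h2)) (k := 1)
      (by rw [finrank_rs, h.deg, h3]), h11, pow_one, eq_comm] at h4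
    exact iff_not_self h4
  have key : ∀ (y : End F V) (e : O Q), NK K y → (∀ v, e (y v) = f (e v)) →
      LinearMap.det e.lin = 1 → Cj (InOm Q) (NK K) f := fun y e hy he h11 => by
    by_cases h12 : spinor h.ndQ e = 1
    · exact ⟨e.1, ⟨e, (hc e).2 ⟨h11, h12⟩, rfl⟩, y, hy, he⟩
    refine ⟨(e * s).1, ⟨e * s, (hc _).2 ⟨by rw [H56.O.lin_mul, LinearMap.det_comp, h9, h11, one_mul],
      by rw [map_mul, H56.SqCl.eq_of_ne_one h12 h10, H56.SqCl.mul_self]⟩, rfl⟩, rs F g * y * rs F g,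
      nk_mul (nk_mul (nk_rs g) hy) (nk_rs g), fun v => ?_⟩
    change e (s.lin (g (y (g v)))) = f (e (s.lin v))
    rw [hs, rs_apply, ← End.mul_apply g, ← sq, h6, End.one_apply, he, rs_apply]
  rcases e.det_eq_or h.ndQ with h11 | h11
  · exact key y e hy he h11
  · exact key _ (e * refl Q x) h1 (fun v => by simp [he])
      (by rw [H56.O.lin_mul, LinearMap.det_comp, h11, H56.det_refl hx]; simp)

theorem all_two (hd : 1 < finrank K V) : All (InOm Q) 2 (Cj (InOm Q) (NK K)) := by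
  have hB := isSF_polar h.ndQ
  have hb := isSF_polar h.nd
  have hn : finrank F V = 2 * finrank K V := by rw [← h.deg, Module.finrank_mul_finrank]
  have : Nontrivial V := Module.nontrivial_of_finrank_pos (R := F) (by omega)
  have hx : ∀ A : Submodule K V, ND R.polarBilin A → 0 < finrank K A → ∃ x ∈ A, Q x ≠ 0 :=
    fun A hA h0 => by
      have : Nontrivial (A.restrictScalars F) := Module.nontrivial_of_finrank_pos (R := K) (M := A) h0
      obtain ⟨w, hw⟩ := exists_ne (0 : A.restrictScalars F)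
      obtain ⟨x, hx⟩ := H56.exists_Q_ne_zero (nondeg_restrict h.ndQ (h.nd_rs hA)) hw
      exact ⟨x, x.2, hx⟩
  refine (forall_two_iff hB h.two _ _ fun _ h => h.qinv.inv).2
    ⟨fun f hf h1 h2 h3 => ?_, fun f hf h1 => ?_⟩
  · obtain ⟨A, hA, h4, h5, -⟩ := exists_invol_split hB h.two hf.qinv.inv h1
    have h6 := ne_one_iff_of_invol hB h.two hA h4 h5
    have h7 := ((inOm_iff_of_invol h.two h.ndQ hf.qinv hA h4 h5).1 hf).1
    obtain ⟨a, ha⟩ := h7.two_dvd
    obtain ⟨U, h8, h9, h10⟩ := h.exists_nd_pl (a := a) (by have := h6.1.1 h2; omega)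
      (by have := h6.2.1 h3; omega) (Pl Q A)
    obtain ⟨φ, hφ⟩ := (qisom_iff_pl h.ndQ hA h7).2 ⟨by rw [finrank_rs, h.deg, h9, ha], h.nd_rs h8, h10⟩
    obtain ⟨e, he⟩ := H56.witt_sub h.ndQ _ (A.subtype ∘ₗ φ.toLinearMap) hφ
      (A.injective_subtype.comp φ.injective)
    obtain ⟨g, h11, -, h12, h13⟩ := exists_invol_of_nd hb h8
    obtain ⟨s, hs⟩ := (h.qinv_iff.2 (qinv_of_inv_of_two_ne (two_ne h.two) h11)).exists_lin_eq h.ndQ
    obtain ⟨x, h14, h15⟩ := hx U h8 (by have := h6.1.1 h2; omega)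
    refine h.cj_om hd (nk_rs g) e (LinearMap.congr_fun (ext_of_nd hB (h.nd_rs h8)
      (f := e.lin * rs F g) (g := f * e.lin) (fun v hv => ?_) fun v hv => ?_)) h15 ?_
    · simp [h12 v hv, he ⟨v, hv⟩, h4 _ (φ _).2]
    · have : e v ∈ perp Q.polarBilin A := fun w hw => by
        obtain ⟨u, hu⟩ := φ.surjective ⟨w, hw⟩
        have := hv u u.2
        rwa [QuadraticMap.polarBilin_apply_apply, ← e.map_polar, he, LinearMap.comp_apply,
          LinearEquiv.coe_coe, hu] at this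
      rw [h.perp_rs] at hv
      simp [h13 v hv, h5 _ this]
    · have : refl Q x * s * refl Q x = s := by
        rw [mul_assoc, H56.mul_refl, show s x = -x from (LinearMap.congr_fun hs x).trans (h12 x h14),
          H56.refl_neg, ← mul_assoc, H56.refl_mul_self, one_mul]
      rw [← hs, show (refl Q x).lin * s.lin * (refl Q x).lin = _ from congrArg H56.O.lin this, hs]
      exact nk_rs g
  · obtain ⟨ψ, l, ν, β, h2, h3, h4, h5, h6⟩ := h.exists_basis hf.qinv h1
    obtain ⟨y, h7, h8, h9, h10⟩ := h.exists_y h2 h3 h4 β h6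
    obtain ⟨e, h11, h12⟩ := qiso_of_iso_of_two_ne h.two
      (iso_of_sq_neg h.two hB h9.inv hf.qinv.inv h10 h1 hn)
    let w := β ⟨0, by omega⟩
    have h13 : ND R.polarBilin (K ∙ w) :=
      nd_span_singleton hb (by simpa [w, h6, h5] using two_ne h.two)
    have h14 := finrank_span_singleton (K := K) (β.ne_zero ⟨0, by omega⟩)
    obtain ⟨x, h15, h16⟩ := hx _ h13 (h14 ▸ one_pos)
    obtain ⟨g, -, -, h17, h18⟩ := exists_invol_of_nd hb h13
    obtain ⟨s, rfl⟩ := h9.exists_lin_eq h.ndQ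
    have h19 : s x ∈ K ∙ w := by
      obtain ⟨k, rfl⟩ := Submodule.mem_span_singleton.1 h15
      exact Submodule.mem_span_singleton.2 ⟨ψ k * l, by
        rw [mul_smul, ← h8, ← h7]; rfl⟩
    have h20 : polar Q x (s x) = 0 := by
      have := s.map_polar x (s x)
      rw [show s (s x) = -x from LinearMap.congr_fun (sq s.lin ▸ h10) x, QuadraticMap.polar_neg_right,
        QuadraticMap.polar_comm] at this
      exact mul_left_cancel₀ h.two (by linear_combination -this)
    have h21 : Submodule.span F {x, s x} = (K ∙ w).restrictScalars F :=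
      Submodule.eq_of_le_of_finrank_eq (by
        rw [Submodule.span_le, Set.insert_subset_iff, Set.singleton_subset_iff]; exact ⟨h15, h19⟩) (by
        rw [finrank_rs, h14, h.deg, ← Matrix.range_cons_cons_empty x (s x) ![], finrank_span_eq_card
          ((LinearIndependent.pair_iff' (by rintro rfl; simp at h16)).2 fun a ha => ?_)]
        · rfl
        · rw [← ha, QuadraticMap.polar_smul_right, H56.polar_self'] at h20
          have := s.map_Q x
          rw [← ha, show a = 0 by simpa [h16, h.two] using h20, zero_smul, map_zero] at this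
          exact h16 this.symm)
    have h22 : (refl Q x * refl Q (s x)).lin = rs F g := by
      refine ext_of_nd hB (h.nd_rs h13) (fun v hv => ?_) fun v hv => ?_
      · rw [rs_apply, h17 v hv]
        obtain ⟨a, b, rfl⟩ := Submodule.mem_span_pair.1 (h21.ge hv)
        simp [H56.refl_apply_self h16, H56.refl_apply_of_orth h20, H56.refl_apply_self (Q := Q)
          (v := s x) (by simpa using h16), H56.refl_apply_of_orth ((QuadraticMap.polar_comm _ _ _).trans h20), add_comm]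
      · rw [rs_apply, h18 v (h.perp_rs _ ▸ hv :)]
        simp [H56.refl_apply_of_orth (hv x h15), H56.refl_apply_of_orth (hv _ h19)]
    refine h.cj_om hd (fun k => ⟨_, h7 k⟩) ⟨e, h12⟩ h11 h16 ?_
    rw [show (refl Q x).lin * s.lin * (refl Q x).lin = (refl Q x * refl Q (s x)).lin * s.lin from
      congrArg H56.O.lin (by rw [mul_assoc, H56.mul_refl, ← mul_assoc] :
        refl Q x * s * refl Q x = refl Q x * refl Q (s x) * s), h22]
    exact nk_mul (nk_rs g) fun k => ⟨_, h7 k⟩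

omit h [Finite F] [Finite K] [FiniteDimensional K V] in
theorem not_all (hf : InOm Q f) (h1 : f ^ r = 1) (h2 : ∀ z : F, f ≠ z • 1)
    (h3 : ∀ g, NK K g → QInv Q g → g ^ r = 1 → (∀ P, kd g P = kd f P) → False) :
    ¬ All (InOm Q) r (Cj (InOm Q) (NK K)) := fun H => by
  obtain ⟨e, h4, g, h5, h6⟩ := H f hf ⟨1, by rw [h1, one_smul]⟩ h2
  have h7 : Sim g f := ⟨e, h6⟩
  exact h3 g h5 (fun v => (h4.qinv _).symm.trans ((congrArg Q (h6 v)).trans
    ((hf.qinv _).trans (h4.qinv _)))) (pow_eq_one_of_sim h7 h1) h7.kd_eq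

theorem all_iff (hd : 3 ≤ finrank K V) (hr : r.Prime) (hX : r ∣ M)
    (hΩ : M * Nat.card (O R) ∣ Nat.card (O Q)) : All (InOm Q) r (Cj (InOm Q) (NK K)) ↔ r = 2 := by
  classical
  refine ⟨fun H => by_contra fun h2 => absurd H ?_, fun e => e ▸ h.all_two (by omega)⟩
  have hn : finrank F V = 2 * finrank K V := by rw [← h.deg, Module.finrank_mul_finrank]
  have hE := H56.not_isExc_of_two_ne (Q := Q) h.two
  have ho := hr.odd_of_ne_two h2
  by_cases h0 : (r : F) = 0
  · have : CharP F r := (CharP.charP_iff_prime_eq_zero hr).2 h0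
    have : Fact r.Prime := ⟨hr⟩
    obtain ⟨f, h1, h3⟩ := exists_qinv_unip h.two h.ndQ
      (μ := 3 ::ₘ Multiset.replicate (finrank F V - 3) 1)
      (by simp +contextual [Multiset.mem_replicate]) (fun k hk => by
        rw [Multiset.count_eq_zero.2 (by
          simp only [Multiset.mem_cons, Multiset.mem_replicate]; rintro (rfl | ⟨-, rfl⟩) <;> contradiction)]
        exact Even.zero) (by simp; omega) (.inr (.inr ⟨3, by simp, by decide⟩))
    have h4 := pow_char_of_ed_up r h3 (by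
      simp +contextual [Multiset.mem_replicate, three_le_char r h.two, hr.one_le])
    have h5 : ∀ k, 0 < k → kd f ((X - 1) ^ k) = min 3 k + (finrank F V - 3) := fun k hk => by
      rw [kd_eq_kds, h3, up, Multiset.map_cons, kds_cons, Multiset.map_replicate,
        ← Multiset.nsmul_singleton, H71.El.kds_nsmul, kds_singleton,
        kd_cyc_pow_pow monic_X_sub_one.ne_zero, kd_cyc_pow_pow monic_X_sub_one.ne_zero,
        natDegree_X_sub_one, min_eq_left (show 1 ≤ k from hk)]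
      simp
    refine not_all (inOm_of_odd h.ndQ hE h1 ho h4) h4
      (ne_smul_of_ed_up h3 (k := 3) (by simp) (by decide)) fun g h6 _ _ h7 => ?_
    obtain ⟨g, rfl⟩ := kl_of_fd (h.deg ▸ Nat.prime_two) h6 (by
      rw [fd, h7, C_1, ← pow_one (X - 1), h5 1 one_pos]; omega)
    have := h7 ((X - 1) ^ 2)
    rw [kd_rs, h.deg, h5 2 two_pos] at this
    omega
  have hq : 1 < Nat.card F := Finite.one_lt_card
  rw [card_O_eq h.nd, card_O_eq h.ndQ, hn, Module.natCard_eq_pow_finrank (K := F) (V := K),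
    h.deg] at hΩ
  have h1 := even_blk (tb_eq h0)
  obtain ⟨a, N, h3, h4, h5, h6⟩ : ∃ a N, 0 < a ∧ a * tb F r + N = finrank F V ∧
      (N = 0 → (IsPlus Q ↔ (Even (orderOf (Nat.card F : ZMod r)) → Even a))) ∧
      ¬ 4 ∣ a * tb F r := by
    rcases exists_odd_of_dvd hq hr h2 (not_dvd_card_of_ne_zero hr h0) hX (by omega) hΩ
      h.isPlus_iff_of_even with ⟨j, h3, h4, h5⟩ | ⟨h3, h4⟩
    · have h6 := tb_dvd h0 h5
      have := Nat.le_of_dvd (by have := h4.pos; omega) h6
      exact ⟨1, finrank F V - tb F r, one_pos, by omega, by omega, fun e => by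
        have := (one_mul (tb F r) ▸ e).trans h6
        have := Nat.odd_iff.1 h4
        omega⟩
    · obtain ⟨a, h5, h6, h7⟩ := blk_of_dvd_sg Nat.card_pos hr h2 rfl (orderOf_card_pos h0) h3.pos h4
      rw [← tb_eq h0] at h6
      exact ⟨a, 0, h5, by omega, fun _ => h7, by have := Nat.odd_iff.1 h3; omega⟩
  obtain ⟨s, h7, h8, h9⟩ := (dich_id hr h2 h0).blk_exists a
  obtain ⟨f, h10, h11⟩ := (exists_qinv_blk_iff h.ndQ hr h2 h0 h7 h8 rfl h9
    (by rw [h9, blk_mul (tb_eq h0), h4])).1 h5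
  have h12 := pow_eq_one_of_ed h0 h7 h11
  have h13 := fd_of_ed hr.ne_one h0 h7 h11
  refine not_all (inOm_of_odd h.ndQ hE h10 ho h12) h12 (ne_smul_of_fd (isSF_polar h.ndQ) h10.inv h12
    (c := a * tb F r) (by omega) (Nat.mul_pos h3 tb_pos) (.inl ho)) fun g h14 h15 h16 h17 => ?_
  obtain ⟨g, rfl⟩ := kl_of_pow h14 h16 hr.ne_zero (h.deg ▸ (Nat.coprime_primes hr Nat.prime_two).2 h2)
  obtain ⟨t, h18⟩ := exists_tb_mul hr h2 (cast_ne h0) (isSF_polar h.nd) (h.qinv_iff.1 h15).inv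
    (rs_inj (by rw [map_pow, h16, map_one]))
  obtain ⟨u, hu⟩ := even_blk (tb_eq (cast_ne (K := K) h0))
  have h19 := fd_rs (F := F) g
  rw [fd, h17, h.deg] at h19
  rw [hu, mul_add] at h18
  exact h6 ⟨t * u, by change fd f = _ at h19; omega⟩

end QT

theorem exists_qt [FiniteDimensional F V] (h2 : (2 : F) ≠ 0) (hk : finrank F K = 2)
    (hQ : Q.polarBilin.Nondegenerate) (h : ∀ (k : K) u v, polar Q (k • u) v = polar Q u (k • v)) :
    ∃ R : QuadraticForm K V, QT Q R := by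
  obtain ⟨b, h1, hb⟩ := exists_tr (τ := RingHom.id K) (ε' := 1) (isSF_polar hQ) (fun _ => rfl) h
    (Algebra.trace_ne_zero F K) (by simp) (by simp)
  obtain ⟨R, rfl⟩ := exists_qinv_of_two_ne (two_ne h2) hb
  exact ⟨R, h2, hk, hb.nondegenerate, fun v => mul_left_cancel₀ h2 (by
    simpa [two_nsmul, two_mul] using h1.eq v v)⟩

theorem om_field {ι : Type} [Fintype ι] [DecidableEq ι] [Module K (ι → F)]
    [IsScalarTower F K (ι → F)] {H : Subgroup (GL ι F)} {Q : QuadraticForm F (ι → F)}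
    {q : (ι → F) → F} (hq : ⇑Q = q) (h2 : (2 : F) ≠ 0) (hk : finrank F K = 2)
    (hQ : Q.polarBilin.Nondegenerate) (h : ∀ (k : K) u v, polar q (k • u) v = polar q u (k • v))
    (hH : ∀ g : GL ι F, g ∈ H ↔ NK K (Matrix.toLin' (g : Matrix ι ι F))) (hn : 6 ≤ Fintype.card ι)
    (hr : r.Prime) (hΩ : r ∣ H.relIndex (Cfsg.Geo.omegaGL q)) :
    (∀ x ∈ Cfsg.Geo.omegaGL q, (∃ z : F, ((x ^ r : GL ι F) : Matrix ι ι F) = z • (1 : Matrix ι ι F)) →
      (∀ z : F, (x : Matrix ι ι F) ≠ z • (1 : Matrix ι ι F)) →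
      ∃ g ∈ Cfsg.Geo.omegaGL q, g⁻¹ * x * g ∈ H) ↔ r = 2 := by
  subst hq
  have := Module.Finite.of_restrictScalars_finite F K (ι → F)
  obtain ⟨R, hR⟩ := exists_qt h2 hk hQ h
  have h1 := Module.finrank_mul_finrank F K (ι → F)
  rw [hk, finrank_fintype_fun_eq_card] at h1
  rw [gl_iff (I := InOm Q) (T := Cfsg.Geo.omegaGL Q) (fun g => ⟨fun ⟨x, hx, e⟩ =>
      ⟨_, (H56.mem_Omega_iff Q rfl).1 hx, e ▸ rfl⟩, fun ⟨k, h3, h4⟩ => ?_⟩)
    (fun f hf => hf.qinv.isUnit hQ) fun g _ => hH g]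
  · refine hR.all_iff (by omega) hr (hΩ.trans ?_) (relIndex_c3 (mem_O_iff rfl) hH
      (T' := H56.OG Q) (fun _ => Iff.rfl) (H56.OG R) fun g hg => hR.qinv_iff.2 hg)
    have : Finite (GL ι F) := inferInstance
    have := relIndex_inf_dvd (H.subgroupOf (Cfsg.isometryGroup F Q)) ⊤ (commutator _)
    rwa [top_inf_eq, Subgroup.relIndex_top_right, Subgroup.subgroupOf, Subgroup.relIndex_comap] at this
  · obtain ⟨x, rfl⟩ := (H56.toO Q rfl).surjective k
    exact ⟨x, (H56.mem_Omega_iff Q rfl).2 h3, Units.ext (Matrix.toLin'.injective h4)⟩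

end H62.El
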