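import Cfsg.Agent.H62.OInSL
import Cfsg.Agent.H62.SpPair
import Cfsg.Agent.H62.C3Mat

set_option autoImplicit false
set_option linter.unusedSectionVars false

/-! The normaliser of `GU_m(q)` is maximal in `Sp_{2m}(q)`, `q` odd, `m ≥ 3`. -/

namespace H62

open Module

variable {F V : Type*} [Field F] [AddCommGroup V] [Module F V] [FiniteDimensional F V]

/-- A symmetric form vanishing on the singular vectors of a non-degenerate one is a multiple. -/
theorem exists_smul_of_sing_sym [Finite F] {S S' : LinearMap.BilinForm F V} (h2 : (2 : F) ≠ 0)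
    (hs : ∀ x y, S x y = S y x) (hS : S.Nondegenerate) (hn : 5 ≤ finrank F V)
    (hs' : ∀ x y, S' x y = S' y x) (h : ∀ x, S x x = 0 → S' x x = 0) :
    ∃ c : F, ∀ x y, S' x y = c * S x y := by
  have hpol : ∀ x y, QuadraticMap.polar S.toQuadraticMap x y = 2 * S x y := fun x y => by
    rw [LinearMap.BilinMap.polar_toQuadraticMap, hs y x, two_mul]
  have hQ : S.toQuadraticMap.polarBilin.Nondegenerate :=
    ⟨fun x hx => hS.1 x fun y => mul_left_cancel₀ h2 (by simpa [hpol] using hx y),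
      fun x hx => hS.2 x fun y => mul_left_cancel₀ h2 (by simpa [hpol] using hx y)⟩
  have hspan : ∀ (φ ψ : Dual F V), (∀ y, S y y = 0 → φ y = 0 → ψ y = 0) → ∀ y, φ y = 0 → ψ y = 0 := by
    intro φ ψ h1 y hy
    have h3 := finrank_le_finrank_inf_ker_add_one (⊤ : Submodule F V) φ
    rw [top_inf_eq, finrank_top] at h3
    exact ((H60.nondeg_top hQ).hasHyp_of_le hQ (W := LinearMap.ker φ) le_top
      (by rw [finrank_top]; omega)).le_of_sing (T := LinearMap.ker ψ)
      (fun x hx hx' => h1 x hx' hx) hy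
  have h1 : ∀ x, S x x = 0 → ∃ c : F, S' x = c • S x := fun x hx =>
    exists_smul_of_ker_le (hspan _ _ fun y hy hxy => by
      have h3 := h (x + y) (by simp [hx, hy, hxy, hs y x])
      simp only [map_add, LinearMap.add_apply, h x hx, h y hy, hs' y x] at h3
      exact mul_left_cancel₀ h2 (by linear_combination h3))
  obtain ⟨e, -, he0, he⟩ := H60.exists_sing (Q := S.toQuadraticMap) ⊤ (by rw [finrank_top]; omega)
  obtain ⟨c, hc⟩ := h1 e he
  have h3 : ∀ x, S x x = 0 → S x e ≠ 0 → S' x = c • S x := fun x hx hxe => by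
    obtain ⟨d, hd⟩ := h1 x hx
    have h4 := LinearMap.congr_fun hd e
    have h5 := LinearMap.congr_fun hc x
    simp only [LinearMap.smul_apply, smul_eq_mul] at h4 h5
    rw [hd, mul_right_cancel₀ hxe (h4.symm.trans ((hs' x e).trans (h5.trans (by rw [hs e x]))))]
  refine ⟨c, fun x y => ?_⟩
  obtain ⟨f, hf, hef⟩ : ∃ f, S f f = 0 ∧ S f e ≠ 0 := by
    by_contra hc
    push Not at hc
    exact he0 (hS.2 e fun y => hspan 0 (S.flip e) (fun y hy _ => hc y hy) y rfl)
  have h4 := hspan 0 (S'.flip y - c • S.flip y) (fun z hz _ => by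
    by_cases hze : S z e = 0
    · by_cases hzf : S z f = 0
      · have h5 := h3 (z + f) (by simp [hz, hf, hzf, hs f z]) (by simpa [hze] using hef)
        have h6 := LinearMap.congr_fun h5 y
        have h7 := LinearMap.congr_fun (h3 f hf hef) y
        simp only [map_add, LinearMap.add_apply, LinearMap.smul_apply, smul_eq_mul] at h6 h7
        simp only [LinearMap.sub_apply, LinearMap.smul_apply, LinearMap.BilinForm.flip_apply,
          smul_eq_mul]
        linear_combination h6 - h7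
      · obtain ⟨d, hd⟩ := h1 z hz
        have h4 := LinearMap.congr_fun hd f
        have h5 := LinearMap.congr_fun (h3 f hf hef) z
        simp only [LinearMap.smul_apply, smul_eq_mul] at h4 h5
        have h6 : d = c :=
          mul_right_cancel₀ hzf (h4.symm.trans ((hs' z f).trans (h5.trans (by rw [hs f z]))))
        simp [hd, h6]
    · simp [h3 z hz hze]) x rfl
  simpa [sub_eq_zero] using h4

/-- `θ` generates a quadratic extension field whose adjoint map is the conjugation. -/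
structure UD (B : LinearMap.BilinForm F V) (θ : V →ₗ[F] V) (δ : F) : Prop where
  nd : B.Nondegenerate
  alt : B.IsAlt
  two : (2 : F) ≠ 0
  sq : ∀ x, θ (θ x) = δ • x
  adj : ∀ x y, B (θ x) y = -B x (θ y)
  aniso : ∀ s t : F, s * s = δ * (t * t) → t = 0

namespace UD

variable {B : LinearMap.BilinForm F V} {θ : V →ₗ[F] V} {δ : F} {M : Subgroup (V ≃ₗ[F] V)}

theorem delta_ne (h : UD B θ δ) : δ ≠ 0 := fun h0 => one_ne_zero (h.aniso 0 1 (by simp [h0]))

theorem one_sub_ne (h : UD B θ δ) : 1 - δ ≠ 0 := fun h0 =>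
  one_ne_zero (h.aniso 1 1 (by linear_combination h0))

theorem norm_ne (h : UD B θ δ) {s t : F} (hst : s ≠ 0 ∨ t ≠ 0) : s * s - δ * (t * t) ≠ 0 := by
  intro h0
  have ht := h.aniso s t (sub_eq_zero.1 h0)
  subst ht
  simp at hst h0
  exact hst h0

theorem symm (h : UD B θ δ) (x y : V) : B.compLeft θ x y = B.compLeft θ y x := by
  simp only [LinearMap.BilinForm.compLeft_apply]
  rw [h.adj, alt_swap h.alt x, neg_neg]

theorem inj (h : UD B θ δ) {x : V} (hx : θ x = 0) : x = 0 := by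
  have := h.sq x
  rw [hx, map_zero, eq_comm, smul_eq_zero] at this
  exact this.resolve_left h.delta_ne

theorem ndS (h : UD B θ δ) : (B.compLeft θ).Nondegenerate :=
  have h1 : ∀ x, (∀ y, B.compLeft θ x y = 0) → x = 0 := fun x hx => h.inj (h.nd.1 _ hx)
  ⟨h1, fun x hx => h1 x fun y => by rw [h.symm, hx]⟩

theorem θθ (h : UD B θ δ) (x y : V) : B (θ x) (θ y) = -δ * B x y := by
  rw [h.adj, h.sq]; simp

theorem mem_of_comb (h : UD B θ δ) {Z : Submodule F V} (hZ : ∀ z ∈ Z, θ z ∈ Z) {z : V} {s t : F}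
    (hst : s ≠ 0 ∨ t ≠ 0) (h1 : s • z + t • θ z ∈ Z) : z ∈ Z := by
  have := Z.sub_mem (Z.smul_mem s h1) (Z.smul_mem t (hZ _ h1))
  rw [← Submodule.smul_mem_iff _ (h.norm_ne hst)]
  convert this using 1
  simp only [map_add, map_smul, h.sq]
  module

theorem S_comb (h : UD B θ δ) (z : V) (s t : F) :
    B (θ (s • z + t • θ z)) (s • z + t • θ z) = (s * s - δ * (t * t)) * B (θ z) z := by
  simp only [map_add, map_smul, h.sq, LinearMap.add_apply, LinearMap.smul_apply, smul_eq_mul,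
    h.alt.self_eq_zero, alt_swap h.alt z (θ z)]
  ring

/-- A non-isotropic vector outside two invariant subspaces. -/
theorem exists_avoid (h : UD B θ δ) {W Z₁ Z₂ : Submodule F V} (hW : ∀ z ∈ W, θ z ∈ W)
    (hZ₂ : ∀ z ∈ Z₂, θ z ∈ Z₂) (hZ₁ : ∀ z ∈ Z₁, θ z ∈ Z₁) {a : V} (haW : a ∈ W)
    (ha : B (θ a) a ≠ 0) (h1 : ¬ W ≤ Z₁) (h2 : ¬ W ≤ Z₂) :
    ∃ d ∈ W, d ∉ Z₁ ∧ d ∉ Z₂ ∧ B (θ d) d ≠ 0 := by
  obtain ⟨x, hxW, hx1, hx⟩ := exists_ns_notMem (B := B.compLeft θ) h.two h.symm haW ha h1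
  obtain ⟨y, hyW, hy2, hy⟩ := exists_ns_notMem (B := B.compLeft θ) h.two h.symm haW ha h2
  by_contra hc
  push Not at hc
  have hx2 : x ∈ Z₂ := by_contra fun h3 => hx (hc x hxW hx1 h3)
  have hy1 : y ∈ Z₁ := by_contra fun h3 => hy (hc y hyW h3 hy2)
  have key : ∀ s t : F, (s ≠ 0 ∨ t ≠ 0) → B (θ x) x + (s * s - δ * (t * t)) * B (θ y) y = 0 := by
    intro s t hst
    have h3 : ∀ s t : F, (s ≠ 0 ∨ t ≠ 0) →
        B (θ (x + (s • y + t • θ y))) (x + (s • y + t • θ y)) = 0 := fun s t hst =>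
      hc _ (W.add_mem hxW (W.add_mem (W.smul_mem _ hyW) (W.smul_mem _ (hW y hyW))))
        (fun h4 => hx1 (by
          simpa using Z₁.sub_mem h4 (Z₁.add_mem (Z₁.smul_mem s hy1) (Z₁.smul_mem t (hZ₁ y hy1)))))
        fun h4 => hy2 (h.mem_of_comb hZ₂ hst (by simpa using Z₂.sub_mem h4 hx2))
    have h4 := h3 s t hst
    have h5 := h3 (-s) (-t) (by simpa using hst)
    rw [show (-s) • y + (-t) • θ y = -(s • y + t • θ y) by module] at h5
    rw [← h.S_comb]
    generalize s • y + t • θ y = z at h4 h5 ⊢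
    simp only [map_add, map_neg, LinearMap.add_apply, LinearMap.neg_apply] at h4 h5
    exact mul_left_cancel₀ h.two (by linear_combination h4 + h5)
  have h3 := key 1 0 (Or.inl one_ne_zero)
  have h4 := key 1 1 (Or.inl one_ne_zero)
  exact hy (mul_left_cancel₀ h.delta_ne (show δ * B (θ y) y = δ * 0 by linear_combination h3 - h4))

/-- The projection on the line spanned by a non-isotropic vector. -/
noncomputable def pr (B : LinearMap.BilinForm F V) (θ : V →ₗ[F] V) (d : V) : V →ₗ[F] V :=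
  ((-(B (θ d) d)⁻¹) • B.flip (θ d)).smulRight d + (((B (θ d) d)⁻¹) • B.flip d).smulRight (θ d)

theorem pr_apply (d x : V) : pr B θ d x =
    (-(B (θ d) d)⁻¹ * B x (θ d)) • d + ((B (θ d) d)⁻¹ * B x d) • θ d := rfl

theorem exists_prefl (h : UD B θ δ) {d : V} (hd : B (θ d) d ≠ 0) {a b : F}
    (hab : a * a - δ * (b * b) = 1) : ∃ e : V ≃ₗ[F] V, (∀ x y, B (e x) (e y) = B x y) ∧
      (∀ x, e (θ x) = θ (e x)) ∧ ∀ x, e x = x + ((a - 1) • pr B θ d x + b • θ (pr B θ d x)) := by
  let L : V →ₗ[F] V := LinearMap.id + ((a - 1) • pr B θ d + b • θ ∘ₗ pr B θ d)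
  have hL : ∀ x, L x = x + ((a - 1) • pr B θ d x + b • θ (pr B θ d x)) := fun x => rfl
  have hB : ∀ x y, B (L x) (L y) = B x y := fun x y => by
    simp only [hL, pr_apply, map_add, map_smul, h.sq, LinearMap.add_apply, LinearMap.smul_apply,
      smul_eq_mul, h.alt.self_eq_zero, alt_swap h.alt d (θ d), alt_swap h.alt d y,
      alt_swap h.alt (θ d) y]
    field_simp
    linear_combination B (θ d) d * (B x (θ d) * B y d - B x d * B y (θ d)) * hab
  have hinj : Function.Injective L := (injective_iff_map_eq_zero L).2 fun x hx =>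
    h.nd.1 x fun y => by rw [← hB, hx]; simp
  refine ⟨LinearEquiv.ofInjectiveEndo L hinj, hB, fun x => ?_, hL⟩
  change L (θ x) = θ (L x)
  simp only [hL, pr_apply, map_add, map_smul, h.sq, h.θθ, h.adj x d]
  module

theorem pr_eq_zero {d x : V} (h1 : B x d = 0) (h2 : B x (θ d) = 0) : pr B θ d x = 0 := by
  simp [pr_apply, h1, h2]

theorem pr_self (h : UD B θ δ) {d : V} (hd : B (θ d) d ≠ 0) : pr B θ d d = d := by
  simp [pr_apply, h.alt.self_eq_zero, alt_swap h.alt d (θ d), hd]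

theorem norm_one (h : UD B θ δ) : ∃ a b : F, b ≠ 0 ∧ a * a - δ * (b * b) = 1 :=
  ⟨(1 + δ) / (1 - δ), 2 / (1 - δ), div_ne_zero h.two h.one_sub_ne, by
    have := h.one_sub_ne
    field_simp; ring⟩

/-- The whole line through a non-isotropic full vector is full. -/
theorem full_line (h : UD B θ δ)
    (hM : ∀ e : V ≃ₗ[F] V, (∀ x y, B (e x) (e y) = B x y) → (∀ x, e (θ x) = θ (e x)) → e ∈ M)
    {y : V} (hy : B (θ y) y ≠ 0) (hf : FullSp M B y) (s t : F) : FullSp M B (s • y + t • θ y) := by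
  obtain ⟨a, b, hb, hab⟩ := h.norm_one
  obtain ⟨e, h1, h2, h3⟩ := h.exists_prefl hy hab
  have h4 := hf.conj (hM e h1 h2) h1
  rw [h3, h.pr_self hy] at h4
  have hne : ∀ s t : F, s ≠ 0 → t ≠ 0 → B (s • y) (t • θ y) ≠ 0 := fun s t hs ht => by
    simpa [alt_swap h.alt y (θ y), hs, ht] using hy
  have h5 : FullSp M B (θ y) := by
    by_cases ha : a = 0
    · convert h4.smul b⁻¹ using 1
      rw [ha]; match_scalars <;> field_simp <;> ring
    · convert (h4.sub h.alt (hf.smul a) (by simpa [h.alt.self_eq_zero, ha, hb] using hy)).smul b⁻¹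
        using 1
      match_scalars <;> field_simp <;> ring
  by_cases hs : s = 0
  · simpa [hs] using h5.smul t
  by_cases ht : t = 0
  · simpa [ht] using hf.smul s
  exact (hf.smul s).add h.alt (h5.smul t) (hne s t hs ht)

theorem full_of_not_perp (h : UD B θ δ)
    (hM : ∀ e : V ≃ₗ[F] V, (∀ x y, B (e x) (e y) = B x y) → (∀ x, e (θ x) = θ (e x)) → e ∈ M)
    {x d : V} (hx : FullSp M B x) (hd : B (θ d) d ≠ 0) (hxd : B x d ≠ 0 ∨ B x (θ d) ≠ 0) :
    FullSp M B d := by
  obtain ⟨a, b, hb, hab⟩ := h.norm_one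
  obtain ⟨e, h1, h2, h3⟩ := h.exists_prefl hd hab
  have hn := h.norm_ne hxd.symm
  have h4 := (hx.conj (hM e h1 h2) h1).sub h.alt hx (by
    rw [h3, alt_swap h.alt]
    simp only [pr_apply, map_add, map_smul, h.sq, smul_eq_mul, h.alt.self_eq_zero]
    intro h5
    refine mul_ne_zero hb hn ?_
    field_simp at h5
    linear_combination h5)
  rw [h3, add_sub_cancel_left] at h4
  set α := -(B (θ d) d)⁻¹ * B x (θ d) with hα
  set β := (B (θ d) d)⁻¹ * B x d with hβ
  have hαβ : α ≠ 0 ∨ β ≠ 0 := by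
    rcases hxd with h5 | h5
    · exact Or.inr (mul_ne_zero (inv_ne_zero hd) h5)
    · exact Or.inl (mul_ne_zero (neg_ne_zero.2 (inv_ne_zero hd)) h5)
  have h5 : (a - 1) • pr B θ d x + b • θ (pr B θ d x) =
      ((a - 1) * α + δ * b * β) • d + ((a - 1) * β + b * α) • θ d := by
    rw [pr_apply, ← hα, ← hβ]
    simp only [map_add, map_smul, h.sq]
    module
  rw [h5] at h4
  set s := (a - 1) * α + δ * b * β with hs
  set t := (a - 1) * β + b * α with ht
  have hN : s * s - δ * (t * t) ≠ 0 := by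
    have : s * s - δ * (t * t) = ((a - 1) * (a - 1) - δ * (b * b)) * (α * α - δ * (β * β)) := by
      rw [hs, ht]; ring
    rw [this]
    exact mul_ne_zero (h.norm_ne (Or.inr hb)) (h.norm_ne hαβ)
  have h6 := h.full_line hM (by rw [h.S_comb]; exact mul_ne_zero hN hd) h4
    (s / (s * s - δ * (t * t))) (-t / (s * s - δ * (t * t)))
  convert h6 using 1
  simp only [map_add, map_smul, h.sq]
  have h7 := mul_inv_cancel₀ hN
  match_scalars
  · linear_combination -h7
  · ring

/-- The vectors orthogonal to the line through `v`. -/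
def lperp (B : LinearMap.BilinForm F V) (θ : V →ₗ[F] V) (v : V) : Submodule F V :=
  LinearMap.ker (B v) ⊓ LinearMap.ker (B v ∘ₗ θ)

theorem mem_lperp {v x : V} : x ∈ lperp B θ v ↔ B v x = 0 ∧ B v (θ x) = 0 := Iff.rfl

theorem θ_mem_lperp (h : UD B θ δ) (v : V) : ∀ x ∈ lperp B θ v, θ x ∈ lperp B θ v :=
  fun x hx => ⟨hx.2, show B v (θ (θ x)) = 0 by rw [h.sq, map_smul, (mem_lperp.1 hx).1, smul_zero]⟩

theorem θ_mem_span (h : UD B θ δ) (v : V) :
    ∀ x ∈ Submodule.span F {v, θ v}, θ x ∈ Submodule.span F {v, θ v} := by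
  intro x hx
  obtain ⟨s, t, rfl⟩ := Submodule.mem_span_pair.1 hx
  exact Submodule.mem_span_pair.2 ⟨t * δ, s, by simp only [map_add, map_smul, h.sq]; module⟩

theorem all_full (h : UD B θ δ) (hn : 5 ≤ finrank F V)
    (hM : ∀ e : V ≃ₗ[F] V, (∀ x y, B (e x) (e y) = B x y) → (∀ x, e (θ x) = θ (e x)) → e ∈ M)
    {x : V} (hx0 : x ≠ 0) (hx : FullSp M B x) (u : V) : FullSp M B u := by
  obtain ⟨a, ha, -, -⟩ := exists_ns_two (B := B.compLeft θ) h.two h.symm h.ndS hn 0 0
  have hnle : ∀ v : V, v ≠ 0 → ¬ ⊤ ≤ lperp B θ v := fun v hv hle =>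
    hv (h.nd.1 v fun y => (mem_lperp.1 (hle (Submodule.mem_top (x := y)))).1)
  have h1 : ∀ d, B (θ d) d ≠ 0 → FullSp M B d := by
    intro d hd
    obtain ⟨d', -, h1, h2, h3⟩ := h.exists_avoid (W := ⊤) (fun _ _ => trivial) (h.θ_mem_lperp d)
      (h.θ_mem_lperp x) trivial ha (hnle x hx0) (hnle d (by rintro rfl; simp at hd))
    rw [mem_lperp, not_and_or] at h1 h2
    refine h.full_of_not_perp hM (h.full_of_not_perp hM hx h3 h1) hd (h2.imp (fun h4 => ?_) ?_)
    · rwa [alt_swap h.alt, neg_ne_zero]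
    · rw [alt_swap h.alt d', h.adj, neg_neg]; exact id
  by_cases hu : B (θ u) u = 0
  swap
  · exact h1 u hu
  by_cases hu0 : u = 0
  · rw [hu0]; exact FullSp.zero
  obtain ⟨y, -, hyu, hy⟩ := exists_ns_notMem (B := B.compLeft θ) h.two h.symm (W := ⊤)
    (Z := LinearMap.ker (B u)) trivial ha fun hle =>
      hu0 (h.nd.1 u fun y => hle (Submodule.mem_top (x := y)))
  have hyu : B u y ≠ 0 := hyu
  have hy : B (θ y) y ≠ 0 := hy
  by_cases h2 : B (θ (y + u)) (y + u) = 0
  · have h3 : B (θ (y - u)) (y - u) ≠ 0 := fun h3 => hy (mul_left_cancel₀ h.two (by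
      simp only [map_add, map_sub, LinearMap.add_apply, LinearMap.sub_apply, hu] at h2 h3
      linear_combination h2 + h3))
    simpa using (h1 y hy).sub h.alt (h1 _ h3) (by
      simpa [h.alt.self_eq_zero, alt_swap h.alt y u] using hyu)
  · simpa using (h1 _ h2).sub h.alt (h1 y hy) (by simpa [h.alt.self_eq_zero] using hyu)

/-- The unitary transvections. -/
theorem exists_utv (h : UD B θ δ) {w : V} (hw : B (θ w) w = 0) (c : F) :
    ∃ e : V ≃ₗ[F] V, (∀ x y, B (e x) (e y) = B x y) ∧ (∀ x, e (θ x) = θ (e x)) ∧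
      ∀ x, e x = x + (c * B x (θ w)) • θ w + (-(c * δ) * B x w) • w := by
  obtain ⟨s, -, hs⟩ := hasSp_of_forall (H := ⊤) h.alt (v := θ w) (c := c) fun _ _ => trivial
  obtain ⟨t, -, ht⟩ := hasSp_of_forall (H := ⊤) h.alt (v := w) (c := -(c * δ)) fun _ _ => trivial
  have h1 : ∀ x, (s * t) x = x + (c * B x (θ w)) • θ w + (-(c * δ) * B x w) • w := fun x => by
    rw [LinearEquiv.mul_apply, hs, ht]
    simp only [map_add, map_smul, LinearMap.add_apply, LinearMap.smul_apply,
      alt_swap h.alt w (θ w), hw]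
    module
  refine ⟨s * t, fun x y => ?_, fun x => ?_, h1⟩
  · rw [LinearEquiv.mul_apply, LinearEquiv.mul_apply, isom_of_sp h.alt hs, isom_of_sp h.alt ht]
  · simp only [h1, map_add, map_smul, h.sq, h.θθ, h.adj x w]
    module

theorem exists_full (h : UD B θ δ) (hn : 5 ≤ finrank F V)
    (hM : ∀ e : V ≃ₗ[F] V, (∀ x y, B (e x) (e y) = B x y) → (∀ x, e (θ x) = θ (e x)) → e ∈ M)
    {v w : V} (hvw : B w v = 0) (hv : v ∉ Submodule.span F {w, θ w})
    (ht : ∀ c : F, ∃ e ∈ M, ∀ x, e x = x + (c * B x v) • v + (-(c * δ) * B x w) • w) :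
    ∃ x, x ≠ 0 ∧ FullSp M B x := by
  have hdim := finrank_le_ker_two (B w) (B w ∘ₗ θ)
  obtain ⟨a, haW, ha⟩ := exists_ns (B := B.compLeft θ) h.two h.symm h.ndS (W := lperp B θ w)
    (by unfold lperp; omega)
  obtain ⟨d, hdW, hd1, hd2, hd⟩ := h.exists_avoid (h.θ_mem_lperp w) (h.θ_mem_span v)
    (h.θ_mem_lperp v) haW ha (fun hle => by
      obtain ⟨φ, h5, h6⟩ := exists_dual_eq_one hv
      obtain ⟨y, hy⟩ := exists_flip_eq h.nd φ
      have h7 := (mem_lperp.1 (hle (show y ∈ lperp B θ w from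
        ⟨show B w y = 0 by rw [hy, h6 _ (Submodule.subset_span (by simp))],
          show B w (θ y) = 0 by
            rw [← neg_eq_zero, ← h.adj, hy, h6 _ (Submodule.subset_span (by simp))]⟩))).1
      rw [hy, h5] at h7
      exact one_ne_zero h7) fun hle => by
      have h1 := Submodule.finrank_mono hle
      have h3 := H60.finrank_span_pair_le (F := F) v (θ v)
      unfold lperp at h1
      omega
  rw [mem_lperp, not_and_or] at hd1
  obtain ⟨r, hr1, hr2, hr3⟩ := h.exists_prefl hd (a := -1) (b := 0) (by ring)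
  have hrM := hM r hr1 hr2
  have hrw : r w = w := by rw [hr3, pr_eq_zero hdW.1 hdW.2]; simp
  set α := -(B (θ d) d)⁻¹ * B v (θ d) with hα
  set β := (B (θ d) d)⁻¹ * B v d with hβ
  have hαβ : α ≠ 0 ∨ β ≠ 0 := by
    rcases hd1 with h5 | h5
    · exact Or.inr (mul_ne_zero (inv_ne_zero hd) h5)
    · exact Or.inl (mul_ne_zero (neg_ne_zero.2 (inv_ne_zero hd)) h5)
  set p := α • d + β • θ d with hp
  have hrv : r v = v - (2 : F) • p := by
    rw [hr3, pr_apply, ← hα, ← hβ, ← hp]; module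
  have hpp : B (θ p) p ≠ 0 := by rw [hp, h.S_comb]; exact mul_ne_zero (h.norm_ne hαβ) hd
  have hvp : B v p = 0 := by
    simp only [hp, hα, hβ, map_add, map_smul, smul_eq_mul]; ring
  have hwp : B w p = 0 := by
    simp [hp, (mem_lperp.1 hdW).1, (mem_lperp.1 hdW).2]
  have hvθp : B (v - p) (θ p) = 0 := by
    simp only [hp, hα, hβ, map_add, map_smul, map_sub, h.sq, smul_eq_mul, LinearMap.sub_apply,
      LinearMap.add_apply, LinearMap.smul_apply, h.alt.self_eq_zero, alt_swap h.alt d (θ d)]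
    field_simp; ring
  have hvp' : B (v - p) p = 0 := by simp [hvp, h.alt.self_eq_zero]
  have hrho : ∀ c : F, HasRho M B (v - p) (c • p) := by
    intro c
    obtain ⟨e, he, hx⟩ := ht (-(c / 2))
    obtain ⟨e', he', hx'⟩ := ht (c / 2)
    refine ⟨r * e * r⁻¹ * e', M.mul_mem (M.mul_mem (M.mul_mem hrM he) (M.inv_mem hrM)) he',
      fun x => ?_⟩
    have h1 : ∀ y, (r * e * r⁻¹) y = y + (-(c / 2) * B y (v - (2 : F) • p)) • (v - (2 : F) • p) +
        (-(-(c / 2) * δ) * B y w) • w := fun y => by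
      obtain ⟨y, rfl⟩ := r.surjective y
      rw [← hrv, hr1]
      conv_rhs => rw [← hrw, hr1]
      simp [hx]
    rw [LinearEquiv.mul_apply, h1, hx']
    have := h.two
    simp only [map_add, map_sub, map_smul, LinearMap.add_apply, LinearMap.smul_apply,
      h.alt.self_eq_zero, hvp, hwp, hvw, alt_swap h.alt v w, smul_eq_mul]
    match_scalars <;> field_simp <;> ring
  refine ⟨v - p, fun h0 => hd2 ?_, fun c => ?_⟩
  · rw [sub_eq_zero] at h0
    exact h.mem_of_comb (h.θ_mem_span v) hαβ (by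
      rw [← hp, ← h0]; exact Submodule.subset_span (by simp))
  · obtain ⟨a, b, hb, hab⟩ := h.norm_one
    obtain ⟨e, h1, h2, h3⟩ := h.exists_prefl hpp hab
    have h4 := (hrho 1).conj (hM e h1 h2) h1
    rw [h3 (v - p), pr_eq_zero hvp' hvθp, one_smul, h3 p, h.pr_self hpp] at h4
    simp only [smul_zero, map_zero, add_zero] at h4
    have h5 : B p (v - p) = 0 := by rw [alt_swap h.alt, hvp', neg_zero]
    have h6 : B (θ p) (v - p) = 0 := by rw [alt_swap h.alt, hvθp, neg_zero]
    have h7 := HasRho.comm h.alt (by simp only [map_smul, LinearMap.smul_apply, h5, smul_zero])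
      (by simp only [map_add, map_smul, LinearMap.add_apply, LinearMap.smul_apply, h5, h6,
        smul_zero, add_zero]) (hrho (c / (2 * b * B (θ p) p))) h4
    convert h7 using 1
    have := h.two
    simp only [map_add, map_smul, LinearMap.smul_apply, h.alt.self_eq_zero,
      alt_swap h.alt p (θ p), smul_eq_mul]
    field_simp; ring

theorem maximal [Finite F] (h : UD B θ δ) (hn : 5 ≤ finrank F V)
    (hM : ∀ e : V ≃ₗ[F] V, (∀ x y, B (e x) (e y) = B x y) → (∀ x, e (θ x) = θ (e x)) → e ∈ M)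
    {g : V ≃ₗ[F] V} (hg : g ∈ M) (hgB : ∀ x y, B (g x) (g y) = B x y)
    (hns : ¬ ∃ c : F, ∀ x, g (θ x) = c • θ (g x)) (e : V ≃ₗ[F] V)
    (he : ∀ x y, B (e x) (e y) = B x y) : e ∈ M := by
  obtain ⟨w, hw, hwg⟩ : ∃ w, B (θ w) w = 0 ∧ g (θ w) ∉ Submodule.span F {g w, θ (g w)} := by
    by_contra hc
    push Not at hc
    obtain ⟨c, hc'⟩ := exists_smul_of_sing_sym (S := B.compLeft θ)
      (S' := (B.compLeft θ).comp (g : V →ₗ[F] V) (g : V →ₗ[F] V)) h.two h.symm h.ndS hn
      (fun x y => h.symm _ _) fun x hx => by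
        obtain ⟨s, t, hst⟩ := Submodule.mem_span_pair.1 (hc x hx)
        have h1 : B (g (θ x)) (g x) = 0 := by rw [hgB]; exact hx
        rw [← hst] at h1
        simp only [map_add, map_smul, LinearMap.add_apply, LinearMap.smul_apply,
          h.alt.self_eq_zero, smul_eq_mul, mul_zero, zero_add, mul_eq_zero] at h1
        rcases h1 with rfl | h1
        · have h3 : θ x = s • x := g.injective (by simpa using hst.symm)
          have h4 := h.mem_of_comb (Z := ⊥) (by simp) (z := x) (s := -s) (t := 1)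
            (Or.inr one_ne_zero) (by simp [h3])
          rw [Submodule.mem_bot] at h4
          simp [h4]
        · exact h1
    have h1 : ∀ x, θ (g x) = c • g (θ x) := fun x => sub_eq_zero.1 (h.nd.1 _ fun y => by
      obtain ⟨y, rfl⟩ := g.surjective y
      have := hc' x y
      simp only [LinearMap.BilinForm.comp_apply, LinearMap.BilinForm.compLeft_apply,
        LinearEquiv.coe_coe] at this
      simp [this, hgB])
    have hc0 : c ≠ 0 := by
      rintro rfl
      obtain ⟨a, ha, -, -⟩ := exists_ns_two (B := B.compLeft θ) h.two h.symm h.ndS hn 0 0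
      rw [g.map_eq_zero_iff.1 (h.inj (x := g a) (by simp [h1]))] at ha
      simp at ha
    exact hns ⟨c⁻¹, fun x => by rw [h1, smul_smul, inv_mul_cancel₀ hc0, one_smul]⟩
  obtain ⟨x, hx0, hx⟩ := h.exists_full hn hM (v := g (θ w)) (w := g w)
    (by rw [hgB, alt_swap h.alt, hw, neg_zero]) hwg fun c => by
      obtain ⟨t, h1, h2, h3⟩ := h.exists_utv hw c
      refine ⟨g * t * g⁻¹, M.mul_mem (M.mul_mem hg (hM t h1 h2)) (M.inv_mem hg), fun x => ?_⟩
      obtain ⟨x, rfl⟩ := g.surjective x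
      simp [h3, hgB]
  exact mem_of_forall_fullSp h.nd h.alt (h.all_full hn hM hx0 hx) e he

end UD

open Matrix Cfsg Cfsg.Geo in
/-- The normaliser of a quadratic extension field of unitary type is maximal in `Sp_{2m}(q)`. -/
theorem isMaximalIn_sp_unitary {F : Type*} [Field F] [Fintype F] {m : ℕ} (hm : 3 ≤ m)
    (hodd : Odd (Fintype.card F)) {K : Subalgebra F (Matrix (Fin m ⊕ Fin m) (Fin m ⊕ Fin m) F)}
    (hK : IsFieldSubalgebra 2 K) (hac : IsAdjointClosedFor (sympForm m F) K)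
    (hnsa : ¬ IsSelfAdjointFor (sympForm m F) K) :
    IsMaximalIn (spGL m F) (subalgebraNormalizer K ⊓ spGL m F) := by
  have : Nonempty (Fin m) := ⟨⟨0, by omega⟩⟩
  have h2' := two_ne_zero_of_odd hodd
  obtain ⟨K', _, _, _, _, _, h0, h1, h2⟩ := exists_field_model hK
  have hA := spForm_alt (m := m) (F := F)
  have hB := spForm_nondeg (m := m) (F := F)
  set B := spForm m F with hBd
  obtain ⟨v₀, hv₀⟩ := exists_ne (0 : Fin m ⊕ Fin m → F)
  obtain ⟨θ, hθ0, hθ⟩ : ∃ θ : K', θ ≠ 0 ∧ ∀ x y, B (θ • x) y = -B x (θ • y) := by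
    simp only [IsSelfAdjointFor, not_forall] at hnsa
    obtain ⟨A, hA', u, v, huv⟩ := hnsa
    obtain ⟨A', hA'', h3⟩ := hac A hA'
    obtain ⟨k, hk⟩ := (h1 A).1 hA'
    obtain ⟨k', hk'⟩ := (h1 A').1 hA''
    simp only [hk, hk', H54.sympForm_eq, ← hBd] at h3 huv
    refine ⟨k - k', fun h4 => huv (by rw [h3, ← sub_eq_zero.1 h4]), fun x y => ?_⟩
    rw [sub_smul, sub_smul, map_sub, map_sub, LinearMap.sub_apply, h3 x y, alt_swap hA (k' • x),
      ← h3 y x, alt_swap hA (k • y)]
    ring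
  have hθF : ∀ c : F, θ ≠ algebraMap F K' c := fun c hc => hθ0 (by
    have h3 : c • v₀ = 0 := hB.1 _ fun y => mul_left_cancel₀ h2' (by
      have := hθ v₀ y
      simp only [hc, algebraMap_smul, map_smul, LinearMap.smul_apply, smul_eq_mul] at this ⊢
      linear_combination this)
    rw [hc, (smul_eq_zero.1 h3).resolve_right hv₀, map_zero])
  have hspan : ∀ k : K', ∃ s t : F, algebraMap F K' s + t • θ = k := by
    have hli : LinearIndependent F ![(1 : K'), θ] := by
      rw [LinearIndependent.pair_iff' one_ne_zero]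
      exact fun c hc => hθF c (by rw [← hc, Algebra.algebraMap_eq_smul_one])
    have h3 : Submodule.span F {(1 : K'), θ} = ⊤ := Submodule.eq_top_of_finrank_eq (by
      rw [h0, ← Matrix.range_cons_cons_empty (1 : K') θ ![], finrank_span_eq_card hli]; simp)
    intro k
    obtain ⟨s, t, hst⟩ := Submodule.mem_span_pair.1 (h3 ▸ Submodule.mem_top (x := k))
    exact ⟨s, t, by rw [← hst, Algebra.algebraMap_eq_smul_one]⟩
  obtain ⟨δ, t, hδ⟩ := hspan (θ * θ)
  have ht : t = 0 := by
    have h3 : (t • θ) • v₀ = 0 := hB.1 _ fun y => mul_left_cancel₀ h2' (by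
      have h4 : B ((θ * θ) • v₀) y = B v₀ ((θ * θ) • y) := by
        rw [mul_smul, mul_smul, hθ, hθ, neg_neg]
      rw [← hδ] at h4
      have h5 := hθ v₀ y
      simp only [add_smul, algebraMap_smul, smul_assoc, map_add, map_smul, LinearMap.add_apply,
        LinearMap.smul_apply, smul_eq_mul] at h4 ⊢
      linear_combination h4 + t * h5)
    exact (smul_eq_zero.1 ((smul_eq_zero.1 h3).resolve_right hv₀)).resolve_right hθ0
  rw [ht, zero_smul, add_zero] at hδ
  let θL : (Fin m ⊕ Fin m → F) →ₗ[F] (Fin m ⊕ Fin m → F) :=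
    (LinearMap.lsmul K' _ θ).restrictScalars F
  have hθL : ∀ x, θL x = θ • x := fun x => rfl
  have hU : UD B θL δ := by
    refine ⟨hB, hA, h2', fun x => by rw [hθL, hθL, smul_smul, ← hδ, algebraMap_smul], hθ,
      fun s t hst => by_contra fun ht => ?_⟩
    have h3 : (θ - algebraMap F K' (s / t)) * (θ - algebraMap F K' (-(s / t))) = 0 := by
      have h4 : δ = s / t * (s / t) := by field_simp; linear_combination -hst
      rw [map_neg]
      have h5 : θ * θ = algebraMap F K' (s / t) * algebraMap F K' (s / t) := by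
        rw [← hδ, h4, map_mul]
      linear_combination h5
    rcases mul_eq_zero.1 h3 with h4 | h4
    exacts [hθF _ (sub_eq_zero.1 h4), hθF _ (sub_eq_zero.1 h4)]
  have hn : 5 ≤ finrank F (Fin m ⊕ Fin m → F) := by simp; omega
  have hnorm : ∀ (e : (Fin m ⊕ Fin m → F) ≃ₗ[F] (Fin m ⊕ Fin m → F)) (c : F),
      (∀ x, e (θL x) = c • θL (e x)) → NormK K' e := by
    intro e c he k
    obtain ⟨s, t, rfl⟩ := hspan k
    refine ⟨algebraMap F K' s + (t * c) • θ, fun v => ?_⟩
    have := he v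
    simp only [hθL] at this
    simp only [add_smul, algebraMap_smul, smul_assoc, map_add, map_smul, this, mul_smul]
  refine isMaximalIn_of_toLE (NormK K') (fun e => ∀ u v, B (e u) (e v) = B u v)
    mem_spGL_iff (fun g => and_congr (mem_subalgebraNormalizer_iff h1 h2 g) (mem_spGL_iff g)) ?_
    fun M hM hMB g hg hns => hU.maximal hn
      (fun e he he' => hM _ (hnorm e 1 (by simpa using he')) he) hg (hMB g hg)
      fun ⟨c, hc⟩ => hns (hnorm g c hc)
  obtain ⟨e, -, he⟩ := hasSp_of_forall (H := ⊤) hA (v := v₀) (c := 1) fun _ _ => trivial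
  refine ⟨e, isom_of_sp hA he, fun hn' => ?_⟩
  obtain ⟨k', hk'⟩ := hn' θ
  obtain ⟨x, -, hx0, hx⟩ := exists_mem_notMem_ker [B.flip v₀, B.flip v₀ ∘ₗ θL] (W := ⊤) (Z := ⊥)
    (by simp; omega)
  have h4 := hk' x
  rw [he, he, show B x v₀ = 0 from hx (B.flip v₀) (by simp),
    show B (θ • x) v₀ = 0 from hx (B.flip v₀ ∘ₗ θL) (by simp)] at h4
  obtain rfl : θ = k' := smul_left_injective K' (by simpa using hx0) (by simpa using h4)
  obtain ⟨y, hy⟩ := exists_form_ne_zero hB hv₀
  have h5 := hk' y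
  rw [he, he, smul_add, add_right_inj, one_mul, one_mul, smul_comm] at h5
  refine hθF (B (θ • y) v₀ / B y v₀) (smul_left_injective K' hv₀ ?_)
  simp only [algebraMap_smul]
  rw [div_eq_inv_mul, mul_smul, h5, smul_smul, inv_mul_cancel₀ hy, one_smul]

end H62
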