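import Cfsg.Agent.H62.DecSL

set_option autoImplicit false

/-! Overgroups of the monomial group in `SL(V)`: basic elements, root elements. -/

namespace H62

open Module

variable {F V : Type*} [Field F] [AddCommGroup V] [Module F V] {ι : Type*}

/-- The stabiliser of a family of subspaces as a subgroup. -/
def stabG (D : ι → Submodule F V) : Subgroup (V ≃ₗ[F] V) where
  carrier := {e | StabD D e}
  one_mem' := ⟨1, fun i => Submodule.map_id _⟩
  mul_mem' := by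
    rintro a c ⟨σ, hσ⟩ ⟨τ, hτ⟩
    exact ⟨σ * τ, fun i => by
      rw [LinearEquiv.coe_toLinearMap_mul, Module.End.mul_eq_comp, Submodule.map_comp, hτ, hσ]; rfl⟩
  inv_mem' := by
    rintro a ⟨σ, hσ⟩
    refine ⟨σ⁻¹, fun i => ?_⟩
    conv_lhs => rw [← σ.apply_symm_apply i, ← hσ, ← Submodule.map_comp]
    convert Submodule.map_id _
    · exact LinearMap.ext fun x => by simp
    · rfl

/-- The coordinate lines. -/
def lines (b : Basis ι F V) (i : ι) : Submodule F V := F ∙ b i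

variable (b : Basis ι F V) {M : Subgroup (V ≃ₗ[F] V)}

theorem lines_rank (i : ι) : finrank F (lines b i) = 1 := finrank_span_singleton (b.ne_zero i)

theorem lines_loc (i : ι) : LocOn (lines b) i (b.coord i) := fun k hk v hv => by
  obtain ⟨c, rfl⟩ := Submodule.mem_span_singleton.1 hv
  simp [hk.symm]

theorem self_mem_lines (i : ι) : b i ∈ lines b i := Submodule.mem_span_singleton_self _

variable {b}

theorem col_of_mem {g : V ≃ₗ[F] V} (hg : g ∈ stabG (lines b)) (i : ι) :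
    ∃ k, ∀ l, l ≠ k → b.repr (g (b i)) l = 0 := by
  obtain ⟨σ, hσ⟩ := hg
  exact ⟨σ i, fun l hl => lines_loc b l _ hl.symm _
    (hσ i ▸ Submodule.mem_map_of_mem (self_mem_lines b i))⟩

theorem eq_smul_of_repr {v : V} {k : ι} (h : ∀ l, l ≠ k → b.repr v l = 0) :
    v = b.repr v k • b k := b.ext_elem fun l => by
  by_cases hl : l = k
  · simp [hl]
  · simp [h l hl, hl]

variable [Fintype ι]

variable (b) in
theorem lines_proj : IsProj (lines b) fun i => (b.coord i).smulRight (b i) :=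
  ⟨fun i _ => Submodule.smul_mem _ _ (self_mem_lines b i), fun v => by simpa using b.sum_repr v,
    fun i j hij v hv => by simp [show b.repr v i = 0 from lines_loc b i j hij.symm v hv]⟩

theorem exists_list (l : List ι) (h : l.length < Fintype.card ι) : ∃ i, i ∉ l := by
  classical
  obtain ⟨i, -, hi⟩ := Finset.exists_mem_notMem_of_card_lt_card (s := l.toFinset)
    (t := Finset.univ) (l.toFinset_card_le.trans_lt h)
  exact ⟨i, by simpa using hi⟩

theorem exists_repr_ne {φ : Dual F V} (h : φ ≠ 0) : ∃ l, φ (b l) ≠ 0 := by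
  by_contra! h1
  exact h (b.ext h1)

variable [FiniteDimensional F V]

theorem mem_of_col {g : V ≃ₗ[F] V} (h : ∀ i, ∃ k, ∀ l, l ≠ k → b.repr (g (b i)) l = 0) :
    g ∈ stabG (lines b) := by
  by_contra hg
  obtain ⟨i, v, hv, j, k, hjk, h1, h2⟩ :=
    (lines_proj b).exists_two_components one_pos (lines_rank b) hg
  obtain ⟨c, rfl⟩ := Submodule.mem_span_singleton.1 hv
  obtain ⟨l, hl⟩ := h i
  by_cases e : j = l
  · simp [hl k (e ▸ hjk.symm)] at h2
  · simp [hl j e] at h1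

omit [Fintype ι] in
theorem mono_d (hM : ∀ e, StabD (lines b) e → LinearMap.det (e : V →ₗ[F] V) = 1 → e ∈ M)
    {k l : ι} (hkl : k ≠ l) {a : F} (ha : a ≠ 0) : ∃ d ∈ M,
      ∀ x, d x = x + ((a - 1) * b.repr x k) • b k + ((a⁻¹ - 1) * b.repr x l) • b l :=
  loc_dil2 hM hkl (lines_loc b k) (lines_loc b l) (self_mem_lines b k) (self_mem_lines b l)
    (by simp) (by simp) ha

theorem mono_r {k l : ι} (hkl : k ≠ l) {s t : F} (hs : s ≠ 0) (ht : t ≠ 0) :
    ∃ r ∈ stabG (lines b), LinearMap.det (r : V →ₗ[F] V) = -1 ∧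
      ∀ x, r x = x + (t⁻¹ * b.repr x l - s⁻¹ * b.repr x k) • (s • b k - t • b l) := by
  obtain ⟨r, hr⟩ := exists_dil (φ := t⁻¹ • b.coord l - s⁻¹ • b.coord k) (u := s • b k - t • b l)
    (by simp [hkl, hkl.symm, hs, ht])
  refine ⟨r, mem_of_col fun i => ?_, by simp [det_of_tv hr, hkl, hkl.symm, hs, ht], by simpa using hr⟩
  by_cases h1 : i = k
  · refine ⟨l, fun m hm => ?_⟩
    by_cases h2 : m = k <;> simp [hr, h1, h2, hkl, hkl.symm, hm, hs]
  by_cases h2 : i = l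
  · refine ⟨k, fun m hm => ?_⟩
    by_cases h2' : m = l <;> simp [hr, h2, h2', hkl, hkl.symm, hm, ht]
  · exact ⟨i, fun m hm => by simp [hr, Ne.symm h1, Ne.symm h2, hm]⟩

theorem mono_swap (hM : ∀ e, StabD (lines b) e → LinearMap.det (e : V →ₗ[F] V) = 1 → e ∈ M)
    {k l o : ι} (hkl : k ≠ l) (hk : k ≠ o) (hl : l ≠ o) : ∃ r ∈ M, r ∈ stabG (lines b) ∧
      ∀ x, r x = x + (b.repr x l - b.repr x k) • (b k - b l) - (2 * b.repr x o) • b o := by
  obtain ⟨r, h1, h2, h3⟩ := mono_r (b := b) hkl one_ne_zero one_ne_zero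
  obtain ⟨d, hd⟩ := exists_dil (φ := (-2 : F) • b.coord o) (u := b o) (by norm_num)
  have h4 : r * d ∈ stabG (lines b) := mul_mem h1 (StabD.of_fix fun i v hv => by
    rw [hd]; exact (lines_loc b o).fix (self_mem_lines b o) _ i v hv)
  refine ⟨r * d, hM _ h4 (by simp [LinearMap.det_comp, h2, det_of_tv hd]; norm_num), h4, fun x => ?_⟩
  simp [hd, h3, hk, hl]
  module

/-- A transvection with a coordinate vector as centre gives everything. -/
theorem mono_of_tv (h4 : 4 ≤ Fintype.card ι) {a : F} (ha : a ≠ 0) (ha1 : a ≠ 1)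
    (hM : ∀ e, StabD (lines b) e → LinearMap.det (e : V →ₗ[F] V) = 1 → e ∈ M) {φ : Dual F V}
    {k : ι} (ht : HasTv M φ (b k)) (h0 : φ (b k) = 0) (hφ : φ ≠ 0) (e : V ≃ₗ[F] V)
    (he : LinearMap.det (e : V →ₗ[F] V) = 1) : e ∈ M := by
  have cj : ∀ {ψ : Dual F V} {l m : ι} {a : F}, HasTv M ψ (b k) → l ≠ m → l ≠ k → m ≠ k → a ≠ 0 →
      HasTv M (ψ + ((a⁻¹ - 1) * ψ (b l)) • b.coord l + ((a - 1) * ψ (b m)) • b.coord m) (b k) := by
    intro ψ l m a h hlm hl hm ha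
    obtain ⟨d, hd, hd'⟩ := mono_d hM hlm ha
    have := h.conj' (ψ := ψ + ((a⁻¹ - 1) * ψ (b l)) • b.coord l + ((a - 1) * ψ (b m)) • b.coord m)
      hd fun x => by simp [hd', hlm, hlm.symm]; field_simp; ring
    simpa [hd', hl, hm] using this
  obtain ⟨l, hl⟩ := exists_repr_ne (b := b) hφ
  have hlk : l ≠ k := fun e => hl (e ▸ h0)
  obtain ⟨m, hm⟩ := exists_list [k, l] (by simp; omega)
  obtain ⟨r, hr⟩ := exists_list [k, l, m] (by simp; omega)
  simp only [List.mem_cons, List.not_mem_nil, or_false, not_or] at hm hr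
  have p1 := (cj ht (Ne.symm hm.2) hlk hm.1 ha).sub_left ht (by simp [h0, hlk, hm.1]) h0
  have p2 := (cj p1 (Ne.symm hr.2.1) hlk hr.1 ha).sub_left p1 (by simp [h0, hlk, hm.1, hr.1])
    (by simp [h0, hlk, hm.1])
  have h1 : a⁻¹ - 1 ≠ 0 := by simpa [sub_eq_zero]
  refine (lines_proj b).mem_of_root (lines_rank b) hM hlk.symm one_pos (fun x hx χ hχ => ?_) e he
  obtain ⟨c, rfl⟩ := Submodule.mem_span_singleton.1 hx
  have p3 : ∀ y, χ y = b.repr y l * χ (b l) := fun y => by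
    rw [(lines_proj b).loc_apply hχ]; simp
  by_cases h2 : c * χ (b l) = 0
  · exact (HasTv.zero_left M 0).congr fun y => by rw [p3, smul_smul, mul_assoc, mul_comm _ c, h2]; simp
  refine (cj p2 (Ne.symm hr.2.1) hlk hr.1 (a := (a⁻¹ - 1) * (a⁻¹ - 1) * φ (b l) / (c * χ (b l)))
    (by simp [h1, hl, h2])).congr fun y => ?_
  rw [p3 y, smul_smul]
  congr 1
  simp [hm.2, hr.2.1, hr.2.2, Ne.symm hr.2.1, Ne.symm hr.2.2]
  field_simp
  ring

/-- Lifting a transvection from the quotient by a coordinate line. -/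
theorem mono_of_lift (h5 : 5 ≤ Fintype.card ι) {a : F} (ha : a ≠ 0) (ha1 : a ≠ 1)
    (hM : ∀ e, StabD (lines b) e → LinearMap.det (e : V →ₗ[F] V) = 1 → e ∈ M) {φ : Dual F V}
    {k o : ι} (hko : k ≠ o) {y : V ≃ₗ[F] V} (hy : y ∈ M) (h1 : y (b o) = b o)
    (h2 : ∀ v j, j ≠ o → b.repr (y v) j = b.repr (v + φ v • b k) j) (h0 : φ (b k) = 0)
    (h0' : φ (b o) = 0) (hφ : φ ≠ 0) (e : V ≃ₗ[F] V) (he : LinearMap.det (e : V →ₗ[F] V) = 1) :
    e ∈ M := by
  obtain ⟨ψ, hψ, h3⟩ : ∃ ψ : Dual F V, ψ (b o) = 0 ∧ ∀ v, y v = v + φ v • b k + ψ v • b o :=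
    ⟨b.coord o ∘ₗ (y : V →ₗ[F] V) - b.coord o, by simp [h1], fun v => b.ext_elem fun j => by
      by_cases h : j = o
      · simp [h, hko.symm]
      · simp [h2 v j h, h]⟩
  obtain ⟨l, hl⟩ := exists_repr_ne (b := b) hφ
  have hlk : l ≠ k := fun e => hl (e ▸ h0)
  have hlo : l ≠ o := fun e => hl (e ▸ h0')
  obtain ⟨m, hm⟩ := exists_list [k, o, l] (by simp; omega)
  obtain ⟨r, hr⟩ := exists_list [k, o, l, m] (by simp; omega)
  simp only [List.mem_cons, List.not_mem_nil, or_false, not_or] at hm hr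
  obtain ⟨d, hd, hd'⟩ := mono_d hM (Ne.symm hm.2.2) ha
  obtain ⟨f, hf, hf'⟩ := mono_d hM (Ne.symm hr.2.1) ha
  let φ' := ((a - 1) * φ (b l)) • b.coord l + ((a⁻¹ - 1) * φ (b m)) • b.coord m
  let ψ' := ((a - 1) * ψ (b l)) • b.coord l + ((a⁻¹ - 1) * ψ (b m)) • b.coord m
  have p1 : ∀ v, (d⁻¹ * y * d * y⁻¹) v = v + φ' v • b k + ψ' v • b o := fun v => by
    obtain ⟨v, rfl⟩ := y.surjective v
    refine d.injective ?_
    simp only [LinearEquiv.mul_apply, LinearEquiv.coe_inv, LinearEquiv.apply_symm_apply,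
      LinearEquiv.symm_apply_apply]
    simp [h3, hd', φ', ψ', hlk, hlo, hm.1, hm.2.1]
    module
  have p2 : d⁻¹ * y * d * y⁻¹ ∈ M := mul_mem (mul_mem (mul_mem (inv_mem hd) hy) hd) (inv_mem hy)
  generalize d⁻¹ * y * d * y⁻¹ = z at p1 p2
  by_cases h6 : ψ' = 0
  · exact mono_of_tv (by omega) ha ha1 hM ⟨z, p2, by simp [p1, h6]⟩ (φ := φ') (k := k)
      (by simp [φ', hlk, hm.1])
      (fun e => by simpa [φ', hm.2.2, hl, sub_eq_zero, ha1] using LinearMap.congr_fun e (b l)) e he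
  refine mono_of_tv (by omega) ha ha1 hM ⟨f⁻¹ * z * f * z⁻¹,
    mul_mem (mul_mem (mul_mem (inv_mem hf) p2) hf) (inv_mem p2), fun v => ?_⟩
    (φ := (a⁻¹ - 1) • ψ') (k := o) (by simp [ψ', hlo, hm.2.1])
    (smul_ne_zero (by simpa [sub_eq_zero]) h6) e he
  obtain ⟨v, rfl⟩ := z.surjective v
  refine f.injective ?_
  simp only [LinearEquiv.mul_apply, LinearEquiv.coe_inv, LinearEquiv.apply_symm_apply,
    LinearEquiv.symm_apply_apply]
  simp [p1, hf', φ', ψ', hlk, hlo, hm.1, hm.2.1, hko.symm, hr.1, hr.2.1, Ne.symm hr.2.2.1,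
    Ne.symm hr.2.2.2]
  match_scalars <;> field_simp <;> ring

end H62
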