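import Cfsg.Agent.H62.Mono1

set_option autoImplicit false

/-! Overgroups of the monomial group in `SL(V)`: the stabiliser of a coordinate line. -/

namespace H62

open Module

variable {F V : Type*} [Field F] [AddCommGroup V] [Module F V] {ι : Type*}

/-- The stabiliser of the line spanned by `v`. -/
def fixL (v : V) : Subgroup (V ≃ₗ[F] V) where
  carrier := {g | ∃ c : F, c ≠ 0 ∧ g v = c • v}
  one_mem' := ⟨1, one_ne_zero, by simp⟩
  mul_mem' := by
    rintro a c ⟨s, hs, h⟩ ⟨t, ht, h'⟩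
    exact ⟨t * s, mul_ne_zero ht hs, by simp [h, h', smul_smul]⟩
  inv_mem' := by
    rintro a ⟨s, hs, h⟩
    exact ⟨s⁻¹, inv_ne_zero hs, a.injective (by simp [h, smul_smul, hs])⟩

variable {b : Basis ι F V} {M : Subgroup (V ≃ₗ[F] V)} [FiniteDimensional F V] {o i k l : ι}
  {g : V ≃ₗ[F] V} {a : F}

theorem mono_d' (hM : ∀ e, StabD (lines b) e → LinearMap.det (e : V →ₗ[F] V) = 1 → e ∈ M)
    (hkl : k ≠ l) (ha : a ≠ 0) : ∃ d ∈ M,
      (∀ x, d x = x + ((a - 1) * b.repr x k) • b k + ((a⁻¹ - 1) * b.repr x l) • b l) ∧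
      ∀ x, d⁻¹ x = x + ((a⁻¹ - 1) * b.repr x k) • b k + ((a - 1) * b.repr x l) • b l := by
  obtain ⟨d, hd, h⟩ := mono_d hM hkl ha
  refine ⟨d, hd, h, fun x => d.injective ?_⟩
  rw [LinearEquiv.coe_inv, LinearEquiv.apply_symm_apply]
  simp [h, hkl, hkl.symm]
  match_scalars <;> field_simp <;> ring

theorem hom_elt (hM : ∀ e, StabD (lines b) e → LinearMap.det (e : V →ₗ[F] V) = 1 → e ∈ M)
    (hg : g ∈ M ⊓ fixL (b o)) (hi : i ≠ o) (ha : a ≠ 0) : ∃ x ∈ M ⊓ fixL (b o),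
      (x (b o) = a⁻¹ • b o ∧ x (g (b i)) = a • g (b i)) ∧ (∀ v j, j ≠ o →
        b.repr (x v) j = b.repr v j + (a - 1) * b.repr (g⁻¹ v) i * b.repr (g (b i)) j) ∧
      ∀ v j, j ≠ o →
        b.repr (x⁻¹ v) j = b.repr v j + (a⁻¹ - 1) * b.repr (g⁻¹ v) i * b.repr (g (b i)) j := by
  obtain ⟨d, hd, h1, h2⟩ := mono_d' hM hi ha
  obtain ⟨c, hc, h3⟩ := hg.2
  have h4 : g⁻¹ (b o) = c⁻¹ • b o := g.injective (by simp [h3, smul_smul, hc])
  have h5 : (g * d * g⁻¹) (b o) = a⁻¹ • b o := by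
    simp only [LinearEquiv.mul_apply, h4, h1]
    simp [hi, h3]
    match_scalars; field_simp; ring
  refine ⟨g * d * g⁻¹, ⟨M.mul_mem (M.mul_mem hg.1 hd) (M.inv_mem hg.1), _, inv_ne_zero ha, h5⟩,
    ⟨h5, by simp [h1, hi.symm]; module⟩, fun v j hj => ?_, fun v j hj => ?_⟩
  · simp [h1, h3, hj]
  · simp only [mul_inv_rev, inv_inv, LinearEquiv.mul_apply, h2]
    simp [h3, hj]

omit [FiniteDimensional F V] in
theorem dual_eq_single [Fintype ι] (f : Dual F V) (w : V) (l : ι)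
    (h : ∀ j, j ≠ l → b.repr w j = 0 ∨ f (b j) = 0) : f w = b.repr w l * f (b l) := by
  conv_lhs => rw [← b.sum_repr w, map_sum]
  rw [Finset.sum_eq_single l (fun j _ hj => by simpa using h j hj) (by simp), map_smul, smul_eq_mul]

theorem two_val_aux {x y P t : F} (hx : x ≠ 0) (hy : y ≠ 0) (h1 : x ≠ y) (h2 : x * y ≠ 1)
    (e1 : t * ((2 - x - x⁻¹) * P) = 1) (e2 : t * ((2 - y - y⁻¹) * P) = 1) : False := by
  grind

theorem exists_ord (hq : (5 : F) = 0 ∨ ∃ a : F, a ≠ 0 ∧ ∀ n, 0 < n → n ≤ 5 → a ^ n ≠ 1) :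
    ∃ a : F, a ≠ 0 ∧ a ≠ 1 ∧ a ^ 2 ≠ 1 ∧ a ^ 3 ≠ 1 := by
  rcases hq with hq | ⟨a, ha, hq⟩
  · exact ⟨2, fun e => one_ne_zero (by linear_combination hq - 2 * e : (1 : F) = 0),
      fun e => one_ne_zero (by linear_combination e : (1 : F) = 0),
      fun e => one_ne_zero (by linear_combination 2 * e - hq : (1 : F) = 0),
      fun e => one_ne_zero (by linear_combination 3 * hq - 2 * e : (1 : F) = 0)⟩
  · exact ⟨a, ha, by simpa using hq 1 (by omega) (by omega), hq 2 (by omega) (by omega),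
      hq 3 (by omega) (by omega)⟩

variable [Fintype ι] (h5 : 5 ≤ Fintype.card ι)
  (hM : ∀ e, StabD (lines b) e → LinearMap.det (e : V →ₗ[F] V) = 1 → e ∈ M)
  (hc : ¬ ∀ e : V ≃ₗ[F] V, LinearMap.det (e : V →ₗ[F] V) = 1 → e ∈ M)
include h5 hM hc

theorem mono_B1 (ha : a ≠ 0) (ha1 : a ≠ 1) (hg : g ∈ M ⊓ fixL (b o)) (hi : i ≠ o) (hk : k ≠ o)
    (h : b.repr (g (b i)) k ≠ 0) : b.repr (g⁻¹ (b k)) i ≠ 0 := fun h0 => by
  obtain ⟨x, hx, ⟨x1, -⟩, x2, x3⟩ := hom_elt hM hg hi ha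
  obtain ⟨d, hd, d1, d2⟩ := mono_d' hM hk ha
  obtain ⟨c, -, h3⟩ := (inv_mem hg).2
  have h4 : b.repr (g⁻¹ (b o)) i = 0 := by rw [h3]; simp [hi]
  have x4 : x⁻¹ (b o) = a • b o := x.injective (by simp [x1, smul_smul, ha])
  refine hc (mono_of_lift h5 ha ha1 hM hk (y := x * d * x⁻¹ * d⁻¹)
    (φ := ((a - 1) * (a⁻¹ - 1) * b.repr (g (b i)) k) • b.coord i ∘ₗ (g⁻¹ : V ≃ₗ[F] V).toLinearMap)
    (mul_mem (mul_mem (mul_mem hx.1 hd) (inv_mem hx.1)) (inv_mem hd)) ?_ (fun v j hj => ?_)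
    (by simpa using Or.inr h0) (by simpa using Or.inr h4) fun e => ?_)
  · simp only [LinearEquiv.mul_apply, d2, map_add, map_smul, x4, d1]
    simp [hk, x1]
    match_scalars; field_simp; ring
  · have p1 : ∀ w, x (x⁻¹ w) = w := x.apply_symm_apply
    have p2 : b.repr (g⁻¹ (d⁻¹ v)) i = b.repr (g⁻¹ v) i := by
      simp only [d2, map_add, map_smul, Finsupp.add_apply, Finsupp.smul_apply, h0, h4, smul_zero,
        add_zero]
    simp only [LinearEquiv.mul_apply, d1, map_add, map_smul, p1, x1, Finsupp.add_apply,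
      Finsupp.smul_apply, x2 _ j hj, x3 _ k hk, h0, p2]
    simp only [d2]
    by_cases hjk : j = k
    · simp [hjk, hk, hk.symm]; field_simp; ring
    · simp [hjk, hj]
  · simpa [h, sub_eq_zero, ha1] using LinearMap.congr_fun e (g (b i))

theorem mono_B2 (ha : a ≠ 0) (ha1 : a ≠ 1) (hg : g ∈ M ⊓ fixL (b o)) (hi : i ≠ o) (hk : k ≠ o)
    (h : b.repr (g (b i)) k ≠ 0) : b.repr (g⁻¹ (b k)) i * b.repr (g (b i)) k = 1 ∨
      2 * (b.repr (g⁻¹ (b k)) i * b.repr (g (b i)) k) = 1 := by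
  have h1 := mul_ne_zero (mono_B1 h5 hM hc ha ha1 hg hi hk h) h
  refine or_iff_not_imp_left.2 fun h2 => ?_
  generalize hp : b.repr (g⁻¹ (b k)) i * b.repr (g (b i)) k = p at h1 h2
  have h3 : (p - 1) / p ≠ 0 := by simpa [h1, sub_eq_zero]
  obtain ⟨x, hx, -, x2, x3⟩ := hom_elt hM hg hi h3
  have h4 : b.repr (x⁻¹ (b k)) k = 0 := by_contra fun e =>
    mono_B1 h5 hM hc ha ha1 (inv_mem hx) hk hk e (by
      rw [inv_inv, x2 _ k hk, mul_assoc, hp]; simp; field_simp; ring)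
  rw [x3 _ k hk, mul_assoc, hp] at h4
  have h6 : p - 1 ≠ 0 := sub_ne_zero.2 h2
  simp at h4
  field_simp at h4
  linear_combination h4

theorem mono_B3 (ha : a ≠ 0) (ha1 : a ≠ 1) (hg : g ∈ M ⊓ fixL (b o)) (hi : i ≠ o) (hk : k ≠ o)
    (hl : l ≠ o) (hkl : k ≠ l) (h : b.repr (g (b i)) k ≠ 0) (h' : b.repr (g (b i)) l ≠ 0) :
    ∃ P : F, P = b.repr (g⁻¹ (b k)) i * b.repr (g (b i)) k * (b.repr (g⁻¹ (b l)) i * b.repr (g (b i)) l)
      ∧ ((2 - a - a⁻¹) * P = 1 ∨ 2 * ((2 - a - a⁻¹) * P) = 1) := by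
  obtain ⟨x, hx, -, x2, x3⟩ := hom_elt hM hg hi ha
  have := mono_B2 h5 hM hc ha ha1 hx hk hl (by
    rw [x2 _ l hl]
    simp [hkl.symm, sub_eq_zero, ha1, h', show b.repr (g.symm (b k)) i ≠ 0 from
      mono_B1 h5 hM hc ha ha1 hg hi hk h])
  rw [x2 _ l hl, x3 _ k hk, Basis.repr_self, Basis.repr_self, Finsupp.single_eq_of_ne hkl,
    Finsupp.single_eq_of_ne hkl.symm] at this
  refine ⟨_, rfl, this.imp (fun e => ?_) fun e => ?_⟩ <;>
  · rw [← e]; field_simp; ring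

theorem mono_B (hq : (5 : F) = 0 ∨ ∃ a : F, a ≠ 0 ∧ ∀ n, 0 < n → n ≤ 5 → a ^ n ≠ 1)
    (hg : g ∈ M ⊓ fixL (b o)) : g ∈ stabG (lines b) := by
  have key : ∀ g ∈ M ⊓ fixL (b o), ∀ i k l, i ≠ o → k ≠ o → l ≠ o → k ≠ l →
      b.repr (g (b i)) k ≠ 0 → b.repr (g (b i)) l = 0 := by
    rcases hq with hq | ⟨a, ha, hq⟩
    · have t1 : (2 : F) ≠ 1 := fun e => one_ne_zero (by linear_combination e : (1 : F) = 0)
      have t2 : (2 : F) ≠ 0 := fun e => one_ne_zero (by linear_combination hq - 2 * e : (1 : F) = 0)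
      have t3 : (-1 : F) ≠ 1 := fun e => t2 (by linear_combination -e)
      have t4 : (2 : F)⁻¹ = 3 := inv_eq_of_mul_eq_one_right (by linear_combination hq)
      have k1 : ∀ g ∈ M ⊓ fixL (b o), ∀ i k l, i ≠ o → k ≠ o → l ≠ o → k ≠ l →
          b.repr (g (b i)) k ≠ 0 → b.repr (g (b i)) l ≠ 0 →
          b.repr (g⁻¹ (b k)) i * b.repr (g (b i)) k = 3 := fun g hg i k l hi hk hl hkl h h' => by
        obtain ⟨P, e, p1⟩ := mono_B3 h5 hM hc t2 t1 hg hi hk hl hkl h h'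
        obtain ⟨_, rfl, p2⟩ := mono_B3 h5 hM hc (neg_ne_zero.2 one_ne_zero) t3 hg hi hk hl hkl h h'
        rw [← e] at p2
        have p3 := mono_B2 h5 hM hc t2 t1 hg hi hk h
        have p4 := mono_B2 h5 hM hc t2 t1 hg hi hl h'
        rw [t4] at p1
        rw [inv_neg_one] at p2
        generalize b.repr (g⁻¹ (b k)) i * b.repr (g (b i)) k = p at *
        generalize b.repr (g⁻¹ (b l)) i * b.repr (g (b i)) l = p' at *
        grind
      have k2 : ∀ g ∈ M ⊓ fixL (b o), ∀ i k l m, i ≠ o → k ≠ o → l ≠ o → m ≠ o → k ≠ l → k ≠ m →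
          l ≠ m → b.repr (g (b i)) k ≠ 0 → b.repr (g (b i)) l ≠ 0 → b.repr (g (b i)) m = 0 := by
        intro g hg i k l m hi hk hl hm hkl hkm hlm h h'
        by_contra h''
        obtain ⟨x, hx, -, x2, x3⟩ := hom_elt hM hg hi (neg_ne_zero.2 (one_ne_zero' F))
        have p1 := k1 g hg i k l hi hk hl hkl h h'
        have p2 := k1 g hg i l k hi hl hk hkl.symm h' h
        have p3 := mono_B1 h5 hM hc t2 t1 hg hi hk h
        have p4 : (-1 - 1 : F) ≠ 0 := sub_ne_zero.2 t3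
        have := k1 x hx k l m hk hl hm hlm (by
          rw [x2 _ l hl]; simpa [hkl.symm, p4, h'] using p3) (by
          rw [x2 _ m hm]; simpa [hkm.symm, p4, h''] using p3)
        rw [x2 _ l hl, x3 _ k hk, inv_neg_one] at this
        simp only [Basis.repr_self, Finsupp.single_eq_of_ne hkl, Finsupp.single_eq_of_ne hkl.symm]
          at this
        grind
      intro g hg i k l hi hk hl hkl h
      by_contra h'
      obtain ⟨m, hm⟩ := exists_list [o, k, l] (by simp; omega)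
      simp only [List.mem_cons, List.not_mem_nil, or_false, not_or] at hm
      obtain ⟨r, hr, -, r1⟩ := mono_swap hM (Ne.symm hm.2.1) hk hm.1
      obtain ⟨x, hx, -, x2, -⟩ := hom_elt hM hg hi t2
      have p1 := k1 g hg i l k hi hl hk hkl.symm h' h
      have p2 := k2 g hg i k l m hi hk hl hm.1 hkl (Ne.symm hm.2.1) (Ne.symm hm.2.2) h h'
      have p3 : b.repr (g⁻¹ (r (g (b i)))) i = 3 := by
        have q1 : ∀ j, j ≠ l → j ≠ k → b.repr (g⁻¹ (b j)) i = 0 := fun j hj hj' => by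
          by_cases h1 : j = o
          · obtain ⟨c, -, h3⟩ := (inv_mem hg).2
            rw [h1, h3]; simp [hi]
          · by_contra h2
            exact mono_B1 h5 hM hc t2 t1 (inv_mem hg) h1 hi h2
              (k2 g hg i k l j hi hk hl h1 hkl (Ne.symm hj') (Ne.symm hj) h h')
        refine (dual_eq_single (b := b) (b.coord i ∘ₗ (g⁻¹ : V ≃ₗ[F] V).toLinearMap) _ l
          fun j hj => ?_).trans ?_
        · by_cases h1 : j = k
          · simp [h1, r1, p2, hk, Ne.symm hm.2.1]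
          · exact Or.inr (q1 j hj h1)
        · rw [← p1, r1, mul_comm]
          simp [hkl.symm, hl, Ne.symm hm.2.2]
      have t5 : (3 : F) ≠ 0 := fun e => t2 (by linear_combination hq - e)
      have := k2 (x * r * g) (mul_mem (mul_mem hx ⟨hr, -1, by simp, by
        simp [r1, hk, hm.1]; module⟩) hg) i k m l hi hk hm.1 hl (Ne.symm hm.2.1) hkl hm.2.2
        (by simp only [LinearEquiv.mul_apply, x2 _ k hk, p3]
            simp [r1, p2, hk, Ne.symm hm.2.1, h, t5]; norm_num)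
        (by simp only [LinearEquiv.mul_apply, x2 _ m hm.1, p3]
            simpa [r1, p2, hm.1, hm.2.1])
      simp only [LinearEquiv.mul_apply, x2 _ l hl, p3] at this
      simp [r1, hl, hkl.symm, Ne.symm hm.2.2] at this
      grind
    intro g hg i k l hi hk hl hkl h
    by_contra h'
    have t1 := hq 1 (by omega) (by omega)
    have t2 := hq 2 (by omega) (by omega)
    have t3 := hq 3 (by omega) (by omega)
    have t4 := hq 4 (by omega) (by omega)
    have t5 := hq 5 (by omega) (by omega)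
    obtain ⟨P, e, p1⟩ := mono_B3 h5 hM hc ha (by simpa using t1) hg hi hk hl hkl h h'
    obtain ⟨_, rfl, p2⟩ := mono_B3 h5 hM hc (pow_ne_zero 2 ha) t2 hg hi hk hl hkl h h'
    obtain ⟨_, rfl, p3⟩ := mono_B3 h5 hM hc (pow_ne_zero 3 ha) t3 hg hi hk hl hkl h h'
    rw [← e] at p2 p3
    have q1 : a ≠ a ^ 2 := fun e => t1 (mul_left_cancel₀ ha (by linear_combination -e))
    have q2 : a ≠ a ^ 3 := fun e => t2 (mul_left_cancel₀ ha (by linear_combination -e))
    have q3 : a ^ 2 ≠ a ^ 3 := fun e => t1 (mul_left_cancel₀ (pow_ne_zero 2 ha)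
      (by linear_combination -e))
    have r1 := @two_val_aux F _ _ _ P (hx := ha) (hy := pow_ne_zero 2 ha) (h1 := q1)
      (h2 := fun e => t3 (by linear_combination e))
    have r2 := @two_val_aux F _ _ _ P (hx := ha) (hy := pow_ne_zero 3 ha) (h1 := q2)
      (h2 := fun e => t4 (by linear_combination e))
    have r3 := @two_val_aux F _ _ _ P (hx := pow_ne_zero 2 ha) (hy := pow_ne_zero 3 ha) (h1 := q3)
      (h2 := fun e => t5 (by linear_combination e))
    rw [← one_mul (_ * P)] at p1 p2 p3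
    simp only [← mul_assoc (2 : F) 1, mul_one] at p1 p2 p3
    rcases p1 with p1 | p1 <;> rcases p2 with p2 | p2 <;> rcases p3 with p3 | p3 <;>
      first | exact r1 _ p1 p2 | exact r2 _ p1 p3 | exact r3 _ p2 p3
  obtain ⟨a, ha, ha1, ha2, -⟩ := exists_ord hq
  obtain ⟨c, hc0, h3⟩ := (inv_mem hg).2
  refine mem_of_col fun i => ?_
  by_cases hi : i = o
  · obtain ⟨c, -, h3⟩ := hg.2
    exact ⟨o, fun l hl => by simp [hi, h3, hl]⟩
  obtain ⟨k, hk, h⟩ : ∃ k, k ≠ o ∧ b.repr (g (b i)) k ≠ 0 := by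
    by_contra! h
    have := congrArg (fun v => b.repr (g⁻¹ v) i) (eq_smul_of_repr h)
    simp only [map_smul, h3] at this
    simp [hi] at this
  refine ⟨k, fun l hl => ?_⟩
  by_cases hlo : l = o
  swap
  · exact key g hg i k l hi hk hlo hl.symm h
  obtain ⟨x, hx, ⟨x0, x1⟩, x2, -⟩ := hom_elt hM hg hi ha
  obtain ⟨d, hd, d1, d2⟩ := mono_d' hM hk ha
  have p1 : ∀ w, b.repr (g⁻¹ w) i = b.repr w k * b.repr (g⁻¹ (b k)) i := fun w =>
    dual_eq_single (b.coord i ∘ₗ (g⁻¹ : V ≃ₗ[F] V).toLinearMap) w k fun j hj => Or.inr (by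
      by_cases h1 : j = o
      · change b.repr (g⁻¹ (b j)) i = 0
        rw [h1, h3]; simp [hi]
      · by_contra h2
        exact mono_B1 h5 hM hc ha ha1 (inv_mem hg) h1 hi h2 (key g hg i k j hi hk h1 (Ne.symm hj) h))
  have p2 := p1 (g (b i))
  simp only [LinearEquiv.coe_inv, LinearEquiv.symm_apply_apply, Basis.repr_self,
    Finsupp.single_eq_same] at p2
  have p3 : ∀ v, (x * d⁻¹) v = v + (b.coord o ∘ₗ (x * d⁻¹ : V ≃ₗ[F] V).toLinearMap - b.coord o) v
      • b o := fun v => b.ext_elem fun j => by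
    by_cases hj : j = o
    · simp [hj]
    rw [LinearEquiv.mul_apply, x2 _ j hj, p1, d2]
    by_cases hjk : j = k
    · simp [hjk, hk, hk.symm]
      linear_combination (exp := 1) (-(a - 1) * a⁻¹ * b.repr v k) * p2 +
        b.repr v k * mul_inv_cancel₀ ha
    · simp [hj, hjk, key g hg i k j hi hk hj (Ne.symm hjk) h]
  by_cases h0 : b.coord o ∘ₗ (x * d⁻¹ : V ≃ₗ[F] V).toLinearMap - b.coord o = 0
  · have := congrArg (fun v => b.repr v o) (p3 (d (g (b i))))
    simp only [h0, LinearEquiv.mul_apply, LinearEquiv.coe_inv, LinearEquiv.symm_apply_apply, x1]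
      at this
    simp [hk.symm, d1] at this
    rw [hlo]
    refine (mul_eq_zero.1 ?_).resolve_left (sub_ne_zero.2 ha2)
    linear_combination a * this + b.repr (g (b i)) o * mul_inv_cancel₀ ha
  refine (hc (mono_of_tv (by omega) ha ha1 hM ⟨_, M.mul_mem hx.1 (M.inv_mem hd), p3⟩ ?_ h0)).elim
  simp only [LinearMap.sub_apply, LinearMap.comp_apply, LinearEquiv.coe_coe, LinearEquiv.mul_apply,
    d2, map_add, map_smul, x0]
  simp [hk]
  field_simp
  ring

end H62
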