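import Cfsg.Agent.H62.Decomp
import Cfsg.Prelude.Def_GeometricClasses

set_option autoImplicit false

/-! Tools for non-maximality: an invariant set or function gives an intermediate subgroup. -/

namespace H62.NM

open Module Cfsg Cfsg.Geo Matrix

variable {ι : Type} [Fintype ι] [DecidableEq ι] {F : Type*} [Field F]

theorem between {G : Type*} [Group G] {M A T : Subgroup G} (h1 : ∀ g ∈ M, g ∈ A → g ∈ T)
    {g h : G} (hgA : g ∈ A) (hgT : g ∈ T) (hgM : g ∉ M) (hhA : h ∈ A) (hhT : h ∉ T) :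
    ∃ K : Subgroup G, M ⊓ A < K ∧ K < A := by
  refine ⟨T ⊓ A, lt_of_le_of_ne (fun x hx => ⟨h1 x hx.1 hx.2, hx.2⟩) fun he => hgM ?_,
    lt_of_le_of_ne inf_le_right fun he => hhT ?_⟩
  · have : g ∈ M ⊓ A := he ▸ (⟨hgT, hgA⟩ : g ∈ T ⊓ A)
    exact this.1
  · have : h ∈ T ⊓ A := he.symm ▸ hhA
    exact this.1

theorem mem_stab_of_mapsTo [Finite F] {S : Set (ι → F)} {g : GL ι F}
    (h : ∀ v ∈ S, (g : Matrix ι ι F) *ᵥ v ∈ S) : g ∈ stabilizing (glToMat ι F) S := by
  have hinj : Function.Injective fun v : ι → F => (g : Matrix ι ι F) *ᵥ v := by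
    intro u v huv
    have := congrArg (fun w => ((g⁻¹ : GL ι F) : Matrix ι ι F) *ᵥ w) huv
    simpa [mulVec_mulVec] using this
  have hb : Set.BijOn (fun v : ι → F => (g : Matrix ι ι F) *ᵥ v) S S :=
    (Set.toFinite S).injOn_iff_bijOn_of_mapsTo h |>.1 hinj.injOn
  intro v
  refine ⟨h v, fun hv => ?_⟩
  obtain ⟨w, hw, hwv⟩ := hb.surjOn hv
  have : w = v := hinj hwv
  exact this ▸ hw

/-- The map `x ↦ x + (a ⬝ x) v` as an invertible matrix. -/
theorem exists_rk1 (a v : ι → F) (h : 1 + a ⬝ᵥ v ≠ 0) :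
    ∃ T : GL ι F, (∀ x, (T : Matrix ι ι F) *ᵥ x = x + (a ⬝ᵥ x) • v) ∧
      (T : Matrix ι ι F).det = 1 + a ⬝ᵥ v := by
  have hd : (1 + vecMulVec v a : Matrix ι ι F).det = 1 + a ⬝ᵥ v := by
    rw [vecMulVec_eq Unit, det_one_add_replicateCol_mul_replicateRow]
  refine ⟨GeneralLinearGroup.mkOfDetNeZero _ (hd ▸ h), fun x => ?_, hd⟩
  change (1 + vecMulVec v a : Matrix ι ι F) *ᵥ x = _
  rw [add_mulVec, one_mulVec, vecMulVec_mulVec]
  ext i
  simp [mul_comm]

theorem exists_rk1' (φ : (ι → F) →ₗ[F] F) (v : ι → F) (h : 1 + φ v ≠ 0) :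
    ∃ T : GL ι F, (∀ x, (T : Matrix ι ι F) *ᵥ x = x + φ x • v) ∧
      (T : Matrix ι ι F).det = 1 + φ v := by
  have hφ : ∀ x, φ x = (fun i => φ (Pi.single i 1)) ⬝ᵥ x := by
    intro x
    conv_lhs => rw [pi_eq_sum_univ' x]
    simp [dotProduct, mul_comm]
  obtain ⟨T, h1, h2⟩ := exists_rk1 (fun i => φ (Pi.single i 1)) v (by rwa [← hφ])
  exact ⟨T, fun x => by rw [h1, ← hφ], by rw [h2, ← hφ]⟩

theorem mem_sl_of_det {T : GL ι F} (h : (T : Matrix ι ι F).det = 1) : T ∈ specialLinear ι F := by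
  change GeneralLinearGroup.det T = 1
  ext
  simpa using h

theorem span_pair {V : Type*} [AddCommGroup V] [Module F V] {W : Submodule F V}
    (hW : finrank F W = 2) {a b : V} (ha : a ∈ W) (hb : b ∈ W) (ha0 : a ≠ 0)
    (hab : ∀ c : F, c • a ≠ b) {x : V} (hx : x ∈ W) : ∃ s t : F, x = s • a + t • b := by
  have hli : LinearIndependent F ![a, b] := (LinearIndependent.pair_iff' ha0).2 hab
  haveI : FiniteDimensional F W := Module.finite_of_finrank_pos (by omega)
  have hle : Submodule.span F (Set.range ![a, b]) ≤ W := by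
    rw [Submodule.span_le]
    rintro _ ⟨i, rfl⟩
    fin_cases i
    · exact ha
    · exact hb
  have he : Submodule.span F (Set.range ![a, b]) = W :=
    Submodule.eq_of_le_of_finrank_eq hle (by rw [finrank_span_eq_card hli, hW]; simp)
  rw [← he, Matrix.range_cons_cons_empty, Submodule.mem_span_pair] at hx
  obtain ⟨s, t, hst⟩ := hx
  exact ⟨s, t, hst.symm⟩

theorem exists_mem_ker {V : Type*} [AddCommGroup V] [Module F V] {W : Submodule F V}
    (hW : 2 ≤ finrank F W) (φ : V →ₗ[F] F) : ∃ u ∈ W, u ≠ 0 ∧ φ u = 0 := by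
  haveI : FiniteDimensional F W := Module.finite_of_finrank_pos (by omega)
  have h1 := LinearMap.finrank_range_add_finrank_ker (φ ∘ₗ W.subtype)
  have h2 : finrank F (LinearMap.range (φ ∘ₗ W.subtype)) ≤ 1 := by
    simpa using Submodule.finrank_le (LinearMap.range (φ ∘ₗ W.subtype))
  have h3 : LinearMap.ker (φ ∘ₗ W.subtype) ≠ ⊥ := by
    intro h
    rw [h, finrank_bot] at h1
    omega
  obtain ⟨u, hu, hu0⟩ := Submodule.exists_mem_ne_zero_of_ne_bot h3
  exact ⟨u, u.2, fun h => hu0 (Subtype.ext h), hu⟩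

theorem dec_mem {t : ℕ} {D : Fin t → Submodule F (ι → F)} {g : GL ι F}
    (hg : g ∈ decompositionStabilizer D) :
    ∃ σ : Equiv.Perm (Fin t), ∀ i, ∀ v ∈ D i, (g : Matrix ι ι F) *ᵥ v ∈ D (σ i) := by
  obtain ⟨σ, hσ⟩ := hg
  refine ⟨σ, fun i v hv => ?_⟩
  rw [← hσ i]
  exact ⟨v, hv, by simp⟩

theorem proj_map {t : ℕ} {D : Fin t → Submodule F (ι → F)} {π : Fin t → (ι → F) →ₗ[F] (ι → F)}
    (hp : IsProj D π) {g : Matrix ι ι F} {σ : Equiv.Perm (Fin t)}
    (hσ : ∀ i, ∀ v ∈ D i, g *ᵥ v ∈ D (σ i)) (i : Fin t) (v : ι → F) :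
    π (σ i) (g *ᵥ v) = g *ᵥ π i v := by
  conv_lhs => rw [← hp.sum v, mulVec_sum, map_sum]
  rw [Finset.sum_eq_single i (fun j _ hj => hp.of_ne _ (σ j) (fun h => hj (σ.injective h).symm) _
    (hσ j _ (hp.mem j v))) (by simp)]
  exact hp.of_mem (hσ i _ (hp.mem i v))

theorem card_dec {t m : ℕ} {D : Fin t → Submodule F (ι → F)} (hD : IsMDecomposition m D) :
    t * m = Fintype.card ι := by
  classical
  have hI : DirectSum.IsInternal D :=
    DirectSum.isInternal_submodule_of_iSupIndep_of_iSup_eq_top hD.indep hD.iSup_eq_top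
  have e := LinearEquiv.ofBijective (DirectSum.coeLinearMap D) hI
  have := e.finrank_eq
  rw [Module.finrank_directSum] at this
  simpa [hD.finrank_eq] using this

theorem mulVec_eq_zero {g : GL ι F} {v : ι → F} (h : (g : Matrix ι ι F) *ᵥ v = 0) : v = 0 := by
  have := congrArg (fun w => ((g⁻¹ : GL ι F) : Matrix ι ι F) *ᵥ w) h
  simpa [mulVec_mulVec] using this

theorem eq_zero_or_one [Fintype F] (hq : Fintype.card F = 2) (c : F) : c = 0 ∨ c = 1 := by
  have := FiniteField.pow_card c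
  rw [hq] at this
  by_cases h : c = 0
  · exact Or.inl h
  · right
    apply mul_left_cancel₀ h
    rw [mul_one, ← sq, this]

theorem two_eq_zero [Fintype F] (hq : Even (Fintype.card F)) : (2 : F) = 0 := by
  have h : ringChar F = 2 := FiniteField.even_card_iff_char_two.2 (Nat.even_iff.1 hq)
  haveI : CharP F 2 := h ▸ ringChar.charP F
  exact CharTwo.two_eq_zero

/-! ### The field with two elements: the weight form of a decomposition into planes -/

section Two

variable [Fintype F] {t : ℕ} {D : Fin t → Submodule F (ι → F)}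
  {π : Fin t → (ι → F) →ₗ[F] (ι → F)}

open Classical in
/-- `0` for the zero vector, `1` otherwise. -/
noncomputable def chi (v : ι → F) : F := if v = 0 then 0 else 1

/-- The parity of the number of non-zero components. -/
noncomputable def wt (π : Fin t → (ι → F) →ₗ[F] (ι → F)) (v : ι → F) : F := ∑ i, chi (π i v)

omit [DecidableEq ι] [Fintype F] in
theorem chi_zero : chi (0 : ι → F) = 0 := if_pos rfl

omit [DecidableEq ι] [Fintype F] in
theorem chi_ne {v : ι → F} (h : v ≠ 0) : chi v = 1 := if_neg h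

omit [Fintype F] in
theorem wt_map (hp : IsProj D π) {g : GL ι F} (hg : g ∈ decompositionStabilizer D) (v : ι → F) :
    wt π ((g : Matrix ι ι F) *ᵥ v) = wt π v := by
  obtain ⟨σ, hσ⟩ := dec_mem hg
  unfold wt
  rw [← Equiv.sum_comp σ]
  refine Finset.sum_congr rfl fun i _ => ?_
  rw [proj_map hp hσ]
  by_cases h : π i v = 0
  · rw [h, mulVec_zero]
  · rw [chi_ne h, chi_ne fun h' => h (mulVec_eq_zero h')]

omit [DecidableEq ι] [Fintype F] in
theorem wt_of_mem (hp : IsProj D π) {i : Fin t} {v : ι → F} (hv : v ∈ D i) : wt π v = chi v := by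
  unfold wt
  rw [Finset.sum_eq_single i (fun j _ hj => by rw [hp.of_ne j i hj v hv, chi_zero]) (by simp),
    hp.of_mem hv]

omit [DecidableEq ι] in
theorem chi_add (hq : Fintype.card F = 2) {B : (ι → F) →ₗ[F] (ι → F) →ₗ[F] F}
    (hA : ∀ v, B v v = 0) {W : Submodule F (ι → F)} (hW : finrank F W = 2)
    (hn : ∀ w ∈ W, w ≠ 0 → ∃ x ∈ W, B w x ≠ 0) {a b : ι → F} (ha : a ∈ W) (hb : b ∈ W) :
    chi (a + b) = chi a + chi b + B a b := by
  have h2 : (2 : F) = 0 := two_eq_zero (by rw [hq]; decide)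
  have haa : ∀ x : ι → F, x + x = 0 := fun x => by rw [← two_smul F x, h2, zero_smul]
  by_cases ha0 : a = 0
  · simp [ha0, chi_zero]
  by_cases hb0 : b = 0
  · simp [hb0, chi_zero]
  by_cases hab : a = b
  · subst hab
    rw [haa, chi_zero, chi_ne ha0, hA]
    linear_combination -h2
  have hs : a + b ≠ 0 := fun h => hab (by
    have := haa b
    rw [← h] at this
    exact (add_right_cancel this).symm)
  have hB : B a b ≠ 0 := by
    intro h0
    obtain ⟨x, hx, hx0⟩ := hn a ha ha0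
    obtain ⟨s, r, rfl⟩ := span_pair hW ha hb ha0 (fun c hc => by
      rcases eq_zero_or_one hq c with rfl | rfl
      · exact hb0 (by simpa using hc.symm)
      · exact hab (by simpa using hc)) hx
    simp [hA, h0] at hx0
  rw [chi_ne hs, chi_ne ha0, chi_ne hb0, (eq_zero_or_one hq _).resolve_left hB]
  linear_combination -h2

omit [DecidableEq ι] in
theorem wt_add (hq : Fintype.card F = 2) (hp : IsProj D π) {B : (ι → F) →ₗ[F] (ι → F) →ₗ[F] F}
    (hA : ∀ v, B v v = 0) (hW : ∀ i, finrank F (D i) = 2)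
    (hn : ∀ i, ∀ w ∈ D i, w ≠ 0 → ∃ x ∈ D i, B w x ≠ 0)
    (ho : ∀ i j, i ≠ j → ∀ u ∈ D i, ∀ v ∈ D j, B u v = 0) (a b : ι → F) :
    wt π (a + b) = wt π a + wt π b + B a b := by
  have hB : B a b = ∑ i, B (π i a) (π i b) := by
    conv_lhs => rw [← hp.sum a, map_sum, LinearMap.sum_apply]
    refine Finset.sum_congr rfl fun i _ => ?_
    conv_lhs => rw [← hp.sum b, map_sum]
    exact Finset.sum_eq_single i (fun j _ hj => ho i j hj.symm _ (hp.mem i a) _ (hp.mem j b))
      (by simp)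
  unfold wt
  rw [hB, ← Finset.sum_add_distrib, ← Finset.sum_add_distrib]
  refine Finset.sum_congr rfl fun i _ => ?_
  rw [map_add, chi_add hq hA (hW i) (hn i) (hp.mem i a) (hp.mem i b)]

end Two

end H62.NM
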