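import Cfsg.Agent.H62.TenU2
import Cfsg.Agent.H62.TenSpMat
import Cfsg.Agent.H62.URatSmall

set_option autoImplicit false
set_option linter.unusedSectionVars false

/-! The stabiliser of a tensor decomposition `GU ⊗ GU` is maximal in `SU`. -/

namespace H62

open Module H56 H56.Ten H59

variable {F E W V : Type*} [Field F] [AddCommGroup E] [Module F E] [AddCommGroup W] [Module F W]
  [AddCommGroup V] [Module F V] [FiniteDimensional F E] [FiniteDimensional F W] {σ : F →+* F}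
  {T : Ten F E W V} {bE : E →ₛₗ[σ] E →ₗ[F] F} {bW : W →ₛₗ[σ] W →ₗ[F] F}
  {B : V →ₛₗ[σ] V →ₗ[F] F} {M : Subgroup (V ≃ₗ[F] V)} {u w : W} {J : Submodule F W}
  {g k m : V ≃ₗ[F] V}

/-- The stabilisers of the spaces `E ⊗ w` preserve the decomposition. -/
structure UT (T : Ten F E W V) (bE : E →ₛₗ[σ] E →ₗ[F] F) (bW : W →ₛₗ[σ] W →ₗ[F] F)
    (B : V →ₛₗ[σ] V →ₗ[F] F) (M : Subgroup (V ≃ₗ[F] V)) : Prop extends UU T bE bW B M where
  two : 2 ≤ finrank F E
  lt : finrank F E < finrank F W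
  stab : ∀ w, w ≠ 0 → bW w w = 0 → ∀ g ∈ M, (∀ v ∈ T.LS (F ∙ w), g v ∈ T.LS (F ∙ w)) → g ∈ T.grp

namespace UT

variable [Finite F] (H : UT T bE bW B M)
include H

theorem nt : Nontrivial E := Module.nontrivial_of_finrank_pos (R := F) (by have := H.two; omega)

theorem three : 3 ≤ finrank F W := by have := H.two; have := H.lt; omega

theorem mem_of_map (hu0 : u ≠ 0) (hu : bW u u = 0) (hw0 : w ≠ 0) (hg : g ∈ M)
    (h : ∀ v ∈ T.LS (F ∙ u), g v ∈ T.LS (F ∙ w)) : g ∈ T.grp := by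
  have := T.finite
  have h1 : (T.LS (F ∙ u)).map (g : V →ₗ[F] V) = T.LS (F ∙ w) :=
    Submodule.eq_of_le_of_finrank_eq (Submodule.map_le_iff_le_comap.2 h) (by
      rw [LinearEquiv.finrank_map_eq, T.finrank_LS_span hu0, T.finrank_LS_span hw0])
  obtain ⟨e, he⟩ := H.hE.exists_self_ne_zero_top (by have := H.two; omega)
  obtain ⟨v, hv, h2⟩ := h1.ge (T.mem_LS_span.2 ⟨e, rfl⟩)
  obtain ⟨e', rfl⟩ := T.mem_LS_span.1 hv
  have h3 := (H.le g hg).1 (T.t e' u) (T.t e' u)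
  rw [LinearEquiv.coe_coe] at h2
  rw [h2, H.tens, H.tens, hu, mul_zero, mul_eq_zero, or_iff_right he] at h3
  obtain ⟨s, s1, s2⟩ := exists_sisom_map H.hW H.three hw0 hu0 (h3.trans hu.symm)
  refine (mul_mem_cancel_left (T.rt_mem s)).1
    (H.stab u hu0 hu _ (mul_mem (H.rt_mem s1) hg) fun v hv => ?_)
  obtain ⟨e, he⟩ := T.mem_LS_span.1 (h v hv)
  exact T.mem_LS_span.2 ⟨e, by simp [he, s2]⟩

theorem exists_tv (hu0 : u ≠ 0) (hu : bW u u = 0) {c : F} (c0 : c ≠ 0) (hc : c + σ c = 0) :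
    ∃ x, Rigid M T.grp x ∧ mv x = T.LS (F ∙ u) ∧ ∀ y, x y = y + c • T.t (T.cR (bW u) y) u := by
  have := H.nt
  have h0 : (c • bW u) u = 0 := by simp [hu]
  have h1 := mv_tv h0 (smul_ne_zero c0 fun e => hu0 (H.hW.nondeg u fun x => by simp [e]))
  have h2 : ∀ x, LinearEquiv.transvection h0 x = x + (c * bW u x) • u := fun x => by
    simp [LinearMap.transvection.apply]
  refine ⟨_, ⟨H.rt_mem (axisGrp_le_sisom hu ⟨isom_of_utv H.hW hu hc h2, c, h2⟩),
    fun g hg h3 => ?_⟩, by rw [mv_rt, h1], rt_utv h2⟩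
  obtain ⟨w, h4, h5⟩ := exists_map_LS H.lt hu0 h1 h3
  exact H.mem_of_map hu0 hu h4 hg h5

theorem exists_rigid (hu0 : u ≠ 0) (hu : bW u u = 0) :
    ∃ x, Rigid M T.grp x ∧ ∀ y, T.cR (bW u) y = 0 → x y = y := by
  obtain ⟨δ, d0, hδ⟩ := exists_trace_zero_ne_zero H.hE.ne_id H.hE.invol
  obtain ⟨x, h1, -, h2⟩ := H.exists_tv hu0 hu d0 hδ
  exact ⟨x, h1, fun y hy => by simp [h2, hy]⟩

omit H [Finite F] in
theorem cR_of_mem (hw : ∀ x ∈ J, bW w x = 0) {y : V} (hy : y ∈ T.LS J) : T.cR (bW w) y = 0 :=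
  T.mem_LS_ker.1 (T.LS_mono hw hy)

theorem form_of_mem {J' : Submodule F W} (hJ : ∀ x ∈ J, ∀ y ∈ J', bW x y = 0) {x y : V}
    (hx : x ∈ T.LS J) (hy : y ∈ T.LS J') : B x y = 0 :=
  T.LS_induction (p := fun x => B x y = 0) hx (by simp)
    (fun e w hw => by rw [H.form_t, cR_of_mem (hJ w hw) hy, map_zero]) fun a b ha hb => by
      simp [ha, hb]

variable (hJ : ∀ x ∈ J, ∀ y ∈ J, bW x y = 0)
include hJ

theorem stabJ (hw : w ∈ J) (hw0 : w ≠ 0) (g : V ≃ₗ[F] V) (hg : g ∈ M)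
    (h : ∀ v ∈ T.LS J, g v ∈ T.LS J) : g ∈ T.grp := by
  have := T.finite
  obtain ⟨x, h1, h2⟩ := H.exists_rigid hw0 (hJ w hw w hw)
  refine h1.2 g hg (H.stab w hw0 (hJ w hw w hw) _ (mul_mem (mul_mem hg h1.1) (inv_mem hg))
    fun v hv => ?_)
  rw [LinearEquiv.mul_apply, LinearEquiv.mul_apply, h2 _ (cR_of_mem (hJ w hw) (inv_mem_of_le h v
    (T.LS_mono ((Submodule.span_singleton_le_iff_mem _ _).2 hw) hv)))]
  simpa using hv

theorem mem_of_cR (c : Crit M T.grp (T.LS J) k) (hw : w ∈ J) (hw0 : w ≠ 0) {z : V}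
    (hz : z ∈ T.LS J ⊔ (T.LS J).comap (k : V →ₗ[F] V)) (h : T.cR (bW w) z = 0) : z ∈ T.LS J := by
  have := T.finite
  obtain ⟨x, h1, h2⟩ := H.exists_rigid hw0 (hJ w hw w hw)
  obtain ⟨a, ha, y, hy, rfl⟩ := Submodule.mem_sup.1 hz
  rw [map_add, cR_of_mem (hJ w hw) ha, zero_add] at h
  exact add_mem ha (c.mem_of h1 (fun v hv hv' => by rwa [h2 v (cR_of_mem (hJ w hw) hv)]) hy
    (by rwa [h2 y h]))

theorem quad_of_mv {s : W ≃ₗ[F] W} (hs : T.rt s ∈ M) (h : mv s ≤ J) :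
    mv (T.rt s) ≤ T.LS J ∧ ∀ v ∈ T.LS J, T.rt s v = v := by
  have h1 : mv (T.rt s) ≤ T.LS J := by rw [mv_rt]; exact T.LS_mono h
  refine ⟨h1, fun v hv => H.hV.ext_right fun y => ?_⟩
  obtain ⟨y, rfl⟩ := (T.rt s).surjective y
  have := H.form_of_mem hJ (h1 (sub_mem_mv _ y)) hv
  rw [map_sub, LinearMap.sub_apply, sub_eq_zero] at this
  rw [(H.le _ hs).1, this]

theorem exists_rt (c : Crit M T.grp (T.LS J) k) (hw : w ∈ J) (hw0 : w ≠ 0) {x : W} (hx : x ∉ J)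
    (hx' : ∀ y ∈ J, bW y x = 0) (hm : m ∈ M) (hT : m ∈ T.grp) (h1 : ∀ v ∈ T.LS J, m v ∈ T.LS J)
    (h2 : mv m ≤ T.LS J ⊔ (T.LS J).comap (k : V →ₗ[F] V)) : ∃ s, m = T.rt s := by
  have := T.finite
  refine T.exists_eq_rt_of_sub_mem hT hx fun e => H.mem_of_cR hJ c hw hw0 (h2 (sub_mem_mv _ _)) ?_
  rw [map_sub, cR_t, hx' w hw, zero_smul, sub_zero]
  refine H.cR_eq_zero fun e' => ?_
  rw [← (m.apply_symm_apply (T.t e' w)), (H.le m hm).1]
  exact H.form_of_mem (J' := F ∙ x) (fun a ha b hb => by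
    obtain ⟨r, rfl⟩ := Submodule.mem_span_singleton.1 hb
    simp [hx' a ha]) (inv_mem_of_le h1 _ (T.t_mem_LS _ hw)) (T.mem_LS_span.2 ⟨e, rfl⟩)

omit hJ

theorem le_of_tau {τ : F} (t1 : σ τ = τ) (t2 : τ ≠ 0) (t3 : τ ≠ 1) : M ≤ T.grp := by
  have := T.finite
  have := H.nt
  have h3 := H.three
  obtain ⟨w₀, -, hw0, hw⟩ := H.hW.exists_isotropic_mem (W := ⊤) (by simp; omega)
  have hJ : ∀ x ∈ F ∙ w₀, ∀ y ∈ F ∙ w₀, bW x y = 0 := fun x hx y hy => by
    obtain ⟨a, rfl⟩ := Submodule.mem_span_singleton.1 hx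
    obtain ⟨b, rfl⟩ := Submodule.mem_span_singleton.1 hy
    simp [hw]
  have hm := Submodule.mem_span_singleton_self (R := F) w₀
  obtain ⟨n, n1, n2⟩ := H.hW.exists_self_ne_zero_perp_of_lt (W := F ∙ w₀)
    (by rw [finrank_span_singleton hw0]; omega)
  have key : ∀ k, Crit M T.grp (T.LS (F ∙ w₀)) k →
      finrank F ↥(T.LS (F ∙ w₀) ⊓ (T.LS (F ∙ w₀)).comap (k : V →ₗ[F] V)) = 0 ∧
      ∃ J : Submodule F W, finrank F J = 2 ∧ w₀ ∈ J ∧
        (T.LS (F ∙ w₀)).comap (k : V →ₗ[F] V) ≤ T.LS J := fun k c => by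
    by_contra hc
    obtain ⟨δ, d0, hδ⟩ := exists_trace_zero_ne_zero H.hE.ne_id H.hE.invol
    obtain ⟨x, x1, x2, x3⟩ := H.exists_tv hw0 hw d0 hδ
    obtain ⟨x', y1, y2, y3⟩ := H.exists_tv hw0 hw (mul_ne_zero t2 d0)
      (by rw [map_mul, t1, ← mul_add, hδ, mul_zero])
    have t4 := sub_ne_zero.2 t3
    refine c.false_of_quad (H.stab w₀ hw0 hw) ![x, x'] (by simp [x1.1, y1.1]) (by simp [x2, y2])
      (by simp +contextual [x3, y3, cR_of_mem (hJ _ hm)]) ![τ / (τ - 1), -1 / (τ - 1)] (fun v => by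
        simp only [Fin.sum_univ_two, Matrix.cons_val_zero, Matrix.cons_val_one, x3, y3]
        match_scalars <;> field_simp <;> ring) fun m m1 m2 m3 m4 => ?_
    obtain ⟨s, rfl⟩ := H.exists_rt hJ c hm hw0 (fun h => n2 (hJ n h n h)) n1 m1 m2 m3 m4
    refine H.quad_of_mv hJ m1 fun v hv => by_contra fun h => hc ?_
    have h4 : finrank F ↥((F ∙ w₀) ⊔ F ∙ v) = 2 := by
      rw [Submodule.finrank_sup_span_singleton h, finrank_span_singleton hw0]
    have h5 : T.LS ((F ∙ w₀) ⊔ F ∙ v) ≤ T.LS (F ∙ w₀) ⊔ (T.LS (F ∙ w₀)).comap (k : V →ₗ[F] V) := by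
      rw [LS_sup]
      refine sup_le le_sup_left (le_trans ?_ m4)
      rw [mv_rt]
      exact T.LS_mono ((Submodule.span_singleton_le_iff_mem _ _).2 hv)
    have h6 := Submodule.finrank_mono h5
    have h7 := Crit.finrank_sup_add (T.LS (F ∙ w₀)) k
    rw [finrank_LS, h4] at h6
    rw [T.finrank_LS_span hw0] at h7
    exact ⟨by omega, _, h4, Submodule.mem_sup_left hm, le_sup_right.trans
      (Submodule.eq_of_le_of_finrank_eq h5 (by rw [finrank_LS, h4]; omega)).ge⟩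
  by_contra hne
  obtain ⟨k, c⟩ := exists_crit (T.LS (F ∙ w₀)) hne
  obtain ⟨h0, J, j1, -, j3⟩ := key k c
  have h4 := Submodule.finrank_mono (le_of_isotropic_mem H.hW (W := ⊤) (by simp [H.hW.perp_top])
    (by simp; omega) (A := J) fun w _ hw' => by_contra fun h => by
      obtain ⟨s, s1, s2⟩ := exists_sisom_map H.hW h3 hw0 (v' := w) (by rintro rfl; simp at h)
        (hw.trans hw'.symm)
      obtain ⟨-, J', l1, l2, l3⟩ := key (k * T.rt s) ⟨mul_mem c.mem (H.rt_mem s1),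
        fun h => c.notMem ((mul_mem_cancel_right (T.rt_mem s)).1 h), fun g h1 h2 =>
          (c.max g h1 h2).trans (h0.le.trans (Nat.zero_le _))⟩
      have h5 : finrank F ↥(J ⊓ J'.map (s : W →ₗ[F] W)) < finrank F (J'.map (s : W →ₗ[F] W)) :=
        Submodule.finrank_lt_finrank_of_lt (lt_of_le_of_ne inf_le_right fun e =>
          h (s2 ▸ (e.ge (Submodule.mem_map_of_mem l2)).1))
      rw [LinearEquiv.finrank_map_eq, l1] at h5
      obtain ⟨⟨v, hv⟩, h6⟩ := finrank_le_one_iff.1 (Nat.lt_succ_iff.1 h5)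
      have h7 : ∀ y ∈ T.LS (F ∙ w₀), k⁻¹ y ∈ T.LS (F ∙ v) := fun y hy => by
        refine T.LS_mono (J := J ⊓ J'.map (s : W →ₗ[F] W)) (fun x hx => ?_) ?_
        · obtain ⟨r, hr⟩ := h6 ⟨x, hx⟩
          exact Submodule.mem_span_singleton.2 ⟨r, congrArg Subtype.val hr⟩
        rw [LS_inf, ← T.map_tm_LS 1 s]
        exact ⟨j3 (by simpa using hy), (T.rt s)⁻¹ (k⁻¹ y), l3 (by simpa using hy),
          (T.rt s).apply_symm_apply _⟩
      refine c.notMem (inv_mem_iff.1 (H.mem_of_map hw0 hw ?_ (inv_mem c.mem) h7))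
      rintro rfl
      obtain ⟨e, he⟩ := exists_ne (0 : E)
      simpa [t_eq_zero, he, hw0] using h7 _ (T.mem_LS_span.2 ⟨e, rfl⟩))
  rw [finrank_top] at h4
  omega

theorem le_of_two (h2 : (2 : F) = 0) (h3 : 3 ≤ finrank F E) : M ≤ T.grp := by
  have := T.finite
  have := H.nt
  have hb := H.lt
  have hW := H.hW
  obtain ⟨w₁, -, a0, a1⟩ := hW.exists_isotropic_mem (W := ⊤) (by simp; omega)
  obtain ⟨p, p1, p2⟩ := hW.exists_partner a1 a0
  have p3 : bW w₁ p ≠ 0 := by simp [p1]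
  obtain ⟨w₂, a2, q, q0, a3, -, q1⟩ := exists_hyp_mem hW (hW.disjoint_perp_perp
    (hW.disjoint_span_hyp a1 p3)) (by
      have := hW.finrank_add_finrank_perp (Submodule.span F {w₁, p})
      rw [hW.finrank_span_hyp a1 p3] at this; omega)
  rw [mem_perp_pair] at a2 q0
  have a4 := hW.eq_zero_comm.1 a2.1
  have a5 := hW.eq_zero_comm.1 a2.2
  have a6 : w₂ ∉ F ∙ w₁ := fun h => by
    obtain ⟨r, rfl⟩ := Submodule.mem_span_singleton.1 h
    simp [q0.1] at q1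
  set J := (F ∙ w₁) ⊔ F ∙ w₂ with hJ'
  have j0 : ∀ x, x ∈ J ↔ ∃ r s : F, x = r • w₁ + s • w₂ := fun x => by
    simp [hJ', Submodule.mem_sup, Submodule.mem_span_singleton, eq_comm]
  have j1 : w₁ ∈ J := (j0 _).2 ⟨1, 0, by simp⟩
  have j2 : w₂ ∈ J := (j0 _).2 ⟨0, 1, by simp⟩
  have j3 : finrank F J = 2 := by
    rw [Submodule.finrank_sup_span_singleton a6, finrank_span_singleton a0]
  have hJ : ∀ x ∈ J, ∀ y ∈ J, bW x y = 0 := fun x hx y hy => by
    obtain ⟨a, b, rfl⟩ := (j0 x).1 hx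
    obtain ⟨c, d, rfl⟩ := (j0 y).1 hy
    simp [a1, a2.1, a3, a4]
  have ex : ∀ l : F, l ≠ 0 → ∃ x ∈ M, mv x = T.LS J ∧ (∀ v ∈ T.LS J, x v = v) ∧
      ∀ y, x y = y + σ l • T.t (T.cR (bW w₂) y) w₁ - l • T.t (T.cR (bW w₁) y) w₂ := fun l hl => by
    obtain ⟨s, s1, s2⟩ := hW.exists_eichler a1 (u := l • w₂) (by simp [a2.1]) (a := 0) (by simp [a3])
    have s3 : mv s = J := le_antisymm (mv_le.2 fun y => (j0 _).2 ⟨bW (l • w₂) y, -(bW w₁ y * l), by
      rw [s2]; module⟩) (sup_le ((Submodule.span_singleton_le_iff_mem _ _).2 ⟨(σ l)⁻¹ • q, by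
        simp [s2, q0.1, q1, smul_smul, hl]⟩) ((Submodule.span_singleton_le_iff_mem _ _).2
          ⟨-l⁻¹ • p, by simp [s2, a5, p1, smul_smul, hl]⟩))
    exact ⟨_, H.rt_mem s1, by rw [mv_rt, s3], (H.quad_of_mv hJ (H.rt_mem s1) s3.le).2, fun y => by
      simp [rt_ue s2, cR_smul]⟩
  by_contra hne
  obtain ⟨k, c⟩ := exists_crit (T.LS J) hne
  obtain ⟨ω, o1, o2⟩ := exists_ne_zero_add_one_ne_zero hW.ne_id
  obtain ⟨x₁, x1, x2, x3, x4⟩ := ex 1 one_ne_zero
  obtain ⟨x₂, y1, y2, y3, y4⟩ := ex ω o1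
  obtain ⟨x₃, z1, z2, z3, z4⟩ := ex (1 + ω) o2
  refine c.false_of_quad (H.stabJ hJ j1 a0) ![x₁, x₂, x₃]
    (fun i => by fin_cases i <;> assumption) (fun i => by fin_cases i <;> assumption)
    (fun i => by fin_cases i <;> assumption) ![1, 1, 1] (fun v => by
      simp only [Fin.sum_univ_three, Matrix.cons_val_zero, Matrix.cons_val_one, Matrix.cons_val,
        x4, y4, z4, map_add, map_one]
      linear_combination (norm := module) h2 • (v + (1 + σ ω) • T.t (T.cR (bW w₂) v) w₁ -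
        (1 + ω) • T.t (T.cR (bW w₁) v) w₂)) fun m m1 m2 m3 m4 => ?_
  have pure : ∀ e x, T.t e x ∈ T.LS J ⊔ (T.LS J).comap (k : V →ₗ[F] V) → e = 0 ∨ x ∈ J :=
    fun e x h => or_iff_not_imp_left.2 fun he => (T.t_mem_LS_iff he).1 (by
      by_cases h0 : bW w₁ x = 0
      · exact H.mem_of_cR hJ c j1 a0 h (by simp [h0])
      · exact H.mem_of_cR hJ c (sub_mem j2 (J.smul_mem (σ (bW w₂ x / bW w₁ x)) j1))
          (fun e => a6 (Submodule.mem_span_singleton.2 ⟨_, (sub_eq_zero.1 e).symm⟩)) h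
          (by simp [hW.invol, h0]))
  obtain ⟨s, rfl⟩ : ∃ s, m = T.rt s := by
    by_cases h5 : 5 ≤ finrank F W
    · obtain ⟨x, h6, h7⟩ := exists_mem_notMem (W := perp bW J) (Z := J) (by
        have := hW.finrank_add_finrank_perp J; omega)
      exact H.exists_rt hJ c j1 a0 h7 h6 m1 m2 m3 m4
    obtain ⟨A, C, rfl⟩ := m2
    obtain ⟨e, e0, l, hl⟩ : ∃ e, e ≠ 0 ∧ ∃ l : F, l • e = A e := by
      obtain ⟨⟨z, z1⟩, z2, z3⟩ := (Submodule.ne_bot_iff _).1 (LinearMap.ker_ne_bot_of_finrank_lt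
        (f := (T.cR (bW w₁)).domRestrict ((T.LS J).comap (k : V →ₗ[F] V))) (by
          rw [finrank_comap_equiv, finrank_LS, j3]; omega))
      have z4 := H.mem_of_cR hJ c j1 a0 (Submodule.mem_sup_right z1) z2
      have z5 : T.tm A C z = z := H.hV.ext_right fun y => by
        obtain ⟨y, rfl⟩ := (T.tm A C).surjective y
        obtain ⟨a, ha, b, hb, h⟩ := Submodule.mem_sup.1 (m4 (sub_mem_mv _ y))
        rw [(H.le _ m1).1, ← sub_add_cancel (T.tm A C y) y, ← h, map_add, map_add,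
          LinearMap.add_apply, LinearMap.add_apply, H.form_of_mem hJ ha z4,
          ← (H.le k c.mem).1 b z, H.form_of_mem hJ (x := k b) (y := k z) hb z1]
        simp
      have r1 : ∀ x ∈ LinearMap.range (T.cRat z), A⁻¹ x ∈ LinearMap.range (T.cRat z) := by
        rintro _ ⟨φ, rfl⟩
        exact ⟨φ ∘ₗ (C : W →ₗ[F] W), A.injective (by simp [← T.cR_tm, z5])⟩
      have r2 : finrank F (LinearMap.range (T.cRat z)) ≤ 2 := by
        rw [hJ', LS_sup] at z4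
        obtain ⟨a, ha, b, hb, rfl⟩ := Submodule.mem_sup.1 z4
        obtain ⟨a, rfl⟩ := T.mem_LS_span.1 ha
        obtain ⟨b, rfl⟩ := T.mem_LS_span.1 hb
        refine (Submodule.finrank_mono ?_).trans (finrank_span_pair_le' a b)
        rintro _ ⟨φ, rfl⟩
        exact Submodule.mem_span_pair.2 ⟨φ w₁, φ w₂, by simp⟩
      have r3 : finrank F (LinearMap.range (T.cRat z)) ≠ 0 := fun h => z3 (Subtype.ext (by
        simpa using T.mem_LS_of_cR (J := ⊥) fun φ _ =>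
          (Submodule.finrank_eq_zero.1 h).le ⟨φ, rfl⟩))
      obtain ⟨X, X1, X2⟩ : ∃ X : Submodule F E, finrank F X = 1 ∧ ∀ x ∈ X, A x ∈ X := by
        by_cases r4 : finrank F (LinearMap.range (T.cRat z)) = 1
        · exact ⟨_, r4, by simpa using inv_mem_of_le r1⟩
        refine ⟨perp bE (LinearMap.range (T.cRat z)), by
          have := H.hE.finrank_add_finrank_perp (LinearMap.range (T.cRat z)); omega,
          fun x hx y hy => ?_⟩
        have := (H.le _ m1).1 (T.t (A⁻¹ y) (C⁻¹ w₁)) (T.t x (C⁻¹ p))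
        rw [tm_t, tm_t, H.tens, H.tens, hx _ (r1 y hy)] at this
        simpa [p1] using this
      obtain ⟨⟨e, he⟩, e1, e2⟩ := finrank_eq_one_iff'.1 X1
      obtain ⟨l, hl⟩ := e2 ⟨_, X2 e he⟩
      exact ⟨e, by simpa using e1, l, congrArg Subtype.val hl⟩
    have l0 : l ≠ 0 := by rintro rfl; exact e0 (by simpa using hl.symm)
    have p4 : p ∉ J := fun h => p3 (hJ _ j1 _ h)
    have k1 := (pure e (l • C p - p) (by simpa [← hl] using m4 (sub_mem_mv _ (T.t e p)))).resolve_left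
      e0
    refine T.exists_eq_rt C fun e' => Submodule.mem_span_singleton.2 ⟨l, ?_⟩
    have k2 := (pure (A e' - l • e') p (by
      convert sub_mem (Submodule.smul_mem _ l (m4 (sub_mem_mv _ (T.t e' p))))
        (Submodule.mem_sup_left (T.t_mem_LS (A e') k1)) using 1
      simp only [map_sub, map_smul, tm_t, LinearMap.sub_apply, LinearMap.smul_apply]
      module)).resolve_right p4
    exact (sub_eq_zero.1 k2).symm
  obtain ⟨e, he⟩ := exists_ne (0 : E)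
  exact H.quad_of_mv hJ m1 (mv_le.2 fun y => (pure e _ (by
    simpa using m4 (sub_mem_mv _ (T.t e y)))).resolve_left he)

end UT

/-- **Maximality of `GU(E) ⊗ GU(W)` in `SU(E ⊗ W)`.** -/
theorem UU.max [Finite F] (H : UU T bE bW B M) (h2 : 2 ≤ finrank F E)
    (hab : finrank F E < finrank F W)
    (hq : 3 ≤ finrank F E ∨ ∃ τ : F, σ τ = τ ∧ τ ≠ 0 ∧ τ ≠ 1) (hne : ¬ M ≤ T.grp) :
    ∀ g ∈ sisom B, g ∈ M := by
  by_contra hc
  have : Nontrivial E := Module.nontrivial_of_finrank_pos (R := F) (by omega)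
  have H' : UT T bE bW B M := ⟨H, h2, hab, fun w hw0 hw => H.stab_le (by omega) hw0 hw fun γ hγ => by
    by_contra! h
    obtain ⟨e, e0, e1, e2⟩ := H.exists_fullU (by omega) h2 hq hw0 hγ h
    exact hc (H.mem_of_fullU (by omega) h2 (hq.imp_left fun h => ⟨h, by omega⟩) hw0 hw e0 e1 e2)⟩
  by_cases h : ∃ τ : F, σ τ = τ ∧ τ ≠ 0 ∧ τ ≠ 1
  · obtain ⟨τ, t1, t2, t3⟩ := h
    exact hne (H'.le_of_tau t1 t2 t3)
  · refine hne (H'.le_of_two (by_contra fun h0 => h ⟨2, map_ofNat σ 2, h0, fun h1 => ?_⟩)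
      (hq.resolve_right h))
    exact one_ne_zero (α := F) (by linear_combination h1)

open Matrix Cfsg Cfsg.Geo

/-- The Hermitian form attached to a unitary form. -/
def hermOf [Fintype F] {q : ℕ} (hF : Fintype.card F = q ^ 2) {ι : Type} [Fintype ι]
    {f : (ι → F) → (ι → F) → F} (hf : IsUnitaryFormPow q f) :
    (ι → F) →ₛₗ[frob hF] (ι → F) →ₗ[F] F :=
  LinearMap.mk₂'ₛₗ (frob hF) (RingHom.id F) (fun x y => f y x)
    (fun a b v => by rw [hf.herm, hf.add_left, add_pow_q hF, ← hf.herm, ← hf.herm])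
    (fun c a v => by rw [hf.herm, hf.smul_left, mul_pow, ← hf.herm]; rfl)
    (fun a b v => hf.add_left _ _ _) fun c a v => hf.smul_left _ _ _

theorem isHerm_hermOf [Fintype F] {q : ℕ} (hF : Fintype.card F = q ^ 2) {ι : Type} [Fintype ι]
    {f : (ι → F) → (ι → F) → F} (hf : IsUnitaryFormPow q f) : IsHerm (hermOf hF hf) :=
  ⟨frob_ne_id hF, frob_frob hF, fun x y => (hf.herm _ _).symm, fun x hx => by
    by_contra h0
    obtain ⟨y, hy⟩ := (hf.nondegenerate x h0).1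
    exact hy (hx y)⟩

theorem formOfGram_herm [Fintype F] {q : ℕ} (hF : Fintype.card F = q ^ 2) {ι : Type} [Fintype ι]
    [DecidableEq ι] {f : (ι → F) → (ι → F) → F} (hf : IsUnitaryFormPow q f) (x y : ι → F) :
    formOfGram (fun x => x ^ q) (gramMatrix f) x y = hermOf hF hf y x := by
  conv_rhs => rw [pi_eq_sum_univ' x, pi_eq_sum_univ' y]
  simp only [formOfGram, map_sum, map_smul, LinearMap.sum_apply, form_smul_left, smul_eq_mul,
    Finset.mul_sum]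
  refine Finset.sum_congr rfl fun a _ => Finset.sum_congr rfl fun b _ => ?_
  rw [mul_assoc, mul_comm (gramMatrix f a b)]
  rfl

theorem isMaximalIn_su_tensor [Fintype F] {q n n₁ n₂ : ℕ} (hF : Fintype.card F = q ^ 2)
    (h1 : 2 ≤ n₁) (h12 : n₁ < n₂) (hex : ¬ (n₁ = 2 ∧ q = 2)) (e : Fin n ≃ Fin n₁ × Fin n₂)
    (P : GL (Fin n) F) {f₁ : (Fin n₁ → F) → (Fin n₁ → F) → F}
    {f₂ : (Fin n₂ → F) → (Fin n₂ → F) → F} (hf₁ : IsUnitaryFormPow q f₁)
    (hf₂ : IsUnitaryFormPow q f₂)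
    (hT : IsTensorFormStructure (fun x : F => x ^ q) (hermForm n F q) f₁ f₂ e P) :
    IsMaximalIn (GU n F q ⊓ specialLinear (Fin n) F)
      (tensorProductSubgroup n₁ n₂ e P ⊓ (GU n F q ⊓ specialLinear (Fin n) F)) := by
  obtain ⟨c, hc, hT⟩ := hT
  have hE := isHerm_hermOf hF hf₁
  have hW := isHerm_hermOf hF hf₂
  have hV := isHerm_uForm hF n
  have ht : ∀ x y x' y', uForm hF n ((matTen e P).t x y) ((matTen e P).t x' y') =
      (c • hermOf hF hf₁) x x' * hermOf hF hf₂ y y' := fun x y x' y' => by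
    rw [matTen_t, matTen_t, ← hermForm_eq, hT, formOfGram_kronecker (fun a b => mul_pow a b q),
      formOfGram_herm hF hf₁, formOfGram_herm hF hf₂, ← mul_assoc]; rfl
  obtain ⟨x, hx⟩ := hE.exists_self_ne_zero_top (by simp; omega)
  obtain ⟨y, hy⟩ := hW.exists_self_ne_zero_top (by simp; omega)
  have hc' : frob hF c = c := mul_right_cancel₀ (mul_ne_zero hx hy) (by
    have := hV.symm ((matTen e P).t x y) ((matTen e P).t x y)
    simpa [ht, hE.symm, hW.symm, mul_assoc] using this)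
  have hE' : IsHerm (c • hermOf hF hf₁) := ⟨hE.ne_id, hE.invol, fun x y => by simp [hc', hE.symm],
    fun x hx => hE.nondeg x fun y => by simpa [hc] using hx y⟩
  refine isMaximalIn_of_toLE (· ∈ (matTen e P).grp) (· ∈ sisom (uForm hF n)) (mem_su_iff hF)
    (fun g => by rw [Subgroup.mem_inf, mem_tensorProductSubgroup_iff, mem_su_iff hF]) ?_
    fun M hM hle g hg hns => UU.max ⟨hE', hW, hV, ht, hM, hle⟩ (by simpa) (by simpa)
      (or_iff_not_imp_left.2 fun h => exists_fixed_ne_zero_one hF fun h2 => hex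
        ⟨by simp at h; omega, h2⟩) fun h4 => hns (h4 hg)
  have h3 := Fintype.card_congr e
  simp only [Fintype.card_prod, Fintype.card_fin] at h3
  obtain ⟨v, -, v0, hv⟩ := hV.exists_isotropic_mem (W := ⊤) (by simp; nlinarith)
  obtain ⟨δ, d0, hδ⟩ := exists_trace_zero_ne_zero hV.ne_id hV.invol
  have h0 : (δ • uForm hF n v) v = 0 := by simp [hv]
  have h2 : ∀ x, LinearEquiv.transvection h0 x = x + (δ * uForm hF n v x) • v := fun x => by
    simp [LinearMap.transvection.apply]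
  exact ⟨_, axisGrp_le_sisom hv ⟨isom_of_utv hV hv hδ h2, δ, h2⟩, (matTen e P).tv_notMem (by simpa)
    (by simp; omega) h0 (smul_ne_zero d0 fun e => v0 (hV.nondeg v fun x => by simp [e])) v0⟩

end H62
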