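import Cfsg.Agent.H62.NotMax
import Cfsg.Agent.H62.TenU3
import Cfsg.Agent.H62.TenSpMat
import Cfsg.Agent.H60.Bridge
import Cfsg.Agent.H60.EO

set_option autoImplicit false

/-! Non-maximal tensor product stabilisers over small fields. -/

namespace H62.NM

open Module Cfsg Cfsg.Geo Matrix H56

variable {ι : Type} [Fintype ι] [DecidableEq ι] {F E W : Type*} [Field F]
  [AddCommGroup E] [Module F E] [AddCommGroup W] [Module F W]

section Gen

variable {V : Type*} [AddCommGroup V] [Module F V] (T : Ten F E W V)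

theorem ne_t (l l' : Dual F E) (φ φ' : Dual F W) {X : V}
    (h : φ (T.cL l X) * φ' (T.cL l' X) ≠ φ' (T.cL l X) * φ (T.cL l' X)) (a : E) (b : W) :
    X ≠ T.t a b := by
  rintro rfl
  apply h
  simp only [Ten.cL_t, map_smul, smul_eq_mul]
  ring

theorem not_mem_grp {g : V ≃ₗ[F] V} {x : E} {y : W} (h : ∀ a b, g (T.t x y) ≠ T.t a b) :
    g ∉ T.grp := by
  rintro ⟨A, B, rfl⟩
  exact h _ _ (T.tm_t A B x y)

theorem orth_iff {f : V → V → F} {β : E → E → F} {γ : W → W → F}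
    (hf : ∀ x y x' y', f (T.t x y) (T.t x' y') = β x x' * γ y y') (hγ : ∃ y y', γ y y' ≠ 0)
    {A : E ≃ₗ[F] E} {B : W ≃ₗ[F] W} (hg : ∀ u v, f (T.tm A B u) (T.tm A B v) = f u v) (x x' : E) :
    β (A x) (A x') = 0 ↔ β x x' = 0 := by
  obtain ⟨y, y', hy⟩ := hγ
  constructor
  · intro h
    have := hg (T.t x y) (T.t x' y')
    rw [T.tm_t, T.tm_t, hf, hf, h, zero_mul] at this
    exact (mul_eq_zero.1 this.symm).resolve_right hy
  · intro h
    have := hg (T.t x (B.symm y)) (T.t x' (B.symm y'))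
    rw [T.tm_t, T.tm_t, hf, hf, h, zero_mul, B.apply_symm_apply, B.apply_symm_apply] at this
    exact (mul_eq_zero.1 this).resolve_right hy

end Gen

/-- The stabiliser of the union of the spaces `x ⊗ W`, `x` in a frame. -/
theorem ten_frame [Finite F] (T : Ten F E W (ι → F)) {M A : Subgroup (GL ι F)}
    (hM : ∀ g, g ∈ M ↔ toLE g ∈ T.grp) (Fr : E → Prop)
    (hFr : ∀ g ∈ A, ∀ a b, toLE g = T.tm a b → ∀ x, Fr x → Fr (a x)) {g h : GL ι F} (hg : g ∈ A)
    (hh : h ∈ A) (g1 : ∀ x y, Fr x → ∃ x' y', Fr x' ∧ toLE g (T.t x y) = T.t x' y')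
    {x x' : E} {y y' : W} (g2 : ∀ a b, toLE g (T.t x y) ≠ T.t a b) (hx' : Fr x')
    (h1 : ∀ a b, toLE h (T.t x' y') ≠ T.t a b) : ∃ K : Subgroup (GL ι F), M ⊓ A < K ∧ K < A := by
  refine between (T := stabilizing (glToMat ι F) {v | ∃ x y, Fr x ∧ v = T.t x y})
    (fun a ha ha' => mem_stab_of_mapsTo ?_) hg (mem_stab_of_mapsTo ?_)
    (fun hgM => not_mem_grp T g2 ((hM g).1 hgM)) hh fun hT => ?_
  · rintro _ ⟨x, y, hx, rfl⟩
    obtain ⟨A', B', hAB⟩ := (hM a).1 ha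
    exact ⟨A' x, B' y, hFr a ha' _ _ hAB x hx, by rw [← toLE_apply, hAB, T.tm_t]⟩
  · rintro _ ⟨x, y, hx, rfl⟩
    exact g1 x y hx
  · obtain ⟨a, b, -, hab⟩ := (hT (T.t x' y')).1 ⟨x', y', hx', rfl⟩
    exact h1 a b hab

/-- The version where the witnesses are transvections. -/
theorem ten_tv [Finite F] (T : Ten F E W (ι → F)) {M A : Subgroup (GL ι F)}
    (hM : ∀ g, g ∈ M ↔ toLE g ∈ T.grp) (Fr : E → Prop)
    (hFr : ∀ g ∈ A, ∀ a b, toLE g = T.tm a b → ∀ x, Fr x → Fr (a x)) {x₁ x₂ : E}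
    {l l' : Dual F E} {y₀ y : W} {φ φ' : Dual F W} (h1 : Fr x₁)
    (key : ∀ x, Fr x → l x = 0 ∨ ∃ c : F, x = c • x₁) (a1 : l x₁ ≠ 0) (a2 : l x₂ = 0)
    (a3 : l' x₁ = 0) (a4 : l' x₂ ≠ 0) (b1 : φ y₀ = 0) (b2 : φ y ≠ 0) (b3 : φ' y₀ ≠ 0)
    {g h : GL ι F} (hg : g ∈ A) (hh : h ∈ A)
    (g1 : ∀ x y', toLE g (T.t x y') = T.t x y' + (l x * φ y') • T.t x₁ y₀)
    (g2 : toLE h (T.t x₁ y) = T.t x₁ y + (l x₁ * φ y) • T.t (x₁ + x₂) y₀) :
    ∃ K : Subgroup (GL ι F), M ⊓ A < K ∧ K < A := by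
  refine ten_frame T hM Fr hFr hg hh (fun x y' hx => ?_) (x := x₁ + x₂) (y := y) ?_ h1 (y' := y) ?_
  · rw [g1]
    rcases key x hx with h0 | ⟨c, rfl⟩
    · exact ⟨x, y', hx, by simp [h0]⟩
    · exact ⟨x₁, c • y' + (l (c • x₁) * φ y') • y₀, h1, by simp⟩
  · rw [g1]
    refine ne_t T l l' φ φ' fun h => ?_
    simp only [map_add, LinearMap.add_apply, map_smul, Ten.cL_t, smul_eq_mul, a2, a3, b1] at h
    exact mul_ne_zero (mul_ne_zero (mul_ne_zero a1 a1) (mul_ne_zero b2 b2)) (mul_ne_zero a4 b3)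
      (by linear_combination -h)
  · rw [g2]
    refine ne_t T l l' φ φ' fun h => ?_
    simp only [map_add, LinearMap.add_apply, map_smul, Ten.cL_t, smul_eq_mul, a2, a3, b1] at h
    exact mul_ne_zero (mul_ne_zero (mul_ne_zero a1 a1) (mul_ne_zero b2 b2)) (mul_ne_zero a4 b3)
      (by linear_combination h)

/-! ### The field with three elements -/

section Three

variable [Fintype F]

theorem three_eq_zero (hq : Fintype.card F = 3) : (3 : F) = 0 := by
  have := FiniteField.cast_card_eq_zero F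
  rw [hq] at this
  exact_mod_cast this

theorem sq_eq_one_of (hq : Fintype.card F = 3) {c : F} (hc : c ≠ 0) : c * c = 1 := by
  have := FiniteField.pow_card_sub_one_eq_one c hc
  rw [hq] at this
  rw [← this]; ring

theorem eq_or_neg (hq : Fintype.card F = 3) {a b : F} (ha : a ≠ 0) (hb : b ≠ 0) :
    a = b ∨ a = -b :=
  mul_self_eq_mul_self_iff.1 ((sq_eq_one_of hq ha).trans (sq_eq_one_of hq hb).symm)

theorem two_ne_zero3 (hq : Fintype.card F = 3) : (2 : F) ≠ 0 := fun h =>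
  one_ne_zero (α := F) (by linear_combination three_eq_zero hq - h)

/-- Three pairwise orthogonal vectors of the same non-zero length. -/
structure Tri (β : LinearMap.BilinForm F E) (x₁ x₂ x₃ : E) (d : F) : Prop where
  d0 : d ≠ 0
  n1 : β x₁ x₁ = d
  n2 : β x₂ x₂ = d
  n3 : β x₃ x₃ = d
  o12 : β x₁ x₂ = 0
  o13 : β x₁ x₃ = 0
  o23 : β x₂ x₃ = 0
  o21 : β x₂ x₁ = 0
  o31 : β x₃ x₁ = 0
  o32 : β x₃ x₂ = 0

theorem tri_aux (hq : Fintype.card F = 3) {β : LinearMap.BilinForm F E}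
    (hs : ∀ x y, β x y = β y x) {a b c : E} (h1 : β a b = 0) (h2 : β a c = 0) (h3 : β b c = 0)
    (ha : β a a ≠ 0) (hab : β b b = β a a) (hc : β c c ≠ 0) :
    ∃ x₁ x₂ x₃ d, Tri β x₁ x₂ x₃ d ∧ ∀ u, β x₁ u = 0 → β x₂ u = 0 → β x₃ u = 0 →
      β a u = 0 ∧ β b u = 0 ∧ β c u = 0 := by
  have h1' := (hs _ _).trans h1
  have h2' := (hs _ _).trans h2
  have h3' := (hs _ _).trans h3
  have t := three_eq_zero hq
  rcases eq_or_neg hq hc ha with h | h
  · exact ⟨a, b, c, _, ⟨ha, rfl, hab, h, h1, h2, h3, h1', h2', h3'⟩, fun u p q r => ⟨p, q, r⟩⟩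
  · refine ⟨a + b, a - b, c, _, ⟨hc, ?_, ?_, rfl, ?_, ?_, ?_, ?_, ?_, ?_⟩, fun u p q r => ?_⟩
    all_goals try simp only [map_add, map_sub, LinearMap.add_apply, LinearMap.sub_apply, h1, h2, h3,
      h1', h2', h3', hab, h] at *
    · linear_combination β a a * t
    · linear_combination β a a * t
    · ring
    · ring
    · ring
    · ring
    · ring
    · ring
    · exact ⟨by linear_combination β a u * t - p - q, by linear_combination β b u * t - p + q, r⟩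

theorem exists_tri (hq : Fintype.card F = 3) [FiniteDimensional F E] {β : LinearMap.BilinForm F E}
    (hs : ∀ x y, β x y = β y x) (hn : β.Nondegenerate) (h3 : 3 ≤ finrank F E) :
    ∃ x₁ x₂ x₃ d, Tri β x₁ x₂ x₃ d ∧ (finrank F E = 3 → ∀ u, β x₁ u = 0 → β x₂ u = 0 →
      β x₃ u = 0 → u = 0) := by
  haveI := invertibleOfNonzero (two_ne_zero3 hq)
  obtain ⟨v, hv⟩ := LinearMap.BilinForm.exists_orthogonal_basis (B := β) ⟨fun x y => hs x y⟩
  have hv0 := hv.not_isOrtho_basis_self_of_separatingLeft hn.1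
  have ho : ∀ i j, i ≠ j → β (v i) (v j) = 0 := fun i j h => hv h
  let i0 : Fin (finrank F E) := ⟨0, by omega⟩
  let i1 : Fin (finrank F E) := ⟨1, by omega⟩
  let i2 : Fin (finrank F E) := ⟨2, by omega⟩
  have e01 : i0 ≠ i1 := by simp [i0, i1]
  have e02 : i0 ≠ i2 := by simp [i0, i2]
  have e12 : i1 ≠ i2 := by simp [i1, i2]
  have fin : finrank F E = 3 → ∀ u, β (v i0) u = 0 → β (v i1) u = 0 → β (v i2) u = 0 → u = 0 := by
    intro h u p q r
    refine hn.2 u fun w => ?_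
    rw [← v.sum_repr w, map_sum, LinearMap.sum_apply]
    refine Finset.sum_eq_zero fun i _ => ?_
    have : i = i0 ∨ i = i1 ∨ i = i2 := by
      obtain ⟨i, hi⟩ := i
      simp only [i0, i1, i2, Fin.mk.injEq]
      omega
    rcases this with rfl | rfl | rfl <;> simp [p, q, r]
  rcases eq_or_neg hq (hv0 i1) (hv0 i0) with h | h
  · obtain ⟨x₁, x₂, x₃, d, h1, h2⟩ := tri_aux hq hs (ho _ _ e01) (ho _ _ e02) (ho _ _ e12) (hv0 i0)
      h (hv0 i2)
    exact ⟨x₁, x₂, x₃, d, h1, fun h u p q r => let ⟨a, b, c⟩ := h2 u p q r; fin h u a b c⟩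
  rcases eq_or_neg hq (hv0 i2) (hv0 i0) with h' | h'
  · obtain ⟨x₁, x₂, x₃, d, h1, h2⟩ := tri_aux hq hs (ho _ _ e02) (ho _ _ e01) (ho _ _ e12.symm)
      (hv0 i0) h' (hv0 i1)
    exact ⟨x₁, x₂, x₃, d, h1, fun h u p q r => let ⟨a, b, c⟩ := h2 u p q r; fin h u a c b⟩
  · obtain ⟨x₁, x₂, x₃, d, h1, h2⟩ := tri_aux hq hs (ho _ _ e12) (ho _ _ e01.symm) (ho _ _ e02.symm)
      (hv0 i1) (h'.trans h.symm) (hv0 i0)
    exact ⟨x₁, x₂, x₃, d, h1, fun h u p q r => let ⟨a, b, c⟩ := h2 u p q r; fin h u c a b⟩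

/-- Non-zero vectors with anisotropic orthogonal complement. -/
def Fr3 (β : LinearMap.BilinForm F E) (x : E) : Prop :=
  x ≠ 0 ∧ ∀ z, β x z = 0 → β z z = 0 → z = 0

omit [Fintype F] in
theorem Fr3.map {β : LinearMap.BilinForm F E} {A : E ≃ₗ[F] E}
    (h : ∀ x x', β (A x) (A x') = 0 ↔ β x x' = 0) {x : E} (hx : Fr3 β x) : Fr3 β (A x) := by
  refine ⟨by simpa using hx.1, fun z h1 h2 => ?_⟩
  obtain ⟨z, rfl⟩ := A.surjective z
  rw [hx.2 z ((h _ _).1 h1) ((h _ _).1 h2), map_zero]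

namespace Tri

variable {β : LinearMap.BilinForm F E} {x₁ x₂ x₃ : E} {d : F}

omit [Fintype F] in
theorem coord (h : Tri β x₁ x₂ x₃ d)
    (hf : ∀ u, β x₁ u = 0 → β x₂ u = 0 → β x₃ u = 0 → u = 0) (x : E) :
    ∃ a b c : F, x = a • x₁ + b • x₂ + c • x₃ := by
  refine ⟨β x₁ x / d, β x₂ x / d, β x₃ x / d, sub_eq_zero.1 (hf _ ?_ ?_ ?_)⟩ <;>
    simp [h.n1, h.n2, h.n3, h.o12, h.o13, h.o23, h.o21, h.o31, h.o32, h.d0]

omit [Fintype F] in
theorem form (h : Tri β x₁ x₂ x₃ d) (a b c a' b' c' : F) :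
    β (a • x₁ + b • x₂ + c • x₃) (a' • x₁ + b' • x₂ + c' • x₃) = d * (a * a' + b * b' + c * c') := by
  simp [h.n1, h.n2, h.n3, h.o12, h.o13, h.o23, h.o21, h.o31, h.o32]
  ring

theorem fr1 (hq : Fintype.card F = 3) (h : Tri β x₁ x₂ x₃ d)
    (hf : ∀ u, β x₁ u = 0 → β x₂ u = 0 → β x₃ u = 0 → u = 0) : Fr3 β x₁ := by
  refine ⟨fun h0 => h.d0 (by rw [← h.n1, h0]; simp), fun z h1 h2 => ?_⟩
  obtain ⟨a, b, c, rfl⟩ := h.coord hf z
  have ha : a = 0 := by simpa [h.n1, h.o12, h.o13, h.d0] using h1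
  rw [h.form, mul_eq_zero, or_iff_right h.d0, ha] at h2
  by_cases hb : b = 0
  · have hc : c = 0 := by simpa [hb] using h2
    simp [ha, hb, hc]
  by_cases hc : c = 0
  · exact absurd (by simpa [hc] using h2) hb
  rw [sq_eq_one_of hq hb, sq_eq_one_of hq hc] at h2
  exact absurd (by linear_combination h2) (two_ne_zero3 hq)

theorem key (hq : Fintype.card F = 3) (h : Tri β x₁ x₂ x₃ d)
    (hf : ∀ u, β x₁ u = 0 → β x₂ u = 0 → β x₃ u = 0 → u = 0) {x : E} (hx : Fr3 β x) :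
    β x₁ x = 0 ∨ ∃ c : F, x = c • x₁ := by
  obtain ⟨a, b, c, rfl⟩ := h.coord hf x
  have t := three_eq_zero hq
  by_cases ha : a = 0
  · left; simp [ha, h.o12, h.o13]
  right
  have ha' := sq_eq_one_of hq ha
  have nz : ∀ b' c' : F, a • x₁ + b' • x₂ + c' • x₃ ≠ 0 := fun b' c' h0 => by
    have := congrArg (β x₁) h0
    simp [h.n1, h.o12, h.o13, h.d0, ha] at this
  by_cases hb : b = 0 <;> by_cases hc : c = 0
  · exact ⟨a, by simp [hb, hc]⟩
  · have hc' := sq_eq_one_of hq hc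
    exact absurd (hx.2 _ (by rw [h.form]; linear_combination d * (ha' - hc' + hb))
      (by rw [h.form]; linear_combination d * (ha' + hc' + t))) (nz 1 (-c))
  · have hb' := sq_eq_one_of hq hb
    exact absurd (hx.2 _ (by rw [h.form]; linear_combination d * (ha' - hb' + hc))
      (by rw [h.form]; linear_combination d * (ha' + hb' + t))) (nz (-b) 1)
  · have hb' := sq_eq_one_of hq hb
    have hc' := sq_eq_one_of hq hc
    have : β (a • x₁ + b • x₂ + c • x₃) (a • x₁ + b • x₂ + c • x₃) = 0 := by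
      rw [h.form]; linear_combination d * (ha' + hb' + hc' + t)
    exact absurd (hx.2 _ this this) (nz b c)

end Tri

open QuadraticMap in
theorem orth_ten3 (hq : Fintype.card F = 3) [FiniteDimensional F E] [FiniteDimensional F W]
    {Q : QuadraticForm F (ι → F)} (hQ : Q.polarBilin.Nondegenerate) (h5 : 5 ≤ Fintype.card ι)
    (T : Ten F E W (ι → F)) {M : Subgroup (GL ι F)} (hM : ∀ g, g ∈ M ↔ toLE g ∈ T.grp)
    {β : LinearMap.BilinForm F E} {γ : LinearMap.BilinForm F W} (bs : ∀ x y, β x y = β y x)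
    (bn : β.Nondegenerate) (cs : ∀ x y, γ x y = γ y x) (cn : γ.Nondegenerate)
    (hE : finrank F E = 3) (hW : 3 ≤ finrank F W)
    (hf : ∀ x y x' y', polar Q (T.t x y) (T.t x' y') = β x x' * γ y y') :
    ∃ K : Subgroup (GL ι F), M ⊓ omegaGL ⇑Q < K ∧ K < omegaGL ⇑Q := by
  obtain ⟨x₁, x₂, x₃, d, hx, hfx⟩ := exists_tri hq bs bn hE.ge
  obtain ⟨y₁, y₂, y₃, e, hy, -⟩ := exists_tri hq cs cn hW
  have hfx := hfx hE
  have t := three_eq_zero hq
  have hd := sq_eq_one_of hq hx.d0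
  have he := sq_eq_one_of hq hy.d0
  have hQp : ∀ v, Q v = - polar Q v v := fun v => by
    rw [polar_self']; linear_combination Q v * t
  have mem : ∀ u w, polar Q u u = polar Q w w → H60.toGL Q (refl Q u * refl Q w) ∈ omegaGL ⇑Q := by
    intro u w h
    rw [H60.omegaGL_eq]
    exact Subgroup.mem_map_of_mem _ (H60.refl_mul_refl_mem_commutator hQ (by simpa using h5)
      one_ne_zero (by rw [hQp, hQp, h]; ring))
  have rf : ∀ (u : ι → F) (c : F), polar Q u u * c = 1 → ∀ v, refl Q u v = v + (c * polar Q u v) • u := by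
    intro u c hc v
    rw [refl_apply, hQp, sub_eq_add_neg, ← neg_smul, inv_neg, ← eq_inv_of_mul_eq_one_right hc]
    congr 2; ring
  have ap : ∀ (g : O Q) v, toLE (H60.toGL Q g) v = g v := fun g v => H60.toGL_mulVec g v
  have pa : ∀ a b c, polar Q (a + b) c = polar Q a c + polar Q b c := fun a b c =>
    polar_add_left Q a b c
  have pb : ∀ a b c, polar Q a (b + c) = polar Q a b + polar Q a c := fun a b c =>
    polar_add_right Q a b c
  have pc : ∀ (s : F) a b, polar Q a (s • b) = s * polar Q a b := fun s a b => by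
    rw [polar_smul_right, smul_eq_mul]
  refine ten_frame T hM (Fr3 β) (fun g hg a b hab x hx => hx.map (orth_iff T hf
    ⟨y₁, y₁, by rw [hy.n1]; exact hy.d0⟩ (B := b) fun u v => ?_))
    (mem (T.t x₁ y₁) (T.t x₁ y₂) (by rw [hf, hf, hy.n1, hy.n2]))
    (mem (T.t x₁ y₁ + T.t x₂ y₁) (T.t x₃ y₁ + T.t x₃ y₂) ?_) (fun x y hx' => ?_)
    (x := x₁ + x₂) (y := y₁ + y₃) ?_ (hx.fr1 hq hfx) (y' := y₁ + y₂) ?_
  · rw [H60.omegaGL_eq] at hg
    obtain ⟨g, -, rfl⟩ := hg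
    rw [← hab, ap, ap, O.map_polar]
  · simp only [pa, pb, hf, hx.n1, hx.n2, hx.n3, hx.o12, hx.o21, hy.n1, hy.n2, hy.o12, hy.o21]
    ring
  · have r1 := rf (T.t x₁ y₁) (d * e) (by rw [hf, hx.n1, hy.n1]; linear_combination (e * e) * hd + he)
    have r2 := rf (T.t x₁ y₂) (d * e) (by rw [hf, hx.n1, hy.n2]; linear_combination (e * e) * hd + he)
    rw [ap, O.mul_apply, r2, r1, pb, pc, hf, hf, hf, hy.o12]
    rcases hx.key hq hfx hx' with h0 | ⟨c, rfl⟩
    · exact ⟨x, y, hx', by simp [h0]⟩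
    · exact ⟨x₁, c • y + (d * e * (β x₁ (c • x₁) * γ y₂ y)) • y₂ +
        (d * e * (β x₁ (c • x₁) * γ y₁ y)) • y₁, hx.fr1 hq hfx, by simp⟩
  · have r1 := rf (T.t x₁ y₁) (d * e) (by rw [hf, hx.n1, hy.n1]; linear_combination (e * e) * hd + he)
    have r2 := rf (T.t x₁ y₂) (d * e) (by rw [hf, hx.n1, hy.n2]; linear_combination (e * e) * hd + he)
    rw [ap, O.mul_apply, r2, r1, pb, pc, hf, hf, hf]
    refine ne_t T (β x₁) (β x₂) (γ y₁) (γ y₃) fun h => ?_
    simp only [map_add, LinearMap.add_apply, map_smul, Ten.cL_t, smul_eq_mul, hx.n1, hx.n2, hx.o12,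
      hx.o21, hy.n1, hy.n3, hy.o12, hy.o21, hy.o13, hy.o31, hy.o23, hy.o32] at h
    exact one_ne_zero (α := F) (by
      linear_combination h - ((d * d + 1) * e ^ 4) * hd - (e * e + 1) * he)
  · have r1 := rf (T.t x₁ y₁ + T.t x₂ y₁) (-(d * e)) (by
      simp only [pa, pb, hf, hx.n1, hx.n2, hx.o12, hx.o21, hy.n1]
      linear_combination (-2 * e * e) * hd - 2 * he - t)
    rw [ap, O.mul_apply, refl_apply_of_orth (v := T.t x₃ y₁ + T.t x₃ y₂)
      (by simp only [pa, hf, hx.o31]; ring), r1, pa, hf, hf]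
    refine ne_t T (β x₁) (β x₂) (γ y₂) (γ y₁) fun h => ?_
    simp only [map_add, map_smul, Ten.cL_t, smul_eq_mul, hx.n1, hx.n2, hx.o12, hx.o21, hy.n1, hy.n2,
      hy.o12, hy.o21] at h
    exact one_ne_zero (α := F) (by
      linear_combination -h - ((d * d + 1) * e ^ 4) * hd - (e * e + 1) * he)

end Three

end H62.NM
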