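import Cfsg.Agent.H62.NotMax2

set_option autoImplicit false

/-! Tensor products with a plane over the field with two elements normalise a quadratic field. -/

namespace H62.NM

open Module Cfsg Cfsg.Geo Matrix H56

variable {ι : Type} [Fintype ι] [DecidableEq ι] {F W : Type*} [Field F] [Fintype F]
  [AddCommGroup W] [Module F W]

/-- An element of order three of `GL₂(2)`. -/
def om (h2 : (2 : F) = 0) : (Fin 2 → F) ≃ₗ[F] (Fin 2 → F) where
  toFun x := ![x 1, x 0 + x 1]
  invFun x := ![x 0 + x 1, x 0]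
  map_add' x y := by ext i; fin_cases i <;> simp; ring
  map_smul' c x := by ext i; fin_cases i <;> simp; ring
  left_inv x := by ext i; fin_cases i <;> simp; linear_combination x 1 * h2
  right_inv x := by ext i; fin_cases i <;> simp; linear_combination x 0 * h2

omit [Fintype F] in
theorem om_apply (h2 : (2 : F) = 0) (x : Fin 2 → F) : om h2 x = ![x 1, x 0 + x 1] := rfl

omit [Fintype F] in
theorem om_om (h2 : (2 : F) = 0) (x : Fin 2 → F) : om h2 (om h2 x) = x + om h2 x := by
  ext i; fin_cases i <;> simp [om_apply]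

theorem om_norm (hq : Fintype.card F = 2) (h2 : (2 : F) = 0) (a : (Fin 2 → F) ≃ₗ[F] (Fin 2 → F)) :
    a * om h2 = om h2 * a ∨ a * om h2 = om h2 * om h2 * a := by
  have hx : ∀ x : Fin 2 → F, a x = x 0 • a ![1, 0] + x 1 • a ![0, 1] := fun x => by
    rw [← map_smul, ← map_smul, ← map_add]
    congr 1
    ext i; fin_cases i <;> simp
  have n0 : a ![1, 0] ≠ 0 := by simp
  have n1 : a ![0, 1] ≠ 0 := by simp
  have n2 : a ![1, 0] ≠ a ![0, 1] := by simp
  have e2 : (1 : F) + 1 = 0 := by linear_combination h2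
  have ev : ∀ u : Fin 2 → F, u = ![u 0, u 1] := fun u => by ext i; fin_cases i <;> rfl
  have key : ∀ {f g : (Fin 2 → F) ≃ₗ[F] (Fin 2 → F)}, f ![1, 0] = g ![1, 0] →
      f ![0, 1] = g ![0, 1] → f = g := fun {f g} p q => LinearEquiv.ext fun x => by
    have : x = x 0 • ![1, 0] + x 1 • ![0, 1] := by ext i; fin_cases i <;> simp
    rw [this, map_add, map_add, map_smul, map_smul, map_smul, map_smul, p, q]
  have o0 : a (om h2 ![1, 0]) = a ![0, 1] := by rw [om_apply]; simp
  have o1 : a (om h2 ![0, 1]) = a ![1, 0] + a ![0, 1] := by rw [om_apply, hx]; simp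
  suffices h : (a ![0, 1] = om h2 (a ![1, 0]) ∧ a ![1, 0] + a ![0, 1] = om h2 (a ![0, 1])) ∨
      (a ![0, 1] = om h2 (om h2 (a ![1, 0])) ∧ a ![1, 0] + a ![0, 1] = om h2 (om h2 (a ![0, 1]))) by
    refine h.imp (fun h => key ?_ ?_) fun h => key ?_ ?_
    · exact o0.trans h.1
    · exact o1.trans h.2
    · exact o0.trans h.1
    · exact o1.trans h.2
  obtain ⟨p, q, hu⟩ : ∃ p q, a ![1, 0] = ![p, q] := ⟨_, _, ev _⟩
  obtain ⟨r, s, hv⟩ : ∃ p q, a ![0, 1] = ![p, q] := ⟨_, _, ev _⟩
  rw [hu] at n0 n2 ⊢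
  rw [hv] at n1 n2 ⊢
  clear hu hv o0 o1 key ev hx
  rcases eq_zero_or_one hq p with rfl | rfl <;> rcases eq_zero_or_one hq q with rfl | rfl <;>
    rcases eq_zero_or_one hq r with rfl | rfl <;> rcases eq_zero_or_one hq s with rfl | rfl <;>
    first
    | exact absurd rfl n2
    | (exfalso; simp at n0; done)
    | (exfalso; simp at n1; done)
    | simp [om_apply, e2]

theorem ten_two (hq : Fintype.card F = 2) (h2 : (2 : F) = 0) (T : Ten F (Fin 2 → F) W (ι → F))
    {M A : Subgroup (GL ι F)} (hM : ∀ g, g ∈ M ↔ toLE g ∈ T.grp) {g h : GL ι F} (hg : g ∈ A)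
    (hh : h ∈ A) (l : Dual F (ι → F)) (u : ι → F)
    (g1 : ∀ w, toLE g w = w + (l w + l (T.tm (om h2) 1 w)) • T.tm (om h2) 1 u +
      l (T.tm (om h2) 1 w) • u) {x : Fin 2 → F} {y : W} (g2 : ∀ a b, toLE g (T.t x y) ≠ T.t a b)
    {p r : ι → F} (h1 : toLE h p = p) (h3 : toLE h (T.tm (om h2) 1 p) = T.tm (om h2) 1 p + r)
    (r0 : r ≠ 0) (rp : r ≠ p) : ∃ K : Subgroup (GL ι F), M ⊓ A < K ∧ K < A := by
  set J := T.tm (om h2) 1 with hJ
  have hJJ : ∀ w, J (J w) = w + J w := fun w => T.induction w (by simp)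
    (fun x y => by simp [hJ, om_om]) fun x y hx hy => by simp only [map_add, hx, hy]; abel
  have haa : ∀ x : ι → F, x + x = 0 := fun x => by rw [← two_smul F x, h2, zero_smul]
  have J3 : J * J * J = 1 := LinearEquiv.ext fun w => by
    change J (J (J w)) = w
    rw [hJJ, hJJ, add_left_comm, haa, add_zero]
  have nrm : ∀ k : (ι → F) ≃ₗ[F] (ι → F), k * J = J * k ∨ k * J = J * J * k →
      k ∈ Subgroup.normalizer ({J, J * J} : Set _) := by
    intro k hk
    refine Subgroup.mem_normalizer_fintype ?_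
    have e : k * (J * J) * k⁻¹ = (k * J * k⁻¹) * (k * J * k⁻¹) := by group
    rintro _ (rfl | rfl) <;> rcases hk with hk | hk
    · left; rw [hk]; group
    · right; rw [hk]; simp
    · right; rw [e, hk]; simp
    · left; rw [e, hk]; simp only [mul_inv_cancel_right]; rw [← mul_assoc, J3, one_mul]
  refine between (T := (Subgroup.normalizer ({J, J * J} : Set _)).comap toLE.toMonoidHom)
    (fun a ha _ => nrm _ ?_) hg (nrm _ (Or.inl (LinearEquiv.ext fun w => ?_)))
    (fun hgM => not_mem_grp T g2 ((hM g).1 hgM)) hh fun hT => ?_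
  · obtain ⟨A', B', hAB⟩ := (hM a).1 ha
    change toLE a * J = J * toLE a ∨ toLE a * J = J * J * toLE a
    simp only [hAB, hJ, T.tm_mul, mul_one, one_mul]
    exact (om_norm hq h2 A').imp (fun h => by rw [h]) fun h => by rw [h]
  · change toLE g (J w) = J (toLE g w)
    rw [g1, g1, hJJ]
    simp only [map_add, map_smul, hJJ]
    ext i
    simp only [Pi.add_apply, Pi.smul_apply, smul_eq_mul]
    linear_combination (l (J w) * J u i - l (J w) * J u i) * h2
  · have h4 := (hT J).1 (Or.inl rfl)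
    have h5 : (toLE h * J * (toLE h)⁻¹) p = J p + r := by
      have : (toLE h)⁻¹ p = p := by
        conv_lhs => rw [← h1]
        exact (toLE h).symm_apply_apply p
      rw [LinearEquiv.mul_apply, LinearEquiv.mul_apply, this, h3]
    rcases h4 with h4 | h4
    · change toLE h * J * (toLE h)⁻¹ = J at h4
      rw [h4] at h5
      exact r0 (by simpa using h5)
    · change toLE h * J * (toLE h)⁻¹ = J * J at h4
      rw [h4, LinearEquiv.mul_apply, hJJ, add_comm] at h5
      exact rp (add_left_cancel h5).symm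

theorem mem_sl_two (hq : Fintype.card F = 2) (g : GL ι F) : g ∈ specialLinear ι F :=
  mem_sl_of_det ((eq_zero_or_one hq _).resolve_left (GeneralLinearGroup.det_ne_zero g))

omit [Fintype F] in
theorem exists_hyp2 (h2 : (2 : F) = 0) [FiniteDimensional F W] {γ : LinearMap.BilinForm F W}
    (hA : ∀ y, γ y y = 0) (hn : γ.Nondegenerate) (h3 : 3 ≤ finrank F W) :
    ∃ y₁ y₂ y₃ y₄, γ y₁ y₂ = 1 ∧ γ y₃ y₄ = 1 ∧ γ y₁ y₃ = 0 ∧ γ y₁ y₄ = 0 ∧ γ y₂ y₃ = 0 ∧
      γ y₂ y₄ = 0 := by
  have hs : ∀ u v, γ u v = γ v u := fun u v => by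
    have := hA (u + v)
    simp only [map_add, LinearMap.add_apply, hA] at this
    linear_combination this - γ v u * h2
  have ex : ∀ y, y ≠ 0 → ∃ z, γ y z = 1 := fun y hy => by
    by_contra h
    push Not at h
    refine hy (hn.1 y fun z => ?_)
    by_contra h0
    exact h ((γ y z)⁻¹ • z) (by simp [h0])
  have : Nontrivial W := Module.nontrivial_of_finrank_pos (R := F) (by omega)
  obtain ⟨y₁, h1⟩ := exists_ne (0 : W)
  obtain ⟨y₂, h12⟩ := ex y₁ h1
  have hk : 2 ≤ finrank F (LinearMap.ker (γ y₁)) := by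
    have := LinearMap.finrank_range_add_finrank_ker (γ y₁)
    have h2 : finrank F (LinearMap.range (γ y₁)) ≤ 1 := by
      simpa using Submodule.finrank_le (LinearMap.range (γ y₁))
    omega
  obtain ⟨y₃, a, b, c⟩ := exists_mem_ker hk (γ y₂)
  have a : γ y₁ y₃ = 0 := a
  obtain ⟨z, hz⟩ := ex y₃ b
  refine ⟨y₁, y₂, y₃, z + γ y₂ z • y₁ + γ y₁ z • y₂, h12, ?_, a, ?_, c, ?_⟩ <;>
    simp only [map_add, map_smul, smul_eq_mul, hA, h12, hz, hs y₃ y₁, hs y₃ y₂, hs y₂ y₁, a, c]
  · ring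
  · linear_combination γ y₁ z * h2
  · linear_combination γ y₂ z * h2

end H62.NM
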