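import Cfsg.Agent.H62.NotMax2

set_option autoImplicit false

/-! Non-maximal stabilisers of orthogonal decompositions over small fields. -/

namespace H62.NM

open Module Cfsg Cfsg.Geo Matrix H56 QuadraticMap

variable {ι : Type} [Fintype ι] [DecidableEq ι] {F : Type*} [Field F] [Fintype F]
  {Q : QuadraticForm F (ι → F)} {t k : ℕ} {D : Fin t → Submodule F (ι → F)}
  {π : Fin t → (ι → F) →ₗ[F] (ι → F)}

omit [Fintype F] in
theorem mem_om {g : O Q} (hg : g ∈ commutator (O Q)) : H60.toGL Q g ∈ omegaGL ⇑Q := by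
  rw [H60.omegaGL_eq]
  exact Subgroup.mem_map_of_mem _ hg

omit [Fintype F] in
theorem Q_of_mem_om {g : GL ι F} (hg : g ∈ omegaGL ⇑Q) (v : ι → F) :
    Q ((g : Matrix ι ι F) *ᵥ v) = Q v := by
  rw [H60.omegaGL_eq] at hg
  obtain ⟨g, -, rfl⟩ := hg
  rw [H60.toGL_mulVec, O.map_Q]

omit [Fintype F] in
theorem not_mem_of_two (hp : IsProj D π) {i j : Fin t} (hij : i ≠ j) {x : ι → F} (hi : π i x ≠ 0)
    (hj : π j x ≠ 0) (l : Fin t) : x ∉ D l := fun h => by
  by_cases e : l = i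
  · exact hj (hp.of_ne _ _ (by rw [e]; exact hij.symm) _ h)
  · exact hi (hp.of_ne _ _ (Ne.symm e) _ h)

theorem dec_between (hp : IsProj D π) {d : F} {g h : O Q} (hg : g ∈ commutator (O Q))
    (hh : h ∈ commutator (O Q)) (g1 : ∀ i, ∀ s ∈ D i, Q s = d → ∃ j, g s ∈ D j) {i j : Fin t}
    (hij : i ≠ j) {u s : ι → F} (hu : u ∈ D i) (u0 : u ≠ 0) (gu : g u = u) (hs : s ∈ D i)
    (s0 : s ≠ 0) (gs : g s ∈ D j) {x : ι → F} (hx : x ∈ D i) (hxd : Q x = d)
    (h1 : ∀ l, h x ∉ D l) :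
    ∃ K : Subgroup (GL ι F), decompositionStabilizer D ⊓ omegaGL ⇑Q < K ∧ K < omegaGL ⇑Q := by
  refine between (T := stabilizing (glToMat ι F) {v | (∃ i, v ∈ D i) ∧ Q v = d})
    (fun a ha ha' => mem_stab_of_mapsTo ?_) (mem_om hg) (mem_stab_of_mapsTo ?_) (fun hgM => ?_)
    (mem_om hh) fun hT => ?_
  · rintro w ⟨⟨i, hi⟩, hw⟩
    obtain ⟨σ, hσ⟩ := dec_mem ha
    exact ⟨⟨σ i, hσ i w hi⟩, (Q_of_mem_om ha' w).trans hw⟩
  · rintro w ⟨⟨i, hi⟩, hw⟩
    rw [H60.toGL_mulVec]
    exact ⟨g1 i w hi hw, (g.map_Q w).trans hw⟩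
  · obtain ⟨σ, hσ⟩ := dec_mem hgM
    have a1 := hσ i u hu
    have a2 := hσ i s hs
    rw [H60.toGL_mulVec] at a1 a2
    rw [gu] at a1
    by_cases e : σ i = i
    · rw [e] at a2
      exact s0 (g.apply_eq_zero.1 (hp.eq_zero_of_mem hij a2 gs))
    · exact u0 (hp.eq_zero_of_mem e a1 hu)
  · obtain ⟨⟨l, hl⟩, -⟩ := (hT x).1 ⟨⟨i, hx⟩, hxd⟩
    exact h1 l (by rwa [← H60.toGL_mulVec])

/-- The vectors of length `d` in `W` exist and are pairwise orthogonal up to sign. -/
def Frame (Q : QuadraticForm F (ι → F)) (W : Submodule F (ι → F)) (d : F) : Prop :=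
  (∃ s ∈ W, Q s = d) ∧ ∀ s ∈ W, ∀ s' ∈ W, Q s = d → Q s' = d →
    s' = s ∨ s' = -s ∨ polar Q s s' = 0

omit [Fintype ι] [DecidableEq ι] [Fintype F] in
theorem Frame.map {W W' : Submodule F (ι → F)} {d : F} (h : Frame Q W d)
    (he : AreIsometricFor ⇑Q W W') : Frame Q W' d := by
  obtain ⟨e, he⟩ := he
  obtain ⟨⟨s, hs, hd⟩, h2⟩ := h
  refine ⟨⟨e ⟨s, hs⟩, Subtype.mem _, (he _).trans hd⟩, fun s hs s' hs' a b => ?_⟩
  obtain ⟨x, hx⟩ := e.surjective ⟨s, hs⟩
  obtain ⟨y, hy⟩ := e.surjective ⟨s', hs'⟩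
  obtain rfl : ((e x : W') : ι → F) = s := congrArg Subtype.val hx
  obtain rfl : ((e y : W') : ι → F) = s' := congrArg Subtype.val hy
  rcases h2 x x.2 y y.2 ((he x).symm.trans a) ((he y).symm.trans b) with h | h | h
  · left; rw [Subtype.ext h]
  · right; left; rw [show y = -x from Subtype.ext h]; simp
  · right; right
    have := he (x + y)
    rw [map_add, Submodule.coe_add, Submodule.coe_add] at this
    rw [polar, this, he, he]
    exact h

theorem frame_not_max (h2 : (2 : F) ≠ 0) (hQ : Q.polarBilin.Nondegenerate)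
    (h5 : 5 ≤ Fintype.card ι) (hD : IsOrthogonalMDecomposition ⇑Q k D) (hk : 2 ≤ k) (ht : 4 ≤ t)
    {d : F} (d0 : d ≠ 0) {i : Fin t} (hF : Frame Q (D i) d) :
    ∃ K : Subgroup (GL ι F), decompositionStabilizer D ⊓ omegaGL ⇑Q < K ∧ K < omegaGL ⇑Q := by
  obtain ⟨π, hp⟩ := exists_isProj hD.decomp.decomp.indep hD.decomp.decomp.iSup_eq_top
  have hF := fun j => hF.map (hD.isometric i j)
  choose s hs hsd using fun j => (hF j).1
  have ho := hD.decomp.orthogonal
  have s0 : ∀ j, s j ≠ 0 := fun j h => d0 (by rw [← hsd j, h, map_zero])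
  have o := fun i j hij => ho i j hij _ (hs i) _ (hs j)
  have qs : ∀ a b, a ≠ b → Q (s a - s b) = 2 * d := fun a b hab => by
    rw [Q_sub, hsd, hsd, o a b hab]; ring
  have r1 : ∀ a b, a ≠ b → refl Q (s a - s b) (s a) = s b := fun a b hab =>
    refl_sub_apply ((hsd a).trans (hsd b).symm) (by rw [qs a b hab]; exact mul_ne_zero h2 d0)
  have sw : ∀ a b, a ≠ b → ∀ i, ∀ x ∈ D i, Q x = d → ∃ j, refl Q (s a - s b) x ∈ D j := by
    intro a b hab i x hx hxd
    have c : ∀ a, x = s a ∨ x = -s a ∨ polar Q (s a) x = 0 := fun a => by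
      by_cases e : a = i
      · exact (hF a).2 _ (hs a) x (e ▸ hx) (hsd a) hxd
      · exact Or.inr (Or.inr (ho a i e _ (hs a) _ hx))
    have r2 := refl_refl (Q := Q) (s a - s b) (s a)
    rw [r1 a b hab] at r2
    rcases c a with rfl | rfl | ha
    · exact ⟨b, by rw [r1 a b hab]; exact hs b⟩
    · exact ⟨b, by rw [map_neg, r1 a b hab]; exact (D b).neg_mem (hs b)⟩
    rcases c b with rfl | rfl | hb
    · exact ⟨a, by rw [r2]; exact hs a⟩
    · exact ⟨a, by rw [map_neg, r2]; exact (D a).neg_mem (hs a)⟩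
    · exact ⟨i, by rw [refl_apply_of_orth (by rw [polar_sub_left, ha, hb, sub_zero])]; exact hx⟩
  let i0 : Fin t := ⟨0, by omega⟩
  let i1 : Fin t := ⟨1, by omega⟩
  let i2 : Fin t := ⟨2, by omega⟩
  let i3 : Fin t := ⟨3, by omega⟩
  have e01 : i0 ≠ i1 := by simp [i0, i1]
  have e02 : i0 ≠ i2 := by simp [i0, i2]
  have e03 : i0 ≠ i3 := by simp [i0, i3]
  have e12 : i1 ≠ i2 := by simp [i1, i2]
  have e13 : i1 ≠ i3 := by simp [i1, i3]
  have e23 : i2 ≠ i3 := by simp [i2, i3]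
  have pv : ∀ i j, π i (s j) = if i = j then s j else 0 := fun i j => by
    split_ifs with e
    · rw [e]; exact hp.of_mem (hs j)
    · exact hp.of_ne i j e _ (hs j)
  obtain ⟨u, hu, u0, u1⟩ := exists_mem_ker (W := D i0) (by rw [hD.decomp.decomp.finrank_eq]; exact hk)
    (Q.polarBilin (s i0))
  have f23 : ∀ x ∈ D i0, refl Q (s i2 - s i3) x = x := fun x hx => refl_apply_of_orth (by
    rw [polar_sub_left, ho _ _ e02.symm _ (hs _) _ hx, ho _ _ e03.symm _ (hs _) _ hx, sub_zero])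
  have q4 : Q (s i0 + s i1 + s i2 + s i3) = 2 * 2 * Q (s i0) := by
    simp only [Q_add, polar_add_left, hsd, o _ _ e01, o _ _ e02, o _ _ e03, o _ _ e12, o _ _ e13,
      o _ _ e23]
    ring
  refine dec_between hp (g := refl Q (s i0 - s i1) * refl Q (s i2 - s i3))
    (h := refl Q (s i0) * refl Q (s i0 + s i1 + s i2 + s i3))
    (H60.refl_mul_refl_mem_commutator hQ (by simpa using h5) one_ne_zero
      (by rw [qs _ _ e01, qs _ _ e23]; ring))
    (H60.refl_mul_refl_mem_commutator hQ (by simpa using h5) h2 q4)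
    (fun i x hx hxd => ?_) e01 hu u0 ?_ (hs i0) (s0 i0) ?_ (hs i0) (hsd i0) ?_
  · obtain ⟨j, hj⟩ := sw _ _ e23 i x hx hxd
    exact sw _ _ e01 j _ hj ((O.map_Q _ _).trans hxd)
  · rw [O.mul_apply, f23 u hu, refl_apply_of_orth]
    rw [polar_sub_left, ho _ _ e01.symm _ (hs _) _ hu, sub_zero]
    exact u1
  · rw [O.mul_apply, f23 _ (hs _), r1 _ _ e01]
    exact hs i1
  · have c0 : (Q (s i0 + s i1 + s i2 + s i3))⁻¹ * polar Q (s i0 + s i1 + s i2 + s i3) (s i0) ≠ 0 := by
      simp only [q4, polar_add_left, polar_self', hsd, o _ _ e01.symm, o _ _ e02.symm,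
        o _ _ e03.symm]
      simp [h2, d0]
    rw [O.mul_apply, refl_apply (s i0), refl_apply]
    refine not_mem_of_two hp e12 ?_ ?_
    · simpa [pv, e01.symm, e12, e13, s0] using c0
    · simpa [pv, e02.symm, e12.symm, e23, s0] using c0

omit [Fintype ι] [DecidableEq ι] [Fintype F] in
theorem exists_Q_ne {W : Submodule F (ι → F)} (hn : IsNondegenerateOn (polar ⇑Q) W)
    (h0 : 0 < finrank F W) : ∃ s ∈ W, Q s ≠ 0 := by
  obtain ⟨w, hw, w0⟩ := Submodule.exists_mem_ne_zero_of_ne_bot (p := W) fun h => by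
    rw [h, finrank_bot] at h0; omega
  obtain ⟨x, hx, hx0⟩ := (hn w hw w0).1
  by_contra h
  push Not at h
  exact hx0 (by rw [polar, h _ (W.add_mem hx hw), h _ hx, h _ hw]; simp)

omit [Fintype ι] [DecidableEq ι] [Fintype F] in
theorem frame_plane (h2 : (2 : F) ≠ 0) {W : Submodule F (ι → F)}
    (hn : IsNondegenerateOn (polar ⇑Q) W) (hW : finrank F W = 2)
    (H : ∀ a : F, a ≠ 0 → a * a = 1 ∨ (∃ z ∈ W, z ≠ 0 ∧ Q z = 0) ∧
      ∀ x y : F, x * x + (1 - a * a) * (y * y) = 0 → x = 0 ∧ y = 0) :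
    ∃ d, d ≠ 0 ∧ Frame Q W d := by
  obtain ⟨s₀, hs₀, d0⟩ := exists_Q_ne hn (by omega)
  refine ⟨_, d0, ⟨s₀, hs₀, rfl⟩, fun s hs s' hs' a b => ?_⟩
  set d := Q s₀
  obtain ⟨c, hc⟩ : ∃ c, polar Q s s' = 2 * d * c :=
    ⟨polar Q s s' / (2 * d), by field_simp⟩
  by_cases c0 : c = 0
  · right; right; rw [hc, c0, mul_zero]
  have hu : s' - c • s ∈ W := W.sub_mem hs' (W.smul_mem _ hs)
  have u1 : polar Q s (s' - c • s) = 0 := by
    rw [polar_sub_right, polar_smul_right, polar_self', hc, a, smul_eq_mul]; ring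
  have u2 : Q (s' - c • s) = d * (1 - c * c) := by
    rw [Q_sub, Q_smul, polar_smul_right, polar_comm, hc, a, b, smul_eq_mul]; ring
  have s0 : s ≠ 0 := fun h => d0 (by rw [← a, h, map_zero])
  have sp : s' - c • s ≠ 0 → ∀ z ∈ W, ∃ x y : F, z = x • s + y • (s' - c • s) := fun u0 z hz =>
    span_pair hW hs hu s0 (fun r hr => by
      rw [← hr, polar_smul_right, polar_self', a, smul_eq_mul] at u1
      have : r = 0 := by simpa [h2, d0] using u1
      exact u0 (by rw [← hr, this, zero_smul])) hz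
  have z : s' - c • s = 0 := by
    by_contra u0
    rcases H c c0 with h | ⟨⟨z, hz, z0, zq⟩, h⟩
    · obtain ⟨x, hx, hx0⟩ := (hn _ hu u0).1
      obtain ⟨x, y, rfl⟩ := sp u0 x hx
      rw [polar_add_left, polar_smul_left, polar_smul_left, u1, polar_self', u2, h] at hx0
      simp at hx0
    · obtain ⟨x, y, rfl⟩ := sp u0 z hz
      rw [Q_add, Q_smul, Q_smul, polar_smul_left, polar_smul_right, u1, u2, a] at zq
      obtain ⟨rfl, rfl⟩ := h x y (mul_left_cancel₀ d0 (by simp at zq; linear_combination zq))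
      simp at z0
  rw [z, map_zero] at u2
  have c1 : c * c = 1 := by
    have := (mul_eq_zero.1 u2.symm).resolve_left d0
    linear_combination -this
  rcases mul_self_eq_one_iff.1 c1 with rfl | rfl
  · left; simpa [sub_eq_zero] using z
  · right; left; simpa [add_eq_zero_iff_eq_neg] using z

omit [DecidableEq ι] in
theorem frame_three (hq : Fintype.card F = 3) {W : Submodule F (ι → F)}
    (hn : IsNondegenerateOn (polar ⇑Q) W) (hW : finrank F W = 3) : ∃ d, d ≠ 0 ∧ Frame Q W d := by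
  let β : LinearMap.BilinForm F W := Q.polarBilin.compl₁₂ W.subtype W.subtype
  have hβ : ∀ x y : W, β x y = polar Q x y := fun x y => rfl
  have nd : β.Nondegenerate := by
    constructor <;> intro x hx <;> by_contra h0
    · obtain ⟨y, hy, h⟩ := (hn x x.2 fun h => h0 (Subtype.ext h)).2
      exact h (hx ⟨y, hy⟩)
    · obtain ⟨y, hy, h⟩ := (hn x x.2 fun h => h0 (Subtype.ext h)).1
      exact h (hx ⟨y, hy⟩)
  obtain ⟨x₁, x₂, x₃, d, hx, hf⟩ := exists_tri hq (β := β) (fun x y => polar_comm _ _ _) nd hW.ge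
  have hf := hf hW
  have t := three_eq_zero hq
  have hQp : ∀ v : W, Q v = - β v v := fun v => by
    rw [hβ, polar_self']; linear_combination Q v * t
  have one : ∀ a b c : F, a * a + b * b + c * c = 1 → (a * a = 1 ∧ b = 0 ∧ c = 0) ∨
      (a = 0 ∧ b * b = 1 ∧ c = 0) ∨ (a = 0 ∧ b = 0 ∧ c * c = 1) := by
    intro a b c h
    have f : ∀ a : F, a = 0 ∨ a * a = 1 := fun a => (eq_or_ne a 0).imp id (sq_eq_one_of hq)
    rcases f a with ha | ha <;> rcases f b with hb | hb <;> rcases f c with hc | hc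
    · exact absurd h (by simp [ha, hb, hc])
    · exact Or.inr (Or.inr ⟨ha, hb, hc⟩)
    · exact Or.inr (Or.inl ⟨ha, hb, hc⟩)
    · exact absurd (by rw [ha] at h; linear_combination h - hb - hc) (one_ne_zero (α := F))
    · exact Or.inl ⟨ha, hb, hc⟩
    · exact absurd (by rw [hb] at h; linear_combination h - ha - hc) (one_ne_zero (α := F))
    · exact absurd (by rw [hc] at h; linear_combination h - ha - hb) (one_ne_zero (α := F))
    · exact absurd (by linear_combination t + ha + hb + hc - h) (one_ne_zero (α := F))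
  refine ⟨-d, neg_ne_zero.2 hx.d0, ⟨x₁, x₁.2, by rw [hQp, hx.n1]⟩, fun s hs s' hs' p q => ?_⟩
  obtain ⟨a, b, c, h1⟩ := hx.coord hf ⟨s, hs⟩
  obtain ⟨a', b', c', h2⟩ := hx.coord hf ⟨s', hs'⟩
  have p' := hQp ⟨s, hs⟩
  have q' := hQp ⟨s', hs'⟩
  have r := hβ ⟨s, hs⟩ ⟨s', hs'⟩
  rw [h1] at p' r
  rw [h2] at q' r
  rw [hx.form] at p' q' r
  have e1 : s = a • (x₁ : ι → F) + b • x₂ + c • x₃ := congrArg Subtype.val h1
  have e2 : s' = a' • (x₁ : ι → F) + b' • x₂ + c' • x₃ := congrArg Subtype.val h2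
  change Q (a • (x₁ : ι → F) + b • x₂ + c • x₃) = _ at p'
  change Q (a' • (x₁ : ι → F) + b' • x₂ + c' • x₃) = _ at q'
  change _ = polar Q (a • (x₁ : ι → F) + b • x₂ + c • x₃) (a' • (x₁ : ι → F) + b' • x₂ + c' • x₃) at r
  rw [← e1] at p' r
  rw [← e2] at q' r
  have p1 := one a b c (mul_left_cancel₀ hx.d0 (by linear_combination p' - p))
  have q1 := one a' b' c' (mul_left_cancel₀ hx.d0 (by linear_combination q' - q))
  have pm : ∀ {a a' : F}, a * a = 1 → a' * a' = 1 → a' = a ∨ a' = -a := fun h h' =>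
    mul_self_eq_mul_self_iff.1 (h'.trans h.symm)
  rw [← r, e1, e2]
  rcases p1 with ⟨p1, rfl, rfl⟩ | ⟨rfl, p1, rfl⟩ | ⟨rfl, rfl, p1⟩ <;>
    rcases q1 with ⟨q1, rfl, rfl⟩ | ⟨rfl, q1, rfl⟩ | ⟨rfl, rfl, q1⟩ <;>
    first
    | (right; right; ring1)
    | (rcases pm p1 q1 with rfl | rfl <;> simp)

theorem three_not_max (hq : Fintype.card F = 3) (hQ : Q.polarBilin.Nondegenerate)
    (h5 : 13 ≤ Fintype.card ι) (hD : IsOrthogonalMDecomposition ⇑Q k D) (hk : k = 2 ∨ k = 3) :
    ∃ K : Subgroup (GL ι F), decompositionStabilizer D ⊓ omegaGL ⇑Q < K ∧ K < omegaGL ⇑Q := by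
  have ht := card_dec hD.decomp.decomp
  have ht4 : 4 ≤ t := by rcases hk with rfl | rfl <;> omega
  have i : Fin t := ⟨0, by omega⟩
  obtain ⟨d, d0, hd⟩ : ∃ d, d ≠ 0 ∧ Frame Q (D i) d := by
    rcases hk with rfl | rfl
    · exact frame_plane (two_ne_zero3 hq) (hD.decomp.nondegenerate i)
        (hD.decomp.decomp.finrank_eq i) fun a ha => Or.inl (sq_eq_one_of hq ha)
    · exact frame_three hq (hD.decomp.nondegenerate i) (hD.decomp.decomp.finrank_eq i)
  exact frame_not_max (two_ne_zero3 hq) hQ (by omega) hD (by omega) ht4 d0 hd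

omit [Fintype ι] [DecidableEq ι] [Fintype F] in
theorem exists_sing {W : Submodule F (ι → F)} (hW : 0 < finrank F W) (h : IsPlusTypeOn ⇑Q W) :
    ∃ z ∈ W, z ≠ 0 ∧ Q z = 0 := by
  obtain ⟨U, h1, h2, h3⟩ := h
  obtain ⟨z, hz, z0⟩ := Submodule.exists_mem_ne_zero_of_ne_bot (p := U) fun h => by
    rw [h, finrank_bot] at h3; omega
  exact ⟨z, h1 hz, z0, h2 z hz⟩

theorem five_not_max (hq : Fintype.card F = 5) (hQ : Q.polarBilin.Nondegenerate)
    (h5 : 13 ≤ Fintype.card ι) (hD : IsOrthogonalMDecomposition ⇑Q 2 D)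
    (hp : ∀ i, IsPlusTypeOn ⇑Q (D i)) :
    ∃ K : Subgroup (GL ι F), decompositionStabilizer D ⊓ omegaGL ⇑Q < K ∧ K < omegaGL ⇑Q := by
  have ht := card_dec hD.decomp.decomp
  have i : Fin t := ⟨0, by omega⟩
  have f : (5 : F) = 0 := by
    have := FiniteField.cast_card_eq_zero F
    rw [hq] at this
    exact_mod_cast this
  have h2 : (2 : F) ≠ 0 := fun h => one_ne_zero (α := F) (by linear_combination f - 2 * h)
  have h4 : ∀ a : F, a ≠ 0 → a ^ 4 = 1 := fun a ha => by
    simpa [hq] using FiniteField.pow_card_sub_one_eq_one a ha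
  obtain ⟨d, d0, hd⟩ := frame_plane h2 (hD.decomp.nondegenerate i) (hD.decomp.decomp.finrank_eq i)
    fun a ha => by
      rcases mul_self_eq_one_iff.1 (show a * a * (a * a) = 1 by linear_combination h4 a ha) with
        h | h
      · exact Or.inl h
      refine Or.inr ⟨exists_sing (by rw [hD.decomp.decomp.finrank_eq]; omega) (hp i),
        fun x y hxy => ?_⟩
      rw [h] at hxy
      by_cases hx : x = 0
      · have : y * y = 0 := mul_left_cancel₀ h2 (by rw [hx] at hxy; linear_combination hxy)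
        exact ⟨hx, by simpa using this⟩
      by_cases hy : y = 0
      · exact absurd (by simpa [hy] using hxy) hx
      exact absurd (by
        linear_combination (2 * (x * x - 2 * (y * y))) * hxy - 2 * h4 x hx + 8 * h4 y hy + f :
          (-1 : F) = 0) (by simp)
  exact frame_not_max h2 hQ (by omega) hD le_rfl (by omega) d0 hd

omit [Fintype ι] [DecidableEq ι] [Fintype F] in
theorem exists_hyp {W : Submodule F (ι → F)} (hn : IsNondegenerateOn (polar ⇑Q) W) {e : ι → F}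
    (he : e ∈ W) (e0 : e ≠ 0) (qe : Q e = 0) : ∃ f ∈ W, Q f = 0 ∧ polar Q e f = 1 := by
  obtain ⟨x, hx, hx0⟩ := (hn e he e0).2
  have h1 : polar Q e ((polar Q e x)⁻¹ • x) = 1 := by
    rw [polar_smul_right, smul_eq_mul, inv_mul_cancel₀ hx0]
  generalize hy : (polar Q e x)⁻¹ • x = y at h1
  refine ⟨y - Q y • e, W.sub_mem (hy ▸ W.smul_mem _ hx) (W.smul_mem _ he), ?_, ?_⟩
  · rw [Q_sub, Q_smul, polar_smul_right, polar_comm, h1, qe]; simp
  · rw [polar_sub_right, polar_smul_right, polar_self', h1, qe]; simp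

omit [Fintype ι] [DecidableEq ι] [Fintype F] in
theorem refl_two (h2 : (2 : F) = 0) {u : ι → F} (hu : Q u = 1) (v : ι → F) :
    refl Q u v = v + polar Q u v • u := by
  rw [refl_apply, hu, sub_eq_add_neg, ← neg_smul]
  congr 2
  linear_combination (-polar Q u v) * h2

theorem sub_not_max (h2 : (2 : F) = 0) (h3 : ∀ a : F, a ≠ 0 → a ^ 3 = 1)
    (hQ : Q.polarBilin.Nondegenerate) (h5 : 13 ≤ Fintype.card ι)
    (hD : IsOrthogonalMDecomposition ⇑Q 2 D) (hp' : ∀ i, IsPlusTypeOn ⇑Q (D i)) :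
    ∃ K : Subgroup (GL ι F), decompositionStabilizer D ⊓ omegaGL ⇑Q < K ∧ K < omegaGL ⇑Q := by
  obtain ⟨π, hp⟩ := exists_isProj hD.decomp.decomp.indep hD.decomp.decomp.iSup_eq_top
  have ht := card_dec hD.decomp.decomp
  have hW := hD.decomp.decomp.finrank_eq
  have ho := hD.decomp.orthogonal
  choose e he e0 qe using fun i => exists_sing (by rw [hW]; omega) (hp' i)
  choose f hf qf ef using fun i => exists_hyp (hD.decomp.nondegenerate i) (he i) (e0 i) (qe i)
  have haa : ∀ x : ι → F, x + x = 0 := fun x => by rw [← two_smul F x, h2, zero_smul]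
  have qc : ∀ i (x y : F), Q (x • e i + y • f i) = x * y := fun i x y => by
    rw [Q_add, Q_smul, Q_smul, polar_smul_left, polar_smul_right, qe, qf, ef]; simp
  have cl : ∀ i, ∀ a ∈ D i, ∀ b ∈ D i, Q a = 1 → Q b = 1 → a + b = 0 ∨ Q (a + b) = 1 := by
    intro i a ha b hb p q
    have sp := fun z hz => span_pair (hW i) (he i) (hf i) (e0 i) (fun c hc => by
      have := ef i
      rw [← hc, polar_smul_right, polar_self', qe] at this
      simp at this) (x := z) hz
    obtain ⟨x, x', rfl⟩ := sp a ha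
    obtain ⟨y, y', rfl⟩ := sp b hb
    rw [qc] at p q
    have hx := h3 x (left_ne_zero_of_mul_eq_one p)
    have hy := h3 y (left_ne_zero_of_mul_eq_one q)
    obtain rfl : x' = x ^ 2 := by linear_combination x ^ 2 * p - x' * hx
    obtain rfl : y' = y ^ 2 := by linear_combination y ^ 2 * q - y' * hy
    by_cases hxy : x + y = 0
    · left
      obtain rfl : x = y := by linear_combination hxy - y * h2
      exact haa _
    · right
      rw [add_add_add_comm, ← add_smul, ← add_smul, qc]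
      linear_combination h3 _ hxy - (x ^ 2 * y + x * y ^ 2) * h2
  have hn : ∀ i, e i + f i ∈ D i := fun i => (D i).add_mem (he i) (hf i)
  have qn : ∀ i, Q (e i + f i) = 1 := fun i => by simpa using qc i 1 1
  have n0 : ∀ i, e i + f i ≠ 0 := fun i h => by simpa [h] using qn i
  generalize hnd : (fun i => e i + f i) = n
  have hn' : ∀ i, e i + f i = n i := congrFun hnd
  simp only [hn'] at hn qn n0
  have pv : ∀ i j, π i (n j) = if i = j then n j else 0 := fun i j => by
    split_ifs with e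
    · rw [e]; exact hp.of_mem (hn j)
    · exact hp.of_ne i j e _ (hn j)
  have pp : ∀ i x, polar Q (n i) x = polar Q (n i) (π i x) := fun i x => by
    conv_lhs => rw [← hp.sum x, ← polarBilin_apply_apply, map_sum]
    exact Finset.sum_eq_single i (fun j _ hj => ho i j hj.symm _ (hn i) _ (hp.mem j x)) (by simp)
  let S : Set (ι → F) := {v | ∀ i, π i v = 0 ∨ Q (π i v) = 1}
  have s1 : ∀ i, ∀ x ∈ S, x + n i ∈ S := fun i x hx j => by
    rw [map_add, pv]
    split_ifs with c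
    · subst c
      rcases hx j with h | h
      · right; rw [h, zero_add, qn]
      · exact cl j _ (hp.mem j x) _ (hn j) h (qn j)
    · simpa using hx j
  have s2 : ∀ i, ∀ x ∈ S, polar Q (n i) x * (polar Q (n i) x - 1) = 0 := fun i x hx => by
    rw [pp]
    rcases hx i with h | h
    · simp [h]
    · rw [polar, qn, h]
      rcases cl i _ (hn i) _ (hp.mem i x) (qn i) h with h' | h'
      · rw [h', map_zero]; linear_combination 3 * h2
      · rw [h']; linear_combination h2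
  let i0 : Fin t := ⟨0, by omega⟩
  let i1 : Fin t := ⟨1, by omega⟩
  let i2 : Fin t := ⟨2, by omega⟩
  have e01 : i0 ≠ i1 := by simp [i0, i1]
  have e02 : i0 ≠ i2 := by simp [i0, i2]
  have e12 : i1 ≠ i2 := by simp [i1, i2]
  have o := fun i j hij => ho i j hij _ (hn i) _ (hn j)
  have q3 : Q (n i0 + n i1 + n i2) = 1 := by
    simp only [Q_add, polar_add_left, qn, o _ _ e01, o _ _ e02, o _ _ e12]
    linear_combination h2
  have q4 : Q (n i1 + e i0) = 1 := by
    rw [Q_add, qn, qe, ho _ _ e01.symm _ (hn _) _ (he _)]; simp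
  have ne : polar Q (n i0) (e i0) = 1 := by
    rw [← hn', polar_add_left, polar_self', qe, polar_comm, ef]; simp
  have mem : ∀ u w, Q u = Q w → H60.toGL Q (refl Q u * refl Q w) ∈ omegaGL ⇑Q := fun u w h =>
    mem_om (H60.refl_mul_refl_mem_commutator hQ (by simp; omega) one_ne_zero (by rw [h]; ring))
  refine between (T := stabilizing (glToMat ι F) S) (fun a ha ha' => mem_stab_of_mapsTo ?_)
    (mem _ _ (q3.trans (qn i0).symm)) (mem_stab_of_mapsTo ?_) (fun hgM => ?_)
    (mem _ _ (q4.trans (qn i2).symm)) fun hT => ?_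
  · intro x hx j
    obtain ⟨σ, hσ⟩ := dec_mem ha
    obtain ⟨j, rfl⟩ := σ.surjective j
    rw [proj_map hp hσ, Q_of_mem_om ha']
    exact (hx j).imp (fun h => by rw [h, mulVec_zero]) id
  · intro x hx
    rw [H60.toGL_mulVec, O.mul_apply]
    have a1 : refl Q (n i0) x ∈ S := by
      rw [refl_two h2 (qn _)]
      rcases mul_eq_zero.1 (s2 i0 x hx) with h | h
      · simpa [h] using hx
      · simpa [sub_eq_zero.1 h] using s1 _ _ hx
    generalize refl Q (n i0) x = y at a1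
    have a2 : polar Q (n i0 + n i1 + n i2) y * (polar Q (n i0 + n i1 + n i2) y - 1) = 0 := by
      simp only [polar_add_left]
      linear_combination s2 i0 y a1 + s2 i1 y a1 + s2 i2 y a1 + (polar Q (n i0) y * polar Q (n i1) y +
        polar Q (n i0) y * polar Q (n i2) y + polar Q (n i1) y * polar Q (n i2) y) * h2
    rw [refl_two h2 q3]
    rcases mul_eq_zero.1 a2 with h | h
    · rwa [h, zero_smul, add_zero]
    · rw [sub_eq_zero.1 h, one_smul, ← add_assoc, ← add_assoc]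
      exact s1 i2 _ (s1 i1 _ (s1 i0 _ a1))
  · obtain ⟨σ, hσ⟩ := dec_mem hgM
    have a1 := hσ i0 _ (he i0)
    have a2 : polar Q (n i0 + n i1 + n i2) (e i0 + n i0) = 1 := by
      simp only [polar_add_left, polar_add_right, ne, polar_self', h2, o _ _ e01.symm,
        o _ _ e02.symm, ho _ _ e01.symm _ (hn _) _ (he _), ho _ _ e02.symm _ (hn _) _ (he _)]
      ring
    rw [H60.toGL_mulVec, O.mul_apply, refl_two h2 (qn _), ne, one_smul, refl_two h2 q3, a2] at a1
    refine not_mem_of_two hp e12 ?_ ?_ _ a1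
    · simpa [pv, e01.symm, e12, hp.of_ne _ _ e01.symm _ (he _)] using n0 i1
    · simpa [pv, e02.symm, e12.symm, hp.of_ne _ _ e02.symm _ (he _)] using n0 i2
  · have a1 := (hT (n i0)).1 (by simpa using s1 i0 0 fun j => Or.inl (map_zero _)) i0
    have a2 : polar Q (n i1 + e i0) (n i0) = 1 := by
      rw [polar_add_left, o _ _ e01.symm, polar_comm, ne, zero_add]
    rw [Units.coeHom_apply, H60.toGL_mulVec, O.mul_apply, refl_apply_of_orth (o _ _ e02.symm), refl_two h2 q4, a2,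
      one_smul, map_add, map_add, pv, pv, if_pos rfl, if_neg e01, zero_add, hp.of_mem (he _),
      ← hn', add_right_comm, haa, zero_add, qf] at a1
    rcases a1 with h | h
    · simpa [h] using ef i0
    · exact zero_ne_one h

omit [Fintype ι] [DecidableEq ι] in
theorem four_local (hq : Fintype.card F = 2) {W : Submodule F (ι → F)}
    (hn : IsNondegenerateOn (polar ⇑Q) W) (hW : finrank F W = 4) (h : IsPlusTypeOn ⇑Q W) :
    ∃ a ∈ W, ∃ b ∈ W, ∃ u ∈ W, Q a = 1 ∧ Q b = 1 ∧ polar Q a b = 1 ∧ u ≠ 0 ∧ polar Q a u = 0 ∧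
      polar Q b u = 0 ∧ ∀ s ∈ W, Q s = 1 → (polar Q a s = 0 ∧ polar Q b s = 0) ∨
        s = polar Q b s • a + polar Q a s • b := by
  have h2 : (2 : F) = 0 := two_eq_zero (by rw [hq]; decide)
  have e2 : (1 : F) + 1 = 0 := by linear_combination h2
  obtain ⟨U, h1, hU, h3⟩ := h
  obtain ⟨e₁, he₁, z1⟩ := Submodule.exists_mem_ne_zero_of_ne_bot (p := U) fun h => by
    rw [h, finrank_bot] at h3; omega
  obtain ⟨f₁, hf₁, q2, p12⟩ := exists_hyp hn (h1 he₁) z1 (hU _ he₁)
  obtain ⟨e₂, he₂, z2, p23⟩ := exists_mem_ker (W := U) (by omega) (Q.polarBilin f₁)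
  obtain ⟨f, hf, -, p⟩ := exists_hyp hn (h1 he₂) z2 (hU _ he₂)
  have q1 : Q e₁ = 0 := hU _ he₁
  have q3 : Q e₂ = 0 := hU _ he₂
  have p23 : polar Q f₁ e₂ = 0 := p23
  have p13 : polar Q e₁ e₂ = 0 := by rw [polar, hU _ (U.add_mem he₁ he₂), q1, q3]; simp
  have ps : ∀ x, polar Q x x = 0 := fun x => by rw [polar_self', h2, zero_mul]
  obtain ⟨f₂, hf₂, q4, p14, p24, p34⟩ : ∃ f₂ ∈ W, Q f₂ = 0 ∧ polar Q e₁ f₂ = 0 ∧
      polar Q f₁ f₂ = 0 ∧ polar Q e₂ f₂ = 1 := by
    set g := f + polar Q f₁ f • e₁ + polar Q e₁ f • f₁ with hg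
    have a1 : polar Q e₁ g = 0 := by
      simp only [hg, polar_add_right, polar_smul_right, ps, p12, smul_eq_mul]
      linear_combination polar Q e₁ f * h2
    have a2 : polar Q f₁ g = 0 := by
      simp only [hg, polar_add_right, polar_smul_right, ps, polar_comm Q f₁ e₁, p12, smul_eq_mul]
      linear_combination polar Q f₁ f * h2
    have a3 : polar Q e₂ g = 1 := by
      simp only [hg, polar_add_right, polar_smul_right, polar_comm Q e₂ e₁, polar_comm Q e₂ f₁, p13,
        p23, p, smul_eq_mul]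
      ring
    refine ⟨g - Q g • e₂, W.sub_mem (W.add_mem (W.add_mem hf (W.smul_mem _ (h1 he₁)))
      (W.smul_mem _ hf₁)) (W.smul_mem _ (h1 he₂)), ?_, ?_, ?_, ?_⟩
    · rw [Q_sub, Q_smul, polar_smul_right, polar_comm, a3, q3]; simp
    · rw [polar_sub_right, polar_smul_right, a1, p13]; simp
    · rw [polar_sub_right, polar_smul_right, a2, p23]; simp
    · rw [polar_sub_right, polar_smul_right, a3, ps]; simp
  have p21 := (polar_comm Q _ _).trans p12
  have p31 := (polar_comm Q _ _).trans p13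
  have p41 := (polar_comm Q _ _).trans p14
  have p32 := (polar_comm Q _ _).trans p23
  have p42 := (polar_comm Q _ _).trans p24
  have p43 := (polar_comm Q _ _).trans p34
  have hli : LinearIndependent F ![e₁, f₁, e₂, f₂] := Fintype.linearIndependent_iff.2 fun c hc => by
    rw [Fin.sum_univ_four] at hc
    change c 0 • e₁ + c 1 • f₁ + c 2 • e₂ + c 3 • f₂ = 0 at hc
    have a := fun x => congrArg (polar Q x) hc
    have a1 := a e₁
    have a2 := a f₁
    have a3 := a e₂
    have a4 := a f₂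
    simp only [polar_add_right, polar_smul_right, ps, p12, p13, p14, p21, p23, p24, p31, p32, p34,
      p41, p42, p43, smul_eq_mul, polar_zero_right, mul_zero, mul_one, add_zero, zero_add]
      at a1 a2 a3 a4
    intro i
    fin_cases i <;> assumption
  haveI : FiniteDimensional F W := Module.finite_of_finrank_pos (by omega)
  have hsp : Submodule.span F (Set.range ![e₁, f₁, e₂, f₂]) = W :=
    Submodule.eq_of_le_of_finrank_eq (by
      rw [Submodule.span_le]
      rintro _ ⟨i, rfl⟩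
      fin_cases i
      exacts [h1 he₁, hf₁, h1 he₂, hf₂]) (by rw [finrank_span_eq_card hli, hW]; simp)
  refine ⟨e₁ + f₁, W.add_mem (h1 he₁) hf₁, e₁ + e₂ + f₂, W.add_mem (W.add_mem (h1 he₁) (h1 he₂)) hf₂,
    e₂ + f₂, W.add_mem (h1 he₂) hf₂, ?_, ?_, ?_, fun h => ?_, ?_, ?_, fun s hs hq1 => ?_⟩
  · simp [Q_add, q1, q2, p12]
  · simp [Q_add, q1, q3, q4, polar_add_left, p13, p14, p34]
  · simp [polar_add_left, polar_add_right, ps, p13, p14, p21, p23, p24]
  · simpa [polar_add_right, ps, p34] using congrArg (polar Q e₂) h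
  · simp [polar_add_left, polar_add_right, p13, p14, p23, p24]
  · simp [polar_add_left, polar_add_right, ps, p13, p14, p34, p43, e2]
  · rw [← hsp, Submodule.mem_span_range_iff_exists_fun] at hs
    obtain ⟨c, rfl⟩ := hs
    rw [Fin.sum_univ_four] at hq1 ⊢
    change Q (c 0 • e₁ + c 1 • f₁ + c 2 • e₂ + c 3 • f₂) = 1 at hq1
    change (polar Q _ (c 0 • e₁ + c 1 • f₁ + c 2 • e₂ + c 3 • f₂) = 0 ∧
      polar Q _ (c 0 • e₁ + c 1 • f₁ + c 2 • e₂ + c 3 • f₂) = 0) ∨
      c 0 • e₁ + c 1 • f₁ + c 2 • e₂ + c 3 • f₂ =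
        polar Q _ (c 0 • e₁ + c 1 • f₁ + c 2 • e₂ + c 3 • f₂) • _ +
        polar Q _ (c 0 • e₁ + c 1 • f₁ + c 2 • e₂ + c 3 • f₂) • _
    simp only [Q_add, Q_smul, polar_add_left, polar_add_right, polar_smul_left, polar_smul_right, ps,
      p12, p13, p14, p21, p23, p24, p31, p32, p34, p41, p42, p43, q1, q2, q3, q4, smul_eq_mul,
      mul_zero, mul_one, add_zero, zero_add] at hq1 ⊢
    have haa : ∀ x : ι → F, x + x = 0 := fun x => by rw [← two_smul F x, h2, zero_smul]
    generalize c 0 = x, c 1 = y, c 2 = z, c 3 = w at hq1 ⊢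
    rcases eq_zero_or_one hq x with rfl | rfl <;> rcases eq_zero_or_one hq y with rfl | rfl <;>
      rcases eq_zero_or_one hq z with rfl | rfl <;> rcases eq_zero_or_one hq w with rfl | rfl <;>
      simp [e2] at hq1 ⊢
    linear_combination (exp := 1) haa e₁ * (-1)

theorem four_not_max (hq : Fintype.card F = 2) (hQ : Q.polarBilin.Nondegenerate)
    (h5 : 13 ≤ Fintype.card ι) (hD : IsOrthogonalMDecomposition ⇑Q 4 D)
    (hp' : ∀ i, IsPlusTypeOn ⇑Q (D i)) :
    ∃ K : Subgroup (GL ι F), decompositionStabilizer D ⊓ omegaGL ⇑Q < K ∧ K < omegaGL ⇑Q := by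
  obtain ⟨π, hp⟩ := exists_isProj hD.decomp.decomp.indep hD.decomp.decomp.iSup_eq_top
  have ht := card_dec hD.decomp.decomp
  have ho := hD.decomp.orthogonal
  have h2 : (2 : F) = 0 := two_eq_zero (by rw [hq]; decide)
  have haa : ∀ x : ι → F, x + x = 0 := fun x => by rw [← two_smul F x, h2, zero_smul]
  choose a ha b hb u hu qa qb ab u0 au bu H using fun i =>
    four_local hq (hD.decomp.nondegenerate i) (hD.decomp.decomp.finrank_eq i) (hp' i)
  let i0 : Fin t := ⟨0, by omega⟩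
  let i1 : Fin t := ⟨1, by omega⟩
  let i2 : Fin t := ⟨2, by omega⟩
  have e01 : i0 ≠ i1 := by simp [i0, i1]
  have e02 : i0 ≠ i2 := by simp [i0, i2]
  have e12 : i1 ≠ i2 := by simp [i1, i2]
  have a0 : ∀ i, a i ≠ 0 := fun i h => by simpa [h] using qa i
  have c1 : Q (a i0 + a i1) = 0 := by
    rw [Q_add, qa, qa, ho _ _ e01 _ (ha _) _ (ha _)]; linear_combination h2
  have c2 : Q (b i0 + b i1) = 0 := by
    rw [Q_add, qb, qb, ho _ _ e01 _ (hb _) _ (hb _)]; linear_combination h2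
  have c3 : polar Q (a i0 + a i1) (b i0 + b i1) = 0 := by
    simp only [polar_add_left, polar_add_right, ab, ho _ _ e01 _ (ha _) _ (hb _),
      ho _ _ e01.symm _ (ha _) _ (hb _)]
    linear_combination h2
  have ea : ∀ x, eich Q (a i0 + a i1) (b i0 + b i1) x = x + (polar Q (b i0) x + polar Q (b i1) x) •
      (a i0 + a i1) + (polar Q (a i0) x + polar Q (a i1) x) • (b i0 + b i1) := fun x => by
    rw [eich_apply c1 c3, c2, zero_mul, zero_smul, sub_zero, polar_add_left, polar_add_left,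
      sub_eq_iff_eq_add, add_assoc, haa, add_zero]
  have q3 : Q (b i0 + a i1 + a i2) = 1 := by
    simp only [Q_add, polar_add_left, qa, qb, ho _ _ e01 _ (hb _) _ (ha _),
      ho _ _ e02 _ (hb _) _ (ha _), ho _ _ e12 _ (ha _) _ (ha _)]
    linear_combination h2
  have g1 : ∀ i, ∀ s ∈ D i, Q s = 1 → ∃ j, eich Q (a i0 + a i1) (b i0 + b i1) s ∈ D j := by
    intro i s hs qs
    rw [ea]
    by_cases d0 : i = i0
    · subst d0
      rw [ho _ _ e01.symm _ (ha _) _ hs, ho _ _ e01.symm _ (hb _) _ hs, add_zero, add_zero]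
      rcases H _ s hs qs with ⟨h, h'⟩ | h
      · exact ⟨_, by simpa [h, h'] using hs⟩
      · refine ⟨i1, ?_⟩
        rw [smul_add, smul_add, add_assoc, add_add_add_comm, ← h, ← add_assoc, haa, zero_add]
        exact (D i1).add_mem ((D i1).smul_mem _ (ha _)) ((D i1).smul_mem _ (hb _))
    by_cases d1 : i = i1
    · subst d1
      rw [ho _ _ e01 _ (ha _) _ hs, ho _ _ e01 _ (hb _) _ hs, zero_add, zero_add]
      rcases H _ s hs qs with ⟨h, h'⟩ | h
      · exact ⟨_, by simpa [h, h'] using hs⟩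
      · refine ⟨i0, ?_⟩
        rw [smul_add, smul_add, add_assoc, add_add_add_comm, ← h, add_left_comm, haa, add_zero]
        exact (D i0).add_mem ((D i0).smul_mem _ (ha _)) ((D i0).smul_mem _ (hb _))
    · rw [ho _ _ (Ne.symm d0) _ (ha _) _ hs, ho _ _ (Ne.symm d0) _ (hb _) _ hs,
        ho _ _ (Ne.symm d1) _ (ha _) _ hs, ho _ _ (Ne.symm d1) _ (hb _) _ hs]
      exact ⟨i, by simpa using hs⟩
  refine dec_between hp (h := refl Q (b i0 + a i1 + a i2) * refl Q (a i0))
    (H60.eich_mem_commutator hQ (by simp; omega) _ _)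
    (H60.refl_mul_refl_mem_commutator hQ (by simp; omega) one_ne_zero (by rw [q3, qa]; ring))
    g1 e01 (hu i0) (u0 i0) ?_ (ha i0) (a0 i0) ?_ (ha i0) (qa i0) ?_
  · rw [ea, au, bu, ho _ _ e01.symm _ (ha _) _ (hu _), ho _ _ e01.symm _ (hb _) _ (hu _)]; simp
  · rw [ea, polar_comm, ab, polar_self', h2, ho _ _ e01.symm _ (ha _) _ (ha _),
      ho _ _ e01.symm _ (hb _) _ (ha _)]
    simpa [← add_assoc, haa] using ha i1
  · have c4 : polar Q (b i0 + a i1 + a i2) (a i0) = 1 := by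
      rw [polar_add_left, polar_add_left, polar_comm, ab, ho _ _ e01.symm _ (ha _) _ (ha _),
        ho _ _ e02.symm _ (ha _) _ (ha _)]
      ring
    rw [O.mul_apply, refl_apply_of_orth (v := a i0) (by rw [polar_self', h2, zero_mul]),
      refl_two h2 q3, c4, one_smul]
    refine not_mem_of_two hp e12 ?_ ?_
    · simpa [hp.of_ne _ _ e01.symm _ (ha _), hp.of_ne _ _ e01.symm _ (hb _), hp.of_mem (ha _),
        hp.of_ne _ _ e12 _ (ha _)] using a0 i1
    · simpa [hp.of_ne _ _ e02.symm _ (ha _), hp.of_ne _ _ e02.symm _ (hb _), hp.of_mem (ha _),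
        hp.of_ne _ _ e12.symm _ (ha _)] using a0 i2

end H62.NM
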