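import Cfsg.Agent.H62.SpInSL
import Cfsg.Agent.H62.OInSp
import Cfsg.Agent.H60.Geom

set_option autoImplicit false
set_option linter.unusedSectionVars false

/-! The normaliser of `SO(V)` in `SL(V)` is maximal (odd characteristic, dimension at least 5). -/

namespace H62

open Module

variable {F V : Type*} [Field F] [AddCommGroup V] [Module F V] [FiniteDimensional F V]
  {B : LinearMap.BilinForm F V}

/-- The reflection in a non-singular vector of a bilinear form. -/
noncomputable def rf (B : LinearMap.BilinForm F V) {c : V} (hc : B c c ≠ 0) : V ≃ₗ[F] V :=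
  Module.reflection (x := c) (f := (2 / B c c) • B.flip c) (by simp [hc])

theorem rf_apply {c : V} (hc : B c c ≠ 0) (x : V) :
    rf B hc x = x - (2 * B x c / B c c) • c := by
  rw [rf, Module.reflection_apply]
  congr 2
  simp only [LinearMap.smul_apply, LinearMap.BilinForm.flip_apply, smul_eq_mul]
  ring

theorem rf_of_perp {c : V} (hc : B c c ≠ 0) {x : V} (h : B x c = 0) : rf B hc x = x := by
  simp [rf_apply, h]

theorem rf_self {c : V} (hc : B c c ≠ 0) : rf B hc c = -c := by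
  rw [rf_apply, mul_div_assoc, div_self hc]; module

theorem rf_rf {c : V} (hc : B c c ≠ 0) (x : V) : rf B hc (rf B hc x) = x := by
  rw [rf_apply hc x, map_sub, map_smul, rf_self, rf_apply]; module

theorem rf_isom (hs : ∀ x y, B x y = B y x) {c : V} (hc : B c c ≠ 0) (x y : V) :
    B (rf B hc x) (rf B hc y) = B x y := by
  simp only [rf_apply, map_sub, map_smul, LinearMap.sub_apply, LinearMap.smul_apply, smul_eq_mul,
    hs c y]
  field_simp
  ring

theorem det_rf {c : V} (hc : B c c ≠ 0) : LinearMap.det (rf B hc : V →ₗ[F] V) = -1 := by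
  rw [det_of_tv (φ := -((2 / B c c) • B.flip c)) (u := c) fun x => ?_]
  · simp [hc]; ring
  · rw [rf, Module.reflection_apply, LinearMap.neg_apply, neg_smul, sub_eq_add_neg]

theorem det_rf_mul {c d : V} (hc : B c c ≠ 0) (hd : B d d ≠ 0) :
    LinearMap.det ((rf B hc * rf B hd : V ≃ₗ[F] V) : V →ₗ[F] V) = 1 := by
  rw [LinearEquiv.coe_toLinearMap_mul, map_mul, det_rf, det_rf]; ring

theorem exists_ns_notMem (h2 : (2 : F) ≠ 0) (hs : ∀ x y, B x y = B y x) {W Z : Submodule F V}
    {a : V} (haW : a ∈ W) (ha : B a a ≠ 0) (hZ : ¬ W ≤ Z) : ∃ c ∈ W, c ∉ Z ∧ B c c ≠ 0 := by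
  obtain ⟨x, hxW, hxZ⟩ := SetLike.not_le_iff_exists.1 hZ
  by_cases haZ : a ∈ Z
  swap
  · exact ⟨a, haW, haZ, ha⟩
  by_contra hc
  push Not at hc
  have h0 := hc x hxW hxZ
  have h1 := hc (x + a) (W.add_mem hxW haW) fun h => hxZ (by simpa using Z.sub_mem h haZ)
  have h3 := hc (x - a) (W.sub_mem hxW haW) fun h => hxZ (by simpa using Z.add_mem h haZ)
  simp only [map_add, map_sub, LinearMap.add_apply, LinearMap.sub_apply, h0, hs a x] at h1 h3
  exact ha (mul_left_cancel₀ h2 (by linear_combination h1 + h3))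

theorem exists_ns (h2 : (2 : F) ≠ 0) (hs : ∀ x y, B x y = B y x) (hB : B.Nondegenerate)
    {W : Submodule F V} (h : finrank F V < 2 * finrank F W) : ∃ a ∈ W, B a a ≠ 0 := by
  by_contra hc
  push Not at hc
  have hle : W ≤ B.orthogonal W := fun x hx y hy => by
    have h1 := hc (x + y) (W.add_mem hx hy)
    simp only [map_add, LinearMap.add_apply, hc x hx, hc y hy, hs x y] at h1
    exact mul_left_cancel₀ h2 (by linear_combination h1)
  have h1 := Submodule.finrank_mono hle
  rw [LinearMap.BilinForm.finrank_orthogonal hB] at h1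
  have := Submodule.finrank_le W
  omega

theorem finrank_le_ker_two (φ ψ : Dual F V) :
    finrank F V ≤ finrank F ↥(LinearMap.ker φ ⊓ LinearMap.ker ψ) + 2 := by
  have h1 := finrank_le_finrank_inf_ker_add_one (⊤ : Submodule F V) φ
  have h3 := finrank_le_finrank_inf_ker_add_one (LinearMap.ker φ) ψ
  rw [top_inf_eq, finrank_top] at h1
  omega

theorem exists_ns_two (h2 : (2 : F) ≠ 0) (hs : ∀ x y, B x y = B y x) (hB : B.Nondegenerate)
    (hn : 5 ≤ finrank F V) (φ ψ : Dual F V) : ∃ d, B d d ≠ 0 ∧ φ d = 0 ∧ ψ d = 0 := by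
  have := finrank_le_ker_two φ ψ
  obtain ⟨d, hd, h⟩ := exists_ns h2 hs hB (W := LinearMap.ker φ ⊓ LinearMap.ker ψ) (by omega)
  exact ⟨d, h, hd.1, hd.2⟩

/-- A non-singular vector orthogonal to `f` and not orthogonal to `u`. -/
theorem exists_ns_perp (h2 : (2 : F) ≠ 0) (hs : ∀ x y, B x y = B y x) (hB : B.Nondegenerate)
    (hn : 5 ≤ finrank F V) {u f : V} (hu : u ∉ F ∙ f) :
    ∃ c, B c c ≠ 0 ∧ B c f = 0 ∧ B u c ≠ 0 := by
  obtain ⟨a, ha, haf, -⟩ := exists_ns_two h2 hs hB hn (B.flip f) 0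
  obtain ⟨c, h1, h3, h4⟩ := exists_ns_notMem h2 hs (W := LinearMap.ker (B.flip f))
    (Z := LinearMap.ker (B u)) haf ha fun h => by
      obtain ⟨φ, h5, h6⟩ := exists_dual_pair hu
      obtain ⟨y, hy⟩ := exists_flip_eq hB φ
      have h7 : B u y = 0 := h (show B y f = 0 by rw [hs, hy, h6])
      rw [hy, h5] at h7
      exact one_ne_zero h7
  exact ⟨c, h4, h1, h3⟩

/-- The properties of the relation "the transvection with centre `u` and axis `f^⊥` lies in the
overgroup" that are symmetric in the two arguments. -/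
structure OT (B : LinearMap.BilinForm F V) (T : V → V → Prop) : Prop where
  zero : ∀ f, T 0 f
  sub : ∀ {u u' f}, T u f → T u' f → B u f = 0 → B u' f = 0 → T (u - u') f
  rr : ∀ {u f c d} (hc : B c c ≠ 0) (hd : B d d ≠ 0), T u f →
    T (rf B hc (rf B hd u)) (rf B hc (rf B hd f))
  sgn : ∀ {u f}, T u (-f) → T (-u) f

theorem OT.full [Finite F] {T : V → V → Prop} (hT : OT B T) (h2 : (2 : F) ≠ 0)
    (hs : ∀ x y, B x y = B y x) (hB : B.Nondegenerate) (hn : 5 ≤ finrank F V) {u f : V}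
    (hf : B f f ≠ 0) (hu : u ≠ 0) (huf : B u f = 0) (h : T u f) {x : V} (hx : B x f = 0) :
    T x f := by
  let A : AddSubgroup V := AddSubgroup.ofSub {x | B x f = 0 ∧ T x f} ⟨0, by simp, hT.zero f⟩
    fun a ha b hb => by
      rw [← sub_eq_add_neg]
      exact ⟨by simp [ha.1, hb.1], hT.sub ha.2 hb.2 ha.1 hb.1⟩
  have hA : ∀ y, y ∈ A ↔ B y f = 0 ∧ T y f := fun y => Iff.rfl
  have hP : ∀ y ∈ A, ∀ c, B c c ≠ 0 → B c f = 0 → (2 * B y c / B c c) • c ∈ A := by
    intro y hy c hc hcf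
    have h1 := hT.rr hc hf ((hA y).1 hy).2
    rw [rf_of_perp hf ((hA y).1 hy).1, rf_self, map_neg, rf_of_perp hc (x := f) (by rw [hs, hcf])] at h1
    have h3 : -rf B hc y ∈ A := (hA _).2 ⟨by simp [rf_apply, ((hA y).1 hy).1, hcf], hT.sgn h1⟩
    have h4 := A.add_mem hy h3
    rwa [rf_apply, neg_sub, add_sub_cancel] at h4
  have hnot : ∀ z, z ≠ 0 → B z f = 0 → z ∉ F ∙ f := by
    intro z hz hzf hm
    obtain ⟨a, rfl⟩ := Submodule.mem_span_singleton.1 hm
    simp only [map_smul, LinearMap.smul_apply, smul_eq_mul, mul_eq_zero, hf, or_false] at hzf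
    exact hz (by simp [hzf])
  obtain ⟨u₁, hu₁, hns⟩ : ∃ u₁ ∈ A, B u₁ u₁ ≠ 0 := by
    obtain ⟨c, hc, hcf, huc⟩ := exists_ns_perp h2 hs hB hn (hnot u hu huf)
    refine ⟨_, hP u ((hA u).2 ⟨huf, h⟩) c hc hcf, ?_⟩
    simp [hc, huc, h2]
  have := finrank_le_ker_two (B.flip f) (B u₁)
  obtain ⟨z, hz, hz0, hzz⟩ := H60.exists_sing (Q := B.toQuadraticMap)
    (LinearMap.ker (B.flip f) ⊓ LinearMap.ker (B u₁)) (by omega)
  have hzf : B z f = 0 := hz.1
  have huz : B u₁ z = 0 := hz.2
  have hzz : B z z = 0 := hzz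
  have hzA : ∀ l : F, l • z ∈ A := by
    intro l
    have h1 : B (u₁ + (l / 2) • z) (u₁ + (l / 2) • z) = B u₁ u₁ := by
      simp [hzz, huz, hs z u₁]
    have h3 := hP u₁ hu₁ (u₁ + (l / 2) • z) (h1 ▸ hns) (by simp [hzf, ((hA _).1 hu₁).1])
    have h4 : 2 * B u₁ (u₁ + (l / 2) • z) / B (u₁ + (l / 2) • z) (u₁ + (l / 2) • z) = 2 := by
      rw [h1]; simp [huz, hns]
    rw [h4] at h3
    have h5 := A.sub_mem (A.sub_mem h3 hu₁) hu₁
    convert h5 using 1
    rw [smul_add, smul_smul, mul_div_cancel₀ _ h2]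
    module
  have h3 : ∀ c, B c c ≠ 0 → B c f = 0 → B z c ≠ 0 → c ∈ A := by
    intro c hc hcf hzc
    have h1 := hP _ (hzA (B c c / (2 * B z c))) c hc hcf
    have h4 : 2 * B ((B c c / (2 * B z c)) • z) c / B c c = 1 := by
      simp only [map_smul, LinearMap.smul_apply, smul_eq_mul]
      field_simp
    rwa [h4, one_smul] at h1
  have h4 : ∀ y, B y f = 0 → B z y ≠ 0 → y ∈ A := by
    intro y hyf hzy
    by_cases hy : B y y = 0
    · have h1 := h3 (y + z) (by
        simp only [map_add, LinearMap.add_apply, hy, hzz, hs y z, zero_add, add_zero]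
        rw [← two_mul]; exact mul_ne_zero h2 hzy) (by simp [hyf, hzf]) (by simpa [hzz] using hzy)
      have h5 := A.sub_mem h1 (hzA 1)
      simpa using h5
    · exact h3 y hy hyf hzy
  refine ((hA x).1 ?_).2
  by_cases hzx : B z x = 0
  · obtain ⟨y, -, hyf, hzy⟩ := exists_ns_perp h2 hs hB hn (hnot z hz0 hzf)
    have h1 := A.sub_mem (h4 (x + y) (by simp [hx, hyf]) (by simpa [hzx] using hzy)) (h4 y hyf hzy)
    simpa using h1
  · exact h4 x hx hzx

section SO

variable {M : Subgroup (V ≃ₗ[F] V)}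

theorem HasTv.rr (hs : ∀ x y, B x y = B y x)
    (hM : ∀ e : V ≃ₗ[F] V, (∀ x y, B (e x) (e y) = B x y) → LinearMap.det (e : V →ₗ[F] V) = 1 → e ∈ M)
    {u f c d : V} (hc : B c c ≠ 0) (hd : B d d ≠ 0) (h : HasTv M (B.flip f) u) :
    HasTv M (B.flip (rf B hc (rf B hd f))) (rf B hc (rf B hd u)) :=
  h.conj' (g := rf B hc * rf B hd) (hM _ (fun x y => by simp [rf_isom hs]) (det_rf_mul hc hd))
    fun x => by simp [rf_isom hs]

theorem ot_left (hs : ∀ x y, B x y = B y x)
    (hM : ∀ e : V ≃ₗ[F] V, (∀ x y, B (e x) (e y) = B x y) → LinearMap.det (e : V →ₗ[F] V) = 1 → e ∈ M) :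
    OT B fun u f => HasTv M (B.flip f) u where
  zero _ := HasTv.zero_right _ _
  sub h1 h2 _ h4 := h1.sub_right h2 h4
  rr hc hd h := h.rr hs hM hc hd
  sgn h := h.congr fun x => by simp

theorem ot_right (hs : ∀ x y, B x y = B y x)
    (hM : ∀ e : V ≃ₗ[F] V, (∀ x y, B (e x) (e y) = B x y) → LinearMap.det (e : V →ₗ[F] V) = 1 → e ∈ M) :
    OT B fun f u => HasTv M (B.flip f) u where
  zero u := (HasTv.zero_left M u).congr fun x => by simp
  sub {a b u} h1 h2 h3 h4 := by
    rw [map_sub]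
    exact h1.sub_left h2 (by rwa [hs] at h3) (by rwa [hs] at h4)
  rr hc hd h := h.rr hs hM hc hd
  sgn h := h.congr fun x => by simp

/-- A group containing `SO(V)` and one transvection contains all transvections. -/
theorem forall_hasTv_of_so [Finite F] (h2 : (2 : F) ≠ 0) (hs : ∀ x y, B x y = B y x)
    (hB : B.Nondegenerate) (hn : 5 ≤ finrank F V)
    (hM : ∀ e : V ≃ₗ[F] V, (∀ x y, B (e x) (e y) = B x y) → LinearMap.det (e : V →ₗ[F] V) = 1 → e ∈ M)
    {u f : V} (hu : u ≠ 0) (hf : f ≠ 0) (huf : B u f = 0) (h : HasTv M (B.flip f) u)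
    (φ : Dual F V) (w : V) (hφ : φ w = 0) : HasTv M φ w := by
  have hL := ot_left hs hM
  have hR := ot_right hs hM
  -- a transvection with centre and pole independent
  obtain ⟨u, f, hf, hu, huf, h⟩ : ∃ u f, f ≠ 0 ∧ u ∉ F ∙ f ∧ B u f = 0 ∧ HasTv M (B.flip f) u := by
    by_cases hm : u ∈ F ∙ f
    swap
    · exact ⟨u, f, hf, hm, huf, h⟩
    obtain ⟨l, rfl⟩ := Submodule.mem_span_singleton.1 hm
    have hl : l ≠ 0 := by rintro rfl; simp at hu
    have hff : B f f = 0 := by simpa [hl] using huf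
    obtain ⟨d, hd, hdf, -⟩ := exists_ns_two h2 hs hB hn (B f) 0
    obtain ⟨c, hc, -, hfc⟩ := exists_ns_perp h2 hs hB hn (u := f) (f := 0) (by simpa using hf)
    have h1 := h.rr hs hM hc hd
    rw [map_smul, map_smul, rf_of_perp hd hdf] at h1
    set f' := rf B hc f with hf'
    have hff' : B f f' ≠ 0 := by
      rw [hf', rf_apply, map_sub, map_smul, hff, zero_sub, neg_ne_zero, smul_eq_mul]
      exact mul_ne_zero (div_ne_zero (mul_ne_zero h2 hfc) hc) hfc
    have hf'f' : B f' f' = 0 := by rw [hf', rf_isom hs, hff]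
    have h3 := h.conj_tv huf h1
    refine ⟨l • f' + B.flip f (l • f') • l • f, f' - (l * B f f') • f, fun h4 => ?_, fun h4 => ?_,
      ?_, h3.congr fun x => ?_⟩
    · have h5 := congrArg (B f) h4
      simp [hff, hff'] at h5
    · obtain ⟨a, ha⟩ := Submodule.mem_span_singleton.1 h4
      have h5 := congrArg (B f) ha
      have h6 := congrArg (B f') ha
      simp only [map_smul, map_sub, map_add, hff, hf'f', hs f' f, smul_eq_mul, mul_zero, sub_zero,
        add_zero, zero_sub, zero_add, LinearMap.BilinForm.flip_apply, LinearMap.smul_apply] at h5 h6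
      have h7 : a = l := mul_right_cancel₀ hff' h5
      rw [h7] at h6
      have h8 : 2 * l ^ 2 * B f f' ^ 2 = 0 := by linear_combination -h6
      simp [h2, hl, hff'] at h8
    · simp only [map_smul, map_sub, map_add, hff, hf'f', hs f' f, smul_eq_mul,
        LinearMap.BilinForm.flip_apply, LinearMap.smul_apply, LinearMap.add_apply]
      ring
    · simp
  -- a transvection with non-singular centre
  obtain ⟨c, hc, hcf, huc⟩ := exists_ns_perp h2 hs hB hn hu
  obtain ⟨d, hd, hdu, hdf⟩ := exists_ns_two h2 hs hB hn (B u) (B f)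
  have h1 := h.rr hs hM hc hd
  rw [rf_of_perp hd hdu, rf_of_perp hd hdf, rf_of_perp hc (by rw [hs, hcf])] at h1
  have h3 := h.sub_right h1 (by simp [rf_apply, huf, hcf])
  rw [rf_apply, sub_sub_cancel] at h3
  set c' := (2 * B u c / B c c) • c with hc'
  have hc'c' : B c' c' ≠ 0 := by simp [hc', hc, huc, h2]
  have hc'f : B f c' = 0 := by simp [hc', hs f c, hcf]
  have h4 : ∀ f', B f' c' = 0 → HasTv M (B.flip f') c' := fun f' hf' =>
    hR.full h2 hs hB hn hc'c' hf hc'f h3 hf'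
  have hne : ∀ x, B x x ≠ 0 → x ≠ 0 := by rintro x hx rfl; simp at hx
  -- every non-singular centre is full
  have h5 : ∀ x, B x x ≠ 0 → ∀ f', B f' x = 0 → HasTv M (B.flip f') x := by
    intro x hx f' hf'
    obtain ⟨y, hy, hyx, hyc⟩ := exists_ns_two h2 hs hB hn (B x) (B c')
    have h6 := hL.full h2 hs hB hn hy (hne _ hc'c') hyc (h4 y (by rw [hs, hyc])) hyx
    exact hR.full h2 hs hB hn hx (hne _ hy) (by rw [hs, hyx]) h6 hf'
  obtain ⟨f', hf'⟩ := exists_flip_eq hB φ
  have e : φ = B.flip f' := LinearMap.ext fun x => (hf' x).symm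
  subst e
  have hφ : B w f' = 0 := hφ
  by_cases hw : B w w = 0
  · obtain ⟨a, ha, haf, haw⟩ := exists_ns_two h2 hs hB hn (B f') (B w)
    have h6 := (h5 (w + a) (by simpa [hw, haw, hs a w] using ha) f'
      (by simp [haf, hs f' w, hφ])).sub_right (h5 a ha f' haf) (by simpa [hs a f'] using haf)
    simpa using h6
  · exact h5 w hw f' (by rw [hs, hφ])

/-- An element of `SO(V)` fixing `U` pointwise and moving a vector outside `U`. -/
theorem exists_so_fix (h2 : (2 : F) ≠ 0) (hs : ∀ x y, B x y = B y x) (hB : B.Nondegenerate)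
    {U : Submodule F V} (hU : finrank F U + 2 ≤ finrank F V) {w : V} (hw : w ∉ U) :
    ∃ s : V ≃ₗ[F] V, (∀ x y, B (s x) (s y) = B x y) ∧ LinearMap.det (s : V →ₗ[F] V) = 1 ∧
      (∀ x ∈ U, s x = x) ∧ s w ≠ w := by
  have hZ : ¬ B.orthogonal U ≤ LinearMap.ker (B w) := fun h => by
    obtain ⟨φ, h5, h6⟩ := exists_dual_eq_one hw
    obtain ⟨y, hy⟩ := exists_flip_eq hB φ
    have h7 : B w y = 0 := h (show y ∈ B.orthogonal U from fun x hx => by rw [hy, h6 x hx])
    rw [hy, h5] at h7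
    exact one_ne_zero h7
  have hdim : 2 ≤ finrank F (B.orthogonal U) := by
    rw [LinearMap.BilinForm.finrank_orthogonal hB]; omega
  have hline : ∀ c : V, ¬ B.orthogonal U ≤ F ∙ c := fun c h => by
    have h1 := Submodule.finrank_mono h
    have h3 := H60.finrank_span_singleton_le (F := F) c
    omega
  by_cases hns : ∃ a ∈ B.orthogonal U, B a a ≠ 0
  · obtain ⟨a, ha, haa⟩ := hns
    obtain ⟨c, hc, hwc, hcc⟩ := exists_ns_notMem h2 hs ha haa hZ
    obtain ⟨d, hd, hdc, hdd⟩ := exists_ns_notMem h2 hs ha haa (hline c)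
    refine ⟨rf B hcc * rf B hdd, fun x y => by simp [rf_isom hs], det_rf_mul hcc hdd,
      fun x hx => ?_, fun h => ?_⟩
    · rw [LinearEquiv.mul_apply, rf_of_perp hdd (hd x hx), rf_of_perp hcc (hc x hx)]
    · have h1 := congrArg (rf B hcc) h
      rw [LinearEquiv.mul_apply, rf_rf, rf_apply, rf_apply, sub_right_inj] at h1
      have hc0 : c ≠ 0 := by rintro rfl; simp at hcc
      refine notMem_span_symm (by rintro rfl; simp at hdd) (notMem_span_symm hc0 hdc) ?_
      have h3 : 2 * B w c / B c c ≠ 0 := div_ne_zero (mul_ne_zero h2 hwc) hcc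
      refine absurd (Submodule.mem_span_singleton.2 ⟨(2 * B w c / B c c)⁻¹ * (2 * B w d / B d d), ?_⟩)
        (notMem_span_symm hc0 hdc)
      rw [mul_smul, h1, smul_smul, inv_mul_cancel₀ h3, one_smul]
  · push Not at hns
    obtain ⟨z, hz, hwz⟩ := SetLike.not_le_iff_exists.1 hZ
    obtain ⟨z', hz', hzz'⟩ := SetLike.not_le_iff_exists.1 (hline z)
    have hwz : B w z ≠ 0 := hwz
    have h1 : B z z' = 0 := by
      have h1 := hns (z + z') (add_mem hz hz')
      simp only [map_add, LinearMap.add_apply, hns z hz, hns z' hz', hs z' z] at h1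
      exact mul_left_cancel₀ h2 (by linear_combination h1)
    obtain ⟨t, ht⟩ := exists_tv (φ := B.flip z) (u := z') (by simpa [hs z' z] using h1)
    obtain ⟨t', ht'⟩ := exists_tv (φ := -B.flip z') (u := z) (by simpa using h1)
    have h3 : ∀ x, (t * t') x = x + B x z • z' - B x z' • z := fun x => by
      simp only [LinearEquiv.mul_apply, ht, ht', map_add, map_smul, LinearMap.neg_apply,
        LinearMap.BilinForm.flip_apply, LinearMap.add_apply, LinearMap.smul_apply, hns z hz]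
      module
    refine ⟨t * t', fun x y => ?_, ?_, fun x hx => ?_, fun h => hzz' ?_⟩
    · simp only [h3, map_add, map_sub, map_smul, LinearMap.add_apply, LinearMap.sub_apply,
        LinearMap.smul_apply, smul_eq_mul, hns z hz, hns z' hz', h1, hs z' z, hs z y, hs z' y]
      ring
    · rw [LinearEquiv.coe_toLinearMap_mul, map_mul, det_of_tv ht, det_of_tv ht']
      simp [h1, hs z' z]
    · rw [h3, hz x hx, hz' x hx]; simp
    · rw [h3, add_sub_assoc, add_eq_left, sub_eq_zero] at h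
      exact Submodule.mem_span_singleton.2 ⟨(B w z)⁻¹ * B w z', by
        rw [mul_smul, ← h, smul_smul, inv_mul_cancel₀ hwz, one_smul]⟩

/-- A map for which every non-singular vector is an eigenvector is a scalar. -/
theorem exists_smul_of_ns (h2 : (2 : F) ≠ 0) (hs : ∀ x y, B x y = B y x) (hB : B.Nondegenerate)
    (hn : 5 ≤ finrank F V) (θ : V →ₗ[F] V) (h : ∀ a, B a a ≠ 0 → ∃ c : F, θ a = c • a) :
    ∃ c : F, ∀ x, θ x = c • x := by
  have hne : ∀ x, B x x ≠ 0 → x ≠ 0 := by rintro x hx rfl; simp at hx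
  have key : ∀ {a b : V} {l m : F}, a ≠ 0 → b ≠ 0 → θ a = l • a → θ b = m • b → l ≠ m →
      B (a + b) (a + b) = 0 := by
    intro a b l m ha hb h1 h3 hlm
    by_contra hc
    obtain ⟨k, hk⟩ := h _ hc
    have h4 : (l - k) • a = (k - m) • b := by
      rw [map_add, h1, h3] at hk
      rw [sub_smul, sub_smul, sub_eq_sub_iff_add_eq_add, hk, smul_add, add_comm]
    have h5 := congrArg θ h4
    rw [map_smul, map_smul, h1, h3, smul_comm (k - m), ← h4, smul_smul, smul_smul] at h5
    have h6 : l - k = 0 := by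
      by_contra h7
      exact hlm (mul_left_cancel₀ h7 (by rw [smul_left_injective F ha h5, mul_comm]))
    rw [h6, zero_smul, eq_comm, smul_eq_zero, or_iff_left hb] at h4
    exact hlm (by linear_combination h6 + h4)
  have key2 : ∀ {a b : V} {l m : F}, a ≠ 0 → b ≠ 0 → θ a = l • a → θ b = m • b → l ≠ m →
      B a b = 0 ∧ B a a + B b b = 0 := by
    intro a b l m ha hb h1 h3 hlm
    have h4 := key ha hb h1 h3 hlm
    have h5 := key ha (neg_ne_zero.2 hb) h1 (m := m) (by simp [h3]) hlm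
    simp only [map_add, map_neg, LinearMap.add_apply, LinearMap.neg_apply, hs b a] at h4 h5
    exact ⟨mul_left_cancel₀ (mul_ne_zero h2 h2) (by linear_combination h4 - h5),
      mul_left_cancel₀ h2 (by linear_combination h4 + h5)⟩
  obtain ⟨a, ha, -, -⟩ := exists_ns_two h2 hs hB hn 0 0
  obtain ⟨l, hl⟩ := h a ha
  refine ⟨l, fun x => ?_⟩
  by_contra hx
  obtain ⟨b, -, hb, hbb⟩ := exists_ns_notMem h2 hs (W := ⊤) (Z := LinearMap.ker (θ - l • 1))
    trivial ha fun h => hx (by simpa [sub_eq_zero] using h (Submodule.mem_top (x := x)))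
  obtain ⟨m, hm⟩ := h b hbb
  have hlm : l ≠ m := by rintro rfl; exact hb (by simp [hm])
  obtain ⟨c, hc, hac, hbc⟩ := exists_ns_two h2 hs hB hn (B a) (B b)
  obtain ⟨k, hk⟩ := h c hc
  have main : ∀ {a b : V} {l m : F}, B a a ≠ 0 → B b b ≠ 0 → θ a = l • a → θ b = m • b → l ≠ m →
      B a c = 0 → B b c = 0 → l ≠ k → False := by
    intro a b l m ha hb hl hm hlm hac hbc hlk
    obtain ⟨h3, h4⟩ := key2 (hne _ ha) (hne _ hb) hl hm hlm
    obtain ⟨-, h5⟩ := key2 (hne _ ha) (hne _ hc) hl hk hlk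
    have h6 : m = k := by
      by_contra h6
      have h7 := (key2 (hne _ hb) (hne _ hc) hm hk h6).2
      exact ha (mul_left_cancel₀ h2 (by linear_combination h4 + h5 - h7))
    have h7 : B (b + c) (b + c) ≠ 0 := by
      simp only [map_add, LinearMap.add_apply, hs c b, hbc]
      intro h8
      exact ha (mul_left_cancel₀ h2 (by linear_combination h4 + h5 - h8))
    have h8 := (key2 (hne _ ha) (hne _ h7) hl (m := m) (by rw [map_add, hm, hk, h6, smul_add])
      hlm).2
    simp only [map_add, LinearMap.add_apply, hs c b, hbc] at h8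
    exact ha (by linear_combination h4 + h5 - h8)
  by_cases hlk : l = k
  · exact main hbb ha hm hl hlm.symm hbc hac fun h => hlm (hlk.trans h.symm)
  · exact main ha hbb hl hm hlm hac hbc hlk

theorem so_sim_maximal [Finite F] (h2 : (2 : F) ≠ 0) (hs : ∀ x y, B x y = B y x)
    (hB : B.Nondegenerate) (hn : 5 ≤ finrank F V)
    (hM : ∀ e : V ≃ₗ[F] V, (∀ x y, B (e x) (e y) = B x y) → LinearMap.det (e : V →ₗ[F] V) = 1 → e ∈ M)
    {g : V ≃ₗ[F] V} (hg : g ∈ M) (hns : ¬ ∃ c : Fˣ, ∀ u v, B (g u) (g v) = c * B u v)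
    (e : V ≃ₗ[F] V) (he : LinearMap.det (e : V →ₗ[F] V) = 1) : e ∈ M := by
  -- `B (x, g y) = B (θ x ...)`: `θ` is the adjoint of `g⁻¹` composed with ...
  have hex : ∀ a : V, ∃ f, ∀ x, B x f = B (g x) (g a) := fun a =>
    exists_flip_eq hB (B.flip (g a) ∘ₗ (g : V →ₗ[F] V))
  choose θ' hθ' using hex
  let θ : V →ₗ[F] V :=
    { toFun := θ'
      map_add' := fun a b => sub_eq_zero.1 (hB.2 _ fun x => by simp [hθ'])
      map_smul' := fun c a => sub_eq_zero.1 (hB.2 _ fun x => by simp [hθ']) }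
  have hθ : ∀ a x, B x (θ a) = B (g x) (g a) := hθ'
  let B' : LinearMap.BilinForm F V := B.comp (g : V →ₗ[F] V) (g : V →ₗ[F] V)
  have hB'a : ∀ x y, B' x y = B (g x) (g y) := fun x y => rfl
  have hs' : ∀ x y, B' x y = B' y x := fun x y => hs _ _
  have hB' : B'.Nondegenerate :=
    ⟨fun x hx => g.map_eq_zero_iff.1 (hB.1 _ fun y => by simpa [hB'a] using hx (g.symm y)),
      fun x hx => g.map_eq_zero_iff.1 (hB.2 _ fun y => by simpa [hB'a] using hx (g.symm y))⟩
  have hθ0 : ∀ a, θ a = 0 → a = 0 := fun a ha => hB'.2 _ fun x => by rw [hB'a, ← hθ, ha, map_zero]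
  obtain ⟨a, ha, haθ⟩ : ∃ a, B' a a ≠ 0 ∧ a ∉ F ∙ θ a := by
    by_contra hc
    push Not at hc
    obtain ⟨c, hc'⟩ := exists_smul_of_ns h2 hs' hB' hn θ fun a ha => by
      by_contra h1
      refine notMem_span_symm (u := a) (v := θ a) (F := F) (by rintro rfl; simp at ha) ?_ (hc a ha)
      intro h3
      obtain ⟨k, hk⟩ := Submodule.mem_span_singleton.1 h3
      exact h1 ⟨k, hk.symm⟩
    have hc0 : c ≠ 0 := by
      rintro rfl
      obtain ⟨a, ha, -, -⟩ := exists_ns_two h2 hs hB hn 0 0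
      rw [hθ0 a (by simp [hc'])] at ha
      simp at ha
    exact hns ⟨Units.mk0 c hc0, fun u v => by rw [← hθ, hc']; simp⟩
  obtain ⟨φ, hφ1, hφ2⟩ := exists_dual_pair haθ
  obtain ⟨b, hb, hb1, hb2⟩ := exists_ns_two h2 hs' hB' hn φ (φ ∘ₗ θ)
  have hU := finrank_span_list_le (F := F) [θ a, θ b, b]
  obtain ⟨s, hs1, hs2, hs3, hs4⟩ := exists_so_fix h2 hs hB
    (U := Submodule.span F {x | x ∈ [θ a, θ b, b]}) (by simp at hU; omega) (w := a) fun h => by
      have h1 : Submodule.span F {x | x ∈ [θ a, θ b, b]} ≤ LinearMap.ker φ := by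
        rw [Submodule.span_le]
        intro x hx
        simp only [List.mem_cons, List.not_mem_nil, or_false, Set.mem_ofPred_eq] at hx
        rcases hx with rfl | rfl | rfl
        exacts [hφ2, hb2, hb1]
      have h3 : φ a = 0 := h1 h
      rw [hφ1] at h3
      exact one_ne_zero h3
  have hsa : s (θ a) = θ a := hs3 _ (Submodule.subset_span (by simp))
  have hsb : s (θ b) = θ b := hs3 _ (Submodule.subset_span (by simp))
  have hsb' : s b = b := hs3 _ (Submodule.subset_span (by simp))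
  have hsM := hM s hs1 hs2
  have htM : rf B' ha * rf B' hb ∈ M := by
    have ha' : B (g a) (g a) ≠ 0 := ha
    have hb' : B (g b) (g b) ≠ 0 := hb
    have h1 := hM (rf B ha' * rf B hb') (fun x y => by simp [rf_isom hs]) (det_rf_mul _ _)
    have h3 : rf B' ha * rf B' hb = g⁻¹ * (rf B ha' * rf B hb') * g := by
      ext x
      apply g.injective
      simp [rf_apply, hB'a]
    rw [h3]
    exact M.mul_mem (M.mul_mem (M.inv_mem hg) h1) hg
  have hBa : ∀ x, B' (s x) a = B' x a := fun x => by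
    rw [hB'a, hB'a, ← hθ, ← hθ, ← hs1 x, hsa]
  have hBb : ∀ x, B' (s x) b = B' x b := fun x => by
    rw [hB'a, hB'a, ← hθ, ← hθ, ← hs1 x, hsb]
  have hcomm : ∀ x, s (rf B' hb x) = rf B' hb (s x) := fun x => by
    simp [rf_apply, hsb', hBb]
  have hT : HasTv M (B.flip ((2 / B' a a) • θ a)) (s a - a) := by
    refine ⟨s * (rf B' ha * rf B' hb) * s⁻¹ * (rf B' ha * rf B' hb)⁻¹, M.mul_mem (M.mul_mem
      (M.mul_mem hsM htM) (M.inv_mem hsM)) (M.inv_mem htM), fun x => ?_⟩
    have h1 : (rf B' ha * rf B' hb)⁻¹ x = rf B' hb (rf B' ha x) := by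
      rw [LinearEquiv.coe_inv, LinearEquiv.symm_apply_eq]
      simp [rf_rf]
    have h3 : s⁻¹ (rf B' hb (rf B' ha x)) = rf B' hb (s.symm (rf B' ha x)) := by
      rw [LinearEquiv.coe_inv, LinearEquiv.symm_apply_eq, hcomm, s.apply_symm_apply]
    simp only [LinearEquiv.mul_apply]
    rw [h1, h3, rf_rf, rf_apply ha (s.symm _), map_sub, map_smul, s.apply_symm_apply, ← hBa,
      s.apply_symm_apply, rf_apply]
    simp only [map_sub, map_smul, LinearMap.sub_apply, LinearMap.smul_apply, smul_eq_mul,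
      LinearMap.BilinForm.flip_apply, hθ, ← hB'a]
    match_scalars <;> field_simp <;> ring
  refine mem_of_det_eq_one (forall_hasTv_of_so h2 hs hB hn hM (sub_ne_zero.2 hs4) ?_ ?_ hT) e he
  · refine smul_ne_zero (div_ne_zero h2 ha) fun h => ?_
    rw [hθ0 a h] at ha
    simp at ha
  · rw [map_smul, hθ, ← hB'a, map_sub, LinearMap.sub_apply, hBa, sub_self, smul_zero]

theorem exists_det_one_not_so_sim (h2 : (2 : F) ≠ 0) (hs : ∀ x y, B x y = B y x)
    (hB : B.Nondegenerate) (hn : 5 ≤ finrank F V) :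
    ∃ e : V ≃ₗ[F] V, LinearMap.det (e : V →ₗ[F] V) = 1 ∧
      ¬ ∃ c : Fˣ, ∀ u v, B (e u) (e v) = c * B u v := by
  obtain ⟨u, hu, -, -⟩ := exists_ns_two h2 hs hB hn 0 0
  obtain ⟨w, hw, huw, -⟩ := exists_ns_two h2 hs hB hn (B u) 0
  obtain ⟨e, he⟩ := exists_tv (φ := B.flip w) (u := u) huw
  refine ⟨e, by rw [det_of_tv he]; simp [huw], ?_⟩
  rintro ⟨c, hc⟩
  have := hc w u
  simp [he, huw, hs w u, hu, hw] at this

end SO

/-- The similarities of determinant one of a non-degenerate quadratic form are maximal in `SL`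
(odd characteristic, dimension at least `5`). -/
theorem isMaximalIn_sl_orth [Fintype F] {ι : Type} [Fintype ι] [DecidableEq ι]
    (hn : 5 ≤ Fintype.card ι) (hodd : Odd (Fintype.card F)) (Q : (ι → F) → F)
    (hQ : Cfsg.Geo.IsNondegenerateQuadraticForm Q) :
    Cfsg.Geo.IsMaximalIn (Cfsg.Geo.specialLinear ι F)
      (Cfsg.Geo.quadSimilarityGroup Q ⊓ Cfsg.Geo.specialLinear ι F) := by
  have h2 : (2 : F) ≠ 0 := fun h => by
    have : ringChar F = 2 := by
      have h1 := (ringChar.spec F 2).1 (by exact_mod_cast h)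
      rcases (Nat.dvd_prime Nat.prime_two).1 h1 with h3 | h3
      · exact absurd h3 CharP.ringChar_ne_one
      · exact h3
    exact absurd (FiniteField.even_card_of_char_two this) (by
      rw [Nat.odd_iff] at hodd; omega)
  have hB := quadOf_nondegenerate hQ
  have hs : ∀ x y, (quadOf hQ).polarBilin x y = (quadOf hQ).polarBilin y x := fun x y =>
    QuadraticMap.polar_comm _ x y
  have hn' : 5 ≤ finrank F (ι → F) := by simpa using hn
  have hsim : ∀ e : (ι → F) ≃ₗ[F] (ι → F), (∃ c : Fˣ, ∀ v, quadOf hQ (e v) = c * quadOf hQ v) ↔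
      ∃ c : Fˣ, ∀ u v, (quadOf hQ).polarBilin (e u) (e v) = c * (quadOf hQ).polarBilin u v := by
    refine fun e => exists_congr fun c => ⟨fun h u v => ?_, fun h v => mul_left_cancel₀ h2 ?_⟩
    · simp only [QuadraticMap.polarBilin_apply_apply, QuadraticMap.polar, ← map_add, h]
      ring
    · have := h v v
      simp only [QuadraticMap.polarBilin_apply_apply, QuadraticMap.polar_self, two_nsmul] at this
      linear_combination this
  refine isMaximalIn_of_toLE (fun e => ∃ c : Fˣ, ∀ u v,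
      (quadOf hQ).polarBilin (e u) (e v) = c * (quadOf hQ).polarBilin u v)
    (fun e => LinearMap.det (e : (ι → F) →ₗ[F] (ι → F)) = 1) mem_specialLinear_iff
    (fun g => and_congr (hsim (toLE g)) (mem_specialLinear_iff g))
    (exists_det_one_not_so_sim h2 hs hB hn') fun M hM _ g hg hns e he => ?_
  exact so_sim_maximal h2 hs hB hn' (fun k h1 h3 => hM k ⟨1, by simpa using h1⟩ h3) hg hns e he

end H62
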