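import Cfsg.Agent.H62.SpPair
import Cfsg.Agent.H62.UPair

set_option autoImplicit false

/-! The stabiliser of a pair of complementary totally singular subspaces of dimension at least `3`
is maximal in `Sp(V)` and in `SU(V)`. -/

namespace H62

open Module H59 Cfsg Cfsg.Geo

variable {F V : Type*} [Field F] [AddCommGroup V] [Module F V]

theorem le_or_le_or_le {t : F} (h0 : t ≠ 0) (h1 : t ≠ 1) {X A B C : Submodule F V}
    (h : ∀ x ∈ X, x ∈ A ∨ x ∈ B ∨ x ∈ C) : X ≤ A ∨ X ≤ B ∨ X ≤ C := by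
  by_contra hc
  push Not at hc
  obtain ⟨x, hx, h2⟩ : ∃ x ∈ X, ¬ (x ∈ A ∨ x ∈ B) := by
    by_contra! h2; exact (le_or_le_of_forall_mem h2).elim hc.1 hc.2.1
  obtain ⟨y, hy, h3⟩ : ∃ y ∈ X, ¬ (y ∈ A ∨ y ∈ C) := by
    by_contra! h3; exact (le_or_le_of_forall_mem h3).elim hc.1 hc.2.2
  have x3 : x ∈ C := by have := h x hx; tauto
  have y2 : y ∈ B := by have := h y hy; tauto
  have key : ∀ s : F, s ≠ 0 → x + s • y ∈ A := fun s hs => by
    rcases h _ (X.add_mem hx (X.smul_mem s hy)) with h4 | h4 | h4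
    · exact h4
    · exact absurd (Or.inr ((B.add_mem_iff_left (B.smul_mem s y2)).1 h4)) h2
    · exact absurd (Or.inr ((C.smul_mem_iff hs).1 ((C.add_mem_iff_right x3).1 h4))) h3
  have := A.sub_mem (key t h0) (key 1 one_ne_zero)
  rw [add_sub_add_left_eq_sub, ← sub_smul, A.smul_mem_iff (sub_ne_zero.2 h1)] at this
  exact h3 (Or.inl this)

variable [FiniteDimensional F V] {D : Fin 2 → Submodule F V} {π : Fin 2 → V →ₗ[F] V}

section
variable {σ : F →+* F} {B : V →ₛₗ[σ] V →ₗ[F] F}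

theorem SingPair.cover (h : SingPair B D π) {i j : Fin 2} (hij : i ≠ j)
    (h3 : 3 ≤ finrank F (D j)) {P : V →ₗ[F] V} (hP : ¬ D j ≤ LinearMap.ker P)
    (hr : ∀ y, ¬ D j ≤ (F ∙ y).comap P ∨ ¬ D i ≤ (F ∙ y).comap P) :
    ∃ A A' : Submodule F V, ¬ D i ≤ A ∧ ¬ D i ≤ A' ∧
      (A = A' ∨ finrank F (D j) ≤ finrank F ↥(D j ⊓ LinearMap.ker P) + 1) ∧
      ∀ u ∈ D i, D j ⊓ LinearMap.ker (B u) ≤ (F ∙ P u).comap P → u ∈ A ∨ u ∈ A' := by
  have h0 : ∀ w ∈ D j, w ≠ 0 → ∃ A : Submodule F V, ¬ D i ≤ A ∧ ∀ u, B u w = 0 → u ∈ A :=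
    fun w hw hw0 => ⟨LinearMap.ker (B w), fun hle => by
      obtain ⟨z, z1, z2⟩ := h.exists_ne_zero hij.symm hw hw0
      exact z2 (hle z1), fun u hu => h.refl _ _ hu⟩
  by_cases hK : ∃ w ∈ D j, w ≠ 0 ∧ P w = 0
  swap
  · obtain ⟨w, w1, w2⟩ := exists_mem_notMem (W := D j) (Z := ⊥) (by simp; omega)
    obtain ⟨A, a1, -⟩ := h0 w w1 (by simpa using w2)
    refine ⟨A, A, a1, a1, Or.inl rfl, fun u _ hu => absurd ?_ hK⟩
    obtain ⟨φ, hφ⟩ : ∃ φ : Dual F V, P u ≠ 0 → φ (P u) = 1 := by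
      by_cases h1 : P u = 0
      · exact ⟨0, fun h2 => absurd h1 h2⟩
      · obtain ⟨φ, hφ⟩ := exists_dual_of_ne_zero (F := F) h1
        exact ⟨φ, fun _ => hφ⟩
    obtain ⟨x, x1, x2, x3⟩ := exists_mem_notMem_ker [B u, φ ∘ₗ P] (W := D j) (Z := ⊥)
      (by simp; omega)
    obtain ⟨c, hc⟩ := Submodule.mem_span_singleton.1 (hu ⟨x1, x3 (B u) (by simp)⟩)
    refine ⟨x, x1, by simpa using x2, ?_⟩
    by_cases h1 : P u = 0
    · simp [← hc, h1]
    · have h2 : φ (P x) = 0 := x3 (φ ∘ₗ P) (by simp)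
      rw [← hc, map_smul, hφ h1, smul_eq_mul, mul_one] at h2
      simp [← hc, h2]
  obtain ⟨w, w1, w2, w3⟩ := hK
  obtain ⟨A, a1, a2⟩ := h0 w w1 w2
  have key : ∀ u, D j ⊓ LinearMap.ker (B u) ≤ (F ∙ P u).comap P → u ∉ A →
      D j ≤ (F ∙ P u).comap P := fun u hu hA x hx => by
    have h1 : B u w ≠ 0 := fun h1 => hA (a2 u h1)
    simpa [w3] using hu (x := x - (B u x / B u w) • w)
      ⟨(D j).sub_mem hx ((D j).smul_mem _ w1), by simp [h1]⟩
  by_cases h1 : ∃ y, D j ≤ (F ∙ y).comap P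
  swap
  · exact ⟨A, A, a1, a1, Or.inl rfl, fun u _ hu => Or.inl (by_contra fun hA =>
      h1 ⟨_, key u hu hA⟩)⟩
  obtain ⟨y, hy⟩ := h1
  obtain ⟨x, x1, x2⟩ := SetLike.not_le_iff_exists.1 hP
  refine ⟨A, (F ∙ y).comap P, a1, (hr y).resolve_left (not_not.2 hy), Or.inr ?_,
    fun u _ hu => or_iff_not_imp_left.2 fun hA => ?_⟩
  · obtain ⟨φ, hφ⟩ := exists_dual_of_ne_zero (F := F) (x := y) (by
      rintro rfl; exact x2 (by simpa using hy x1))
    refine (finrank_le_finrank_inf_ker_add_one (D j) (φ ∘ₗ P)).trans (Nat.succ_le_succ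
      (Submodule.finrank_mono fun z hz => ⟨hz.1, ?_⟩))
    obtain ⟨c, hc⟩ := Submodule.mem_span_singleton.1 (hy hz.1)
    have h2 : φ (P z) = 0 := hz.2
    rw [← hc, map_smul, hφ, smul_eq_mul, mul_one] at h2
    simp [← hc, h2]
  · exact (Submodule.span_singleton_le_iff_mem (P x) (F ∙ y)).2 (hy x1)
      (mem_span_symm (x := P x) x2 (key u hu hA x1))

theorem SingPair.exists_pair3 (h : SingPair B D π) {t : F} (t0 : t ≠ 0) (t1 : t ≠ 1) {m : ℕ}
    (hm : ∀ i, finrank F (D i) = m) (h3 : 3 ≤ m) {g : V ≃ₗ[F] V} (hg : ¬ StabD D g) :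
    ∃ u ∈ D 0, ∃ w ∈ D 1, u ≠ 0 ∧ w ≠ 0 ∧ B u w = 0 ∧
      ((π 0 (g w) ∉ F ∙ π 0 (g u) ∧ π 1 (g w) ∉ F ∙ π 1 (g u)) ∨
        (π 0 (g u) ∉ F ∙ π 0 (g w) ∧ π 1 (g u) ∉ F ∙ π 1 (g w))) := by
  by_contra hc
  apply hg
  let P : Fin 2 → V →ₗ[F] V := fun i => π i ∘ₗ (g : V →ₗ[F] V)
  have hr : ∀ k y i j, i ≠ j → ¬ D j ≤ (F ∙ y).comap (P k) ∨ ¬ D i ≤ (F ∙ y).comap (P k) := by
    intro k y i j hij
    by_contra h1
    push Not at h1
    have h2 : D k ≤ F ∙ y := fun x hx => by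
      have : x = ∑ l, P k (π l (g.symm x)) := by
        rw [← map_sum, h.proj.sum]; simp [P, h.proj.of_mem hx]
      rw [this]
      refine Submodule.sum_mem _ fun l _ => ?_
      by_cases h4 : l = i
      · exact h1.2 (h4 ▸ h.proj.mem l _)
      · exact h1.1 ((show l = j by omega) ▸ h.proj.mem l _)
    have h4 := Submodule.finrank_mono h2
    have h5 := finrank_span_list_le (F := F) [y]
    rw [show {z | z ∈ [y]} = ({y} : Set V) by ext; simp] at h5
    simp only [hm, List.length_singleton] at h4 h5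
    omega
  have aux : ∀ i j, i ≠ j → (∀ u ∈ D i, ∀ w ∈ D j, u ≠ 0 → w ≠ 0 → B u w = 0 →
      P 0 w ∈ F ∙ P 0 u ∨ P 1 w ∈ F ∙ P 1 u) →
      D j ≤ LinearMap.ker (P 0) ∨ D j ≤ LinearMap.ker (P 1) := by
    intro i j hij H
    by_contra h1
    push Not at h1
    obtain ⟨A, A', a1, a2, a3, a4⟩ := h.cover hij (by rw [hm]; exact h3) h1.1 fun y => hr 0 y i j hij
    obtain ⟨C, C', c1, c2, c3, c4⟩ := h.cover hij (by rw [hm]; exact h3) h1.2 fun y => hr 1 y i j hij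
    have h2 : ∀ u ∈ D i, (u ∈ A ∨ u ∈ A') ∨ u ∈ C ∨ u ∈ C' := fun u hu => by
      by_cases h0 : u = 0
      · simp [h0]
      refine (le_or_le_of_forall_mem fun w hw => ?_).imp (a4 u hu) (c4 u hu)
      by_cases h4 : w = 0
      · simp [h4]
      · exact H u hu w hw.1 h0 h4 hw.2
    rcases a3 with rfl | a3
    · exact absurd (le_or_le_or_le t0 t1 fun u hu => by simpa using h2 u hu) (by tauto)
    rcases c3 with rfl | c3
    · exact absurd (le_or_le_or_le t0 t1 fun u hu => by simpa [or_assoc] using h2 u hu) (by tauto)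
    have h4 := Submodule.finrank_sup_add_finrank_inf_eq (D j ⊓ LinearMap.ker (P 0))
      (D j ⊓ LinearMap.ker (P 1))
    have h5 := Submodule.finrank_mono (show (D j ⊓ LinearMap.ker (P 0)) ⊔
      (D j ⊓ LinearMap.ker (P 1)) ≤ D j from sup_le inf_le_left inf_le_left)
    obtain ⟨x, ⟨⟨-, x1⟩, -, x2⟩, x3⟩ := exists_mem_notMem (W := (D j ⊓ LinearMap.ker (P 0)) ⊓
      (D j ⊓ LinearMap.ker (P 1))) (Z := ⊥) (by rw [finrank_bot]; rw [hm] at *; omega)
    have := h.proj.add_two (g x)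
    rw [show π 0 (g x) = 0 from x1, show π 1 (g x) = 0 from x2, add_zero, eq_comm] at this
    exact x3 (by simpa using this)
  have key : ∀ i j v, i ≠ j → P j v = 0 → g v ∈ D i := fun i j v hij h0 =>
    h.proj.mem_of_forall fun k hk => by
      have : k = j := by omega
      exact this ▸ h0
  have no : ∀ k, D 1 ≤ LinearMap.ker (P k) → ¬ D 0 ≤ LinearMap.ker (P k) := fun k h1 h2 => by
    simpa [h1, h2] using hr k 0 0 1 (by simp)
  rcases aux 0 1 (by simp) fun u hu w hw u0 w0 h0 => by_contra fun h1 =>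
    hc ⟨u, hu, w, hw, u0, w0, h0, Or.inl (not_or.1 h1)⟩ with a1 | a1 <;>
  rcases aux 1 0 (by simp) fun w hw u hu w0 u0 h0 => by_contra fun h1 =>
    hc ⟨u, hu, w, hw, u0, w0, h.refl _ _ h0, Or.inr (not_or.1 h1)⟩ with a2 | a2
  · exact absurd a2 (no 0 a1)
  · refine StabD.of_fix fun i v hv => ?_
    fin_cases i
    · exact key 0 1 v (by simp) (a2 hv)
    · exact key 1 0 v (by simp) (a1 hv)
  · refine IsProj.stabD_of_le hm g (Equiv.swap 0 1) fun i v hv => ?_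
    fin_cases i
    · exact key 1 0 v (by simp) (a2 hv)
    · exact key 0 1 v (by simp) (a1 hv)
  · exact absurd a2 (no 1 a1)

theorem SingPair.exists_uw (h : SingPair B D π) (h3 : 3 ≤ finrank F (D 0)) {a b : V}
    (h0 : π 0 b ∉ F ∙ π 0 a) (h1 : π 1 b ∉ F ∙ π 1 a) :
    (∃ u ∈ D 0, ∃ w ∈ D 1, B u w = 0 ∧ B a u = 0 ∧ B a w = 0 ∧ B b u ≠ 0 ∧ B b w ≠ 0) ∨
    (∃ u ∈ D 0, ∃ w ∈ D 1, B u w = 0 ∧ B b u = 0 ∧ B b w = 0 ∧ B a u ≠ 0 ∧ B a w ≠ 0) := by
  have m0 := h.proj.mem 0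
  have m1 := h.proj.mem 1
  have r0 : ∀ x ∈ D 1, ∀ z, B (π 0 z) x = B z x := fun x hx => h.form_right (by simp) hx
  have r1 : ∀ x ∈ D 0, ∀ z, B (π 1 z) x = B z x := fun x hx => h.form_right (by simp) hx
  have k1 : ∀ {a b : V}, π 1 b ∉ F ∙ π 1 a →
      ¬ D 0 ⊓ LinearMap.ker (B (π 1 a)) ≤ LinearMap.ker (B (π 1 b)) := fun {a b} h1 h2 => by
    obtain ⟨z, z1, z2, -, z3⟩ := h.sep_pair (j := 0) (by simp) (m1 a) (m1 a) (m1 b) (by simpa)
    exact z3 (h2 ⟨z1, z2⟩)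
  have key : ∀ {a b : V}, π 0 b ∉ F ∙ π 0 a → π 1 b ∉ F ∙ π 1 a →
      ¬ D 0 ⊓ LinearMap.ker (B (π 1 a)) ≤ Submodule.span F {π 0 a, π 0 b} →
      ∃ u ∈ D 0, ∃ w ∈ D 1, B u w = 0 ∧ B a u = 0 ∧ B a w = 0 ∧ B b u ≠ 0 ∧ B b w ≠ 0 := by
    intro a b h0 h1 h2
    obtain ⟨u, ⟨u1, u2⟩, u3⟩ : ∃ u ∈ D 0 ⊓ LinearMap.ker (B (π 1 a)),
        ¬ (u ∈ LinearMap.ker (B (π 1 b)) ∨ u ∈ Submodule.span F {π 0 a, π 0 b}) := by
      by_contra! h4; exact (le_or_le_of_forall_mem h4).elim (k1 h1) h2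
    obtain ⟨w, w1, w2, w3, w4⟩ := h.sep_pair (j := 1) (by simp) (m0 a) u1 (m0 b) fun h4 => by
      obtain ⟨s, t, hst⟩ := Submodule.mem_span_pair.1 h4
      have ht : t ≠ 0 := by
        rintro rfl; exact h0 (Submodule.mem_span_singleton.2 ⟨s, by simpa using hst⟩)
      refine u3 (Or.inr (Submodule.mem_span_pair.2 ⟨-(t⁻¹ * s), t⁻¹, ?_⟩))
      rw [← hst, smul_add, smul_smul, smul_smul, inv_mul_cancel₀ ht]; module
    exact ⟨u, u1, w, w1, w3, r1 u u1 a ▸ u2, r0 w w1 a ▸ w2, r1 u u1 b ▸ (not_or.1 u3).1,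
      r0 w w1 b ▸ w4⟩
  by_cases h2 : D 0 ⊓ LinearMap.ker (B (π 1 a)) ≤ Submodule.span F {π 0 a, π 0 b}
  swap
  · exact Or.inl (key h0 h1 h2)
  have d1 := fun x => finrank_le_finrank_inf_ker_add_one (D 0) (B x)
  have d2 := Submodule.finrank_mono h2
  have d3 := SingPair.finrank_pair_le (F := F) (π 0 a) (π 0 b)
  refine Or.inr (key (notMem_span_symm (fun h4 => ?_) h0) (notMem_span_symm (fun h4 => ?_) h1)
    fun h4 => k1 h1 (h2.trans ?_))
  · have d4 := finrank_span_list_le (F := F) [π 0 b]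
    rw [show {z | z ∈ [π 0 b]} = ({π 0 b} : Set V) by ext; simp] at d4
    rw [h4, Submodule.span_insert_zero] at d2
    have := d1 (π 1 a)
    simp only [List.length_singleton] at d4
    omega
  · rw [h4, map_zero, LinearMap.ker_zero, inf_top_eq] at d2
    omega
  · rw [Set.pair_comm] at h4
    exact (Submodule.eq_of_le_of_finrank_le h4 (by have := d1 (π 1 b); omega)).ge.trans inf_le_right

end

theorem sp_pair_maximal3 {B : LinearMap.BilinForm F V} {M : Subgroup (V ≃ₗ[F] V)} (hB : B.Nondegenerate) (hA : B.IsAlt) (h2 : (2 : F) ≠ 0)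
    (h : SingPair B D π) {m : ℕ} (hm : ∀ i, finrank F (D i) = m) (h5 : 3 ≤ m)
    (hM : ∀ e : V ≃ₗ[F] V, StabD D e → (∀ x y, B (e x) (e y) = B x y) → e ∈ M)
    {g : V ≃ₗ[F] V} (hg : g ∈ M) (hgB : ∀ x y, B (g x) (g y) = B x y)
    (hns : ¬ StabD D g) (e : V ≃ₗ[F] V) (he : ∀ x y, B (e x) (e y) = B x y) : e ∈ M := by
  have hρ : ∀ i j, i ≠ j → ∀ u ∈ D i, ∀ w ∈ D j, B u w = 0 → ∃ e ∈ M,
      (∀ x y, B (e x) (e y) = B x y) ∧ ∀ x, e x = x + B x u • w + B x w • u := by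
    intro i j hij u hu w hw huw
    obtain ⟨e, he⟩ := exists_rho hA huw
    refine ⟨e, hM e (StabD.of_fix fun k x hx => ?_) (isom_of_rho hA huw he),
      isom_of_rho hA huw he, he⟩
    rw [he]
    by_cases hk : k = i
    · subst hk
      simpa [h.sing k x hx u hu] using (D k).add_mem hx ((D k).smul_mem _ hu)
    · obtain rfl : k = j := by omega
      simpa [h.sing k x hx w hw] using (D k).add_mem hx ((D k).smul_mem _ hw)
  have key' : ∀ a b, B b a = 0 → (∀ c : F, HasRho M B a (c • b)) → (∃ u ∈ D 0, ∃ w ∈ D 1,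
      B u w = 0 ∧ B a u = 0 ∧ B a w = 0 ∧ B b u ≠ 0 ∧ B b w ≠ 0) → FullSp M B a := by
    rintro a b hab hr ⟨u, hu, w, hw, e1, e2, e3, e4, e5⟩ c
    obtain ⟨k, hk, hkB, hkx⟩ := hρ 0 1 (by simp) u hu w hw e1
    have ka : k a = a := by simp [hkx, e2, e3]
    have r1 := (hr 1).conj hk hkB
    rw [ka, one_smul] at r1
    have := (hr (c / (-4 * (B b u * B b w)))).comm hA (by simp [hab])
      (by rw [← ka, hkB, hab]) r1
    convert this using 1
    have h4 : (4 : F) ≠ 0 := by rw [show (4 : F) = 2 * 2 by norm_num]; exact mul_ne_zero h2 h2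
    simp only [hkx, map_add, map_smul, LinearMap.smul_apply, smul_eq_mul, hA.self_eq_zero]
    field_simp
    ring
  have key : ∀ a b, B b a = 0 → (∀ c : F, HasRho M B a (c • b)) → π 0 b ∉ F ∙ π 0 a →
      π 1 b ∉ F ∙ π 1 a → FullSp M B a ∨ FullSp M B b := fun a b hab hr h0 h1 =>
    (h.exists_uw (by rw [hm]; exact h5) h0 h1).imp (key' a b hab hr)
      (key' b a (hA.isRefl _ _ hab) fun c => by
        obtain ⟨e, he, hx⟩ := hr c
        exact ⟨e, he, fun x => by rw [hx]; simp only [map_smul, smul_eq_mul]; module⟩)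
  obtain ⟨s, hsB, hs⟩ := h.exists_sp_swap hB hA hm
  have hsM := hM s (IsProj.stabD_of_le hm s _ hs) hsB
  have hmove : ∀ i, ∀ u ∈ D i, u ≠ 0 → FullSp M B u → ∀ u' ∈ D i, FullSp M B u' := by
    intro i u hu hu0 hf u' hu'
    by_cases h0 : u' ∈ F ∙ u
    · obtain ⟨c, rfl⟩ := Submodule.mem_span_singleton.1 h0
      exact hf.smul c
    obtain ⟨j, hj⟩ := exists_ne i
    obtain ⟨z, hz, z1, -, z2⟩ := h.sep_pair hj.symm ((D i).sub_mem hu' hu) ((D i).sub_mem hu' hu)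
      hu (by
        rw [Set.pair_eq_singleton]
        refine notMem_span_symm hu0 fun h3 => h0 ?_
        simpa using Submodule.add_mem _ h3 (Submodule.mem_span_singleton_self u))
    obtain ⟨k, hk, hkB, hkx⟩ := hρ i j hj.symm (u' - u) ((D i).sub_mem hu' hu)
      ((B u z)⁻¹ • z) ((D j).smul_mem _ hz) (by rw [map_smul, z1, smul_zero])
    have := hf.conj hk hkB
    rwa [hkx, h.sing i u hu _ ((D i).sub_mem hu' hu), map_smul, smul_eq_mul, inv_mul_cancel₀ z2,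
      zero_smul, add_zero, one_smul, add_sub_cancel] at this
  have hall : ∀ i, ∀ u ∈ D i, FullSp M B u := by
    obtain ⟨u, hu, w, hw, hu0, hw0, huw, h3⟩ := h.exists_pair3 (t := -1) (by simp)
      (fun h3 => h2 (by linear_combination -h3)) hm h5 hns
    have r : ∀ c : F, HasRho M B (g u) (c • g w) := fun c => by
      obtain ⟨k, hk, -, hkx⟩ := hρ 0 1 (by simp) u hu (c • w) ((D 1).smul_mem _ hw) (by simp [huw])
      simpa using HasRho.conj hg hgB ⟨k, hk, hkx⟩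
    have back : ∀ v, FullSp M B (g v) → FullSp M B v := fun v hv => by
      simpa using hv.conj (M.inv_mem hg) (fun x y => by
        rw [← hgB]; simp)
    obtain ⟨i, x, hx, hx0, hf⟩ : ∃ i, ∃ x ∈ D i, x ≠ 0 ∧ FullSp M B x := by
      have : FullSp M B (g u) ∨ FullSp M B (g w) := h3.elim
        (fun h3 => key _ _ (by rw [hgB]; exact hA.isRefl _ _ huw) r h3.1 h3.2)
        fun h3 => (key _ _ (by rw [hgB]; exact huw) (fun c => by
          obtain ⟨e, he, hx⟩ := r c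
          exact ⟨e, he, fun x => by rw [hx]; simp only [map_smul, smul_eq_mul]; module⟩)
          h3.1 h3.2).symm
      exact this.elim (fun h4 => ⟨0, u, hu, hu0, back u h4⟩) fun h4 => ⟨1, w, hw, hw0, back w h4⟩
    intro j
    by_cases hij : j = i
    · exact hij ▸ hmove i x hx hx0 hf
    · have : Equiv.swap 0 1 i = j := by revert hij; fin_cases i <;> fin_cases j <;> simp
      exact hmove j (s x) (this ▸ hs i x hx) (by simpa using hx0) (hf.conj hsM hsB)
  refine mem_of_forall_fullSp hB hA (fun v => ?_) e he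
  rw [← h.proj.add_two v]
  have m0 := h.proj.mem 0 v
  have m1 := h.proj.mem 1 v
  by_cases h0 : π 0 v = 0
  · simpa [h0] using hall 1 _ m1
  by_cases h1 : B (π 0 v) (π 1 v) = 0
  swap; · exact (hall 0 _ m0).add hA (hall 1 _ m1) h1
  obtain ⟨z, hz, hz0⟩ := h.exists_ne_zero (j := 1) (by simp) m0 h0
  have := ((hall 0 _ m0).add hA (hall 1 z hz) hz0).add hA (hall 1 _ ((D 1).sub_mem m1 hz))
    (by simpa [h1, h.sing 1 z hz _ m1, hA.self_eq_zero] using hz0)
  convert this using 1; abel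

theorem isMaximalIn_sp_pair3 [Fintype F] {m : ℕ} (h5 : 3 ≤ m) (hodd : Odd (Fintype.card F))
    (D : Fin 2 → Submodule F (Fin m ⊕ Fin m → F)) (hD : IsMDecomposition m D)
    (hts : ∀ i, IsTotallySingularFor (sympForm m F) (D i)) :
    IsMaximalIn (spGL m F) (decompositionStabilizer D ⊓ spGL m F) := by
  obtain ⟨π, h⟩ := exists_isProj hD.indep hD.iSup_eq_top
  have hs := singPair_of_sp spForm_nondeg spForm_alt h fun i u hu v hv => by
    rw [← H54.sympForm_eq]; exact hts i u hu v hv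
  refine isMaximalIn_of_toLE (StabD D)
    (fun e => ∀ u v, spForm m F (e u) (e v) = spForm m F u v) mem_spGL_iff
    (fun g => and_congr (mem_decompositionStabilizer_iff D g) (mem_spGL_iff g)) ?_
    fun M hM hle g hg hns e he =>
      sp_pair_maximal3 spForm_nondeg spForm_alt (two_ne_zero_of_odd hodd) hs hD.finrank_eq h5 hM hg
        (hle g hg) hns e he
  obtain ⟨u, hu, hu0⟩ := exists_mem_notMem (W := D 0) (Z := ⊥) (by simp [hD.finrank_eq]; omega)
  obtain ⟨w, hw, hw0⟩ := hs.exists_ne_zero (j := 1) (by simp) hu (by simpa using hu0)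
  obtain ⟨e, -, he⟩ := hasSp_of_forall (H := ⊤) spForm_alt (v := w) (c := 1) fun _ _ => trivial
  refine ⟨e, isom_of_sp spForm_alt he, h.not_stabD hu (j := 0) (k := 1) (by simp) ?_ ?_⟩
  · simpa [he, h.of_mem hu, h.of_ne 0 1 (by simp) w hw] using hu0
  · have : w ≠ 0 := by rintro rfl; simp at hw0
    simpa [he, h.of_mem hw, h.of_ne 1 0 (by simp) u hu, this] using hw0

theorem su_pair_maximal3 {σ : F →+* F} {B : V →ₛₗ[σ] V →ₗ[F] F} {M : Subgroup (V ≃ₗ[F] V)}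
    [Finite F] (h : IsHerm B) (hs : SingPair B D π) {m : ℕ}
    (hm : ∀ i, finrank F (D i) = m) (h5 : 3 ≤ m)
    (hM : ∀ e : V ≃ₗ[F] V, StabD D e → e ∈ sisom B → e ∈ M)
    {g : V ≃ₗ[F] V} (hg : g ∈ M) (hgB : g ∈ isom B) (hns : ¬ StabD D g) :
    ∀ e ∈ sisom B, e ∈ M := by
  have hρ : ∀ i j, i ≠ j → ∀ u ∈ D i, ∀ w ∈ D j, B u w = 0 → ∃ e ∈ M,
      e ∈ isom B ∧ ∀ x, e x = x + B w x • u - B u x • w := by
    intro i j hij u hu w hw huw
    obtain ⟨e, he, hx⟩ := h.exists_eichler (hs.sing i u hu u hu) huw (a := 0)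
      (by simp [hs.sing j w hw w hw])
    simp only [zero_mul, zero_smul, sub_zero] at hx
    refine ⟨e, hM e (StabD.of_fix fun k x hx' => ?_) he, he.1, hx⟩
    rw [hx]
    by_cases hk : k = i
    · subst hk
      simpa [hs.sing k u hu x hx'] using (D k).add_mem hx' ((D k).smul_mem _ hu)
    · obtain rfl : k = j := by omega
      simpa [hs.sing k w hw x hx'] using (D k).sub_mem hx' ((D k).smul_mem _ hw)
  have key' : ∀ a b, B a a = 0 → B b b = 0 → B a b = 0 → (∀ c : F, HasEich M B a (c • b)) →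
      (∃ u ∈ D 0, ∃ w ∈ D 1, B u w = 0 ∧ B a u = 0 ∧ B a w = 0 ∧ B b u ≠ 0 ∧ B b w ≠ 0) →
      FullU M B a := by
    rintro a b haa hbb hab hr ⟨u, hu, w, hw, e1, e2, e3, e4, e5⟩
    refine ⟨haa, fun c hc => ?_⟩
    obtain ⟨d, hd0, hd⟩ := exists_trace_zero_ne_zero h.ne_id h.invol
    obtain ⟨z, hz⟩ := exists_sub_eq_of_trace_zero h.ne_id h.invol hd
    have d1 : σ d = -d := by linear_combination hd
    have c1 : σ c = -c := by linear_combination hc
    obtain ⟨y, hy⟩ := exists_trace_eq h.ne_id h.invol (c := c / d) (by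
      rw [map_div₀, d1, c1, neg_div_neg_eq])
    have f4 : B u b ≠ 0 := fun h0 => e4 (h.eq_zero_comm.1 h0)
    obtain ⟨k, hk, hkB, hkx⟩ := hρ 0 1 (by simp) u hu ((z / (B u b * B b w)) • w)
      ((D 1).smul_mem _ hw) (by simp [e1])
    have ka : k a = a := by simp [hkx, h.eq_zero_comm.1 e2, h.eq_zero_comm.1 e3]
    have r1 := (hr 1).conj hk hkB
    rw [ka, one_smul] at r1
    have e : B b (k b) = -d := by
      have f5 : B w b ≠ 0 := fun h0 => e5 (h.eq_zero_comm.1 h0)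
      rw [hkx, ← hz]
      simp only [map_add, map_sub, form_smul_left, map_smul, smul_eq_mul, hbb, map_div₀, map_mul,
        h.symm]
      field_simp
      ring
    have e' : B (k b) b = d := by rw [← h.symm, e, map_neg, d1, neg_neg]
    have := (hr y).comm h haa (by simp [hab]) (by rw [← ka, hkB, hab]) r1
    change HasU M B a c
    convert this using 1
    rw [form_smul_left, map_smul, e, e', smul_eq_mul]
    field_simp at hy
    linear_combination -hy
  have sym : ∀ a b, (∀ c : F, HasEich M B a (c • b)) → ∀ c : F, HasEich M B b (c • a) :=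
    fun a b hr c => by
      obtain ⟨e, he, hx⟩ := hr (-σ c)
      refine ⟨e, he, fun x => ?_⟩
      rw [hx, form_smul_left, form_smul_left, map_neg, h.invol]
      module
  have key : ∀ a b, B a a = 0 → B b b = 0 → B a b = 0 → (∀ c : F, HasEich M B a (c • b)) →
      π 0 b ∉ F ∙ π 0 a → π 1 b ∉ F ∙ π 1 a → FullU M B a ∨ FullU M B b :=
    fun a b haa hbb hab hr h0 h1 => (hs.exists_uw (by rw [hm]; exact h5) h0 h1).imp
      (key' a b haa hbb hab hr) (key' b a hbb haa (h.eq_zero_comm.1 hab) (sym a b hr))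
  obtain ⟨s, hsB, hsw⟩ := hs.exists_su_swap h (by omega) hm
  have hsM := hM s (IsProj.stabD_of_le hm s _ hsw) hsB
  have hmove : ∀ i, ∀ u ∈ D i, u ≠ 0 → FullU M B u → ∀ u' ∈ D i, FullU M B u' := by
    intro i u hu hu0 hf u' hu'
    by_cases h0 : u' ∈ F ∙ u
    · obtain ⟨c, rfl⟩ := Submodule.mem_span_singleton.1 h0
      exact hf.smul h c
    obtain ⟨j, hj⟩ := exists_ne i
    obtain ⟨z, hz, z1, -, z2⟩ := hs.sep_pair hj.symm ((D i).sub_mem hu' hu) ((D i).sub_mem hu' hu)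
      hu (by
        rw [Set.pair_eq_singleton]
        refine notMem_span_symm hu0 fun h3 => h0 ?_
        simpa using Submodule.add_mem _ h3 (Submodule.mem_span_singleton_self u))
    obtain ⟨k, hk, hkB, hkx⟩ := hρ i j hj.symm (u' - u) ((D i).sub_mem hu' hu)
      ((B u z)⁻¹ • z) ((D j).smul_mem _ hz) (by rw [map_smul, z1, smul_zero])
    have := hf.conj hk hkB
    rwa [hkx, hs.sing i _ ((D i).sub_mem hu' hu) u hu, ← h.symm, map_smul, smul_eq_mul,
      inv_mul_cancel₀ z2, map_one, zero_smul, sub_zero, one_smul, add_sub_cancel] at this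
  have hall : ∀ i, ∀ u ∈ D i, FullU M B u := by
    obtain ⟨t, ht⟩ := exists_not_fixed h.ne_id
    obtain ⟨u, hu, w, hw, hu0, hw0, huw, h3⟩ := hs.exists_pair3 (t := t)
      (by rintro rfl; simp at ht) (by rintro rfl; simp at ht) hm h5 hns
    have r : ∀ c : F, HasEich M B (g u) (c • g w) := fun c => by
      obtain ⟨k, hk, -, hkx⟩ := hρ 0 1 (by simp) u hu (c • w) ((D 1).smul_mem _ hw) (by simp [huw])
      simpa using HasEich.conj hg hgB ⟨k, hk, hkx⟩
    have back : ∀ v, FullU M B (g v) → FullU M B v := fun v hv => by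
      simpa using hv.conj (M.inv_mem hg) (Subgroup.inv_mem _ hgB)
    have uu := (hgB u u).trans (hs.sing 0 u hu u hu)
    have ww := (hgB w w).trans (hs.sing 1 w hw w hw)
    have uw := (hgB u w).trans huw
    obtain ⟨i, x, hx, hx0, hf⟩ : ∃ i, ∃ x ∈ D i, x ≠ 0 ∧ FullU M B x := by
      have : FullU M B (g u) ∨ FullU M B (g w) := h3.elim
        (fun h3 => key _ _ uu ww uw r h3.1 h3.2)
        fun h3 => (key _ _ ww uu (h.eq_zero_comm.1 uw) (sym _ _ r) h3.1 h3.2).symm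
      exact this.elim (fun h4 => ⟨0, u, hu, hu0, back u h4⟩) fun h4 => ⟨1, w, hw, hw0, back w h4⟩
    intro j
    by_cases hij : j = i
    · exact hij ▸ hmove i x hx hx0 hf
    · have : Equiv.swap 0 1 i = j := by revert hij; fin_cases i <;> fin_cases j <;> simp
      exact hmove j (s x) (this ▸ hsw i x hx) (by simpa using hx0) (hf.conj hsM hsB.1)
  refine mem_of_forall_fullU h (Or.inl fun h3 => ?_) (fun v hv => ?_)
  · have h4 := Submodule.finrank_add_finrank_le_of_disjoint (s := D 0) (t := D 1)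
      (Submodule.disjoint_def.2 fun x => hs.proj.eq_zero_of_mem (by simp))
    rw [hm, hm] at h4
    omega
  rw [← hs.proj.add_two v] at hv ⊢
  have m0 := hs.proj.mem 0 v
  have m1 := hs.proj.mem 1 v
  by_cases h0 : π 0 v = 0
  · simpa [h0] using hall 1 _ m1
  by_cases h1 : B (π 1 v) (π 0 v) = 0
  swap; · exact (hall 1 _ m1).add h (hall 0 _ m0) h1 hv
  obtain ⟨z, hz, hz0⟩ := hs.exists_ne_zero (j := 1) (by simp) m0 h0
  obtain ⟨d, hd0, hd⟩ := exists_trace_zero_ne_zero h.ne_id h.invol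
  obtain ⟨y, hy, hy1⟩ : ∃ y ∈ D 1, B (π 0 v) y = d :=
    ⟨(d / B (π 0 v) z) • z, (D 1).smul_mem _ hz, by simp [hz0]⟩
  have hy2 : B y (π 0 v) = σ d := by rw [← h.symm, hy1]
  have hy3 : σ d ≠ 0 := h.conj_ne_zero hd0
  have := (hall 1 _ ((D 1).sub_mem m1 hy)).add h ((hall 1 y hy).add h (hall 0 _ m0)
    (by rwa [hy2]) (by simp [hs.sing 0 _ m0 _ m0, hs.sing 1 _ hy _ hy, hy1, hy2, add_comm, hd]))
    (by simpa [h1, hs.sing 1 _ m1 _ hy, hs.sing 1 _ hy _ hy, hy2] using hd0)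
    (by rwa [show π 0 v + y + (π 1 v - y) = π 0 v + π 1 v by abel])
  convert this using 1; abel

theorem isMaximalIn_su_pair3 [Fintype F] {q n : ℕ} (hF : Fintype.card F = q ^ 2) {k : ℕ} (h5 : 3 ≤ k)
    (D : Fin 2 → Submodule F (Fin n → F)) (hD : IsMDecomposition k D)
    (hts : ∀ i, IsTotallySingularFor (hermForm n F q) (D i)) :
    IsMaximalIn (GU n F q ⊓ specialLinear (Fin n) F)
      (decompositionStabilizer D ⊓ (GU n F q ⊓ specialLinear (Fin n) F)) := by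
  have h := isHerm_uForm hF n
  obtain ⟨π, hp⟩ := exists_isProj hD.indep hD.iSup_eq_top
  have hs := singPair_of_herm h hp fun i u hu v hv => by
    rw [← hermForm_eq]; exact hts i v hv u hu
  refine isMaximalIn_of_toLE (StabD D) (· ∈ sisom (uForm hF n)) (mem_su_iff hF)
    (fun g => and_congr (mem_decompositionStabilizer_iff D g) (mem_su_iff hF g)) ?_
    fun M hM hle g hg hns => su_pair_maximal3 h hs hD.finrank_eq h5 hM hg (hle g hg).1 hns
  obtain ⟨u, hu, hu0⟩ := exists_mem_notMem (W := D 0) (Z := ⊥) (by simp [hD.finrank_eq]; omega)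
  obtain ⟨w, hw, hw0⟩ := hs.exists_ne_zero (j := 1) (by simp) hu (by simpa using hu0)
  obtain ⟨d, hd0, hd⟩ := exists_trace_zero_ne_zero h.ne_id h.invol
  obtain ⟨e, he, hex⟩ := h.exists_transv (hs.sing 1 w hw w hw) hd
  refine ⟨e, axisGrp_le_sisom (hs.sing 1 w hw w hw) he,
    hp.not_stabD hu (j := 0) (k := 1) (by simp) ?_ ?_⟩
  · simpa [hex, hp.of_mem hu, hp.of_ne 0 1 (by simp) w hw] using hu0
  · have : w ≠ 0 := by rintro rfl; simp at hw0
    have h2 : uForm hF n w u ≠ 0 := fun h' => hw0 (h.eq_zero_comm.1 h')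
    simp [hex, hp.of_mem hw, hp.of_ne 1 0 (by simp) u hu, this, hd0, h2]

end H62
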