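import Cfsg.Agent.H62.SpFull
import Cfsg.Agent.H56.TenMat

set_option autoImplicit false
set_option linter.unusedSectionVars false

/-! Overgroups of `Sp(E) ⊗ O(W)` in `Sp(E ⊗ W)`, part 1: transvections. -/

namespace H62

open Module H56

variable {F E W V : Type*} [Field F] [AddCommGroup E] [Module F E] [AddCommGroup W] [Module F W]
  [AddCommGroup V] [Module F V] [FiniteDimensional F E] [FiniteDimensional F W]
  [FiniteDimensional F V]

/-- The alternating form `B` is the product of an alternating and a symmetric form. -/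
structure SpO (T : Ten F E W V) (b₁ : LinearMap.BilinForm F E) (b₂ : LinearMap.BilinForm F W)
    (B : LinearMap.BilinForm F V) : Prop where
  two : (2 : F) ≠ 0
  nd₁ : b₁.Nondegenerate
  alt₁ : b₁.IsAlt
  nd₂ : b₂.Nondegenerate
  sym₂ : ∀ x y, b₂ x y = b₂ y x
  nd : B.Nondegenerate
  alt : B.IsAlt
  eq : ∀ e e' w w', B (T.t e w) (T.t e' w') = b₁ e e' * b₂ w w'

/-- Contraction with a vector of the first factor. -/
def ph (T : Ten F E W V) (b₁ : LinearMap.BilinForm F E) (e : E) : V →ₗ[F] W := T.cL (b₁.flip e)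

variable {T : Ten F E W V} {b₁ : LinearMap.BilinForm F E} {b₂ : LinearMap.BilinForm F W}
  {B : LinearMap.BilinForm F V} {M : Subgroup (V ≃ₗ[F] V)}

@[simp] theorem ph_t (e y : E) (w : W) : ph T b₁ e (T.t y w) = b₁ y e • w := T.cL_t _ _ _

theorem ph_tm {A : E ≃ₗ[F] E} (hA : ∀ x y, b₁ (A x) (A y) = b₁ x y) (C : W ≃ₗ[F] W) (e : E)
    (v : V) : ph T b₁ (A e) (T.tm A C v) = C (ph T b₁ e v) :=
  T.induction v (by simp) (by simp [hA]) fun x y hx hy => by simp [hx, hy]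

theorem ph_smul (c : F) (e : E) (v : V) : ph T b₁ (c • e) v = c • ph T b₁ e v :=
  T.induction v (by simp) (by simp [smul_smul]) fun x y hx hy => by simp [hx, hy]

theorem ph_add (e e' : E) (v : V) : ph T b₁ (e + e') v = ph T b₁ e v + ph T b₁ e' v :=
  T.induction v (by simp) (by simp [add_smul]) fun x y hx hy => by simp [hx, hy]; abel

variable (T b₁ M) in
/-- `M` contains `1 + e² ⊗ α`. -/
def InA (e : E) (α : W →ₗ[F] W) : Prop := ∃ m ∈ M, ∀ v, m v = v + T.t e (α (ph T b₁ e v))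

variable (b₂) in
/-- The symmetric product of two vectors. -/
def sq2 (w : W) : W →ₗ[F] W →ₗ[F] W :=
  LinearMap.smulRightₗ (b₂.flip w) + (LinearMap.smulRightₗ.flip w) ∘ₗ b₂.flip

theorem sq2_apply (w y x : W) : sq2 b₂ w y x = b₂ x w • y + b₂ x y • w := rfl

namespace SpO

theorem form_t (h : SpO T b₁ b₂ B) (v : V) (e : E) (w : W) :
    B v (T.t e w) = b₂ (ph T b₁ e v) w :=
  T.induction v (by simp) (by simp [h.eq]) fun x y hx hy => by simp [hx, hy]

theorem isom_tm (h : SpO T b₁ b₂ B) {A : E ≃ₗ[F] E} (hA : ∀ x y, b₁ (A x) (A y) = b₁ x y)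
    {C : W ≃ₗ[F] W} (hC : ∀ x y, b₂ (C x) (C y) = b₂ x y) (x y : V) :
    B (T.tm A C x) (T.tm A C y) = B x y :=
  T.induction y (by simp) (fun e w => by rw [Ten.tm_t, h.form_t, h.form_t, ph_tm hA, hC])
    fun a b ha hb => by simp [ha, hb]

theorem exists_partner (h : SpO T b₁ b₂ B) {e : E} (he : e ≠ 0) : ∃ e', b₁ e' e = 1 := by
  obtain ⟨x, hx⟩ := exists_form_ne_zero h.nd₁ he
  exact ⟨(b₁ x e)⁻¹ • x, by simp [hx]⟩

end SpO

/-- The overgroup hypothesis. -/
structure SpOM (T : Ten F E W V) (b₁ : LinearMap.BilinForm F E) (b₂ : LinearMap.BilinForm F W)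
    (B : LinearMap.BilinForm F V) (M : Subgroup (V ≃ₗ[F] V)) : Prop extends SpO T b₁ b₂ B where
  mem : ∀ g ∈ T.grp, (∀ x y, B (g x) (g y) = B x y) → g ∈ M
  isom : ∀ g ∈ M, ∀ x y, B (g x) (g y) = B x y

namespace SpOM

theorem tm_mem (h : SpOM T b₁ b₂ B M) {A : E ≃ₗ[F] E} (hA : ∀ x y, b₁ (A x) (A y) = b₁ x y)
    {C : W ≃ₗ[F] W} (hC : ∀ x y, b₂ (C x) (C y) = b₂ x y) : T.tm A C ∈ M :=
  h.mem _ (T.tm_mem A C) (h.isom_tm hA hC)

theorem inA_conj (h : SpOM T b₁ b₂ B M) {A : E ≃ₗ[F] E} (hA : ∀ x y, b₁ (A x) (A y) = b₁ x y)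
    {C : W ≃ₗ[F] W} (hC : ∀ x y, b₂ (C x) (C y) = b₂ x y) {e : E} {α β : W →ₗ[F] W}
    (hα : InA T b₁ M e α) (hβ : ∀ w, β (C w) = C (α w)) : InA T b₁ M (A e) β := by
  obtain ⟨m, hm, hx⟩ := hα
  have h1 := h.tm_mem hA hC
  refine ⟨T.tm A C * m * (T.tm A C)⁻¹, M.mul_mem (M.mul_mem h1 hm) (M.inv_mem h1), fun v => ?_⟩
  obtain ⟨v, rfl⟩ := (T.tm A C).surjective v
  simp [hx, ph_tm hA, hβ]

theorem inA_add (h : SpOM T b₁ b₂ B M) {e : E} {α β : W →ₗ[F] W} (hα : InA T b₁ M e α)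
    (hβ : InA T b₁ M e β) : InA T b₁ M e (α + β) := by
  obtain ⟨m, hm, hx⟩ := hα
  obtain ⟨m', hm', hx'⟩ := hβ
  refine ⟨m * m', M.mul_mem hm hm', fun v => ?_⟩
  simp only [LinearEquiv.mul_apply, hx, hx', map_add, ph_t, h.alt₁.self_eq_zero, zero_smul,
    map_zero, LinearMap.add_apply]
  abel

theorem inA_neg (h : SpOM T b₁ b₂ B M) {e : E} {α : W →ₗ[F] W} (hα : InA T b₁ M e α) :
    InA T b₁ M e (-α) := by
  obtain ⟨m, hm, hx⟩ := hα
  refine ⟨m⁻¹, M.inv_mem hm, fun v => m.injective ?_⟩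
  rw [LinearEquiv.coe_inv, LinearEquiv.apply_symm_apply, hx]
  simp [h.alt₁.self_eq_zero]

theorem inA_sq (h : SpOM T b₁ b₂ B M) {e : E} {α : W →ₗ[F] W} (hα : InA T b₁ M e α) (c : F) :
    InA T b₁ M e ((c * c) • α) := by
  by_cases h0 : c • e = 0
  · rcases smul_eq_zero.1 h0 with rfl | rfl
    · exact ⟨1, M.one_mem, by simp⟩
    · exact ⟨1, M.one_mem, by simp⟩
  obtain ⟨A, hA, hAe⟩ := sp_trans h.nd₁ h.alt₁ (e := e) (by rintro rfl; simp at h0) h0
  obtain ⟨m, hm, hx⟩ := h.inA_conj hA (C := 1) (by simp) (β := α) hα (by simp)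
  exact ⟨m, hm, fun v => by simp [hx, hAe, ph_smul, smul_smul]⟩

variable (T b₁ M) in
/-- The operators `α` with `1 + e² ⊗ α` in `M`. -/
def AA (h : SpOM T b₁ b₂ B M) (e : E) : Submodule F (W →ₗ[F] W) where
  carrier := {α | InA T b₁ M e α}
  zero_mem' := ⟨1, M.one_mem, by simp⟩
  add_mem' := h.inA_add
  smul_mem' c α hα := by
    have h1 := h.inA_add (h.inA_sq hα ((c + 1) / 2)) (h.inA_neg (h.inA_sq hα ((c - 1) / 2)))
    have h2 := h.two
    have h3 : (c + 1) / 2 * ((c + 1) / 2) - (c - 1) / 2 * ((c - 1) / 2) = c := by field_simp; ring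
    rwa [← sub_eq_add_neg, ← sub_smul, h3] at h1

theorem mem_AA (h : SpOM T b₁ b₂ B M) {e : E} {α : W →ₗ[F] W} :
    α ∈ h.AA T b₁ M e ↔ InA T b₁ M e α := Iff.rfl

theorem inA_symm (h : SpOM T b₁ b₂ B M) {e : E} (he : e ≠ 0) {α : W →ₗ[F] W}
    (hα : InA T b₁ M e α) (w w' : W) : b₂ (α w) w' = b₂ w (α w') := by
  obtain ⟨m, hm, hx⟩ := hα
  obtain ⟨e', he'⟩ := h.exists_partner he
  have := h.isom m hm (T.t e' w) (T.t e' w')
  simp only [hx, ph_t, he', one_smul, map_add, LinearMap.add_apply, h.eq, h.alt₁.self_eq_zero,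
    alt_swap h.alt₁ e e'] at this
  linear_combination -this

theorem inA_one (h : SpOM T b₁ b₂ B M) (e : E) (c : F) : ∃ x ∈ M, x ∈ T.grp ∧
    ∀ v, x v = v + c • T.t e (ph T b₁ e v) := by
  obtain ⟨A, -, hA⟩ := hasSp_of_forall (H := ⊤) h.alt₁ (v := e) (c := c) fun _ _ => trivial
  refine ⟨T.tm A 1, h.tm_mem (isom_of_sp h.alt₁ hA) (by simp), T.tm_mem _ _, fun v => ?_⟩
  refine T.induction v (by simp) (fun y w => by simp [hA, smul_smul]) fun a b ha hb => ?_
  simp only [map_add, ha, hb, smul_add]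
  abel

/-- A non-scalar operator gives a transvection. -/
theorem exists_full_of_nonscalar [Fintype F] (h : SpOM T b₁ b₂ B M) (h3 : 3 ≤ finrank F W)
    (hq : 4 ≤ finrank F W ∨ 4 ≤ Fintype.card F) {e : E} (he : e ≠ 0) {α : W →ₗ[F] W}
    (hα : InA T b₁ M e α) (hns : ¬ ∃ c : F, ∀ w, α w = c • w) :
    ∃ u, u ≠ 0 ∧ b₂ u u = 0 ∧ FullSp M B (T.t e u) := by
  have hs := h.sym₂
  have h2 := h.two
  obtain ⟨w, hw, u₀, hu₀, hu₀u₀, hwu₀, hαw⟩ : ∃ w, b₂ w w ≠ 0 ∧ ∃ u₀, u₀ ≠ 0 ∧ b₂ u₀ u₀ = 0 ∧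
      b₂ w u₀ = 0 ∧ ¬ ∃ c : F, α w = c • w := by
    by_contra hc
    push Not at hc
    obtain ⟨u, -, hu0, hu⟩ := H60.exists_sing (Q := b₂.toQuadraticMap) ⊤ (by simpa using h3)
    have hu : b₂ u u = 0 := hu
    obtain ⟨x, hx⟩ := exists_form_ne_zero h.nd₂ hu0
    set u' := (b₂ x u)⁻¹ • x - (b₂ x x / (2 * b₂ x u * b₂ x u)) • u with hu'
    have huu' : b₂ u' u = 1 := by simp [hu', hx, hu]
    have hu'u' : b₂ u' u' = 0 := by
      simp only [hu', map_sub, map_smul, LinearMap.sub_apply, LinearMap.smul_apply, smul_eq_mul,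
        hu, hs u x]
      field_simp; ring
    have key : ∀ {u u' a : W} {l : F}, b₂ u u = 0 → b₂ u' u = 1 → b₂ a a ≠ 0 → b₂ a u = 0 →
        b₂ a u' = 0 → α a = l • a → α u = l • u := by
      intro u u' a l hu huu' ha hau hau' hl
      have hu0 : u ≠ 0 := by rintro rfl; simp at huu'
      obtain ⟨m, hm⟩ := hc (a + u) (by simpa [hu, hau, hs u a] using ha) u hu0 hu (by simp [hu, hau])
      obtain ⟨k, hk⟩ := hc (a - u) (by simpa [hu, hau, hs u a] using ha) u hu0 hu (by simp [hu, hau])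
      rw [map_add, hl] at hm
      rw [map_sub, hl] at hk
      have h4 : (2 * l - m - k) • a = (m - k) • u := by linear_combination (norm := module) hm + hk
      have h5 := congrArg (b₂ a) h4
      have h6 := congrArg (b₂ u') h4
      simp only [map_smul, hau, hs u' a, hau', huu', smul_eq_mul, mul_zero, mul_one,
        mul_eq_zero, ha, or_false] at h5 h6
      have h7 : m = l := mul_left_cancel₀ h2 (by linear_combination -h5 - h6)
      rw [h7] at hm
      linear_combination (norm := module) hm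
    let U := LinearMap.ker (b₂.flip u) ⊓ LinearMap.ker (b₂.flip u')
    have hdec : ∀ y, y - b₂ y u' • u - b₂ y u • u' ∈ U := fun y =>
      ⟨by simp [hu, huu'], by simp [hu'u', hs u u', huu']⟩
    have hU : ∀ x ∈ U, (∀ y ∈ U, b₂ x y = 0) → x = 0 := fun x hx hx' => h.nd₂.1 x fun y => by
      have h4 : b₂ x u = 0 := hx.1
      have h5 : b₂ x u' = 0 := hx.2
      simpa [h4, h5] using hx' _ (hdec y)
    obtain ⟨a, haU, ha⟩ := exists_ns_of_nondeg h2 hs hU (fun h0 => by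
      have := finrank_le_ker_two (b₂.flip u) (b₂.flip u')
      change _ ≤ finrank F U + 2 at this
      rw [h0, finrank_bot] at this
      omega)
    obtain ⟨l, hl⟩ := hc a ha u hu0 hu haU.1
    have h4 := key hu huu' ha haU.1 haU.2 hl
    have h5 := key hu'u' (by rw [hs, huu']) ha haU.2 haU.1 hl
    have h6 : U ≤ LinearMap.ker (α - l • 1) := by
      by_contra h7
      obtain ⟨c, hcU, hc1, hcc⟩ := exists_ns_notMem h2 hs haU ha h7
      obtain ⟨k, hk⟩ := hc c hcc u hu0 hu hcU.1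
      have h8 := key hu huu' hcc hcU.1 hcU.2 hk
      rw [h4] at h8
      exact hc1 (by simp [hk, smul_left_injective F hu0 h8])
    refine hns ⟨l, fun y => ?_⟩
    have h7 := h6 (hdec y)
    simp only [LinearMap.mem_ker, LinearMap.sub_apply, map_sub, map_smul, h4, h5,
      LinearMap.smul_apply, Module.End.one_apply] at h7
    linear_combination (norm := module) h7
  let J : Submodule F W := (h.AA T b₁ M e).comap (sq2 b₂ w)
  have hP : ∀ y ∈ J, ∀ z, b₂ z z ≠ 0 → b₂ w z = 0 → b₂ y z ≠ 0 → z ∈ J := by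
    intro y hy z hz hwz hyz
    have h1 : rf b₂ hz y ∈ J := h.inA_conj (A := 1) (by simp) (rf_isom hs hz) hy fun x => by
      conv_lhs => rw [← rf_of_perp hz hwz]
      simp only [sq2_apply, rf_isom hs, map_add, map_smul]
    have h4 := J.sub_mem hy h1
    rwa [rf_apply, sub_sub_cancel, J.smul_mem_iff (div_ne_zero (mul_ne_zero h2 hyz) hz)] at h4
  set y₀ := α w - (b₂ (α w) w / b₂ w w) • w with hy₀
  have hy0 : y₀ ≠ 0 := fun h0 => hαw ⟨_, sub_eq_zero.1 h0⟩
  have hwy : b₂ w y₀ = 0 := by simp [hy₀, hs w (α w), hw]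
  have hyJ : y₀ ∈ J := by
    have h1 := h.inA_conj (A := 1) (by simp) (rf_isom hs hw) hα
      (β := (rf b₂ hw : W →ₗ[F] W) ∘ₗ α ∘ₗ (rf b₂ hw : W →ₗ[F] W)) fun x => by simp [rf_rf]
    have h4 := (h.AA T b₁ M e).smul_mem (b₂ w w / 2) ((h.AA T b₁ M e).sub_mem hα h1)
    refine Submodule.mem_comap.2 ?_
    convert h4 using 1
    ext x
    simp only [sq2_apply, hy₀, LinearMap.smul_apply, LinearMap.sub_apply, LinearMap.comp_apply,
      LinearEquiv.coe_coe, rf_apply, map_sub, map_smul, smul_eq_mul, h.inA_symm he hα x w]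
    match_scalars <;> field_simp <;> ring
  obtain ⟨u, hu0, hu, hwu, huJ⟩ : ∃ u, u ≠ 0 ∧ b₂ u u = 0 ∧ b₂ w u = 0 ∧ u ∈ J := by
    rcases hq with hq | hq
    · refine ⟨u₀, hu₀, hu₀u₀, hwu₀, by_contra fun hn => ?_⟩
      have hU : ∀ x ∈ LinearMap.ker (b₂ w), (∀ y ∈ LinearMap.ker (b₂ w), b₂ x y = 0) → x = 0 :=
        fun x hx hx' => h.nd₂.1 x fun y => by
          have h4 : b₂ w x = 0 := hx
          simpa [hs x w, h4] using hx' (y - (b₂ w y / b₂ w w) • w) (by simp [hw])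
      have h5 := finrank_le_finrank_inf_ker_add_one (⊤ : Submodule F W) (b₂ w)
      rw [top_inf_eq, finrank_top] at h5
      obtain ⟨z, hz, hzJ, hyz, hzz⟩ := exists_ns_avoid h2 hs hU (by omega) (J₁ := J)
        (J₂ := LinearMap.ker (b₂ y₀)) (fun hle => hn (hle hwu₀)) fun hle => hy0 (hU _ hwy hle)
      exact hzJ (hP y₀ hyJ z hzz hz hyz)
    · by_cases hyy : b₂ y₀ y₀ = 0
      · exact ⟨y₀, hy0, hyy, hwy, hyJ⟩
      classical
      obtain ⟨l, -, hl⟩ := Finset.exists_mem_notMem_of_card_lt_card (t := Finset.univ)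
        (s := {0, -b₂ y₀ y₀ / (2 * b₂ y₀ u₀), -b₂ y₀ y₀ / b₂ y₀ u₀})
        (lt_of_le_of_lt Finset.card_le_three (by rw [Finset.card_univ]; omega))
      simp only [Finset.mem_insert, Finset.mem_singleton, not_or] at hl
      have h4 := hP y₀ hyJ (y₀ + l • u₀) (fun h5 => by
        simp only [map_add, map_smul, LinearMap.add_apply, LinearMap.smul_apply, hu₀u₀,
          hs u₀ y₀, smul_eq_mul] at h5
        by_cases h6 : b₂ y₀ u₀ = 0
        · exact hyy (by simpa [h6] using h5)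
        · exact hl.2.1 (by field_simp; linear_combination h5)) (by simp [hwy, hwu₀]) fun h5 => by
        simp only [map_add, map_smul, smul_eq_mul] at h5
        by_cases h6 : b₂ y₀ u₀ = 0
        · exact hyy (by simpa [h6] using h5)
        · exact hl.2.2 (by field_simp; linear_combination h5)
      have h5 := J.sub_mem h4 hyJ
      rw [add_sub_cancel_left, J.smul_mem_iff hl.1] at h5
      exact ⟨u₀, hu₀, hu₀u₀, hwu₀, h5⟩
  refine ⟨u, hu0, hu, fun c => ?_⟩
  have hd : b₂ ((2 : F) • w + u) ((2 : F) • w + u) = 4 * b₂ w w := by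
    simp [hu, hwu, hs u w]; ring
  have hd' : b₂ ((2 : F) • w + u) ((2 : F) • w + u) ≠ 0 := by
    rw [hd, show (4 : F) = 2 * 2 by norm_num]; exact mul_ne_zero (mul_ne_zero h2 h2) hw
  have h1 : rf b₂ hd' u = u := rf_of_perp hd' (by simp [hu, hs u w, hwu])
  have h4 : rf b₂ hd' w = -w - u := by
    have h5 : 2 * b₂ w ((2 : F) • w + u) / b₂ ((2 : F) • w + u) ((2 : F) • w + u) = 1 := by
      rw [div_eq_one_iff_eq hd', hd]; simp [hwu]; ring
    rw [rf_apply, h5]; module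
  have h6 := rf_isom hs hd'
  generalize rf b₂ hd' = r at h1 h4 h6
  have h5 := h.inA_conj (A := 1) (by simp) h6 huJ (β := sq2 b₂ (-w - u) u) fun x => by
    rw [← h4]
    conv_lhs => rw [← h1]
    simp only [sq2_apply, h6, map_add, map_smul]
  obtain ⟨m, hm, hx⟩ := (h.AA T b₁ M e).smul_mem (-(c / 2)) ((h.AA T b₁ M e).add_mem huJ h5)
  refine ⟨m, hm, fun v => ?_⟩
  rw [hx, h.form_t, ← map_smul]
  congr 2
  simp only [LinearMap.smul_apply, LinearMap.add_apply, sq2_apply, map_sub, map_neg]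
  match_scalars <;> field_simp <;> ring

/-- One transvection with a pure singular centre gives everything. -/
theorem all_full [Finite F] (h : SpOM T b₁ b₂ B M) (h3 : 3 ≤ finrank F W) {e : E} (he : e ≠ 0)
    {u : W} (hu0 : u ≠ 0) (hu : b₂ u u = 0) (hf : FullSp M B (T.t e u)) (v : V) :
    FullSp M B v := by
  have hs := h.sym₂
  have h2 := h.two
  have h1 : ∀ {u u' : W}, b₂ u u = 0 → b₂ u' u' = 0 → b₂ u u' ≠ 0 → FullSp M B (T.t e u) →
      ∀ y, FullSp M B (T.t y u') := by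
    intro u u' hu hu' huu' hf y
    by_cases hy : y = 0
    · simpa [hy] using FullSp.zero
    obtain ⟨A, hA, rfl⟩ := sp_trans h.nd₁ h.alt₁ he hy
    have hd : b₂ (u - u') (u - u') = -(2 * b₂ u u') := by simp [hu, hu', hs u' u]; ring
    have hd' : b₂ (u - u') (u - u') ≠ 0 := by rw [hd]; simpa [h2] using huu'
    have h4 := hf.conj (h.tm_mem hA (rf_isom hs hd')) (h.isom_tm hA (rf_isom hs hd'))
    have h5 : 2 * b₂ u (u - u') / b₂ (u - u') (u - u') = 1 := by
      rw [div_eq_one_iff_eq hd', hd]; simp [hu]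
    rwa [Ten.tm_t, rf_apply, h5, one_smul, sub_sub_cancel] at h4
  obtain ⟨A, ha, hA, hmax⟩ := exists_max_full h.alt h2 hf
  have h4 : ∀ {u u' : W}, b₂ u u = 0 → b₂ u' u' = 0 → b₂ u u' ≠ 0 → T.t e u ∈ A →
      ∀ y, T.t y u' ∈ A := by
    intro u u' hu hu' huu' hf y
    have h5 : ∀ y, b₁ e y ≠ 0 → T.t y u' ∈ A := fun y hy =>
      hmax _ (h1 hu hu' huu' (hA _ hf) y) _ hf (by rw [h.eq]; exact mul_ne_zero hy huu')
    by_cases hy : b₁ e y = 0
    · obtain ⟨e', he'⟩ := h.exists_partner he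
      have h6 : b₁ e e' ≠ 0 := by rw [alt_swap h.alt₁, he']; simp
      simpa using A.sub_mem (h5 (y + e') (by simpa [hy] using h6)) (h5 e' h6)
    · exact h5 y hy
  have hpol : ∀ x y, QuadraticMap.polar b₂.toQuadraticMap x y = 2 * b₂ x y := fun x y => by
    rw [LinearMap.BilinMap.polar_toQuadraticMap, hs y x, two_mul]
  have hQ : b₂.toQuadraticMap.polarBilin.Nondegenerate :=
    ⟨fun x hx => h.nd₂.1 x fun y => mul_left_cancel₀ h2 (by simpa [hpol] using hx y),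
      fun x hx => h.nd₂.2 x fun y => mul_left_cancel₀ h2 (by simpa [hpol] using hx y)⟩
  have hH := (H60.nondeg_top hQ).hasHyp (by simpa using h3)
  obtain ⟨u', -, hu', huu'⟩ := hH.exists_sing_not_mem (T := LinearMap.ker (b₂ u)) fun hle =>
    hu0 (h.nd₂.1 u fun y => hle (Submodule.mem_top (x := y)))
  have hu' : b₂ u' u' = 0 := hu'
  have huu' : b₂ u u' ≠ 0 := huu'
  have h5 := h4 hu hu' huu' ha
  refine hA v (T.induction v A.zero_mem (fun y w => ?_) fun _ _ => A.add_mem)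
  refine hH.le_of_sing (T := A.comap (T.t y)) (fun w _ hw => ?_) (Submodule.mem_top (x := w))
  have hw : b₂ w w = 0 := hw
  change T.t y w ∈ A
  by_cases h6 : b₂ u w = 0
  · by_cases h7 : b₂ u' w = 0
    · simpa using A.sub_mem (h4 hu (u' := w + u') (by simp [hw, hu', h7, hs w u'])
        (by simpa [h6] using huu') ha y) (h5 y)
    · exact h4 hu' hw h7 (h5 e) y
  · exact h4 hu hw h6 ha y

end SpOM

end H62
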