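import Cfsg.Agent.H62.TenSp1
import Cfsg.Agent.H54.SpBasis

set_option autoImplicit false
set_option linter.unusedSectionVars false

/-! Overgroups of `Sp(E) ⊗ O(W)` in `Sp(E ⊗ W)`, part 2: the stabiliser of `e ⊗ W`. -/

namespace H62

open Module H56

variable {F E W V : Type*} [Field F] [AddCommGroup E] [Module F E] [AddCommGroup W] [Module F W]
  [AddCommGroup V] [Module F V] [FiniteDimensional F E] [FiniteDimensional F W]
  [FiniteDimensional F V]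
  {T : Ten F E W V} {b₁ : LinearMap.BilinForm F E} {b₂ : LinearMap.BilinForm F W}
  {B : LinearMap.BilinForm F V} {M : Subgroup (V ≃ₗ[F] V)}

/-- An automorphism all of whose blocks are scalar is a tensor product. -/
theorem mem_grp_of_blocks [Nontrivial W] {g : V ≃ₗ[F] V}
    (h : ∀ (l : Dual F E) f, ∃ c : F, ∀ w, T.cL l (g (T.t f w)) = c • w) : g ∈ T.grp := by
  obtain ⟨w₀, hw⟩ := exists_ne (0 : W)
  obtain ⟨φ, hφ⟩ := exists_dual_of_ne_zero (F := F) hw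
  let A : E →ₗ[F] E := T.cR φ ∘ₗ (g : V →ₗ[F] V) ∘ₗ T.t.flip w₀
  have hA : ∀ f w, g (T.t f w) = T.t (A f) w := fun f w => by
    rw [← sub_eq_zero, ← Submodule.mem_bot F, ← T.LS_bot, T.mem_LS]
    intro l
    obtain ⟨c, hc⟩ := h l f
    have : l (A f) = c := by simp [A, ← T.apply_cL, hc, hφ]
    simp [hc, this]
  have hi : Function.Injective A := (injective_iff_map_eq_zero A).2 fun f hf => by
    simpa [hf, T.t_eq_zero, hw] using hA f w₀
  exact ⟨LinearEquiv.ofInjectiveEndo A hi, 1, T.equiv_ext fun f w => by simp [hA]⟩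

theorem ph_tm_one (C : W ≃ₗ[F] W) (e : E) (v : V) : ph T b₁ e (T.tm 1 C v) = C (ph T b₁ e v) :=
  ph_tm (A := 1) (by simp) C e v

@[elab_as_elim]
theorem ph_induction {e : E} {p : V → Prop} {v : V} (hv : ph T b₁ e v = 0) (h0 : p 0)
    (h1 : ∀ f w, b₁ f e = 0 → p (T.t f w)) (h2 : ∀ x y, p x → p y → p (x + y)) : p v :=
  T.swap.LS_induction (J := LinearMap.ker (b₁.flip e)) (T.swap.mem_LS_ker.2 (by rwa [Ten.swap_cR])) h0
    (fun w f hf => h1 f w hf) h2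

/-- The commutator of two elements of the unipotent radical of the stabiliser of `Λ`. -/
theorem comm_abs (hA : B.IsAlt) {Λ P : Submodule F V} (hP : ∀ u ∈ P, ∀ v ∈ Λ, B u v = 0)
    {n n' : V ≃ₗ[F] V} (i1 : ∀ x y, B (n x) (n y) = B x y) (i2 : ∀ x y, B (n' x) (n' y) = B x y)
    (f1 : ∀ v ∈ Λ, n v = v) (f2 : ∀ v ∈ Λ, n' v = v) (p1 : ∀ v, n v - v ∈ P)
    (p2 : ∀ v, n' v - v ∈ P) (s1 : ∀ u ∈ P, n u - u ∈ Λ) (s2 : ∀ u ∈ P, n' u - u ∈ Λ) :
    (∀ v, ((n' * n)⁻¹ * (n * n')) v - v ∈ Λ) ∧ ∀ v v', B (((n' * n)⁻¹ * (n * n')) v - v) v' =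
      B (n v - v) (n' v' - v') + B (n v' - v') (n' v - v) := by
  have adj : ∀ {n : V ≃ₗ[F] V}, (∀ x y, B (n x) (n y) = B x y) → (∀ v, n v - v ∈ P) →
      (∀ u ∈ P, n u - u ∈ Λ) → ∀ u ∈ P, ∀ v, B (n u - u) v = -B u (n v - v) := by
    intro n i p s u hu v
    have h4 := hP _ (p v) _ (s u hu)
    rw [alt_swap hA, neg_eq_zero] at h4
    simp only [map_sub, LinearMap.sub_apply] at h4 ⊢
    linear_combination i u v - h4
  have h3 : ∀ v, n (n' v) - n' (n v) = (n (n' v - v) - (n' v - v)) - (n' (n v - v) - (n v - v)) :=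
    fun v => by simp only [map_sub]; abel
  have h4 : ∀ v, n (n' v) - n' (n v) ∈ Λ := fun v => h3 v ▸ sub_mem (s1 _ (p2 v)) (s2 _ (p1 v))
  have h5 : ∀ v, ((n' * n)⁻¹ * (n * n')) v - v = n (n' v) - n' (n v) := fun v =>
    (n' * n).injective (by
      rw [LinearEquiv.mul_apply n' n (_ - n' (n v)), f1 _ (h4 v), f2 _ (h4 v), map_sub,
        ← LinearEquiv.mul_apply, mul_inv_cancel_left]
      rfl)
  refine ⟨fun v => h5 v ▸ h4 v, fun v v' => ?_⟩
  rw [h5, h3, map_sub B, LinearMap.sub_apply, adj i1 p1 s1 _ (p2 v), adj i2 p2 s2 _ (p1 v),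
    alt_swap hA (n' v - v)]
  ring

namespace SpO

theorem mem_range (h : SpO T b₁ b₂ B) {e : E} {v : V}
    (hv : ∀ y, b₁ e y = 0 → ph T b₁ y v = 0) : v ∈ LinearMap.range (T.t e) := by
  obtain ⟨w, hw⟩ := T.swap.mem_LS_span.1 (T.swap.mem_LS_of_cR (J := F ∙ e) (y := v) fun φ hφ => by
    obtain ⟨y, hy⟩ := exists_flip_eq h.nd₁ φ
    have : φ = b₁.flip y := LinearMap.ext fun x => (hy x).symm
    rw [Ten.swap_cR, this]
    exact hv y (by rw [hy, hφ e (Submodule.mem_span_singleton_self e)]))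
  exact ⟨w, hw.symm⟩

theorem ph_of_mem (_ : SpO T b₁ b₂ B) {e y : E} (hy : b₁ e y = 0) {v : V}
    (hv : v ∈ LinearMap.range (T.t e)) : ph T b₁ y v = 0 := by
  obtain ⟨w, rfl⟩ := hv; simp [hy]

theorem form_of_mem (h : SpO T b₁ b₂ B) {e : E} {u v : V} (hu : ph T b₁ e u = 0)
    (hv : v ∈ LinearMap.range (T.t e)) : B u v = 0 := by
  obtain ⟨w, rfl⟩ := hv; simp [h.form_t, hu]

theorem eq_of_form (h : SpO T b₁ b₂ B) {x y : W} (hxy : ∀ w, b₂ x w = b₂ y w) : x = y :=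
  sub_eq_zero.1 (h.nd₂.1 _ fun w => by simp [hxy])

end SpO

variable (T b₁ M) in
/-- The unipotent radical of the stabiliser of `e ⊗ W`, intersected with `M`. -/
structure InQ (e : E) (n : V ≃ₗ[F] V) : Prop where
  mem : n ∈ M
  fix : ∀ w, n (T.t e w) = T.t e w
  sub : ∀ v, ph T b₁ e v = 0 → n v - v ∈ LinearMap.range (T.t e)

variable (T b₁ M) in
/-- The maps induced by the unipotent radical modulo its centre. -/
def RQ (e : E) (β : W →ₗ[F] V) : Prop :=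
  ∃ n, InQ T b₁ M e n ∧ ∀ v, n v - v - β (ph T b₁ e v) ∈ LinearMap.range (T.t e)

/-- No non-scalar operators. -/
structure SpNT (T : Ten F E W V) (b₁ : LinearMap.BilinForm F E) (b₂ : LinearMap.BilinForm F W)
    (B : LinearMap.BilinForm F V) (M : Subgroup (V ≃ₗ[F] V)) : Prop extends SpOM T b₁ b₂ B M where
  three : 3 ≤ finrank F W
  nt : ∀ e, e ≠ 0 → ∀ α, InA T b₁ M e α → ∃ c : F, ∀ w, α w = c • w

namespace SpOM

variable (h : SpOM T b₁ b₂ B M) {e : E}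
include h

theorem ph_conj {k : V ≃ₗ[F] V} (hk : k ∈ M) {C : W ≃ₗ[F] W}
    (hC : ∀ x y, b₂ (C x) (C y) = b₂ x y) (h1 : ∀ w, k (T.t e w) = T.t e (C w)) (v : V) :
    ph T b₁ e (k v) = C (ph T b₁ e v) := h.eq_of_form fun w => by
  obtain ⟨w, rfl⟩ := C.surjective w
  rw [← h.form_t, ← h1, h.isom k hk, h.form_t, hC]

theorem ph_fix {k : V ≃ₗ[F] V} (hk : k ∈ M) (h1 : ∀ w, k (T.t e w) = T.t e w) (v : V) :
    ph T b₁ e (k v) = ph T b₁ e v := h.ph_conj hk (C := 1) (by simp) h1 v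

theorem fix_of_mv {m : V ≃ₗ[F] V} (hm : m ∈ M) (h1 : ∀ v, m v - v ∈ LinearMap.range (T.t e))
    {u : V} (hu : ph T b₁ e u = 0) : m u = u := sub_eq_zero.1 (h.nd.1 _ fun x => by
  obtain ⟨x, rfl⟩ := m.surjective x
  have := h.form_of_mem hu (h1 x)
  rw [map_sub] at this
  rw [map_sub, LinearMap.sub_apply, h.isom m hm]
  linear_combination -this)

theorem exists_rq (he : e ≠ 0) {n : V ≃ₗ[F] V} (hn : InQ T b₁ M e n) :
    ∃ β : W →ₗ[F] V, ∀ v, n v - v - β (ph T b₁ e v) ∈ LinearMap.range (T.t e) := by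
  obtain ⟨e', he'⟩ := h.exists_partner he
  refine ⟨((n : V →ₗ[F] V) - LinearMap.id) ∘ₗ T.t e', fun v => ?_⟩
  convert hn.sub (v - T.t e' (ph T b₁ e v)) (by simp [he']) using 1
  simp only [LinearMap.comp_apply, LinearMap.sub_apply, LinearEquiv.coe_coe, LinearMap.id_apply,
    map_sub]
  abel

theorem inQ_div {n n' : V ≃ₗ[F] V} (hn : InQ T b₁ M e n) (hn' : InQ T b₁ M e n') :
    InQ T b₁ M e (n * n'⁻¹) where
  mem := M.mul_mem hn.mem (M.inv_mem hn'.mem)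
  fix w := by
    conv_lhs => rw [← hn'.fix]
    simp [hn.fix]
  sub v hv := by
    obtain ⟨v, rfl⟩ := n'.surjective v
    rw [h.ph_fix hn'.mem hn'.fix] at hv
    simpa using sub_mem (hn.sub v hv) (hn'.sub v hv)

theorem rq_sub {β β' : W →ₗ[F] V} (hβ : RQ T b₁ M e β) (hβ' : RQ T b₁ M e β') :
    RQ T b₁ M e (β - β') := by
  obtain ⟨n, hn, h1⟩ := hβ
  obtain ⟨n', hn', h2⟩ := hβ'
  refine ⟨_, h.inQ_div hn hn', fun v => ?_⟩
  obtain ⟨v, rfl⟩ := n'.surjective v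
  convert sub_mem (h1 v) (h2 v) using 1
  simp [h.ph_fix hn'.mem hn'.fix]
  abel

theorem rq_conj {k : V ≃ₗ[F] V} (hk : k ∈ M) {C : W ≃ₗ[F] W}
    (hC : ∀ x y, b₂ (C x) (C y) = b₂ x y) (h1 : ∀ w, k (T.t e w) = T.t e (C w))
    {β β' : W →ₗ[F] V} (hβ : RQ T b₁ M e β) (h2 : ∀ w, β' (C w) = k (β w)) : RQ T b₁ M e β' := by
  obtain ⟨n, hn, h3⟩ := hβ
  have h4 : ∀ v ∈ LinearMap.range (T.t e), k v ∈ LinearMap.range (T.t e) := by
    rintro _ ⟨w, rfl⟩; exact ⟨_, (h1 w).symm⟩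
  refine ⟨k * n * k⁻¹, ⟨M.mul_mem (M.mul_mem hk hn.mem) (M.inv_mem hk), fun w => ?_,
    fun v hv => ?_⟩, fun v => ?_⟩
  · obtain ⟨w, rfl⟩ := C.surjective w
    simp [← h1, hn.fix]
  · obtain ⟨v, rfl⟩ := k.surjective v
    rw [h.ph_conj hk hC h1, C.map_eq_zero_iff] at hv
    simpa using h4 _ (hn.sub v hv)
  · obtain ⟨v, rfl⟩ := k.surjective v
    simpa [h.ph_conj hk hC h1, h2] using h4 _ (h3 v)

theorem rq_t {y : E} (hy : b₁ e y = 0) : RQ T b₁ M e (T.t y) := by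
  obtain ⟨A, hA⟩ := exists_rho h.alt₁ hy
  have h1 : ∀ v, T.tm A 1 v = v + T.t y (ph T b₁ e v) + T.t e (ph T b₁ y v) := fun v =>
    T.induction v (by simp) (by simp [hA]) fun a b ha hb => by
      simp only [map_add, ha, hb]; abel
  refine ⟨T.tm A 1, ⟨h.tm_mem (isom_of_rho h.alt₁ hy hA) (by simp), fun w => ?_,
    fun v hv => ⟨ph T b₁ y v, ?_⟩⟩, fun v => ⟨ph T b₁ y v, ?_⟩⟩
  · simp [h1, hy, h.alt₁.self_eq_zero, -Ten.tm_t]
  · simp [h1, hv]
  · rw [h1]; abel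

theorem rq_pure {y : E} (hy : b₁ e y = 0) {β : W →ₗ[F] V} (hβ : RQ T b₁ M e β) :
    RQ T b₁ M e (T.t y ∘ₗ ph T b₁ y ∘ₗ β) := by
  obtain ⟨x, hx, -, h1⟩ := h.inA_one y 1
  have := h.rq_sub (h.rq_conj hx (C := 1) (by simp) (by simp [h1, hy]) hβ
    (β' := β + T.t y ∘ₗ ph T b₁ y ∘ₗ β) (by simp [h1])) hβ
  rwa [add_sub_cancel_left] at this

theorem rq_ph (he : e ≠ 0) {β : W →ₗ[F] V} (hβ : RQ T b₁ M e β) (w : W) :
    ph T b₁ e (β w) = 0 := by
  obtain ⟨n, hn, h1⟩ := hβ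
  obtain ⟨e', he'⟩ := h.exists_partner he
  simpa [h.ph_fix hn.mem hn.fix, he'] using
    h.ph_of_mem (h.alt₁.self_eq_zero e) (h1 (T.t e' w))

end SpOM

namespace SpNT

variable (h : SpNT T b₁ b₂ B M) {e : E}
include h

/-- The centre of the unipotent radical meets `M` in the root group. -/
theorem zc (he : e ≠ 0) {m : V ≃ₗ[F] V} (hm : m ∈ M)
    (h1 : ∀ v, m v - v ∈ LinearMap.range (T.t e)) :
    ∃ s : F, ∀ v, m v = v + s • T.t e (ph T b₁ e v) := by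
  obtain ⟨e', he'⟩ := h.exists_partner he
  have h2 : ∀ v, m v = v + T.t e ((T.cL (b₁ e') ∘ₗ ((m : V →ₗ[F] V) - LinearMap.id) ∘ₗ T.t e')
      (ph T b₁ e v)) := fun v => by
    obtain ⟨w, hw⟩ := h1 (T.t e' (ph T b₁ e v))
    have h3 := h.fix_of_mv hm h1 (u := v - T.t e' (ph T b₁ e v)) (by simp [he'])
    simp only [LinearMap.comp_apply, LinearMap.sub_apply, LinearEquiv.coe_coe, LinearMap.id_apply,
      ← hw, Ten.cL_t, he', one_smul]
    rw [map_sub] at h3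
    linear_combination (norm := module) h3 - hw
  obtain ⟨c, hc⟩ := h.nt e he _ ⟨m, hm, h2⟩
  exact ⟨c, fun v => by rw [h2, hc, map_smul]⟩

theorem rq_comm (he : e ≠ 0) {β β' : W →ₗ[F] V} (hβ : RQ T b₁ M e β) (hβ' : RQ T b₁ M e β') :
    ∃ s : F, ∀ w w', B (β w) (β' w') + B (β w') (β' w) = s * b₂ w w' := by
  have p1 := h.rq_ph he hβ
  have p2 := h.rq_ph he hβ'
  obtain ⟨n, hn, h1⟩ := hβ
  obtain ⟨n', hn', h2⟩ := hβ'
  obtain ⟨e', he'⟩ := h.exists_partner he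
  have fx : ∀ {n}, InQ T b₁ M e n → ∀ v ∈ LinearMap.range (T.t e), n v = v := by
    rintro n hn _ ⟨w, rfl⟩; exact hn.fix w
  obtain ⟨h4, h5⟩ := comm_abs h.alt (P := LinearMap.ker (ph T b₁ e)) (fun u hu v => h.form_of_mem hu)
    (h.isom n hn.mem) (h.isom n' hn'.mem) (fx hn) (fx hn') (by simp [h.ph_fix hn.mem hn.fix])
    (by simp [h.ph_fix hn'.mem hn'.fix]) hn.sub hn'.sub
  obtain ⟨s, hs⟩ := h.zc he
    (M.mul_mem (M.inv_mem (M.mul_mem hn'.mem hn.mem)) (M.mul_mem hn.mem hn'.mem)) h4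
  refine ⟨-s, fun w w' => ?_⟩
  have h6 := h5 (T.t e' w) (T.t e' w')
  obtain ⟨a, ha⟩ := h1 (T.t e' w)
  obtain ⟨b, hb⟩ := h1 (T.t e' w')
  obtain ⟨c, hc⟩ := h2 (T.t e' w)
  obtain ⟨d, hd⟩ := h2 (T.t e' w')
  simp only [ph_t, he', one_smul, eq_sub_iff_add_eq (c := β _), eq_sub_iff_add_eq (c := β' _)]
    at ha hb hc hd
  have z1 : ∀ x u, ph T b₁ e u = 0 → B (T.t e x) u = 0 := fun x u hu => by
    rw [alt_swap h.alt, h.form_t, hu]; simp
  rw [hs, add_sub_cancel_left, ← ha, ← hb, ← hc, ← hd] at h6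
  simp [h.form_t, p1, p2, z1, he', h.alt₁.self_eq_zero, alt_swap h.alt₁ e e'] at h6
  linear_combination -h6

theorem rq_scalar (he : e ≠ 0) {β : W →ₗ[F] V} (hβ : RQ T b₁ M e β) {y : E} (hy : b₁ e y = 0) :
    ∃ c : F, ∀ w, ph T b₁ y (β w) = c • w := by
  by_cases h0 : y ∈ F ∙ e
  · obtain ⟨c, rfl⟩ := Submodule.mem_span_singleton.1 h0
    exact ⟨0, fun w => by simp [ph_smul, h.rq_ph he hβ]⟩
  obtain ⟨x, hx, hx'⟩ := exists_form_pair h.nd₁ h.alt₁ h0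
  have hs := h.sym₂
  have h2 := h.two
  obtain ⟨s, h1⟩ := h.rq_comm he hβ (h.rq_t hy)
  simp only [h.form_t] at h1
  refine exists_smul_of_ns3 h2 hs h.nd₂ h.three (ph T b₁ y ∘ₗ β) fun z hz => ?_
  have h3 := h.rq_pure hy hβ
  set γ := ph T b₁ y ∘ₗ β with hγ
  replace h1 : ∀ w w', b₂ (γ w) w' + b₂ (γ w') w = s * b₂ w w' := h1
  set γ₁ := γ - (rf b₂ hz : W →ₗ[F] W) ∘ₗ γ ∘ₗ (rf b₂ hz : W →ₗ[F] W) with hγ₁
  have h4 : RQ T b₁ M e (T.t y ∘ₗ γ₁) := by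
    rw [hγ₁, LinearMap.comp_sub]
    exact h.rq_sub h3 (h.rq_conj (h.tm_mem (A := 1) (by simp) (rf_isom hs hz)) (rf_isom hs hz)
      (by simp) h3 (by simp [rf_rf]))
  obtain ⟨s', h5⟩ := h.rq_comm he h4 (h.rq_pure (y := x) (by rw [alt_swap h.alt₁, hx', neg_zero]) h4)
  simp only [LinearMap.comp_apply, ph_t, h.eq, alt_swap h.alt₁ y x, hx, map_smul, smul_eq_mul,
    hs (γ₁ _) (γ₁ _)] at h5
  have h6 : ∀ w, b₂ w z = 0 → γ₁ w = (2 * b₂ (γ w) z / b₂ z z) • z := fun w hw => by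
    simp [hγ₁, rf_of_perp hz hw, rf_apply hz (γ w)]
  obtain ⟨w, -, hw0, hw⟩ := exists_mem_notMem_ker [b₂.flip z, b₂.flip z ∘ₗ γ] (W := ⊤) (Z := ⊥)
    (by have := h.three; simp; omega)
  have h7 : s' = 0 := by
    obtain ⟨u, hu⟩ := exists_form_ne_zero h.nd₂ (show w ≠ 0 by simpa using hw0)
    have h8 : b₂ (γ w) z = 0 := hw (b₂.flip z ∘ₗ γ) (by simp)
    simpa [h6 w (hw (b₂.flip z) (by simp)), h8, hu] using (h5 u w).symm
  refine ⟨b₂ (γ z) z / b₂ z z, h.eq_of_form fun u => ?_⟩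
  have h8 : b₂ (u - (b₂ u z / b₂ z z) • z) z = 0 := by simp [hz]
  have h9 := h5 (u - (b₂ u z / b₂ z z) • z) (u - (b₂ u z / b₂ z z) • z)
  rw [h6 _ h8, h7] at h9
  have h10 : b₂ (γ (u - (b₂ u z / b₂ z z) • z)) z = 0 := by
    generalize b₂ (γ (u - (b₂ u z / b₂ z z) • z)) z = a at h9
    simp only [map_smul, LinearMap.smul_apply, smul_eq_mul] at h9
    field_simp at h9
    simpa [h2, one_add_one_eq_two] using h9
  have h11 := h1 (u - (b₂ u z / b₂ z z) • z) z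
  rw [h10, h8, map_sub, map_smul] at h11
  simp only [map_smul, LinearMap.smul_apply, smul_eq_mul, hs z u] at h11 ⊢
  linear_combination h11

theorem mem_grp_of_fix (he : e ≠ 0) {g : V ≃ₗ[F] V} (hg : g ∈ M)
    (h1 : ∀ w, g (T.t e w) = T.t e w) : g ∈ T.grp := by
  have hs := h.sym₂
  have hR : ∀ {z} (hz : b₂ z z ≠ 0), T.tm 1 (rf b₂ hz) * g * T.tm 1 (rf b₂ hz) * g⁻¹ ∈ M :=
    fun hz => by
      have := h.tm_mem (A := 1) (by simp) (rf_isom hs hz)
      exact M.mul_mem (M.mul_mem (M.mul_mem this hg) this) (M.inv_mem hg)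
  have hK : ∀ {z} (hz : b₂ z z ≠ 0) f w, (∀ y, b₁ e y = 0 → ∃ c : F, ∀ w,
      ph T b₁ y (g (T.t f w)) = c • w) → T.tm 1 (rf b₂ hz) (g (T.tm 1 (rf b₂ hz) (T.t f w))) -
        g (T.t f w) ∈ LinearMap.range (T.t e) := fun hz f w hf => h.mem_range fun y hy => by
    obtain ⟨c, hc⟩ := hf y hy
    simp [ph_tm_one, hc, rf_rf]
  have hb : ∀ f y, b₁ e y = 0 → ∃ c : F, ∀ w, ph T b₁ y (g (T.t f w)) = c • w := fun f y hy => by
    refine exists_smul_of_rf h.two hs h.nd₂ h.three (ph T b₁ y ∘ₗ (g : V →ₗ[F] V) ∘ₗ T.t f)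
      fun z hz => ?_
    have hQ : InQ T b₁ M e _ := ⟨hR hz, fun w => by
      have : g.symm (T.t e w) = T.t e w := by rw [LinearEquiv.symm_apply_eq, h1]
      simp [this, h1, rf_rf], fun v hv => by
        obtain ⟨v, rfl⟩ := g.surjective v
        rw [h.ph_fix hg h1] at hv
        simp only [LinearEquiv.mul_apply, LinearEquiv.coe_inv, LinearEquiv.symm_apply_apply]
        refine ph_induction hv (by simp) (fun f w hf => hK hz f w fun y hy => h.rq_scalar he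
          (h.rq_conj hg (C := 1) (by simp) h1 (h.rq_t (by rw [alt_swap h.alt₁, hf, neg_zero]))
            (β' := (g : V →ₗ[F] V) ∘ₗ T.t f) fun _ => rfl) hy) fun a b ha hb => ?_
        convert add_mem ha hb using 1
        simp only [map_add]; abel⟩
    obtain ⟨β, hβ⟩ := h.exists_rq he hQ
    obtain ⟨c, hc⟩ := h.rq_scalar he ⟨_, hQ, hβ⟩ hy
    refine ⟨c * b₁ f e, fun w => ?_⟩
    have := h.ph_of_mem hy (hβ (g (T.t f w)))
    simp only [LinearEquiv.mul_apply, LinearEquiv.coe_inv, LinearEquiv.symm_apply_apply, map_sub,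
      ph_tm_one, hc, h.ph_fix hg h1, ph_t, Ten.tm_t, LinearEquiv.coe_one, id, smul_smul] at this
    simp only [LinearMap.comp_apply, LinearEquiv.coe_coe]
    linear_combination (norm := module) this
  have : Nontrivial W := Module.nontrivial_of_finrank_pos (R := F) (by have := h.three; omega)
  refine mem_grp_of_blocks fun l f => ?_
  refine exists_smul_of_rf h.two hs h.nd₂ h.three (T.cL l ∘ₗ (g : V →ₗ[F] V) ∘ₗ T.t f)
    fun z hz => ?_
  obtain ⟨s, hs⟩ := h.zc he (hR hz) fun v => by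
    obtain ⟨v, rfl⟩ := g.surjective v
    simp only [LinearEquiv.mul_apply, LinearEquiv.coe_inv, LinearEquiv.symm_apply_apply]
    refine T.induction v (by simp) (fun f w => hK hz f w (hb f)) fun a b ha hb => ?_
    convert add_mem ha hb using 1
    simp only [map_add]; abel
  refine ⟨s * l e * b₁ f e, fun w => ?_⟩
  have := congrArg (T.cL l) (hs (g (T.t f w)))
  simp only [LinearEquiv.mul_apply, LinearEquiv.coe_inv, LinearEquiv.symm_apply_apply, map_add,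
    map_smul, h.ph_fix hg h1, ph_t, Ten.tm_t, LinearEquiv.coe_one, id, smul_smul, Ten.cL_t] at this
  simp only [LinearMap.comp_apply, LinearEquiv.coe_coe]
  rw [← T.cL_rt, mul_right_comm]
  exact this

/-- The stabiliser of `e ⊗ W` in `M` preserves the decomposition. -/
theorem mem_grp_of_stab (he : e ≠ 0) (g : V ≃ₗ[F] V) (hg : g ∈ M)
    (h1 : ∀ v ∈ LinearMap.range (T.t e), g v ∈ LinearMap.range (T.t e)) : g ∈ T.grp := by
  obtain ⟨C, hC⟩ := T.swap.exists_equiv_of_stab (g := g) he fun v hv => by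
    obtain ⟨w, rfl⟩ := T.swap.mem_LS_span.1 hv
    obtain ⟨w', hw'⟩ := h1 _ ⟨w, rfl⟩
    exact T.swap.mem_LS_span.2 ⟨w', hw'.symm⟩
  replace hC : ∀ w, g (T.t e w) = T.t e (C w) := hC
  obtain ⟨x, hx, -, h2⟩ := h.inA_one e 1
  obtain ⟨μ, hμ⟩ := h.zc he (M.mul_mem (M.mul_mem hg hx) (M.inv_mem hg)) fun v => by
    obtain ⟨v, rfl⟩ := g.surjective v
    exact ⟨C (ph T b₁ e v), by simp [h2, hC]⟩
  obtain ⟨e', he'⟩ := h.exists_partner he
  have h3 : ∀ w w', b₂ (C w) (C w') = μ * b₂ w w' := fun w w' => by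
    have h4 := hμ (g (T.t e' w))
    have h5 := h.isom g hg (T.t e' w) (T.t e w')
    simp only [LinearEquiv.mul_apply, LinearEquiv.coe_inv, LinearEquiv.symm_apply_apply, h2,
      map_add, ph_t, he', one_smul, hC, add_right_inj, ← map_smul, T.t_right_inj he] at h4
    rw [hC, h.form_t, h.eq, he', one_mul] at h5
    rw [h4, ← h5]; simp
  have : Nontrivial W := Module.nontrivial_of_finrank_pos (R := F) (by have := h.three; omega)
  have h0 : μ ≠ 0 := by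
    rintro rfl
    obtain ⟨w, hw⟩ := exists_ne (0 : W)
    refine hw (C.map_eq_zero_iff.1 (h.nd₂.1 _ fun u => ?_))
    obtain ⟨u, rfl⟩ := C.surjective u
    simp [h3]
  obtain ⟨A, hA⟩ := H54.exists_isometry_of_finrank_eq (B := μ⁻¹ • b₁) (B' := b₁)
    ⟨fun x hx => h.nd₁.1 x fun y => by simpa [h0] using hx y,
      fun x hx => h.nd₁.2 x fun y => by simpa [h0] using hx y⟩
    (fun x => by simp [h.alt₁.self_eq_zero]) h.nd₁ h.alt₁ rfl
  obtain ⟨A', hA', h4⟩ := sp_trans h.nd₁ h.alt₁ (A.map_ne_zero_iff.2 he) he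
  have h5 : T.tm (A' * A) C ∈ M := h.mem _ (T.tm_mem _ _) fun u v =>
    T.induction u (by simp) (fun a b => T.induction v (by simp)
      (fun c d => by simp [h.eq, hA, hA', h3]; field_simp)
      fun a b ha hb => by simp only [map_add, ha, hb])
      fun a b ha hb => by simp [ha, hb]
  refine (mul_mem_cancel_left (T.grp.inv_mem (T.tm_mem (A' * A) C))).1
    (h.mem_grp_of_fix he (M.mul_mem (M.inv_mem h5) hg) fun w => (T.tm (A' * A) C).injective ?_)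
  simp [hC, h4, -Ten.tm_t]
  simp [h4]

end SpNT

end H62
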