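import Cfsg.Agent.H62.TenSp2

set_option autoImplicit false
set_option linter.unusedSectionVars false

/-! Overgroups of `Sp(E) ⊗ O(W)` in `Sp(E ⊗ W)`, part 3: rigidity and the case `dim E ≥ 3`. -/

namespace H62

open Module H56

variable {F E W V : Type*} [Field F] [AddCommGroup E] [Module F E] [AddCommGroup W] [Module F W]
  [AddCommGroup V] [Module F V] [FiniteDimensional F E] [FiniteDimensional F W]
  [FiniteDimensional F V]
  {T : Ten F E W V} {b₁ : LinearMap.BilinForm F E} {b₂ : LinearMap.BilinForm F W}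
  {B : LinearMap.BilinForm F V} {M : Subgroup (V ≃ₗ[F] V)}

/-- Eichler transformations of a symmetric form. -/
theorem exists_eich (h2 : (2 : F) ≠ 0) (hs : ∀ x y, b₂ x y = b₂ y x) {u z : W} (hu : b₂ u u = 0)
    (hz : b₂ z u = 0) : ∃ s : W ≃ₗ[F] W, (∀ x y, b₂ (s x) (s y) = b₂ x y) ∧
      ∀ w, s w = w + b₂ w u • z - (b₂ w z + b₂ z z / 2 * b₂ w u) • u := by
  obtain ⟨s, hs1⟩ := exists_tv (φ := b₂.flip u) (u := z) hz
  obtain ⟨t, ht⟩ := exists_tv (φ := (b₂ z z / 2) • b₂.flip u - b₂.flip z) (u := u)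
    (by simp [hu, hs u z, hz])
  have h1 : ∀ w, (t * s) w = w + b₂ w u • z - (b₂ w z + b₂ z z / 2 * b₂ w u) • u := fun w => by
    simp only [LinearEquiv.mul_apply, hs1, ht, LinearMap.sub_apply, LinearMap.smul_apply,
      LinearMap.BilinForm.flip_apply, map_add, map_smul, LinearMap.add_apply, hz, smul_eq_mul]
    match_scalars <;> field_simp <;> ring
  refine ⟨t * s, fun x y => ?_, h1⟩
  simp only [h1, map_add, map_sub, map_smul, LinearMap.add_apply, LinearMap.sub_apply,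
    LinearMap.smul_apply, smul_eq_mul, hu, hz, hs u z, hs u y, hs z y]
  field_simp; ring

theorem Crit.inv {H : Subgroup (V ≃ₗ[F] V)} {L : Submodule F V} {g : V ≃ₗ[F] V}
    (c : Crit M H L g) : Crit M H L g⁻¹ :=
  ⟨M.inv_mem c.mem, fun h => c.notMem (by simpa using H.inv_mem h), fun g' h1 h2 =>
    (c.max g' h1 h2).trans (by
      rw [← LinearEquiv.finrank_map_eq g]
      refine Submodule.finrank_mono ?_
      rintro _ ⟨v, hv, rfl⟩
      exact ⟨hv.2, by simpa using hv.1⟩)⟩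

theorem finrank_range_t {e : E} (he : e ≠ 0) :
    finrank F (LinearMap.range (T.t e)) = finrank F W :=
  LinearMap.finrank_range_of_inj fun _ _ => (T.t_right_inj he).1

theorem range_t_eq (e : E) : LinearMap.range (T.t e) = T.swap.LS (F ∙ e) := by
  ext v; rw [T.swap.mem_LS_span]; exact exists_congr fun _ => eq_comm

namespace SpOM

variable (h : SpOM T b₁ b₂ B M) {e : E}
include h

theorem mv_x (he : e ≠ 0) {x : V ≃ₗ[F] V} {c : F} (hc : c ≠ 0)
    (h1 : ∀ v, x v = v + c • T.t e (ph T b₁ e v)) : mv x = LinearMap.range (T.t e) := by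
  obtain ⟨e', he'⟩ := h.exists_partner he
  refine le_antisymm (mv_le.2 fun v => ⟨c • ph T b₁ e v, by simp [h1]⟩) ?_
  rintro _ ⟨w, rfl⟩
  exact ⟨c⁻¹ • T.t e' w, by simp [h1, he', smul_smul, hc]⟩

theorem isom_of_rt (he : e ≠ 0) {C : W ≃ₗ[F] W} (hC : T.rt C ∈ M) (x y : W) :
    b₂ (C x) (C y) = b₂ x y := by
  obtain ⟨e', he'⟩ := h.exists_partner he
  simpa [h.eq, he'] using h.isom _ hC (T.t e' x) (T.t e y)

theorem ph_stab {m : V ≃ₗ[F] V} (hm : m ∈ M)
    (h1 : ∀ v ∈ LinearMap.range (T.t e), m v ∈ LinearMap.range (T.t e)) {v : V}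
    (hv : ph T b₁ e v = 0) : ph T b₁ e (m v) = 0 := h.nd₂.1 _ fun w => by
  have := h.form_of_mem hv (inv_mem_of_le h1 _ ⟨w, rfl⟩)
  rwa [← h.isom m hm, LinearEquiv.coe_inv, LinearEquiv.apply_symm_apply, h.form_t] at this

end SpOM

namespace SpNT

variable (h : SpNT T b₁ b₂ B M) {e : E}
include h

theorem rigid (hex : ¬ (finrank F E = 2 ∧ finrank F W = 4)) (he : e ≠ 0) {x : V ≃ₗ[F] V}
    (hx : x ∈ M) {c : F} (hc : c ≠ 0) (h1 : ∀ v, x v = v + c • T.t e (ph T b₁ e v)) :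
    Rigid M T.grp x := by
  refine ⟨hx, fun g hg ⟨A, C, hAC⟩ => ?_⟩
  have hs := h.sym₂
  have h2 := h.two
  have h3 := h.three
  obtain ⟨e', he'⟩ := h.exists_partner he
  have hmv : mv (T.tm A C) = (LinearMap.range (T.t e)).map (g : V →ₗ[F] V) := by
    rw [← hAC, mv_conj, h.mv_x he hc h1]
  have hrk : finrank F (mv (T.tm A C)) = finrank F W := by
    rw [hmv, LinearEquiv.finrank_map_eq, finrank_range_t he]
  have hM : T.tm A C ∈ M := hAC ▸ M.mul_mem (M.mul_mem hg hx) (M.inv_mem hg)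
  by_cases hA : ∀ y, A y ∈ F ∙ y
  swap
  · push Not at hA
    obtain ⟨y, hy⟩ := hA
    obtain ⟨l, l1, l2⟩ := exists_dual_pair hy
    obtain ⟨A', hA'⟩ := T.swap.exists_eq_rt (A := C) A fun w => by
      have h4 : ∀ v, T.tm A C (T.tm A C v) = (2 : F) • T.tm A C v - v := fun v => by
        obtain ⟨v, rfl⟩ := g.surjective v
        have h4 : x (x v) = (2 : F) • x v - v := by
          rw [h1 (x v), h.ph_fix hx fun w => by simp [h1, h.alt₁.self_eq_zero], h1]; module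
        rw [← hAC]
        simp [h4]
      have h5 : l (A (A y)) • C w = (2 : F) • w :=
        C.injective (by simpa [l1, l2] using congrArg (T.cL l) (h4 (T.t y w)))
      by_cases h6 : l (A (A y)) = 0
      · rw [h6, zero_smul, eq_comm, smul_eq_zero, or_iff_right h2] at h5
        simp [h5]
      · exact (Submodule.smul_mem_iff _ h6).1 (Submodule.mem_span_singleton.2 ⟨2, h5.symm⟩)
    rw [T.swap_tm] at hA'
    rw [hA', Ten.mv_rt] at hmv hrk
    rw [Ten.finrank_LS, Nat.mul_eq_left (by omega)] at hrk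
    obtain ⟨f, f1, f2⟩ := finrank_eq_one_iff'.1 hrk
    obtain ⟨A₀, hA₀, h4⟩ := sp_trans h.nd₁ h.alt₁ (e := f) (by simpa using f1) he
    refine (mul_mem_cancel_left (T.tm_mem A₀ 1)).1 (h.mem_grp_of_stab he _
      (M.mul_mem (h.tm_mem hA₀ (by simp)) hg) fun v hv => ?_)
    obtain ⟨w, hw⟩ := T.swap.mem_LS_span.1 (T.swap.LS_mono (J' := F ∙ (f : E)) (fun y hy => by
      obtain ⟨k, hk⟩ := f2 ⟨y, hy⟩
      exact Submodule.mem_span_singleton.2 ⟨k, congrArg Subtype.val hk⟩)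
      (hmv.ge (Submodule.mem_map_of_mem hv)))
    exact ⟨w, by rw [LinearEquiv.mul_apply, show g v = T.t f w from hw, Ten.tm_t, h4]; rfl⟩
  obtain ⟨C', hC'⟩ := T.exists_eq_rt C hA
  rw [hC'] at hmv hrk hM
  rw [Ten.mv_rt] at hmv hrk
  rw [Ten.finrank_LS] at hrk
  have hU : ∀ u ∈ mv C', ∀ u' ∈ mv C', b₂ u u' = 0 := fun u hu u' hu' => by
    obtain ⟨_, ⟨w, rfl⟩, h4⟩ := hmv.le (T.t_mem_LS e' hu)
    obtain ⟨_, ⟨w', rfl⟩, h5⟩ := hmv.le (T.t_mem_LS e hu')
    have := h.isom g hg (T.t e w) (T.t e w')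
    rw [show g _ = _ from h4, show g _ = _ from h5] at this
    simpa [h.eq, he', h.alt₁.self_eq_zero] using this
  have ha : 2 ≤ finrank F E := by
    simpa using ((LinearIndependent.pair_iff' (y := e') he).2 fun a ha => by
      simp [← ha, h.alt₁.self_eq_zero] at he').fintype_card_le_finrank
  exfalso
  suffices ∃ s : W ≃ₗ[F] W, (∀ x y, b₂ (s x) (s y) = b₂ x y) ∧ (∀ u ∈ mv C', s u = u) ∧
      (∃ w, s w ≠ w) ∧ finrank F (mv s) < finrank F (mv C') by
    obtain ⟨s, s1, s2, ⟨w, s3⟩, s4⟩ := this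
    have h4 : ∀ w, (g⁻¹ * T.rt s * g⁻¹⁻¹) (T.t e w) = T.t e w := fun w => g.injective (by
      simpa using T.eqOn_LS (f := (T.rt s : V →ₗ[F] V)) (g := LinearMap.id)
        (fun e u hu => by simp [s2 u hu]) (hmv.ge (Submodule.mem_map_of_mem ⟨w, rfl⟩)))
    obtain ⟨D, hD⟩ := T.exists_eq_rt_of_finrank (g := g⁻¹ * T.rt s * g⁻¹⁻¹) (h.mem_grp_of_fix he
      (M.mul_mem (M.mul_mem (M.inv_mem hg) (h.tm_mem (A := 1) (by simp) s1))
        (M.inv_mem (M.inv_mem hg))) h4) (by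
        rw [finrank_mv_conj, Ten.mv_rt, Ten.finrank_LS, ← hrk]
        exact Nat.mul_lt_mul_of_pos_left s4 (by omega))
    rw [hD] at h4
    have h5 : D = 1 := LinearEquiv.ext fun w => by simpa [T.t_right_inj he] using h4 w
    rw [h5, map_one, mul_inv_eq_one, inv_mul_eq_iff_eq_mul, mul_inv_cancel] at hD
    exact s3 (by simpa [T.t_right_inj he] using LinearEquiv.congr_fun hD (T.t e w))
  have hC := h.isom_of_rt he hM
  have : Nontrivial (mv C') := Module.nontrivial_of_finrank_pos (R := F) (Nat.pos_of_ne_zero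
    fun h0 => by rw [h0] at hrk; omega)
  obtain ⟨⟨u, w, rfl⟩, hu⟩ := exists_ne (0 : mv C')
  replace hu : C' w - w ≠ 0 := by simpa using hu
  obtain ⟨w', hw'⟩ := exists_form_ne_zero h.nd₂ hu
  have h4 : ∀ x y, b₂ (C' x - x) y + b₂ x (C' y - y) = 0 := fun x y => by
    have := hU _ (sub_mem_mv C' x) _ (sub_mem_mv C' y)
    simp only [map_sub, LinearMap.sub_apply, hC] at this ⊢
    linear_combination -this
  have h5 : C' w' - w' ∉ F ∙ (C' w - w) := fun h5 => by
    obtain ⟨k, hk⟩ := Submodule.mem_span_singleton.1 h5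
    have h6 := h4 w' w'
    have h7 := h4 w' w
    rw [← hk] at h6 h7
    simp only [map_smul, LinearMap.smul_apply, smul_eq_mul, hs (C' w - w) w'] at h6 h7
    have : k = 0 := mul_right_cancel₀ (mul_ne_zero h2 hw') (by linear_combination h6)
    exact hw' (by simpa only [this, zero_mul, zero_add] using h7)
  have h6 : finrank F ↥((F ∙ (C' w - w)) ⊔ F ∙ (C' w' - w')) = 2 := by
    rw [Submodule.finrank_sup_span_singleton h5, finrank_span_singleton hu]
  have h7 : (F ∙ (C' w - w)) ⊔ F ∙ (C' w' - w') ≤ mv C' := by simp [sub_mem_mv]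
  by_cases h8 : 2 < finrank F (mv C')
  · obtain ⟨s, s1, s2⟩ := exists_eich h2 hs (hU _ (sub_mem_mv C' w) _ (sub_mem_mv C' w))
      (hU _ (sub_mem_mv C' w') _ (sub_mem_mv C' w))
    refine ⟨s, s1, fun u hu => by
      rw [s2, hU u hu _ (sub_mem_mv C' w), hU u hu _ (sub_mem_mv C' w')]; simp, ⟨w', fun h9 => ?_⟩,
      lt_of_le_of_lt (Submodule.finrank_mono (mv_le.2 fun y => ?_)) (h6 ▸ h8)⟩
    · rw [s2, add_sub_assoc, add_eq_left, sub_eq_zero] at h9
      exact h5 ((Submodule.smul_mem_iff _ hw').1 (Submodule.mem_span_singleton.2 ⟨_, h9.symm⟩))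
    · rw [s2, add_sub_assoc, add_sub_cancel_left]
      exact sub_mem (Submodule.mem_sup_right (Submodule.mem_span_singleton.2 ⟨_, rfl⟩))
        (Submodule.mem_sup_left (Submodule.mem_span_singleton.2 ⟨_, rfl⟩))
  · have h9 : finrank F (mv C') = 2 := by have := Submodule.finrank_mono h7; omega
    obtain ⟨z, z1, z2⟩ := exists_ns h2 hs h.nd₂ (W := b₂.orthogonal (mv C')) (by
      rw [LinearMap.BilinForm.finrank_orthogonal h.nd₂, h9]
      rw [h9] at hrk
      omega)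
    refine ⟨rf b₂ z2, rf_isom hs z2, fun u hu => rf_of_perp z2 (z1 u hu), ⟨z, fun h10 => ?_⟩,
      lt_of_le_of_lt (Submodule.finrank_mono (t := F ∙ z) (mv_le.2 fun y => ?_)) ?_⟩
    · rw [rf_self, neg_eq_iff_add_eq_zero, ← two_smul F, smul_eq_zero, or_iff_right h2] at h10
      simp [h10] at z2
    · exact Submodule.mem_span_singleton.2 ⟨-(2 * b₂ y z / b₂ z z), by simp [rf_apply]⟩
    · rw [finrank_span_singleton (by rintro rfl; simp at z2)]; omega

theorem le_grp_of_three [Finite F] (ha : 3 ≤ finrank F E) : M ≤ T.grp := by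
  by_contra hne
  have : Nontrivial E := Module.nontrivial_of_finrank_pos (R := F) (by omega)
  obtain ⟨e, he⟩ := exists_ne (0 : E)
  obtain ⟨g, c⟩ := exists_crit (LinearMap.range (T.t e)) hne
  have h2 := h.two
  have key : ∀ f, f ≠ 0 → b₁ e f = 0 → ∀ y, g y ∈ LinearMap.range (T.t e) → ph T b₁ f y = 0 →
      y ∈ LinearMap.range (T.t e) := fun f hf hef y h1 h3 => by
    obtain ⟨x, hx, -, h4⟩ := h.inA_one f 1
    refine c.mem_of (h.rigid (by omega) hf hx one_ne_zero h4) (fun v hv hv' => ?_) h1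
      (by simpa [h4, h3] using h1)
    simpa [h4, h.ph_of_mem hef hv] using hv'
  choose x hx hx' h1 using h.inA_one e
  refine c.false_of_quad (h.mem_grp_of_stab he) (fun i : Bool => x (if i then 1 else -1))
    (fun i => hx _) (fun i => h.mv_x he (by cases i <;> simp) (h1 _))
    (fun i v hv => by simp [h1, h.ph_of_mem (h.alt₁.self_eq_zero e) hv]) (fun _ => 2⁻¹)
    (fun v => by simp [h1]; match_scalars <;> field_simp <;> ring) fun m hm hm' h3 h4 => ?_
  suffices mv m ≤ LinearMap.range (T.t e) from ⟨this, fun v hv =>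
    h.fix_of_mv hm (mv_le.1 this) (h.ph_of_mem (h.alt₁.self_eq_zero e) hv)⟩
  obtain ⟨f, -, f1, f2⟩ := exists_mem_notMem_ker [b₁.flip e] (W := ⊤) (Z := F ∙ e)
    (by simp [finrank_span_singleton he]; omega)
  replace f2 : b₁ f e = 0 := f2 (b₁.flip e) (by simp)
  obtain ⟨A, rfl⟩ := T.swap.exists_eq_rt_of_sub_mem (g := m) (by simpa using hm') f1 fun w => by
    obtain ⟨l, hl, l', hl', h5⟩ := Submodule.mem_sup.1 (h4 (sub_mem_mv m (T.t f w)))
    have h6 := congrArg (ph T b₁ e) h5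
    rw [map_add, map_sub, h.ph_stab hm h3 (by simp [f2]),
      h.ph_of_mem (h.alt₁.self_eq_zero e) hl] at h6
    rw [← range_t_eq, Ten.swap_t, ← h5]
    exact add_mem hl (key e he (h.alt₁.self_eq_zero e) _ hl' (by simpa [f2] using h6))
  rw [Ten.mv_rt, range_t_eq]
  refine T.swap.LS_mono fun y hy => by_contra fun hy' => ?_
  obtain ⟨f', -, f3, f4⟩ := exists_mem_notMem_ker [b₁ e, b₁ y] (W := ⊤) (Z := ⊥) (by simp; omega)
  obtain ⟨v, v1, v2⟩ := c.exists_notMem (h.mem_grp_of_stab he)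
  have h5 : T.swap.LS ((F ∙ e) ⊔ F ∙ y) = LinearMap.range (T.t e) ⊔
      (LinearMap.range (T.t e)).comap (g : V →ₗ[F] V) := by
    refine Submodule.eq_of_le_of_finrank_le ?_ ?_
    · rw [Ten.LS_sup, ← range_t_eq]
      exact sup_le le_sup_left (le_trans (by
        rw [Ten.mv_rt]; exact T.swap.LS_mono (by simpa using hy)) h4)
    · have := Crit.finrank_sup_add (LinearMap.range (T.t e)) g
      rw [Ten.finrank_LS, Submodule.finrank_sup_span_singleton hy', finrank_span_singleton he]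
      rw [finrank_range_t he] at this
      omega
  refine v2 (key f' (by simpa using f3) (f4 _ (by simp)) v v1 ?_)
  refine T.swap.LS_induction (p := fun v => ph T b₁ f' v = 0) (h5.ge (Submodule.mem_sup_right v1))
    (by simp) (fun w a ha => ?_) fun a b ha hb => by simp [ha, hb]
  have : b₁ a f' = 0 := (sup_le (c := LinearMap.ker (b₁.flip f'))
    (by simpa using f4 (b₁ e) (by simp)) (by simpa using f4 (b₁ y) (by simp))) ha
  simp [this]

/-- An element fixing `E ⊗ u` with `u` singular. -/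
theorem eich (he : e ≠ 0) {u : W} (hu0 : u ≠ 0) (hu : b₂ u u = 0) {y : V ≃ₗ[F] V} (hy : y ∈ M)
    (h1 : ∀ f, y (T.t f u) = T.t f u) {z z' : W} (hz : b₂ z u = 0) (hz' : b₂ z' u = 0) :
    B (y (T.t e z)) (T.t e z') = 0 := by
  have hs := h.sym₂
  have h2 := h.two
  let π := T.cR (b₂.flip u)
  have p1 : ∀ v f, B v (T.t f u) = b₁ (π v) f := fun v f =>
    T.induction v (by simp) (by simp [h.eq, π, mul_comm]) fun a b ha hb => by simp [ha, hb]
  have p2 : ∀ v, π (y v) = π v := fun v => sub_eq_zero.1 (h.nd₁.1 _ fun f => by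
    rw [map_sub, LinearMap.sub_apply, ← p1, ← p1, ← h1, h.isom y hy, h1, sub_self])
  have ex : ∀ z, b₂ z u = 0 → ∃ n ∈ M, ∃ ψ : V →ₗ[F] E,
      ∀ v, n v = v + T.t (π v) z + T.t (ψ v) u ∧ ∀ f, n (T.t f u) = T.t f u := fun z hz => by
    obtain ⟨s, s1, s2⟩ := exists_eich h2 hs hu hz
    refine ⟨T.tm 1 s, h.tm_mem (by simp) s1, -T.cR (b₂.flip z + (b₂ z z / 2) • b₂.flip u),
      fun v => ⟨T.induction v (by simp) (fun f w => ?_) fun a b ha hb => ?_,
        by simp [s2, hu, hs u z, hz]⟩⟩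
    · simp [s2, π, sub_eq_add_neg]
    · simp only [map_add, ha, hb, LinearMap.add_apply]; abel
  obtain ⟨n, hn, ψ, n1⟩ := ex z hz
  obtain ⟨n', hn', ψ', n2⟩ := ex z' hz'
  have hm := M.mul_mem (M.mul_mem hy hn) (M.inv_mem hy)
  have m1 : ∀ v, (y * n * y⁻¹) v - v = y (T.t (π v) z) + T.t (ψ (y.symm v)) u := fun v => by
    obtain ⟨v, rfl⟩ := y.surjective v
    simp [(n1 v).1, h1, p2, add_assoc]
  have m2 : ∀ v, n' v - v = T.t (π v) z' + T.t (ψ' v) u := fun v => by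
    rw [(n2 v).1]; abel
  obtain ⟨h3, h4⟩ := comm_abs h.alt (Λ := LinearMap.range (T.t.flip u)) (P := LinearMap.ker π)
    (by rintro a ha _ ⟨f, rfl⟩; simp [p1, show π a = 0 from ha]) (h.isom _ hm) (h.isom _ hn')
    (by
      rintro _ ⟨f, rfl⟩
      have : y.symm (T.t f u) = T.t f u := by rw [LinearEquiv.symm_apply_eq, h1]
      simp [this, (n1 0).2, h1])
    (by rintro _ ⟨f, rfl⟩; exact (n2 0).2 f) (fun v => by rw [m1]; simp [p2]; simp [π, hz, hu])
    (fun v => by rw [m2]; simp [π, hz', hu])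
    (fun v hv => ⟨ψ (y.symm v), by simp [m1, show π v = 0 from hv, -LinearEquiv.mul_apply]⟩)
    fun v hv => ⟨ψ' v, by simp [m2, show π v = 0 from hv]⟩
  generalize hk : (n' * (y * n * y⁻¹))⁻¹ * (y * n * y⁻¹ * n') = k at h3 h4
  have k1 : k ∈ M := hk ▸ M.mul_mem (M.inv_mem (M.mul_mem hn' hm)) (M.mul_mem hm hn')
  have k2 : ∀ a, π a = 0 → k a = a := fun a ha => sub_eq_zero.1 (h.nd.1 _ fun v => by
    rw [h4, m1, m1, m2, m2]
    simp [ha, p1, p2, alt_swap h.alt (T.t _ u), π, hz, hz', hu])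
  let Γ := (k : V →ₗ[F] V) - LinearMap.id
  have k3 : ∀ v, k v = v + Γ v := fun v => by simp [Γ]
  have k4 : ∀ a, π a = 0 → Γ a = 0 := fun a ha => by simp [Γ, k2 a ha]
  have k5 : ∀ v, ∃ f, Γ v = T.t f u := fun v => by
    obtain ⟨f, hf⟩ := h3 v; exact ⟨f, hf.symm⟩
  obtain ⟨x, hx, -, x1⟩ := h.inA_one e 1
  obtain ⟨x', hx', -, x2⟩ := h.inA_one e (-1)
  have k6 : ∀ v, Γ (Γ v) = 0 := fun v => by
    obtain ⟨f, hf⟩ := k5 v; exact k4 _ (by simp [hf, π, hu])
  have k7 : ∀ v, Γ (T.t e (ph T b₁ e (Γ v))) = 0 := fun v => by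
    obtain ⟨f, hf⟩ := k5 v; exact k4 _ (by simp [hf, π, hu])
  have k8 : ∀ v, k.symm v = v - Γ v := fun v => by
    rw [LinearEquiv.symm_apply_eq, k3]; simp [k6]
  obtain ⟨s, hs'⟩ := h.nt e he ((-2 : F) • ph T b₁ e ∘ₗ Γ ∘ₗ T.t e)
    ⟨x * k * x' * (x' * k * x) * k⁻¹ * k⁻¹, M.mul_mem (M.mul_mem (M.mul_mem (M.mul_mem
      (M.mul_mem hx k1) hx') (M.mul_mem (M.mul_mem hx' k1) hx)) (M.inv_mem k1)) (M.inv_mem k1),
      fun v => by
        simp only [LinearEquiv.mul_apply, LinearEquiv.coe_inv, k8, x1, x2, k3, map_add, map_sub,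
          map_smul, k6, k7, ph_t, h.alt₁.self_eq_zero, zero_smul, map_zero, LinearMap.smul_apply,
          LinearMap.comp_apply]
        module⟩
  obtain ⟨w, -, w1⟩ := exists_mem_notMem (W := ⊤) (Z := F ∙ u) (by
    have := h.three; simp [finrank_span_singleton hu0]; omega)
  have h5 : s = 0 := by_contra fun h5 => w1 ((Submodule.smul_mem_iff _ h5).1 (by
    obtain ⟨f, hf⟩ := k5 (T.t e w)
    exact Submodule.mem_span_singleton.2 ⟨-2 * b₁ f e, by simp [← hs', hf, smul_smul]⟩))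
  obtain ⟨u', hu'⟩ := exists_form_ne_zero h.nd₂ hu0
  have h6 := h4 (T.t e u') (T.t e u')
  have h7 : ph T b₁ e (Γ (T.t e u')) = 0 := by simpa [h5, h2] using hs' u'
  rw [h.form_t, k3, add_sub_cancel_left, h7, m1, m2] at h6
  simp [p1, p2, alt_swap h.alt (T.t _ u), π, hz, hz', hu, hu', ← two_mul, h2] at h6
  exact h6

end SpNT

end H62
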