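import Cfsg.Agent.H62.TenSp3

set_option autoImplicit false
set_option linter.unusedSectionVars false

/-! Overgroups of `Sp(E) ⊗ O(W)` in `Sp(E ⊗ W)`, part 4: the case `dim E = 2`. -/

namespace H62

open Module H56

/-- An element whose trace lies in a quadratic extension is semisimple. -/
theorem pow_card_four {F R : Type*} [Field F] [Fintype F] [CommRing R] [Algebra F R]
    (h2 : (2 : F) ≠ 0) {z z' d : R} (hz : z * z' = 1) (hd : d = z + z' - 2) {t n : F}
    (h1 : d * (d ^ 2 - t • d + algebraMap F R n) = 0) (h3 : ∀ ρ : F, ρ ^ 2 - t * ρ + n ≠ 0) :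
    z ^ Fintype.card F ^ 4 * d = z * d := by
  have pw : ∀ {a b c : R} (k : ℕ), a * c = b * c → a ^ k * c = b ^ k * c := fun {a b c} k h => by
    induction k with
    | zero => simp
    | succ k ih => rw [pow_succ, pow_succ', mul_assoc, h, mul_left_comm, ih, mul_assoc]
  let φ := FiniteField.frobeniusAlgHom F R
  have hφ : ∀ x, φ x = x ^ Fintype.card F := fun _ => rfl
  obtain ⟨m, hm⟩ := FiniteField.odd_card_of_char_ne_two (F := F) (fun h => h2 (by
    have := ringChar.Nat.cast_ringChar (R := F); rwa [h] at this)) |> Nat.odd_iff.2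
  obtain ⟨s, rfl⟩ : ∃ s, t = 2 * s := ⟨t / 2, by field_simp⟩
  have hΔ : s ^ 2 - n ≠ 0 := fun h => h3 s (by linear_combination -h)
  obtain ⟨ε, hε⟩ : ∃ ε, d = ε + algebraMap F R s := ⟨_, (sub_add_cancel _ _).symm⟩
  simp only [Algebra.smul_def, map_mul, map_ofNat] at h1
  have h4 : ε ^ 2 * d = algebraMap F R (s ^ 2 - n) * d := by
    rw [map_sub, map_pow]; rw [hε] at h1 ⊢; linear_combination h1
  have h5 : φ ε * d = algebraMap F R ((s ^ 2 - n) ^ m) * ε * d := by
    rw [hφ, hm, pow_succ', pow_mul, mul_assoc, pw m h4, map_pow]; ring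
  have h6 : φ (φ ε) * d = ε * d := by
    have h7 : ((s ^ 2 - n) ^ m) * (s ^ 2 - n) ^ m = 1 := by
      rw [← pow_add, ← FiniteField.pow_card_sub_one_eq_one _ hΔ, hm]; congr 1; omega
    rw [hφ (φ ε), pw _ h5, ← hφ, map_mul, φ.commutes, mul_assoc, h5, ← mul_assoc, ← mul_assoc,
      ← map_mul, h7, map_one, one_mul]
  have h7 : (φ (φ z) + φ (φ z')) * d = (z + z') * d := by
    have : z + z' = ε + algebraMap F R s + 2 := by rw [← hε, hd]; ring
    rw [← map_add, ← map_add, this]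
    simp only [map_add, AlgHom.commutes, map_ofNat]
    linear_combination h6
  have hw : φ (φ z) * φ (φ z') = 1 := by rw [← map_mul, ← map_mul, hz, map_one, map_one]
  have e4 : z ^ Fintype.card F ^ 4 = φ (φ (φ (φ z))) := by simp only [hφ, ← pow_mul]; congr 1; ring
  have pw2 : ∀ {a b c : R}, a * c = b * c → φ (φ a) * c = φ (φ b) * c := fun h => by
    simp only [hφ]; exact pw _ (pw _ h)
  generalize hw1 : φ (φ z) = w at *
  generalize hw2 : φ (φ z') = w' at *
  have h8 : w * ((z * w - 1) * d) = z * ((z * w - 1) * d) := by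
    linear_combination (z * w) * h7 + (w * d) * hz - (z * d) * hw
  have h9 : w * ((z - w) * d) = z' * ((z - w) * d) := by
    linear_combination (-w) * h7 + d * hw - d * hz
  have h10 : φ (φ w) * ((z ^ 2 - 1) * d) = z * ((z ^ 2 - 1) * d) := by
    have k1 := pw2 h8
    have k2 := pw2 h9
    rw [hw1] at k1
    rw [hw2] at k2
    linear_combination k1 + h8 + z * k2 - (z ^ 2 * w') * h9 + (z ^ 2 * (z - w) * d) * hw -
      (z * w' * (z - w) * d) * hz
  have h11 : (16 + 4 * (2 * s) + n) ≠ 0 := fun h => h3 (-4) (by linear_combination h)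
  have h12 : n ≠ 0 := fun h => h3 0 (by simp [h])
  have k1 : algebraMap F R (16 + 4 * (2 * s) + n)⁻¹ *
      (16 + 4 * (2 * algebraMap F R s) + algebraMap F R n) = 1 := by
    have := congrArg (algebraMap F R) (inv_mul_cancel₀ h11)
    simpa only [map_mul, map_add, map_ofNat, map_one] using this
  have k2 : algebraMap F R n⁻¹ * algebraMap F R n = 1 := by
    rw [← map_mul, inv_mul_cancel₀ h12, map_one]
  have k3 : (φ (φ w) - z) * (d * (d + 4) * d) = 0 := by
    have : d * (d + 4) = (z ^ 2 - 1) * ((z ^ 2 - 1) * z' ^ 2) := by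
      rw [hd]; linear_combination (2 - (z * z' + 1) * (z ^ 2 - 2)) * hz
    rw [this]; linear_combination ((z ^ 2 - 1) * z' ^ 2) * h10
  rw [e4]
  generalize φ (φ w) = y at k3
  generalize algebraMap F R (16 + 4 * (2 * s) + n)⁻¹ = a at k1
  generalize algebraMap F R n⁻¹ = b at k2
  generalize algebraMap F R s = S at *
  generalize algebraMap F R n = N at *
  have k4 : (y - z) * (d * d) = 0 := by
    linear_combination (-a * (d - 2 * S - 4)) * k3 + (a * (y - z) * d) * h1 - ((y - z) * d * d) * k1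
  linear_combination (-b * (d - 2 * S)) * k4 + (b * (y - z)) * h1 - ((y - z) * d) * k2

open IsMulCommutative in
theorem pow_card_four' {F V : Type*} [Field F] [Fintype F] [AddCommGroup V] [Module F V]
    (h2 : (2 : F) ≠ 0) (z : V ≃ₗ[F] V) {d : V →ₗ[F] V} (hd : ∀ v, d v = z v + z.symm v - (2 : F) • v)
    {t n : F} (h1 : ∀ v, d (d (d v)) - t • d (d v) + n • d v = 0)
    (h3 : ∀ ρ : F, ρ ^ 2 - t * ρ + n ≠ 0) (v : V) :
    (z ^ Fintype.card F ^ 4) (d v) = z (d v) := by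
  have := Algebra.isMulCommutative_adjoin F (s := {(z : End F V), (z.symm : End F V)}) (by
    simp only [Set.mem_insert_iff, Set.mem_singleton_iff]
    rintro _ (rfl | rfl) _ (rfl | rfl) <;> ext <;> simp)
  let a : Algebra.adjoin F {(z : End F V), (z.symm : End F V)} :=
    ⟨z, Algebra.subset_adjoin (by simp)⟩
  let a' : Algebra.adjoin F {(z : End F V), (z.symm : End F V)} :=
    ⟨z.symm, Algebra.subset_adjoin (by simp)⟩
  obtain ⟨D, hD⟩ : ∃ D, D = a + a' - 2 := ⟨_, rfl⟩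
  have h4 : D.1 = d := LinearMap.ext fun v => by
    rw [hD, ← one_add_one_eq_two]; simp [a, a', hd, two_smul]
  have := LinearMap.congr_fun (congrArg Subtype.val (pow_card_four h2 (z := a) (z' := a')
    (Subtype.ext (by ext; simp [a, a'])) hD (t := t) (n := n)
    (Subtype.ext (LinearMap.ext fun v => by simpa [pow_two, h4] using h1 v)) h3)) v
  simpa [h4, a, LinearEquiv.pow_apply, End.pow_apply] using this

variable {F E W V : Type*} [Field F] [AddCommGroup E] [Module F E] [AddCommGroup W] [Module F W]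
  [AddCommGroup V] [Module F V] [FiniteDimensional F E] [FiniteDimensional F W]
  [FiniteDimensional F V]
  {T : Ten F E W V} {b₁ : LinearMap.BilinForm F E} {b₂ : LinearMap.BilinForm F W}
  {B : LinearMap.BilinForm F V} {M : Subgroup (V ≃ₗ[F] V)}

/-- A critical element for `dim E = 2`. -/
structure Sp2 (T : Ten F E W V) (b₁ : LinearMap.BilinForm F E) (b₂ : LinearMap.BilinForm F W)
    (B : LinearMap.BilinForm F V) (M : Subgroup (V ≃ₗ[F] V)) (e e' : E) (g : V ≃ₗ[F] V) : Prop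
    extends SpNT T b₁ b₂ B M where
  dim : finrank F E = 2
  ne4 : finrank F W ≠ 4
  pair : b₁ e' e = 1
  crit : Crit M T.grp (LinearMap.range (T.t e)) g

variable (T b₁) in
/-- The conjugate of the root operator. -/
def nn (e : E) (g : V ≃ₗ[F] V) : V →ₗ[F] V :=
  (g.symm : V →ₗ[F] V) ∘ₗ T.t e ∘ₗ ph T b₁ e ∘ₗ (g : V →ₗ[F] V)

variable (T) in
/-- The overlap. -/
def dd (e : E) (g : V ≃ₗ[F] V) : Submodule F W :=
  (LinearMap.range (T.t e)).comap ((g : V →ₗ[F] V) ∘ₗ T.t e)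

variable (T b₁) in
/-- The product of the two root operators. -/
def th (e : E) (g : V ≃ₗ[F] V) : W →ₗ[F] W := ph T b₁ e ∘ₗ nn T b₁ e g ∘ₗ T.t e

variable {e e' : E} {g : V ≃ₗ[F] V}

theorem g_nn (v : V) : g (nn T b₁ e g v) = T.t e (ph T b₁ e (g v)) := by simp [nn]

theorem mem_dd {w : W} : w ∈ dd T e g ↔ g (T.t e w) ∈ LinearMap.range (T.t e) := Iff.rfl

theorem ph_nn (w : W) : ph T b₁ e (nn T b₁ e g (T.t e w)) = th T b₁ e g w := rfl

namespace Sp2

variable (h : Sp2 T b₁ b₂ B M e e' g)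
include h

theorem ne : e ≠ 0 := by rintro rfl; simpa using h.pair

theorem ee : b₁ e e = 0 := h.alt₁.self_eq_zero e

theorem mem_span {y : E} (hy : b₁ y e = 0) : y ∈ F ∙ e := by
  have h1 := LinearMap.finrank_range_add_finrank_ker (b₁.flip e)
  have h2 : LinearMap.range (b₁.flip e) = ⊤ := eq_top_iff.2 fun c _ => ⟨c • e', by simp [h.pair]⟩
  rw [h2, finrank_top, finrank_self, h.dim] at h1
  exact (Submodule.eq_of_le_of_finrank_le (S₁ := F ∙ e) (S₂ := LinearMap.ker (b₁.flip e))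
    (by simp [h.ee]) (by rw [finrank_span_singleton h.ne]; omega)).ge hy

theorem mem_L {v : V} (hv : ph T b₁ e v = 0) : v ∈ LinearMap.range (T.t e) :=
  h.mem_range fun y hy => by
    obtain ⟨c, rfl⟩ := Submodule.mem_span_singleton.1
      (h.mem_span (y := y) (by rw [alt_swap h.alt₁, hy, neg_zero]))
    simp [ph_smul, hv]

theorem exists_x (c : F) : ∃ x ∈ M, ∀ v, x v = v + c • nn T b₁ e g v := by
  obtain ⟨x, hx, -, h1⟩ := h.inA_one e c
  exact ⟨g⁻¹ * x * g, M.mul_mem (M.mul_mem (M.inv_mem h.crit.mem) hx) h.crit.mem, fun v =>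
    g.injective (by simp [h1, g_nn])⟩

theorem nn_nn (v : V) : nn T b₁ e g (nn T b₁ e g v) = 0 := g.injective (by simp [g_nn, h.ee])

theorem nn_of_mem {w : W} (hw : w ∈ dd T e g) : nn T b₁ e g (T.t e w) = 0 :=
  g.injective (by simp [g_nn, h.ph_of_mem h.ee (mem_dd.1 hw)])

theorem key {k : V ≃ₗ[F] V} (c : Crit M T.grp (LinearMap.range (T.t e)) k) {y : V}
    (h1 : k y ∈ LinearMap.range (T.t e))
    (h2 : k (T.t e (ph T b₁ e y)) ∈ LinearMap.range (T.t e)) : y ∈ LinearMap.range (T.t e) := by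
  obtain ⟨x, hx, -, h3⟩ := h.inA_one e 1
  refine c.mem_of (h.rigid (fun h4 => h.ne4 h4.2) h.ne hx one_ne_zero h3) (fun v hv hv' => ?_) h1
    (by simpa [h3] using add_mem h1 h2)
  simpa [h3, h.ph_of_mem h.ee hv] using hv'

theorem perp {y : V} (hy : g y ∈ LinearMap.range (T.t e)) {w : W} (hw : w ∈ dd T e g) :
    b₂ (ph T b₁ e y) w = 0 := by
  rw [← h.form_t, ← h.isom g h.crit.mem]
  exact h.form_of_mem (h.ph_of_mem h.ee hy) hw

theorem ker_th : LinearMap.ker (th T b₁ e g) = dd T e g := by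
  refine le_antisymm (fun w hw => h.key (Crit.inv h.crit) (y := g (T.t e w)) (by simp) ?_)
    fun w hw => by simp [← ph_nn, h.nn_of_mem hw]
  exact h.mem_L hw

theorem range_th : LinearMap.range (th T b₁ e g) = b₂.orthogonal (dd T e g) := by
  refine Submodule.eq_of_le_of_finrank_le ?_ ?_
  · rintro _ ⟨w, rfl⟩ x hx
    rw [h.sym₂]
    exact h.perp (by simp [g_nn]) hx
  · have := LinearMap.finrank_range_add_finrank_ker (th T b₁ e g)
    rw [h.ker_th] at this
    rw [LinearMap.BilinForm.finrank_orthogonal h.nd₂]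
    omega

theorem nondeg {w : W} (h1 : w ∈ dd T e g) (h2 : w ∈ b₂.orthogonal (dd T e g)) : w = 0 := by
  obtain ⟨w, rfl⟩ := h.range_th.ge h2
  exact h.ph_of_mem h.ee (h.key h.crit (by simp [g_nn]) h1)

theorem nondeg' : ∀ x ∈ dd T e g, (∀ y ∈ dd T e g, b₂ x y = 0) → x = 0 :=
  fun _ hx hx' => h.nondeg hx fun y hy => by rw [h.sym₂]; exact hx' y hy

theorem exists_perp : ∃ w ∈ b₂.orthogonal (dd T e g), w ≠ 0 := by
  by_contra hc
  push Not at hc
  refine h.crit.notMem (h.mem_grp_of_stab h.ne g h.crit.mem ?_)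
  rintro _ ⟨w, rfl⟩
  exact h.ker_th.le (hc _ (h.range_th.le ⟨w, rfl⟩))

theorem comm_rf {z : W} (hz : b₂ z z ≠ 0) (h1 : g * T.rt (rf b₂ hz) * g⁻¹ ∈ T.grp) (v : V) :
    nn T b₁ e g (T.rt (rf b₂ hz) v) = T.rt (rf b₂ hz) (nn T b₁ e g v) := by
  obtain ⟨C, hC⟩ := T.exists_eq_rt_of_finrank h1 (by
    have h2 : mv (rf b₂ hz) ≤ F ∙ z := mv_le.2 fun y =>
      Submodule.mem_span_singleton.2 ⟨-(2 * b₂ y z / b₂ z z), by simp [rf_apply]⟩
    have h3 := Submodule.finrank_mono h2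
    have := h.three
    rw [finrank_span_singleton (by rintro rfl; simp at hz)] at h3
    rw [finrank_mv_conj, Ten.mv_rt, Ten.finrank_LS, h.dim]
    omega)
  have h2 : ∀ v, g (T.rt (rf b₂ hz) v) = T.tm 1 C (g v) := fun v => by
    change _ = T.rt C _
    simpa using LinearEquiv.congr_fun hC (g v)
  exact g.injective (by simp [g_nn, h2, ph_tm_one])

theorem eigen {z : W} (h1 : z ∈ dd T e g) (hz : b₂ z z ≠ 0) :
    ∃ μ : F, nn T b₁ e g (T.t e' z) = μ • T.t e z := by
  have hr : T.rt (rf b₂ hz) ∈ M := h.tm_mem (A := 1) (by simp) (rf_isom h.sym₂ hz)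
  have h2 : ∀ v, T.rt (rf b₂ hz) v = v - (2 / b₂ z z) • T.t (T.cR (b₂.flip z) v) z := fun v =>
    T.induction v (by simp) (fun f w => by simp [rf_apply, smul_smul, div_mul_eq_mul_div])
      fun a b ha hb => by simp only [map_add, ha, hb, LinearMap.add_apply, smul_add]; abel
  have h3 : ∀ y, g y ∈ LinearMap.range (T.t e) → T.cR (b₂.flip z) y ∈ F ∙ e := fun y hy =>
    h.mem_span (by
      rw [← h.perp hy h1, eq_comm]
      exact T.apply_cL (b₁.flip e) (b₂.flip z) y)
  have h4 := h.comm_rf hz (h.mem_grp_of_stab h.ne _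
    (M.mul_mem (M.mul_mem h.crit.mem hr) (M.inv_mem h.crit.mem)) fun v hv => by
      obtain ⟨v, rfl⟩ := g.surjective v
      obtain ⟨c, hc⟩ := Submodule.mem_span_singleton.1 (h3 v hv)
      simpa [h2, ← hc] using sub_mem hv (Submodule.smul_mem _ _ (Submodule.smul_mem _ c h1)))
    (T.t e' z)
  obtain ⟨c, hc⟩ := Submodule.mem_span_singleton.1 (h3 (nn T b₁ e g (T.t e' z)) (by simp [g_nn]))
  rw [Ten.rt_t, rf_self, h2, ← hc, map_neg, map_neg, map_smul, LinearMap.smul_apply] at h4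
  refine ⟨c / b₂ z z, smul_right_injective V h.two ?_⟩
  simp only [smul_smul] at h4 ⊢
  rw [mul_div_assoc', ← div_mul_eq_mul_div]
  linear_combination (norm := module) -h4

theorem le_dd : finrank F W ≤ finrank F (dd T e g) + 2 := by
  have h1 : finrank F ↥(LinearMap.range (T.t e) ⊓ (LinearMap.range (T.t e)).comap
      (g : V →ₗ[F] V)) = finrank F (dd T e g) := by
    rw [(Submodule.equivMapOfInjective _ (fun _ _ => (T.t_right_inj h.ne).1) _).finrank_eq,
      dd, Submodule.comap_comp, Submodule.map_comap_eq]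
  by_cases h2 : ∀ z (hz : b₂ z z ≠ 0), g * T.rt (rf b₂ hz) * g⁻¹ ∈ T.grp
  · have : Nontrivial W := Module.nontrivial_of_finrank_pos (R := F) (by have := h.three; omega)
    obtain ⟨x, hx, -, h3⟩ := h.inA_one e 1
    refine absurd ((h.rigid (fun h4 => h.ne4 h4.2) h.ne hx one_ne_zero h3).2 _
      (M.inv_mem h.crit.mem) (mem_grp_of_blocks fun l f => ?_)) (Crit.inv h.crit).notMem
    obtain ⟨c, hc⟩ := exists_smul_of_rf h.two h.sym₂ h.nd₂ h.three
      (T.cL l ∘ₗ nn T b₁ e g ∘ₗ T.t f) fun z hz => ⟨0, fun w => by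
        simp only [LinearMap.comp_apply]
        rw [← T.rt_t, h.comm_rf hz (h2 z hz), T.cL_rt, rf_rf, zero_smul, add_zero]⟩
    exact ⟨l f + c, fun w => by simpa [h3, add_smul, nn] using hc w⟩
  push Not at h2
  obtain ⟨z, hz, h2⟩ := h2
  let L' := (LinearMap.range (T.t e)).comap (g : V →ₗ[F] V)
  have h3 := h.crit.le_of_notMem (h.tm_mem (A := 1) (by simp) (rf_isom h.sym₂ hz)) h2
    (X := L' ⊓ T.LS (LinearMap.ker (b₂.flip z))) (fun v hv => hv.1) fun v hv => by
      rw [show T.tm 1 (rf b₂ hz) v = v from T.eqOn_LS (f := (T.tm 1 (rf b₂ hz) : V →ₗ[F] V))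
        (g := LinearMap.id) (fun f w hw => by simp [rf_of_perp hz hw]) hv.2]
      exact hv.1
  have h4 := Submodule.finrank_sup_add_finrank_inf_eq L' (T.LS (LinearMap.ker (b₂.flip z)))
  have h5 := Submodule.finrank_le (L' ⊔ T.LS (LinearMap.ker (b₂.flip z)))
  have h6 := finrank_le_finrank_inf_ker_add_one (⊤ : Submodule F W) (b₂.flip z)
  rw [top_inf_eq, finrank_top] at h6
  rw [T.finrank_eq, h.dim] at h5
  rw [finrank_comap_equiv, finrank_range_t h.ne, Ten.finrank_LS, h.dim] at h4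
  omega

theorem false_of_five [Finite F] (h5 : 5 ≤ finrank F W) : False := by
  have h3 : 3 ≤ finrank F (dd T e g) := by have := h.le_dd; omega
  have hs := h.sym₂
  let ν := T.cL (b₁ e') ∘ₗ nn T b₁ e g ∘ₗ T.t e'
  have h1 : ∀ w ∈ dd T e g, nn T b₁ e g (T.t e' w) = T.t e (ν w) ∧ ν w ∈ dd T e g := by
    have : dd T e g ≤ LinearMap.eqLocus (nn T b₁ e g ∘ₗ T.t e') (T.t e ∘ₗ ν) ⊓
        (dd T e g).comap ν := by
      by_contra hc
      obtain ⟨a, a1, a2⟩ := exists_ns_of_nondeg h.two hs h.nondeg' (by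
        intro h0; rw [h0, finrank_bot] at h3; omega)
      obtain ⟨z, z1, z2, z3⟩ := exists_ns_notMem h.two hs a1 a2 hc
      obtain ⟨μ, hμ⟩ := h.eigen z1 z3
      exact z2 ⟨LinearMap.mem_eqLocus.2 (by simp [ν, hμ, h.pair]), Submodule.mem_comap.2 (by
        simpa [ν, hμ, h.pair] using Submodule.smul_mem _ μ z1)⟩
    exact fun w hw => this hw
  obtain ⟨μ, hμ⟩ := exists_smul_of_ns3 (B := b₂.restrict (dd T e g)) h.two (fun x y => hs x y)
    ⟨fun x hx => Subtype.ext (h.nondeg' _ x.2 fun y hy => hx ⟨y, hy⟩),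
      fun x hx => Subtype.ext (h.nondeg' _ x.2 fun y hy => hs _ _ ▸ hx ⟨y, hy⟩)⟩ h3
    (ν.restrict fun w hw => (h1 w hw).2) fun z hz => by
      obtain ⟨μ, hμ⟩ := h.eigen z.2 hz
      exact ⟨μ, Subtype.ext (by simp [ν, hμ, h.pair])⟩
  obtain ⟨u, u1, u2, u3⟩ := H60.exists_sing (Q := b₂.toQuadraticMap) _ h3
  have h4 : ν u = μ • u := congrArg Subtype.val (hμ ⟨u, u1⟩)
  obtain ⟨x, hx, -, x1⟩ := h.inA_one e (-μ)
  obtain ⟨x', hx', x2⟩ := h.exists_x 1
  obtain ⟨z, z1, z2⟩ := h.exists_perp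
  refine z2 (h.nondeg (h.ker_th.le (h.nondeg ?_ (h.range_th.le ⟨z, rfl⟩))) z1)
  rw [← LinearMap.BilinForm.orthogonal_orthogonal h.nd₂ (fun x y hxy => by rwa [hs]) (dd T e g)]
  intro z' hz'
  have := h.eich h.ne u2 u3 (M.mul_mem hx hx') (fun f => by
    obtain ⟨c, hc⟩ := Submodule.mem_span_singleton.1
      (h.mem_span (y := f - b₁ f e • e') (by simp [h.pair]))
    rw [eq_sub_iff_add_eq] at hc
    rw [← hc]
    simp [x1, x2, h.nn_of_mem u1, (h1 u u1).1, h4, h.ee, h.pair, smul_comm μ]) (z := z) (z' := z')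
    (hs _ _ ▸ z1 u u1) (hs _ _ ▸ hz' u u1)
  rw [hs]
  simpa [h.form_t, x1, x2, h.ee, ph_nn] using this

theorem no_eigen [Fintype F] (hq : 4 ≤ Fintype.card F) {z₀ : W} (h0 : z₀ ≠ 0) (h1 : z₀ ∈ dd T e g)
    {μ : F} (hμ : nn T b₁ e g (T.t e' z₀) = μ • T.t e z₀) {w : W} (hw0 : w ≠ 0)
    (hw : w ∈ b₂.orthogonal (dd T e g)) {l : F} (hl : th T b₁ e g w = l • w) : False := by
  have hl0 : l ≠ 0 := by
    rintro rfl
    exact hw0 (h.nondeg (h.ker_th.le (by simpa using hl)) hw)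
  have key : ∀ a : F, a ≠ 0 → a * a * l = -μ := fun a ha => by
    obtain ⟨x, hx, -, x1⟩ := h.inA_one e a
    obtain ⟨x', hx', x2⟩ := h.exists_x (-(a * l)⁻¹)
    have y1 : ∀ w ∈ dd T e g, (x' * x).symm (T.t e w) = T.t e w := fun w hw => by
      rw [LinearEquiv.symm_apply_eq]; simp [x1, x2, h.ee, h.nn_of_mem hw]
    have y2 : (x' * x) (nn T b₁ e g (T.t e w)) = (a * l) • T.t e w := by
      simp only [LinearEquiv.mul_apply, x1, x2, ph_nn, hl, map_add, map_smul, h.nn_nn]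
      match_scalars <;> field_simp <;> ring
    have y3 : g ((x' * x).symm (T.t e w)) ∈ LinearMap.range (T.t e) := by
      rw [← Submodule.smul_mem_iff _ (mul_ne_zero ha hl0), ← map_smul, ← map_smul, ← y2,
        LinearEquiv.symm_apply_apply, g_nn]
      exact ⟨_, rfl⟩
    have hk := M.mul_mem h.crit.mem (M.inv_mem (M.mul_mem hx' hx))
    obtain ⟨A, C, hAC⟩ : g * (x' * x)⁻¹ ∈ T.grp := by
      by_contra hc
      have h2 : T.t e w ∉ LinearMap.range (T.t e) ⊓ (LinearMap.range (T.t e)).comap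
        (g : V →ₗ[F] V) := fun h2 => hw0 (h.nondeg h2.2 hw)
      refine absurd (h.crit.max _ hk hc) (not_le.2 (Nat.lt_of_succ_le ?_))
      rw [Nat.succ_eq_add_one, ← Submodule.finrank_sup_span_singleton h2]
      refine Submodule.finrank_mono (sup_le ?_
        ((Submodule.span_singleton_le_iff_mem _ _).2 ⟨⟨w, rfl⟩, y3⟩))
      rintro _ ⟨⟨w, rfl⟩, h4⟩
      refine ⟨⟨w, rfl⟩, ?_⟩
      change g ((x' * x).symm (T.t e w)) ∈ LinearMap.range (T.t e)
      rwa [y1 w h4]
    have h2 : ∀ v ∈ LinearMap.range (T.t e), (g * (x' * x)⁻¹) v ∈ LinearMap.range (T.t e) := by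
      rintro _ ⟨w', rfl⟩
      have h3 : (g * (x' * x)⁻¹) (T.t e w) ∈ LinearMap.range (T.t e) := y3
      rw [hAC, Ten.tm_t, range_t_eq] at h3 ⊢
      exact T.swap.t_mem_LS _ ((T.swap.t_mem_LS_iff (C.map_ne_zero_iff.2 hw0)).1 h3)
    obtain ⟨x₁, hx₁, -, x3⟩ := h.inA_one e 1
    obtain ⟨s, hs⟩ := h.zc h.ne (M.mul_mem (M.mul_mem (M.inv_mem hk) hx₁) hk) fun v => by
      generalize g * (x' * x)⁻¹ = k at h2
      simpa [x3] using inv_mem_of_le h2 _ ⟨ph T b₁ e (k v), rfl⟩
    have h3 : ∀ u, (x' * x) (nn T b₁ e g u) = s • T.t e (ph T b₁ e ((x' * x) u)) := fun u => by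
      simpa [x3, nn, -LinearEquiv.mul_eq_trans] using hs ((x' * x) u)
    have h4 := h3 (T.t e' z₀)
    have h5 := h3 (T.t e w)
    rw [y2] at h5
    simp only [LinearEquiv.mul_apply, x1, x2, hμ, map_add, map_smul, ph_t, h.ee, h.pair, ph_nn, hl,
      h.nn_of_mem h1, zero_smul, smul_zero, map_zero, add_zero, zero_add, one_smul,
      smul_smul] at h4 h5
    have h6 := smul_left_injective F (T.t_eq_zero.not.2 (not_or.2 ⟨h.ne, h0⟩)) h4
    have h7 := smul_left_injective F (T.t_eq_zero.not.2 (not_or.2 ⟨h.ne, hw0⟩)) h5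
    field_simp at h7
    linear_combination h7 + h6
  classical
  obtain ⟨a, -, ha⟩ := Finset.exists_mem_notMem_of_card_lt_card (t := Finset.univ)
    (s := ({0, 1, -1} : Finset F))
    (lt_of_le_of_lt Finset.card_le_three (by rw [Finset.card_univ]; omega))
  simp only [Finset.mem_insert, Finset.mem_singleton, not_or] at ha
  refine (mul_self_eq_one_iff.1 (mul_right_cancel₀ hl0 ?_)).elim ha.2.1 ha.2.2
  rw [key a ha.1, ← key 1 one_ne_zero, one_mul]

theorem false_of_three [Fintype F] (hq : 4 ≤ Fintype.card F) (h3 : finrank F W = 3) : False := by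
  have hs := h.sym₂
  have h1 := h.le_dd
  obtain ⟨z₀, z1, z2⟩ := exists_ns_of_nondeg h.two hs h.nondeg' (by
    rintro h0; simp [h0, h3] at h1)
  have z3 : z₀ ≠ 0 := by rintro rfl; simp at z2
  obtain ⟨μ, hμ⟩ := h.eigen z1 z2
  have ne := fun w h0 hw l => h.no_eigen hq z3 z1 hμ (w := w) h0 hw (l := l)
  have hθ : ∀ w, th T b₁ e g w ∈ b₂.orthogonal (dd T e g) := fun w => h.range_th.le ⟨w, rfl⟩
  obtain ⟨w, w1, w2⟩ := h.exists_perp
  have w3 : th T b₁ e g w ∉ F ∙ w := fun h4 => by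
    obtain ⟨l, hl⟩ := Submodule.mem_span_singleton.1 h4
    exact ne w w2 w1 l hl.symm
  have h4 := LinearMap.BilinForm.finrank_orthogonal h.nd₂ (dd T e g)
  have h5 : finrank F ↥((F ∙ w) ⊔ F ∙ th T b₁ e g w) = 2 := by
    rw [Submodule.finrank_sup_span_singleton w3, finrank_span_singleton w2]
  have h6 : (F ∙ w) ⊔ F ∙ th T b₁ e g w ≤ b₂.orthogonal (dd T e g) := by simp [w1, hθ]
  have h7 := Submodule.finrank_mono h6
  have h8 : (F ∙ z₀) = dd T e g := Submodule.eq_of_le_of_finrank_le (by simpa using z1)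
    (by rw [finrank_span_singleton z3]; omega)
  replace h6 := Submodule.eq_of_le_of_finrank_le h6 (by omega)
  rw [← Submodule.span_insert] at h6
  obtain ⟨n, t, h9⟩ := Submodule.mem_span_pair.1 (h6.ge (hθ (th T b₁ e g w)))
  have h10 : ∀ u ∈ b₂.orthogonal (dd T e g),
      th T b₁ e g (th T b₁ e g u) = n • u + t • th T b₁ e g u := fun u hu => by
    obtain ⟨a, b, rfl⟩ := Submodule.mem_span_pair.1 (h6.ge hu)
    have := congrArg (th T b₁ e g) h9
    simp only [map_add, map_smul] at this ⊢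
    linear_combination (norm := module) -a • h9 - b • this
  have h11 : ∀ ρ : F, ρ ^ 2 - t * ρ - n ≠ 0 := fun ρ hρ =>
    ne (th T b₁ e g w - (t - ρ) • w) (fun h0 => ne w w2 w1 _ (sub_eq_zero.1 h0))
      (sub_mem (hθ w) (Submodule.smul_mem _ _ w1)) ρ (by
        rw [map_sub, map_smul, ← h9, show n = ρ ^ 2 - t * ρ by linear_combination -hρ]; module)
  classical
  obtain ⟨i, -, hi⟩ := Finset.exists_mem_notMem_of_card_lt_card (t := Finset.univ)
    (s := ({0, -μ} : Finset F))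
    (lt_of_le_of_lt Finset.card_le_two (by rw [Finset.card_univ]; omega))
  simp only [Finset.mem_insert, Finset.mem_singleton, not_or] at hi
  obtain ⟨x, hx, -, x1⟩ := h.inA_one e i
  obtain ⟨x', hx', x2⟩ := h.exists_x 1
  have ind : ∀ {p : V → Prop}, (∀ c : F, p (c • T.t e' z₀)) → (∀ w, p (T.t e w)) →
      (∀ w, p (nn T b₁ e g (T.t e (th T b₁ e g w)))) → (∀ a b, p a → p b → p (a + b)) →
      ∀ v, p v := fun {p} p1 p2 p3 p4 v => by
    obtain ⟨u, hu⟩ := h.range_th.ge (show ph T b₁ e v - (b₂ z₀ (ph T b₁ e v) / b₂ z₀ z₀) • z₀ ∈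
      b₂.orthogonal (dd T e g) from fun y hy => by
        obtain ⟨c, rfl⟩ := Submodule.mem_span_singleton.1 (h8.ge hy)
        simp [z2])
    obtain ⟨u', hu'⟩ := h.range_th.ge (show u - (b₂ z₀ u / b₂ z₀ z₀) • z₀ ∈
      b₂.orthogonal (dd T e g) from fun y hy => by
        obtain ⟨c, rfl⟩ := Submodule.mem_span_singleton.1 (h8.ge hy)
        simp [z2])
    obtain ⟨a, ha⟩ := h.mem_L (v := v - (b₂ z₀ (ph T b₁ e v) / b₂ z₀ z₀) • T.t e' z₀ -
      nn T b₁ e g (T.t e (th T b₁ e g u'))) (by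
        have : th T b₁ e g z₀ = 0 := h.ker_th.ge z1
        rw [map_sub, ph_nn, hu', map_sub (th T b₁ e g), hu]
        simp [this, h.pair])
    rw [eq_sub_iff_add_eq, eq_sub_iff_add_eq] at ha
    exact ha ▸ p4 _ _ (p4 _ _ (p2 a) (p3 u')) (p1 _)
  let d := i • (T.t e ∘ₗ ph T b₁ e ∘ₗ nn T b₁ e g + nn T b₁ e g ∘ₗ T.t e ∘ₗ ph T b₁ e)
  have d1 : ∀ w, d (T.t e w) = i • T.t e (th T b₁ e g w) := fun w => by simp [d, ph_nn, h.ee]
  have d2 : ∀ w, d (nn T b₁ e g (T.t e w)) = i • nn T b₁ e g (T.t e (th T b₁ e g w)) := fun w => by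
    simp [d, ph_nn, h.nn_nn]
  have d3 : d (T.t e' z₀) = 0 := by simp [d, hμ, h.ee, h.pair, h.nn_of_mem z1]
  have h12 := pow_card_four' h.two (x * x') (d := d) (fun v => by
      rw [eq_sub_iff_add_eq, ← sub_eq_iff_eq_add', eq_comm, LinearEquiv.symm_apply_eq]
      simp only [d, LinearEquiv.mul_apply, x1, x2, map_add, map_sub, map_smul, ph_t, h.ee,
        h.nn_nn, LinearMap.smul_apply, LinearMap.add_apply, LinearMap.comp_apply, zero_smul,
        map_zero]
      module) (t := i * t) (n := -(i * i * n))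
    (ind (by simp [d3]) (fun w => by
      simp only [d1, map_smul, h10 _ (hθ w), map_add]; module) (fun w => by
      simp only [d2, map_smul, h10 _ (hθ (th T b₁ e g w)), map_add]; module) fun a b ha hb => by
      simp only [map_add]; linear_combination (norm := module) ha + hb)
    fun ρ hρ => h11 (ρ / i) (by have := hi.1; field_simp; linear_combination hρ)
  have f1 : (x * x') (T.t e z₀) = T.t e z₀ := by simp [x1, x2, h.ee, h.nn_of_mem z1]
  have f2 : ∀ k : ℕ, ((x * x') ^ k) (T.t e' z₀) = T.t e' z₀ + ((k : F) * (i + μ)) • T.t e z₀ ∧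
      ((x * x') ^ k) (T.t e z₀) = T.t e z₀ := fun k => by
    induction k with
    | zero => simp
    | succ k ih =>
      rw [pow_succ', LinearEquiv.mul_apply, LinearEquiv.mul_apply (x * x'), ih.1, ih.2, map_add,
        map_smul, f1]
      refine ⟨?_, rfl⟩
      simp only [LinearEquiv.mul_apply, x1, x2, hμ, map_add, map_smul, ph_t, h.ee, h.pair]
      push_cast
      module
  obtain ⟨f3, f4⟩ := f2 (Fintype.card F ^ 4)
  rw [Nat.cast_pow, FiniteField.cast_card_eq_zero, zero_pow (by omega), zero_mul, zero_smul,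
    add_zero] at f3
  have hm := M.mul_mem (M.inv_mem (M.mul_mem hx hx')) (M.pow_mem (M.mul_mem hx hx')
    (Fintype.card F ^ 4))
  have f5 : ∀ v, ((x * x')⁻¹ * (x * x') ^ Fintype.card F ^ 4) (d v) = d v := fun v => by
    rw [LinearEquiv.mul_apply, h12]; exact LinearEquiv.symm_apply_apply _ _
  have f6 : ((x * x')⁻¹ * (x * x') ^ Fintype.card F ^ 4) (T.t e' z₀) =
      T.t e' z₀ - (i + μ) • T.t e z₀ := by
    rw [LinearEquiv.mul_apply, f3, LinearEquiv.coe_inv, LinearEquiv.symm_apply_eq, map_sub,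
      map_smul, f1]
    simpa [eq_sub_iff_add_eq] using (f2 1).1.symm
  have f7 : ((x * x')⁻¹ * (x * x') ^ Fintype.card F ^ 4) (T.t e z₀) = T.t e z₀ := by
    rw [LinearEquiv.mul_apply, f4, LinearEquiv.coe_inv, LinearEquiv.symm_apply_eq, f1]
  generalize (x * x')⁻¹ * (x * x') ^ Fintype.card F ^ 4 = m at hm f5 f6 f7
  have f8 : ∀ w, m (nn T b₁ e g (T.t e (th T b₁ e g w))) = nn T b₁ e g (T.t e (th T b₁ e g w)) :=
    fun w => by simpa [d2, hi.1] using f5 (nn T b₁ e g (T.t e w))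
  obtain ⟨s, hs'⟩ := h.zc h.ne hm (ind (fun c => by
      rw [map_smul, f6, ← smul_sub, sub_sub_cancel_left]
      exact Submodule.smul_mem _ _ (neg_mem (Submodule.smul_mem _ _ ⟨_, rfl⟩)))
    (fun u => by
      obtain ⟨u', hu'⟩ := h.range_th.ge (show u - (b₂ z₀ u / b₂ z₀ z₀) • z₀ ∈
        b₂.orthogonal (dd T e g) from fun y hy => by
          obtain ⟨c, rfl⟩ := Submodule.mem_span_singleton.1 (h8.ge hy)
          simp [z2])
      have : m (T.t e (th T b₁ e g u')) = T.t e (th T b₁ e g u') := by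
        simpa [d1, hi.1] using f5 (T.t e u')
      rw [hu'] at this
      simp only [map_sub, map_smul, f7, sub_left_inj] at this
      simp [this])
    (by simp [f8]) fun a b ha hb => by
      convert add_mem ha hb using 1
      simp only [map_add]; abel)
  have f9 : s = 0 := by
    have := f8 w
    rw [hs', add_eq_left, smul_eq_zero, T.t_eq_zero, ph_nn, or_iff_right h.ne] at this
    refine this.resolve_right fun h0 => ne _ (fun h0 => w3 (by simp [h0])) (hθ w) 0 (by simp [h0])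
  rw [hs', f9, zero_smul, add_zero, eq_comm, sub_eq_self, smul_eq_zero, T.t_eq_zero] at f6
  exact hi.2 (eq_neg_of_add_eq_zero_left (f6.resolve_right (not_or.2 ⟨h.ne, z3⟩)))

end Sp2

/-- **Maximality of `Sp(E) ⊗ O(W)` in `Sp(E ⊗ W)`.** -/
theorem SpOM.max [Fintype F] (h : SpOM T b₁ b₂ B M) (h3 : 3 ≤ finrank F W) [Nontrivial E]
    (hq : 4 ≤ finrank F W ∨ 4 ≤ Fintype.card F) (hex : ¬ (finrank F E = 2 ∧ finrank F W = 4))
    (hne : ¬ M ≤ T.grp) (g : V ≃ₗ[F] V) (hg : ∀ x y, B (g x) (g y) = B x y) : g ∈ M := by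
  by_cases hnt : ∀ e, e ≠ 0 → ∀ α, InA T b₁ M e α → ∃ c : F, ∀ w, α w = c • w
  swap
  · push Not at hnt
    obtain ⟨e, he, α, h1, h2⟩ := hnt
    obtain ⟨u, u1, u2, u3⟩ := h.exists_full_of_nonscalar h3 hq he h1 (by simpa using h2)
    exact mem_of_forall_fullSp h.nd h.alt (h.all_full h3 he u1 u2 u3) g hg
  have h' : SpNT T b₁ b₂ B M := ⟨h, h3, hnt⟩
  by_cases ha : 3 ≤ finrank F E
  · exact absurd (h'.le_grp_of_three ha) hne
  obtain ⟨e, he⟩ := exists_ne (0 : E)
  obtain ⟨e', he'⟩ := h.exists_partner he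
  obtain ⟨k, c⟩ := exists_crit (LinearMap.range (T.t e)) hne
  have h2 : finrank F E = 2 := by
    have := finrank_pos (R := F) (M := E)
    obtain ⟨m, hm⟩ := H54.even_finrank_of_isAlt h.nd₁ h.alt₁
    omega
  have h4 : Sp2 T b₁ b₂ B M e e' k := ⟨h', h2, fun h4 => hex ⟨h2, h4⟩, he', c⟩
  have := h4.ne4
  by_cases h5 : 5 ≤ finrank F W
  · exact (h4.false_of_five h5).elim
  · exact (h4.false_of_three (by omega) (by omega)).elim

end H62
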