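import Cfsg.Agent.H62.UDec
import Cfsg.Agent.H62.UInSL
import Cfsg.Agent.H91.TenRk

set_option autoImplicit false
set_option linter.unusedSectionVars false

/-! Overgroups of `GU(E) ⊗ GU(W)` in `SU(E ⊗ W)`, part 1: transvections. -/

namespace H62

open Module H56 H56.Ten H59

variable {F E W V : Type*} [Field F] [AddCommGroup E] [Module F E] [AddCommGroup W] [Module F W]
  [AddCommGroup V] [Module F V] [FiniteDimensional F E] [FiniteDimensional F W] {σ : F →+* F}

theorem det_tm (T : Ten F E W V) (A : E ≃ₗ[F] E) (C : W ≃ₗ[F] W) :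
    LinearEquiv.det (T.tm A C) =
      LinearEquiv.det A ^ finrank F W * LinearEquiv.det C ^ finrank F E := by
  have h : (T.tm A C : V →ₗ[F] V) = T.eqv.toLinearMap ∘ₗ
      TensorProduct.map (A : E →ₗ[F] E) (C : W →ₗ[F] W) ∘ₗ T.eqv.symm.toLinearMap :=
    T.hom_ext fun e w => by rw [LinearEquiv.coe_coe, tm_t]; simp [t_def]
  ext
  simp only [LinearEquiv.coe_det, Units.val_mul, Units.val_pow_eq_pow_val]
  rw [h, LinearMap.det_conj, ← LinearMap.det_toMatrix ((finBasis F E).tensorProduct (finBasis F W)),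
    TensorProduct.toMatrix_map, Matrix.det_kronecker]
  simp

theorem det_of_unip [FiniteDimensional F V] {g : V ≃ₗ[F] V} (h : H91.Unip g) :
    LinearEquiv.det g = 1 := by
  have h1 : IsNilpotent (1 - (g : V →ₗ[F] V)) := by simpa using h.neg
  have := LinearMap.eval_charpoly (1 - (g : V →ₗ[F] V)) 1
  rw [h1.charpoly_eq_X_pow_finrank] at this
  ext
  simpa [LinearEquiv.coe_det] using this.symm

/-- A skew map fixing all isotropic points is a scalar. -/
theorem exists_iso_notMem [Finite F] {b : E →ₛₗ[σ] E →ₗ[F] F} (h : IsHerm b)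
    (h2 : 2 ≤ finrank F E) {γ : End F E} (hns : ∀ c : F, γ ≠ c • 1) :
    ∃ e, b e e = 0 ∧ γ e ∉ F ∙ e := by
  by_contra! hc
  have hT : Disjoint ⊤ (perp b ⊤) := by simp [h.perp_top]
  obtain ⟨e, -, f, -, he, hf, hef⟩ := exists_hyp_mem h hT (by simpa)
  obtain ⟨k, hk⟩ := Submodule.mem_span_singleton.1 (hc e he)
  obtain ⟨δ, d0, hδ⟩ := exists_trace_zero_ne_zero h.ne_id h.invol
  rcases le_or_le_of_isotropic_mem h hT (by simpa) (A := LinearMap.ker (γ - k • 1))
    (A' := LinearMap.ker (b e)) (fun p _ hp => or_iff_not_imp_right.2 fun h0 => by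
      have h0 : b e p ≠ 0 := h0
      obtain ⟨l, hl⟩ := Submodule.mem_span_singleton.1 (hc p hp)
      obtain ⟨m, hm⟩ := Submodule.mem_span_singleton.1 (hc (p + (δ * b e p) • e) (by
        simp only [map_add, LinearMap.add_apply, form_smul_left, map_smul, smul_eq_mul, he, hp,
          map_mul, h.symm]
        linear_combination (b e p * b p e) * hδ))
      rw [map_add, map_smul, ← hk, ← hl] at hm
      have h1 := congrArg (b e) hm
      have h3 := congrArg (b p) hm
      have h4 : b p e ≠ 0 := fun h4 => h0 (h.eq_zero_comm.1 h4)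
      simp only [map_add, map_smul, smul_eq_mul, he, hp, mul_zero, add_zero, zero_add] at h1 h3
      have h5 : m = l := mul_right_cancel₀ h0 h1
      have h6 : m = k := mul_right_cancel₀ (mul_ne_zero (mul_ne_zero d0 h0) h4) (by
        linear_combination h3)
      simp [← hl, ← h5, h6]) with h1 | h1
  · exact hns k (LinearMap.ext fun x => by simpa [sub_eq_zero] using h1 (Submodule.mem_top (x := x)))
  · simpa [hef] using h1 (Submodule.mem_top (x := f))

/-- The Hermitian form `B` is a product and `M` lies over the tensor product group. -/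
structure UU (T : Ten F E W V) (bE : E →ₛₗ[σ] E →ₗ[F] F) (bW : W →ₛₗ[σ] W →ₗ[F] F)
    (B : V →ₛₗ[σ] V →ₗ[F] F) (M : Subgroup (V ≃ₗ[F] V)) : Prop where
  hE : IsHerm bE
  hW : IsHerm bW
  hV : IsHerm B
  tens : ∀ e w e' w', B (T.t e w) (T.t e' w') = bE e e' * bW w w'
  mem : ∀ g ∈ T.grp, g ∈ sisom B → g ∈ M
  le : ∀ g ∈ M, g ∈ sisom B

variable {T : Ten F E W V} {bE : E →ₛₗ[σ] E →ₗ[F] F} {bW : W →ₛₗ[σ] W →ₗ[F] F}
  {B : V →ₛₗ[σ] V →ₗ[F] F} {M : Subgroup (V ≃ₗ[F] V)} {w : W}

theorem rt_ue {u : W} {a : F} {s : W ≃ₗ[F] W}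
    (h : ∀ x, s x = x + bW u x • w - bW w x • u - (a * bW w x) • w) (y : V) :
    T.rt s y = y + T.t (T.cR (bW u) y) w - T.t (T.cR (bW w) y) u - a • T.t (T.cR (bW w) y) w :=
  T.induction y (by simp) (fun e x => by simp [h, smul_smul]) fun x y hx hy => by
    simp only [map_add, hx, hy, LinearMap.add_apply, smul_add]; abel

theorem rt_utv {c : F} {s : W ≃ₗ[F] W} (h : ∀ x, s x = x + (c * bW w x) • w) (y : V) :
    T.rt s y = y + c • T.t (T.cR (bW w) y) w :=
  T.induction y (by simp) (fun e x => by simp [h, smul_smul]) fun x y hx hy => by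
    simp only [map_add, hx, hy, LinearMap.add_apply, smul_add]; abel

theorem cR_rt {s : W ≃ₗ[F] W} (hs : s ∈ isom bW) (u : W) (y : V) :
    T.cR (bW (s u)) (T.rt s y) = T.cR (bW u) y :=
  T.induction y (by simp) (fun e w => by simp [hs u w]) fun x y hx hy => by simp [hx, hy]

variable (T M) in
/-- The maps `γ` with `y ↦ y + γ (π y) ⊗ w` in `M`. -/
def ZU (hw : bW w w = 0) : AddSubgroup (End F E) where
  carrier := {γ | ∃ z ∈ M, ∀ y, z y = y + T.t (γ (T.cR (bW w) y)) w}
  zero_mem' := ⟨1, M.one_mem, by simp⟩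
  add_mem' := by
    rintro a b ⟨m, hm, h1⟩ ⟨n, hn, h2⟩
    exact ⟨m * n, M.mul_mem hm hn, fun y => by simp [h1, h2, hw]; abel⟩
  neg_mem' := by
    rintro a ⟨m, hm, h1⟩
    exact ⟨m⁻¹, M.inv_mem hm, fun y => m.injective (by simp [h1 (_ + _), hw])⟩

variable (bE) in
/-- The map `x ↦ b(v, x) e + b(e, x) v`. -/
def udd (e v : E) : End F E := (bE v).smulRight e + (bE e).smulRight v

theorem udd_apply (e v x : E) : udd bE e v x = bE v x • e + bE e x • v := rfl

namespace UU

variable (H : UU T bE bW B M)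
include H

theorem swap : UU T.swap bW bE B M :=
  ⟨H.hW, H.hE, H.hV, fun w e w' e' => by rw [swap_t, swap_t, H.tens, mul_comm],
    by simpa using H.mem, H.le⟩

theorem form_t (e : E) (u : W) (y : V) : B (T.t e u) y = bE e (T.cR (bW u) y) :=
  T.induction y (by simp) (fun e w => by simp [H.tens, mul_comm]) fun x y hx hy => by
    simp [hx, hy]

theorem form_t' (e : E) (u : W) (y : V) : B y (T.t e u) = bE (T.cR (bW u) y) e := by
  rw [← H.hV.symm, H.form_t, H.hE.symm]

theorem isom_tm {A : E ≃ₗ[F] E} {C : W ≃ₗ[F] W} {μ : F} (hA : ∀ x y, μ * bE (A x) (A y) = bE x y)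
    (hC : ∀ x y, bW (C x) (C y) = μ * bW x y) : T.tm A C ∈ isom B := fun x y =>
  T.induction x (by simp) (fun e w => T.induction y (by simp)
    (fun e' w' => by rw [tm_t, tm_t, H.tens, H.tens, hC, ← hA e e']; ring)
    fun x y hx hy => by simp only [map_add, hx, hy]) fun x y hx hy => by
      simp only [map_add, LinearMap.add_apply, hx, hy]

theorem rt_mem {s : W ≃ₗ[F] W} (hs : s ∈ sisom bW) : T.rt s ∈ M :=
  H.mem _ (T.rt_mem s) ⟨H.isom_tm (μ := 1) (A := 1) (by simp) fun x y => by rw [hs.1, one_mul], by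
    change LinearEquiv.det (T.tm 1 s) = 1
    simp [det_tm, (mem_sisom.1 hs).2]⟩

theorem lt_mem {A : E ≃ₗ[F] E} (hA : A ∈ sisom bE) : T.tm A 1 ∈ M :=
  T.swap_tm A 1 ▸ H.swap.rt_mem hA

theorem skew (hw0 : w ≠ 0) {hw : bW w w = 0} {γ : End F E} (hγ : γ ∈ ZU T M hw) (x y : E) :
    bE (γ x) y = -bE x (γ y) := by
  obtain ⟨z, hz, h1⟩ := hγ
  obtain ⟨p, hp, -⟩ := H.hW.exists_partner hw hw0
  have := (H.le z hz).1 (T.t x p) (T.t y p)
  have hp' : bW p w = 1 := by rw [← H.hW.symm, hp, map_one]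
  simp only [h1, cR_t, hp, one_smul, map_add, LinearMap.add_apply, H.tens, hw, hp'] at this
  linear_combination this

theorem conj_mem_ZU {hw : bW w w = 0} {γ γ' : End F E} (hγ : γ ∈ ZU T M hw) {A : E ≃ₗ[F] E}
    (hA : A ∈ sisom bE) (h : ∀ x, γ' (A x) = A (γ x)) : γ' ∈ ZU T M hw := by
  obtain ⟨z, hz, h1⟩ := hγ
  have h2 := H.lt_mem hA
  refine ⟨_, M.mul_mem (M.mul_mem h2 hz) (M.inv_mem h2), fun y => ?_⟩
  obtain ⟨y, rfl⟩ := (T.tm A 1).surjective y
  simp [h1, cR_tm, h]

variable [Finite F]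

theorem smul_mem_ZU (h3 : 3 ≤ finrank F W) (hw0 : w ≠ 0) {hw : bW w w = 0} {γ : End F E}
    (hγ : γ ∈ ZU T M hw) {k : F} (hk : σ k = k) : k • γ ∈ ZU T M hw := by
  obtain ⟨l, rfl⟩ := exists_norm_eq' H.hW.ne_id H.hW.invol hk
  by_cases hl : l = 0
  · simp [hl]
  obtain ⟨s, hs, h2⟩ := exists_sisom_map H.hW h3 hw0 (v' := l • w) (by simp [hl, hw0]) (by simp [hw])
  obtain ⟨z, hz, h1⟩ := hγ
  have h4 := H.rt_mem hs
  refine ⟨_, M.mul_mem (M.mul_mem h4 hz) (M.inv_mem h4), fun y => ?_⟩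
  obtain ⟨y, rfl⟩ := (T.rt s).surjective y
  have := cR_rt (T := T) hs.1 w y
  rw [h2, LinearMap.map_smulₛₗ, cR_smul] at this
  simp [h1, ← this, h2, smul_smul, mul_comm]

/-- A non-scalar central element gives a root group with a pure centre. -/
theorem exists_fullU (h3 : 3 ≤ finrank F W) (h2 : 2 ≤ finrank F E)
    (hq : 3 ≤ finrank F E ∨ ∃ τ : F, σ τ = τ ∧ τ ≠ 0 ∧ τ ≠ 1) (hw0 : w ≠ 0) {hw : bW w w = 0}
    {γ : End F E} (hγ : γ ∈ ZU T M hw) (hns : ∀ c : F, γ ≠ c • 1) :
    ∃ e, e ≠ 0 ∧ bE e e = 0 ∧ FullU M B (T.t e w) := by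
  have h := H.hE
  obtain ⟨e, he, hg⟩ := exists_iso_notMem h h2 hns
  have he0 : e ≠ 0 := by rintro rfl; simp at hg
  refine ⟨e, he0, he, ?_⟩
  obtain ⟨δ, d0, hδ⟩ := exists_trace_zero_ne_zero h.ne_id h.invol
  have hδ' : σ δ = -δ := eq_neg_of_add_eq_zero_right hδ
  have k0 : ∀ c : F, c ≠ 0 → σ c = -c → c • (bE e).smulRight e ∈ ZU T M hw → FullU M B (T.t e w) :=
    fun c c0 hc h1 => ⟨by simp [H.tens, hw], fun d hd => by
      obtain ⟨z, hz, h4⟩ := H.smul_mem_ZU h3 hw0 h1 (k := d / c) (by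
        rw [map_div₀, hc, eq_neg_of_add_eq_zero_right hd, neg_div_neg_eq])
      exact ⟨z, hz, fun y => by simp [h4, H.form_t, smul_smul, c0]⟩⟩
  have k1 : ∀ v u, δ • udd bE e v ∈ ZU T M hw → bE e u = 0 → ∃ a : F,
      δ • udd bE e (a • e - bE e v • u) ∈ ZU T M hw ∧ (bE e v = 0 → a = bE u v) :=
    fun v u h1 h4 => by
      obtain ⟨a, ha⟩ := exists_trace_eq h.ne_id h.invol (h.self_fixed u)
      obtain ⟨A, hA, h5⟩ := h.exists_eichler he h4 ha
      have h6 : A e = e := by simp [h5, he, h.eq_zero_comm.1 h4]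
      refine ⟨bE u v - a * bE e v, ?_, fun h0 => by simp [h0]⟩
      convert sub_mem (H.conj_mem_ZU h1 hA (γ' := δ • udd bE e (A v)) fun x => by
        have := hA.1 e x
        rw [h6] at this
        simp [udd_apply, hA.1 v x, this, h6]) h1 using 1
      ext x
      simp only [h5 v, udd_apply, LinearMap.smul_apply, LinearMap.sub_apply, map_sub, map_add,
        LinearMap.add_apply, form_smul_left, map_mul]
      module
  have k2 : ∀ v, δ • udd bE e v ∈ ZU T M hw → v ∉ F ∙ e → bE e v = 0 → FullU M B (T.t e w) :=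
    fun v h1 h4 h5 => by
      obtain ⟨d, h6, h7⟩ := h.exists_perp_ne_zero h4
      obtain ⟨μ, hμ⟩ := exists_trace_ne_zero h.ne_id
      rw [mem_perp_singleton] at h6
      obtain ⟨a, h8, h9⟩ := k1 v ((σ μ / bE v d) • d) h1 (by simp [h6])
      have h10 : bE d v ≠ 0 := fun h0 => h7 (h.eq_zero_comm.1 h0)
      rw [h9 h5, form_smul_left, map_div₀, h.invol, h.symm, div_mul_cancel₀ _ h10] at h8
      refine k0 (δ * (μ + σ μ)) (mul_ne_zero d0 hμ) (by simp [hδ', h.invol, add_comm]) ?_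
      convert h8 using 1
      ext x
      simp only [h5, udd_apply, LinearMap.smul_apply, LinearMap.smulRight_apply, zero_smul, sub_zero,
        form_smul_left]
      module
  have hs : σ (bE e (γ e)) = -bE e (γ e) := by rw [h.symm, H.skew hw0 hγ]
  have k3 : ∀ c : F, c + σ c = 0 →
      c • udd bE e (γ e) + (c * c * bE e (γ e)) • (bE e).smulRight e ∈ ZU T M hw := fun c hc => by
    obtain ⟨A, hA, h5⟩ := h.exists_transv he hc
    convert sub_mem hγ (H.conj_mem_ZU hγ (axisGrp_le_sisom he hA)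
      (γ' := γ - (c • udd bE e (γ e) + (c * c * bE e (γ e)) • (bE e).smulRight e)) fun x => by
        simp only [h5, udd_apply, LinearMap.smul_apply, LinearMap.sub_apply, map_add, map_smul,
          LinearMap.add_apply, LinearMap.smulRight_apply, he, H.skew hw0 hγ, smul_eq_mul]
        module) using 1
    abel
  by_cases h0 : bE e (γ e) = 0
  · exact k2 _ (by simpa [h0] using k3 δ hδ) hg h0
  rcases hq with hq | ⟨τ, t1, t2, t3⟩
  · obtain ⟨μ, hμ⟩ := exists_trace_eq h.ne_id h.invol (c := δ * bE e (γ e)) (by simp [hδ', hs])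
    obtain ⟨u, -, u1, u2⟩ := exists_mem_notMem_ker [bE e] (W := ⊤) (Z := F ∙ e)
      (by simp [finrank_span_singleton he0]; omega)
    have u3 : bE e u = 0 := u2 _ (by simp)
    obtain ⟨a, h4, -⟩ := k1 (γ e + μ • e) u (by
      convert k3 δ hδ using 1
      ext x
      simp only [udd_apply, LinearMap.smul_apply, map_add, LinearMap.add_apply,
        LinearMap.smulRight_apply, form_smul_left]
      linear_combination (norm := module) (δ * bE e x * hμ) • e) u3
    refine k2 _ h4 (fun h5 => u1 ?_) (by simp [he, u3])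
    rwa [Submodule.sub_mem_iff_right _ (Submodule.smul_mem _ _
      (Submodule.mem_span_singleton_self e)), Submodule.smul_mem_iff _ (by simpa [he])] at h5
  · refine k0 ((τ * τ - τ) * (δ * δ * bE e (γ e))) (by
      simp only [ne_eq, mul_eq_zero, d0, h0, or_self, or_false]
      exact fun h4 => t3 (mul_left_cancel₀ t2 (by linear_combination h4))) (by simp [t1, hδ', hs]) ?_
    convert sub_mem (k3 (τ * δ) (by simp [t1, hδ'])) (H.smul_mem_ZU h3 hw0 (k3 δ hδ) t1) using 1
    module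

/-- A root group with a pure centre gives the special unitary group. -/
theorem mem_of_fullU (h3 : 3 ≤ finrank F W) (h2 : 2 ≤ finrank F E)
    (hq : 3 ≤ finrank F E ∧ 4 ≤ finrank F W ∨ ∃ τ : F, σ τ = τ ∧ τ ≠ 0 ∧ τ ≠ 1) (hw0 : w ≠ 0)
    (hw : bW w w = 0) {e : E} (he0 : e ≠ 0) (he : bE e e = 0) (hf : FullU M B (T.t e w)) :
    ∀ g ∈ sisom B, g ∈ M := by
  have := T.finite
  have h := H.hE
  have hW := H.hW
  have k1 : ∀ {e w}, w ≠ 0 → bW w w = 0 → FullU M B (T.t e w) → ∀ x, bW x x = 0 →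
      FullU M B (T.t e x) := fun {e w} h0 h1 h4 x hx => by
    by_cases x0 : x = 0
    · simpa [x0] using FullU.zero
    obtain ⟨s, hs, rfl⟩ := exists_sisom_map hW h3 h0 x0 (h1.trans hx.symm)
    simpa using h4.conj (H.rt_mem hs) (H.le _ (H.rt_mem hs)).1
  have k2 : ∀ {e w} {A : E ≃ₗ[F] E}, A ∈ sisom bE → FullU M B (T.t e w) → FullU M B (T.t (A e) w) :=
    fun hA h4 => by simpa using h4.conj (H.lt_mem hA) (H.le _ (H.lt_mem hA)).1
  obtain ⟨δ, d0, hδ⟩ := exists_trace_zero_ne_zero h.ne_id h.invol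
  have hδ' : σ δ = -δ := eq_neg_of_add_eq_zero_right hδ
  obtain ⟨f, hef, hff⟩ := h.exists_partner he he0
  have hfe : bE f e = 1 := by rw [← h.symm, hef, map_one]
  have k3 : FullU M B (T.t f w) := by
    obtain ⟨A, hA, h4⟩ := h.exists_transv hff hδ
    obtain ⟨A', hA', h5⟩ := h.exists_transv he (c := -δ⁻¹) (by simp [hδ'])
    have := k2 (axisGrp_le_sisom he hA') (k2 (axisGrp_le_sisom hff hA) hf)
    rw [h4, h5] at this
    exact FullU.of_smul H.hV d0 (by simpa [hfe, hef, he, d0] using this)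
  obtain ⟨p, hwp, hpp⟩ := hW.exists_partner hw hw0
  have hpw : bW p w = 1 := by rw [← hW.symm, hwp, map_one]
  have k4 : ∀ z u (a c : F), bW w u = 0 → bW p u = 0 → a + σ a = -bW u u → c + σ c = 0 →
      FullU M B (T.t e z + T.t f w) → FullU M B (T.t e (z + c • (p + u + a • w)) + T.t f w) :=
    fun z u a c h4 h5 h6 h7 h8 => by
      have h9 := hW.eq_zero_comm.1 h4
      have h10 := hW.eq_zero_comm.1 h5
      convert (k1 hw0 hw hf (p + u + a • w) (by
        simp only [map_add, LinearMap.add_apply, form_smul_left, map_smul, smul_eq_mul, hpp, h4, h5,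
          h9, h10, hw, hwp, hpw]
        linear_combination h6)).move H.hV h8 h7 using 1
      simp only [map_add (B _), H.tens, he, hef, map_add bW, LinearMap.add_apply, form_smul_left,
        hpw, h9, hw, map_add (T.t e) z, map_smul]
      module
  have hwp' : bW w p ≠ 0 := by simp [hwp]
  obtain ⟨n, n1, n2⟩ := hW.exists_self_ne_zero_perp (hW.disjoint_span_hyp hw hwp')
    (by rw [hW.finrank_span_hyp hw hwp']; omega)
  rw [mem_perp_pair] at n1
  obtain ⟨μ, hμ⟩ := exists_trace_ne_zero h.ne_id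
  have k5 : FullU M B (T.t (μ • e + f) w) := by
    obtain ⟨a, ha⟩ := exists_trace_eq h.ne_id h.invol (c := -bW n n) (by simp [hW.symm])
    set u := (μ / δ / bW n n) • n with hu
    obtain ⟨a', ha'⟩ := exists_trace_eq h.ne_id h.invol (c := -bW u u) (by simp [hW.symm])
    have u1 : bW n u = μ / δ := by rw [hu, form_smul_right, div_mul_cancel₀ _ n2]
    have u2 : bW u n = σ (μ / δ) := by rw [← u1, hW.symm]
    have u3 : bW w u = 0 := by rw [hu, form_smul_right, n1.1, mul_zero]
    have u4 : bW p u = 0 := by rw [hu, form_smul_right, n1.2, mul_zero]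
    clear_value u
    have := k4 _ 0 0 (-δ) (by simp) (by simp) (by simp) (by simp [hδ'])
      (k4 _ (n + u) (a + a' - μ / δ) (-δ) (by simp [u3, n1.1]) (by simp [u4, n1.2]) (by
        simp only [map_add, map_sub, LinearMap.add_apply, u1, u2]
        linear_combination ha + ha') (by simp [hδ'])
      (k4 _ u a' δ u3 u4 ha' hδ
        (k4 0 n a δ n1.1 n1.2 ha hδ (by simpa using k3))))
    convert this using 1
    rw [map_add, map_smul, LinearMap.add_apply, LinearMap.smul_apply, ← map_smul]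
    congr 2
    match_scalars <;> field_simp <;> ring
  have hv : bE (μ • e + f) (μ • e + f) ≠ 0 := by
    simpa [he, hff, hef, hfe, add_comm] using hμ
  generalize μ • e + f = v at k5 hv
  have hT : Disjoint ⊤ (perp bE ⊤) := by simp [h.perp_top]
  have k6 : ∀ x, bE x x ≠ 0 → ∀ y, bW y y = 0 → FullU M B (T.t x y) := fun x hx => by
    obtain ⟨a, ha⟩ := h.exists_smul_norm_eq hx (h.self_fixed v)
    obtain ⟨A, hA, h4, -⟩ := exists_sisom_map_aniso h hT (by simpa) trivial trivial hv ha.symm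
    refine k1 hw0 hw (FullU.of_smul H.hV (a := a) (by rintro rfl; simp [hv.symm] at ha) ?_)
    simpa [h4] using k2 hA k5
  have hv0 : v ≠ 0 := by rintro rfl; simp at hv
  have r1 : finrank F (LinearMap.range (T.t v)) = finrank F W :=
    LinearMap.finrank_range_of_inj fun x y => (T.t_right_inj hv0).1
  have r2 : Disjoint (LinearMap.range (T.t v)) (perp B (LinearMap.range (T.t v))) :=
    Submodule.disjoint_def.2 (by
      rintro _ ⟨x, rfl⟩ hx
      rw [hW.nondeg' x fun y => by simpa [H.tens, hv] using hx _ ⟨y, rfl⟩, map_zero])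
  have hG : GoodU M B (LinearMap.range (T.t v)) := ⟨r2, r1 ▸ h3, locSU_of_forall_fullU H.hV r2
    (hq.imp_left fun h4 => by omega) (by
      rintro _ ⟨x, rfl⟩ hx
      exact k6 v hv x (by simpa [H.tens, hv] using hx))⟩
  refine hG.mem_of_top H.hV ?_ (by rw [T.finrank_eq]; nlinarith)
  let X : Submodule F E := ⨅ y, (uSub M B (LinearMap.range (T.t v))).comap (T.t.flip y)
  have k7 : ∀ x, bE x x ≠ 0 → bE v x ≠ 0 → x ∈ X := fun x h4 h5 =>
    (Submodule.mem_iInf _).2 fun y => le_of_isotropic_mem hW (W := ⊤) (by simp [hW.perp_top])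
      (by simp; omega) (A := (uSub M B (LinearMap.range (T.t v))).comap (T.t x)) (fun y _ hy => by
        by_cases y0 : y = 0
        · simp [y0]
        exact mem_uSub (k6 x h4 y hy) fun h6 => y0 (hW.nondeg' y fun z => by
          simpa [H.tens, h5] using h6 _ ⟨z, rfl⟩)) trivial
  have k8 : ∀ x (l : F), bE v x = 0 → l ≠ 0 → σ l * l * bE v v + bE x x ≠ 0 → x ∈ X :=
    fun x l h4 h5 h6 => (X.add_mem_iff_right (X.smul_mem l (k7 v hv hv))).1
      (k7 _ (by simpa [h4, h.eq_zero_comm.1 h4, mul_left_comm, mul_assoc] using h6)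
        (by simp [h4, h5, hv]))
  have k9 : ∀ x, bE v x = 0 → x ∈ X := by
    rcases hq with hq | ⟨τ, t1, t2, t3⟩
    · have h4 := h.finrank_add_finrank_perp (F ∙ v)
      rw [finrank_span_singleton hv0] at h4
      exact fun x hx => le_of_isotropic_mem h (h.disjoint_perp_perp (h.disjoint_span_singleton hv))
        (by omega) (fun p hp h0 => k8 p 1 (mem_perp_singleton.1 hp) one_ne_zero (by simpa [h0]))
        (mem_perp_singleton.2 hx)
    · intro x hx
      obtain ⟨l, hl⟩ := exists_norm_eq' h.ne_id h.invol t1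
      by_cases h4 : bE v v + bE x x = 0
      · exact k8 x l hx (by rintro rfl; simp [t2.symm] at hl) fun h5 => t3
          (mul_right_cancel₀ hv (by rw [hl] at h5; linear_combination h5 - h4))
      · exact k8 x 1 hx one_ne_zero (by simpa using h4)
  refine eq_top_iff.2 fun y _ => T.induction y (by simp) (fun x z => ?_) fun _ _ => add_mem
  exact (Submodule.mem_iInf _).1 (show x ∈ X by
    simpa using add_mem (k9 (x - (bE v x / bE v v) • v) (by simp [hv]))
      (X.smul_mem (bE v x / bE v v) (k7 v hv hv))) z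

end UU

end H62
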