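import Cfsg.Agent.H62.TenU1

set_option autoImplicit false
set_option linter.unusedSectionVars false

/-! Overgroups of `GU(E) ⊗ GU(W)` in `SU(E ⊗ W)`, part 2: the stabiliser of `E ⊗ w`. -/

namespace H62

open Module H56 H56.Ten H59

variable {F E W V : Type*} [Field F] [AddCommGroup E] [Module F E] [AddCommGroup W] [Module F W]
  [AddCommGroup V] [Module F V] [FiniteDimensional F E] [FiniteDimensional F W] {σ : F →+* F}
  {T : Ten F E W V} {bE : E →ₛₗ[σ] E →ₗ[F] F} {bW : W →ₛₗ[σ] W →ₗ[F] F}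
  {B : V →ₛₗ[σ] V →ₗ[F] F} {M : Subgroup (V ≃ₗ[F] V)} {w : W}

namespace UU

variable (H : UU T bE bW B M)
include H

theorem cR_fix {g : V ≃ₗ[F] V} (hg : g ∈ isom B) (h : ∀ e, g (T.t e w) = T.t e w) (y : V) :
    T.cR (bW w) (g y) = T.cR (bW w) y :=
  H.hE.ext_right fun e => by rw [← H.form_t, ← H.form_t, ← hg _ y, h]

theorem cR_eq_zero {y : V} (h : ∀ e, B (T.t e w) y = 0) : T.cR (bW w) y = 0 :=
  H.hE.nondeg' _ fun e => by rw [← H.form_t, h]

/-- The commutator formula. -/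
theorem comm_mem (hw0 : w ≠ 0) (hw : bW w w = 0) {Φ : V →ₗ[F] E}
    (hΦ : Φ ∈ T.QA M (W₁ := LinearMap.ker (bW w)) hw) {u : W} (hu : bW w u = 0) :
    ∃ γ ∈ ZU T M hw, ∀ x y, bE x (γ y) = bE (Φ (T.t x u)) y - bE x (Φ (T.t y u)) := by
  obtain ⟨h1, m, hm, h2⟩ := hΦ
  obtain ⟨a, ha⟩ := exists_trace_eq H.hW.ne_id H.hW.invol (H.hW.self_fixed u)
  obtain ⟨s, hs, hE⟩ := H.hW.exists_eichler hw hu ha
  obtain ⟨p, hp, -⟩ := H.hW.exists_partner hw hw0
  have hB := H.rt_mem hs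
  have mI := (H.le m hm).1
  have m0 : ∀ e, m (T.t e w) = T.t e w := fun e => by
    simp [h2 _ (T.t_mem_LS e (J := LinearMap.ker (bW w)) hw), h1]
  have n0 : ∀ e, T.rt s (T.t e w) = T.t e w := fun e => by
    simp [hE, hw, H.hW.eq_zero_comm.1 hu]
  have e0 : ∀ e y, bE e (T.cR (bW u) (m y - y)) = -bE (Φ (T.t e u)) (T.cR (bW w) y) := fun e y => by
    have k1 := h2 _ (T.t_mem_LS e (J := LinearMap.ker (bW w)) hu)
    have k2 := mI (T.t e u) y
    have k3 := mI (T.t (Φ (T.t e u)) w) y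
    rw [k1, map_add, LinearMap.add_apply] at k2
    rw [m0] at k3
    rw [← H.form_t, ← H.form_t, map_sub]
    linear_combination k2 - k3
  refine ⟨-(T.cR (bW u) ∘ₗ ((m : V →ₗ[F] V) - LinearMap.id) ∘ₗ T.t.flip p) - Φ ∘ₗ T.t.flip u,
    ⟨(T.rt s * m)⁻¹ * (m * T.rt s), mul_mem (inv_mem (mul_mem hB hm)) (mul_mem hm hB),
      fun y => (T.rt s * m).injective ?_⟩, fun x y => ?_⟩
  · have e1 : T.cR (bW w) (m y - y) = 0 := by rw [map_sub, H.cR_fix mI m0, sub_self]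
    have e2 : T.cR (bW w) (T.rt s y - y) = 0 := by
      rw [map_sub, H.cR_fix (H.le _ hB).1 n0, sub_self]
    have e3 := rt_ue (T := T) hE (m y - y)
    have e4 := h2 _ (T.mem_LS_ker.2 e2)
    have e5 : T.cR (bW u) (m y - y) =
        T.cR (bW u) (m (T.t (T.cR (bW w) y) p) - T.t (T.cR (bW w) y) p) :=
      H.hE.ext_right fun e => by rw [e0, e0]; simp [hp]
    have e6 : Φ (T.rt s y - y) = -Φ (T.t (T.cR (bW w) y) u) := by
      rw [rt_ue hE]
      simp [h1]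
    rw [e1, map_sub (T.rt s), e5] at e3
    rw [map_sub m, e6] at e4
    simp only [LinearEquiv.mul_apply, LinearEquiv.coe_inv, LinearEquiv.apply_symm_apply, map_add,
      m0, n0, LinearMap.sub_apply, map_sub T.t, map_neg, LinearMap.neg_apply, map_zero,
      LinearMap.zero_apply, LinearMap.comp_apply, LinearMap.flip_apply, LinearEquiv.coe_coe,
      LinearMap.id_apply, map_sub m, map_sub (T.rt s)] at e3 e4 ⊢
    linear_combination (norm := module) e4 - e3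
  · simp only [LinearMap.sub_apply, map_neg, LinearMap.neg_apply, LinearMap.comp_apply,
      LinearMap.flip_apply, LinearEquiv.coe_coe, LinearMap.id_apply, map_sub (bE x), e0]
    simp [hp]

theorem exists_dual_QA [Nontrivial E] (hw0 : w ≠ 0) (hw : bW w w = 0)
    (hz : ∀ γ ∈ ZU T M hw, ∃ c : F, γ = c • 1) {Φ : V →ₗ[F] E}
    (hΦ : Φ ∈ T.QA M (W₁ := LinearMap.ker (bW w)) hw) :
    ∃ φ : Dual F W, ∀ e, ∀ z ∈ LinearMap.ker (bW w), Φ (T.t e z) = φ z • e :=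
  exists_dual_of_scalar fun u hu => by
    obtain ⟨a, ha⟩ := exists_not_fixed H.hE.ne_id
    obtain ⟨γ, h1, h2⟩ := H.comm_mem hw0 hw hΦ hu
    obtain ⟨γ', h3, h4⟩ := H.comm_mem hw0 hw hΦ (u := a • u) (by simp [show bW w u = 0 from hu])
    obtain ⟨c, rfl⟩ := hz γ h1
    obtain ⟨c', rfl⟩ := hz γ' h3
    refine ⟨(c' - σ a * c) / (σ a - a), fun y => H.hE.ext_right fun x => ?_⟩
    have k1 := h2 x y
    have k2 := h4 x y
    simp only [LinearMap.smul_apply, End.one_apply, map_smul, smul_eq_mul, form_smul_left] at k1 k2 ⊢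
    have := sub_ne_zero.2 ha
    field_simp
    linear_combination σ a * k1 - k2

variable [Finite F]

theorem mem_LS_of {J : Submodule F W} {y : V}
    (h : ∀ u, (∀ x ∈ J, bW u x = 0) → T.cR (bW u) y = 0) : y ∈ T.LS J :=
  T.mem_LS_of_cR fun φ hφ => by
    obtain ⟨u, rfl⟩ := exists_herm_rep H.hW φ
    exact h u hφ

theorem exists_mem_ZU (hw0 : w ≠ 0) (hw : bW w w = 0) {z : V ≃ₗ[F] V} (hz : z ∈ M)
    (h : ∀ y, T.cR (bW w) y = 0 → z y = y) :
    ∃ γ ∈ ZU T M hw, ∀ y, z y = y + T.t (γ (T.cR (bW w) y)) w := by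
  obtain ⟨x, hx, -⟩ := H.hW.exists_partner hw hw0
  obtain ⟨ψ, hψ⟩ := exists_dual_of_ne_zero (F := F) hw0
  suffices ∀ y, z y = y + T.t ((T.cR ψ ∘ₗ ((z : V →ₗ[F] V) - LinearMap.id) ∘ₗ T.t.flip x)
    (T.cR (bW w) y)) w from ⟨_, ⟨z, hz, this⟩, this⟩
  intro y
  have h1 : z y - y = z (T.t (T.cR (bW w) y) x) - T.t (T.cR (bW w) y) x := by
    have := h (y - T.t (T.cR (bW w) y) x) (by simp [hx])
    rw [map_sub] at this
    linear_combination (norm := module) this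
  have h2 : z y - y ∈ T.LS (F ∙ w) := H.mem_LS_of fun u hu => H.cR_eq_zero fun e => by
    have h3 := H.hW.eq_zero_comm.1 (hu _ (Submodule.mem_span_singleton_self _))
    rw [map_sub, ← (H.le z hz).1 _ y, h (T.t e u) (by simp [h3]), sub_self]
  obtain ⟨e, he⟩ := T.mem_LS_span.1 h2
  simp only [LinearMap.comp_apply, LinearMap.flip_apply, LinearMap.sub_apply, LinearEquiv.coe_coe,
    LinearMap.id_apply, ← h1, he, cR_t, hψ, one_smul]
  rw [← he]; abel

/-- If all central elements are scalar, the stabiliser of `E ⊗ w` preserves the decomposition. -/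
theorem stab_le [Nontrivial E] (h3 : 3 ≤ finrank F W) (hw0 : w ≠ 0) (hw : bW w w = 0)
    (hz : ∀ γ ∈ ZU T M hw, ∃ c : F, γ = c • 1)
    (g : V ≃ₗ[F] V) (hg : g ∈ M) (h : ∀ v ∈ T.LS (F ∙ w), g v ∈ T.LS (F ∙ w)) : g ∈ T.grp := by
  have := T.finite
  have hW := H.hW
  have gI := (H.le g hg).1
  have eb : ∀ u, bW w u = 0 → ∃ s ∈ sisom bW, ∀ y, T.cR (bW w) y = 0 →
      T.rt s y = y + T.t (T.cR (bW u) y) w := fun u hu => by
    obtain ⟨a, ha⟩ := exists_trace_eq hW.ne_id hW.invol (hW.self_fixed u)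
    obtain ⟨s, hs, hE⟩ := hW.exists_eichler hw hu ha
    exact ⟨s, hs, fun y hy => by simp [rt_ue hE, hy]⟩
  obtain ⟨A, hA⟩ := T.exists_equiv_of_stab hw0 h
  have hA' : ∀ e, g.symm (T.t e w) = T.t (A.symm e) w := fun e => g.injective (by simp [hA])
  have gp : ∀ y, T.cR (bW w) y = 0 → T.cR (bW w) (g y) = 0 := fun y hy =>
    H.cR_eq_zero fun e => by rw [← A.apply_symm_apply e, ← hA, gI, H.form_t, hy]; simp
  obtain ⟨C, b1, b2⟩ := T.exists_tensor_mod (W₁ := LinearMap.ker (bW w)) hA fun φ' hφ => by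
    obtain ⟨u, rfl⟩ := exists_herm_rep hW φ'
    obtain ⟨s, c1, c2⟩ := eb u (hW.eq_zero_comm.1 hφ)
    obtain ⟨φ, hφ⟩ := H.exists_dual_QA hw0 hw hz
      (Φ := (A.symm : E →ₗ[F] E) ∘ₗ T.cR (bW u) ∘ₗ (g : V →ₗ[F] V))
      ⟨by simp [hA, hφ], _, mul_mem (mul_mem (inv_mem hg) (H.rt_mem c1)) hg, fun y hy => by
        simp [c2 _ (gp y (T.mem_LS_ker.1 hy)), hA']⟩
    exact ⟨φ, fun e w hw => A.symm.injective (by simpa using hφ e w hw)⟩
  obtain ⟨e₀, he₀⟩ := H.hE.exists_self_ne_zero_top finrank_pos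
  have he₁ : e₀ ≠ 0 := by rintro rfl; simp at he₀
  have b3 : ∀ x, bW w x = 0 → bW w (C x) = 0 := fun x hx => by
    obtain ⟨y, hy⟩ := b2 e₀ x hx
    simpa [hy, hw, he₁] using gp (T.t e₀ x) (by simp [hx])
  have b4 : ∀ e e' x x', bW w x = 0 → bW w x' = 0 →
      bE (A e) (A e') * bW (C x) (C x') = bE e e' * bW x x' := fun e e' x x' k1 k2 => by
    obtain ⟨y, hy⟩ := b2 e x k1
    obtain ⟨y', hy'⟩ := b2 e' x' k2
    have := gI (T.t e x) (T.t e' x')
    simpa [hy, hy', H.tens, hw, b3 x' k2, hW.eq_zero_comm.1 (b3 x k1)] using this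
  obtain ⟨n, n1, n2⟩ := hW.exists_self_ne_zero_perp_of_lt (W := F ∙ w)
    (by rw [finrank_span_singleton hw0]; omega)
  rw [mem_perp_singleton] at n1
  obtain ⟨μ, hμ1, hμ⟩ : ∃ μ, σ μ = μ ∧ ∀ e e', μ * bE (A e) (A e') = bE e e' :=
    ⟨bW (C n) (C n) / bW n n, by rw [map_div₀, hW.symm, hW.symm], fun e e' => by
      field_simp; linear_combination b4 e e' n n n1 n1⟩
  have b5 : ∀ x x', bW w x = 0 → bW w x' = 0 → bW (C x) (C x') = μ * bW x x' :=
    fun x x' k1 k2 => mul_left_cancel₀ he₀ (by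
      linear_combination μ * b4 e₀ e₀ x x' k1 k2 - bW (C x) (C x') * hμ e₀ e₀)
  have hμ0 : μ ≠ 0 := fun e => he₀ (by rw [← hμ, e, zero_mul])
  obtain ⟨p, p1, p2⟩ := hW.exists_partner hw hw0
  have p3 : bW p w = 1 := by rw [← hW.symm, p1, map_one]
  let q : W →ₗ[F] W := LinearMap.id - (bW w).smulRight p
  have q1 : ∀ x, q x = x - bW w x • p := fun w => rfl
  have q2 : ∀ x, bW w (q x) = 0 := fun w => by simp [q1, p1]
  let C' : W →ₗ[F] W := C ∘ₗ q + (bW p - bW p ∘ₗ C ∘ₗ q).smulRight w + (μ • bW w).smulRight p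
  have B1 : ∀ x, C' x = C (q x) + (bW p x - bW p (C (q x))) • w + (μ * bW w x) • p := fun w => rfl
  have B2 : ∀ x x', bW (C' x) (C' x') = μ * bW x x' := fun x x' => by
    have k1 := b5 _ _ (q2 x) (q2 x')
    have k2 := hW.eq_zero_comm.1 (b3 _ (q2 x))
    have k3 := b3 _ (q2 x')
    conv_rhs at k1 => simp only [q1, map_sub, map_smul, LinearMap.sub_apply, form_smul_left,
      smul_eq_mul, p2, hW.symm]
    simp only [B1, map_add, map_smul, LinearMap.add_apply, form_smul_left, smul_eq_mul, hw,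
      p1, p2, p3, k1, k2, k3, map_sub σ, map_mul, hW.symm, hμ1]
    ring
  have hB : Function.Injective C' := (injective_iff_map_eq_zero C').2 fun x hx =>
    hW.nondeg x fun w' => mul_left_cancel₀ hμ0 (by rw [← B2, hx]; simp)
  let k := T.tm A (LinearEquiv.ofInjectiveEndo C' hB)
  have kI : k ∈ isom B := H.isom_tm hμ B2
  have B3 : C' w = w := by simp [B1, q1, hw, b1]
  have k1 : ∀ e, k.symm (T.t e w) = T.t (A.symm e) w := fun e => k.injective (by simp [k, B3])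
  have u0 : ∀ e, (k⁻¹ * g) (T.t e w) = T.t e w := fun e => by simp [hA, k1]
  have u1 : ∀ y ∈ T.LS (LinearMap.ker (bW w)), (k⁻¹ * g) y - y ∈ T.LS (F ∙ w) := fun y hy =>
    Submodule.mem_comap.1 ((T.LS_le (L := (T.LS (F ∙ w)).comap
      (((k⁻¹ * g : V ≃ₗ[F] V) : V →ₗ[F] V) - LinearMap.id))).2 (fun e x hx => by
        obtain ⟨y, hy⟩ := b2 e x hx
        have e1 : k.symm (T.t (A e) (C' x)) = T.t e x := k.injective (by simp [k])
        have e2 : C x = C' x - (bW p x - bW p (C x)) • w := by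
          simp [B1, q1, show bW w x = 0 from hx]
        refine T.mem_LS_span.2 ⟨A.symm y - (bW p x - bW p (C x)) • e, ?_⟩
        rw [LinearMap.sub_apply, LinearEquiv.coe_coe, LinearEquiv.mul_apply, hy, LinearEquiv.coe_inv]
        conv_lhs => rw [e2]
        simp only [map_add, map_sub, map_smul, e1, k1, LinearEquiv.symm_apply_apply,
          LinearMap.sub_apply, LinearMap.smul_apply, LinearMap.id_apply]
        abel) hy)
  have u2 : k⁻¹ * g ∈ M := by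
    refine mul_mem (inv_mem (H.mem k (T.tm_mem _ _) ⟨kI, ?_⟩)) hg
    have k2 := det_of_unip (H91.unip_of_three (g := k⁻¹ * g) (fun y => T.mem_LS_ker.2 (by
      rw [map_sub, H.cR_fix (mul_mem (inv_mem kI) gI) u0, sub_self])) u1 fun y hy => by
        obtain ⟨e, rfl⟩ := T.mem_LS_span.1 hy
        exact u0 e)
    rw [map_mul, (mem_sisom.1 (H.le g hg)).2, mul_one, map_inv, inv_eq_one] at k2
    exact k2
  have f2 : ∀ y ∈ T.LS (LinearMap.ker (bW w)), (k⁻¹ * g) y = y + T.t ((T.cR (bW p) ∘ₗ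
      (((k⁻¹ * g : V ≃ₗ[F] V) : V →ₗ[F] V) - LinearMap.id)) y) w := fun y hy => by
    obtain ⟨e, he⟩ := T.mem_LS_span.1 (u1 y hy)
    simp only [LinearMap.comp_apply, LinearMap.sub_apply, LinearEquiv.coe_coe,
      LinearMap.id_apply, he, cR_t, p3, one_smul]
    rw [← he]; abel
  generalize hΦ : T.cR (bW p) ∘ₗ (((k⁻¹ * g : V ≃ₗ[F] V) : V →ₗ[F] V) - LinearMap.id) = Φ at f2
  have f1 : ∀ e, Φ (T.t e w) = 0 := fun e => by
    rw [← hΦ, LinearMap.comp_apply, LinearMap.sub_apply, LinearEquiv.coe_coe, u0]; simp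
  obtain ⟨φ, hφ⟩ := H.exists_dual_QA hw0 hw hz ⟨f1, _, u2, f2⟩
  obtain ⟨v, rfl⟩ := exists_herm_rep hW φ
  have v0 : bW v w = 0 := by simpa [f1, he₁] using (hφ e₀ w hw).symm
  obtain ⟨s, c1, c2⟩ := eb v (hW.eq_zero_comm.1 v0)
  have u3 := mul_mem (inv_mem (H.rt_mem c1)) u2
  obtain ⟨γ, h4, hγ⟩ := H.exists_mem_ZU hw0 hw u3 fun y hy => (T.rt s).injective (by
    rw [c2 y hy, LinearEquiv.mul_apply, LinearEquiv.coe_inv, LinearEquiv.apply_symm_apply,
      f2 y (T.mem_LS_ker.2 hy), T.eqOn_LS (f := Φ) (g := T.cR (bW v))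
        (fun e w hw => by rw [hφ e w hw, cR_t]) (T.mem_LS_ker.2 hy)])
  obtain ⟨c, rfl⟩ := hz γ h4
  have e3 : (T.rt s)⁻¹ * (k⁻¹ * g) =
      T.rt (LinearEquiv.transvection (f := c • bW w) (v := w) (by simp [hw])) :=
    LinearEquiv.ext fun y => by rw [hγ, rt_tv, cR_smul]; rfl
  rw [← mul_inv_cancel_left k g, ← mul_inv_cancel_left (T.rt s) (k⁻¹ * g), e3]
  exact mul_mem (T.tm_mem _ _) (mul_mem (T.rt_mem _) (T.rt_mem _))

end UU

end H62
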