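import Cfsg.Agent.H62.UStab

set_option autoImplicit false

/-! Subgroups of `GU(V)` containing full groups of quasi-reflections: lines. -/

namespace H62

open Module H59

section Field

variable {F : Type*} [Field F] {σ : F →+* F}

theorem eq_or_eq_conj {x y : F} (h1 : x + σ x = y + σ y) (h2 : σ x * x = σ y * y) :
    y = x ∨ y = σ x := by
  have : (y - x) * (y - σ x) = 0 := by linear_combination (-y) * h1 + h2
  simpa [sub_eq_zero] using this

/-- Two circles of traces have a full sum set, even with a non-real point. -/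
theorem exists_trace_add_trace [Finite F] (hσ : σ ≠ RingHom.id F) (hσ2 : ∀ a, σ (σ a) = a)
    {ν ν' c : F} (hν : σ ν = ν) (hν0 : ν ≠ 0) (hν' : σ ν' = ν') (hν0' : ν' ≠ 0) (hc : σ c = c) :
    ∃ x y : F, σ x * x = ν ∧ σ y * y = ν' ∧ x + σ x + (y + σ y) = c ∧ (σ x ≠ x ∨ σ y ≠ y) := by
  classical
  have := Fintype.ofFinite F
  obtain ⟨q, hF, rfl⟩ := exists_card_eq_sq hσ hσ2
  by_contra! hn
  have e : ∀ x : F, frob hF x * x = x ^ (q + 1) := fun x => by rw [frob_apply, pow_succ]
  let o := Fintype.equivFin F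
  let Φ : {x : F // x ^ (q + 1) = ν} ⊕ {x : F // x ^ (q + 1) = ν'} → {x : F // x ^ q = x} × Prop :=
    Sum.elim (fun x => (⟨x.1 + frob hF x.1, by
        rw [← frob_apply hF, map_add, hσ2, add_comm]⟩, o x.1 < o (frob hF x.1)))
      fun y => (⟨c - (y.1 + frob hF y.1), by
        rw [← frob_apply hF, map_sub, map_add, hσ2, add_comm, hc]⟩, ¬ o y.1 < o (frob hF y.1))
  have k : ∀ x y : F, y = frob hF x → (o x < o (frob hF x) ↔ o y < o (frob hF y)) → x = y := by
    rintro x _ rfl h
    rw [hσ2] at h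
    exact o.injective (by omega)
  have hΦ : Function.Injective Φ := by
    rintro (x | x) (y | y) h <;>
      simp only [Φ, Sum.elim_inl, Sum.elim_inr, Prod.mk.injEq, Subtype.mk.injEq, eq_iff_iff] at h
    · rcases eq_or_eq_conj h.1 (by rw [e, e, x.2, y.2]) with h1 | h1
      · rw [Subtype.ext h1]
      · rw [Subtype.ext (k _ _ h1 h.2)]
    · have := hn x y (by rw [e, x.2]) (by rw [e, y.2]) (by linear_combination h.1)
      simp [this.1, this.2] at h
    · have := hn y x (by rw [e, y.2]) (by rw [e, x.2]) (by linear_combination -h.1)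
      simp [this.1, this.2] at h
    · rcases eq_or_eq_conj (sub_right_injective h.1) (by rw [e, e, x.2, y.2]) with h1 | h1
      · rw [Subtype.ext h1]
      · rw [Subtype.ext (k _ _ h1 (not_iff_not.1 h.2))]
  have := Nat.card_le_card_of_injective Φ hΦ
  rw [Nat.card_sum, Nat.card_prod, card_norm_eq hF hν0 hν, card_norm_eq hF hν0' hν', card_fixed hF,
    Nat.card_eq_fintype_card, Fintype.card_prop] at this
  omega

/-- If all norm one elements are `n`-th roots of unity, then `n - 1` non-zero elements contain two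
of equal norm. -/
theorem exists_norm_eq_norm [Finite F] (hσ : σ ≠ RingHom.id F) (hσ2 : ∀ a, σ (σ a) = a)
    {ι : Type*} [Fintype ι] (hn : ∀ l : F, σ l * l = 1 → l ^ Fintype.card ι = 1) (z : ι)
    {f : ι → F} (hf : ∀ r, r ≠ z → f r ≠ 0) :
    ∃ r s, r ≠ s ∧ r ≠ z ∧ s ≠ z ∧ σ (f r) * f r = σ (f s) * f s := by
  classical
  have := Fintype.ofFinite F
  obtain ⟨q, hF, rfl⟩ := exists_card_eq_sq hσ hσ2
  have h2 := two_le_q hF
  have h0 : 0 < Fintype.card ι := Fintype.card_pos_iff.2 ⟨z⟩
  have h1 : q + 1 ≤ Fintype.card ι := by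
    have := Nat.card_le_card_of_injective (fun x : {x : F // x ^ (q + 1) = 1} =>
      (⟨x.1, hn _ (by rw [frob_apply, ← pow_succ, x.2])⟩ : {x : F // x ^ Fintype.card ι = 1}))
      fun x y h => Subtype.ext (by simpa using h)
    rw [card_norm_one hF, card_pow_eq_one _ h0] at this
    exact this.trans (Nat.gcd_le_left _ h0)
  obtain ⟨r, s, h3, h4⟩ := Fintype.exists_ne_map_eq_of_card_lt
    (fun r : {r // r ≠ z} => (⟨f r ^ (q + 1), (pow_q_eq_self_iff hF (pow_ne_zero _ (hf r r.2))).1
      (norm_fixed hF _)⟩ : {x : F // x ^ (q - 1) = 1})) (by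
      rw [← Nat.card_eq_fintype_card (α := {x : F // x ^ (q - 1) = 1}), card_pow_pred_eq_one hF]
      simp; omega)
  refine ⟨r, s, fun h => h3 (Subtype.ext h), r.2, s.2, ?_⟩
  simpa [frob_apply, ← pow_succ] using h4

end Field

variable {F V : Type*} [Field F] [AddCommGroup V] [Module F V] {σ : F →+* F}
  {K : Subgroup (V ≃ₗ[F] V)} {B : V →ₛₗ[σ] V →ₗ[F] F} {x y u p : V}

theorem axis_conj {g : V ≃ₗ[F] V} (hg : g ∈ K) (hgB : g ∈ isom B) (hx : axisGrp B x ≤ K) :
    axisGrp B (g x) ≤ K := fun t ht => by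
  have := hx ((conj_mem_axisGrp_iff hgB (t := g⁻¹ * t * g)).1 (by simpa [mul_assoc] using ht))
  simpa [mul_assoc] using K.mul_mem (K.mul_mem hg this) (K.inv_mem hg)

theorem axis_smul (hx : axisGrp B x ≤ K) (a : F) : axisGrp B (a • x) ≤ K :=
  (axisGrp_smul_le x a).trans hx

theorem axis_zero : axisGrp B 0 ≤ K := by
  rintro g ⟨-, c, hc⟩
  rw [show g = 1 from LinearEquiv.ext fun x => by simp [hc]]
  exact K.one_mem

theorem axis_iff_fullU (h : IsHerm B) (hp : B p p = 0) : axisGrp B p ≤ K ↔ FullU K B p := by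
  refine ⟨fun h1 => ⟨hp, fun c hc => ?_⟩, fun h1 g hg => ?_⟩
  · obtain ⟨g, hg, hx⟩ := h.exists_transv hp hc
    exact ⟨g, h1 hg, hx⟩
  · obtain ⟨c, hc, hx⟩ := (h.mem_axisGrp_isotropic hp).1 hg
    obtain ⟨k, hk, hkx⟩ := h1.2 c hc
    rwa [show g = k from LinearEquiv.ext fun x => by rw [hx, hkx]]

theorem axis_move (h : IsHerm B) (hx : axisGrp B x ≤ K) (hu : axisGrp B u ≤ K)
    (h0 : B x x ≠ 0 ∨ B x u ≠ 0) {a : F} (ha : B (u + a • x) (u + a • x) = B u u) :
    axisGrp B (u + a • x) ≤ K := by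
  simp only [map_add, LinearMap.add_apply, form_smul_left, map_smul, smul_eq_mul] at ha
  by_cases h1 : B x u = 0
  · have h2 := h0.resolve_right (not_not.2 h1)
    have : σ a * a = 0 := by
      rw [h1, h.eq_zero_comm.1 h1] at ha
      exact mul_right_cancel₀ h2 (by linear_combination ha)
    simpa [show a = 0 by simpa using this] using hu
  have h2 : B u x ≠ 0 := fun h0 => h1 (h.eq_zero_comm.1 h0)
  have hc : a / B x u + σ (a / B x u) + a / B x u * σ (a / B x u) * B x x = 0 := by
    rw [map_div₀, h.symm]; field_simp; linear_combination ha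
  have := axis_conj (hx (h.qref_mem_axisGrp x _ hc)) (h.qref_mem_isom x _ hc) hu
  rwa [qref_apply, div_mul_cancel₀ _ h1] at this

theorem axis_circle (h : IsHerm B) (hx : axisGrp B x ≤ K) (h0 : B x x ≠ 0) {s t s' t' : F}
    (hu : axisGrp B (s • x + t • y) ≤ K) (ht : t ≠ 0) (htt : σ t' * t' = σ t * t)
    (hn : B (s' • x + t' • y) (s' • x + t' • y) = B (s • x + t • y) (s • x + t • y)) :
    axisGrp B (s' • x + t' • y) ≤ K := by
  have e : s' • x + t' • y = (t' / t) • (s • x + t • y) + (s' - t' / t * s) • x := by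
    match_scalars <;> field_simp <;> ring
  have ht' := h.conj_ne_zero ht
  rw [e] at hn ⊢
  refine axis_move h hx (axis_smul hu _) (Or.inl h0) (hn.trans ?_)
  rw [form_smul_left, form_smul_right, map_div₀, ← mul_assoc, div_mul_div_comm, htt,
    div_self (mul_ne_zero ht' ht), one_mul]

variable [Finite F]

theorem axis_line_aux (h : IsHerm B) (hx : axisGrp B x ≤ K) (hy : axisGrp B y ≤ K)
    (hxx : B x x = 1) (hyy : B y y = 1) (hxy : B x y ≠ 0) {s t : F} (ht : t ≠ 0)
    (hst : s + B x y * t ≠ 0) (hn : B (s • x + t • y) (s • x + t • y) = 1) :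
    axisGrp B (s • x + t • y) ≤ K := by
  have e : ∀ s t : F, B (s • x + t • y) (s • x + t • y) =
      σ (s + B x y * t) * (s + B x y * t) + (1 - σ (B x y) * B x y) * (σ t * t) := fun s t => by
    simp only [map_add, LinearMap.add_apply, form_smul_left, map_smul, smul_eq_mul, hxx, hyy,
      map_mul, h.symm]
    ring
  have i2 := h.invol
  generalize hβ : B x y = β at *
  have b1 := h.conj_ne_zero hxy
  have b2 := h.conj_ne_zero ht
  have b3 := h.conj_ne_zero hst
  obtain ⟨a, b, h1, h2, h3, -⟩ := exists_trace_add_trace h.ne_id h.invol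
    (ν := σ (s + β * t) * (s + β * t) * (σ (β * t) * (β * t))) (ν' := σ β * β * (σ β * β))
    (c := σ (β * t) * (β * t) + σ (s + β * t) * (s + β * t) - 2 * (σ β * β))
    (by simp only [map_mul, i2]; ring) (by simp [*, -map_add]) (by simp only [map_mul, i2]; ring)
    (by simp [*]) (by simp only [map_mul, map_add, map_sub, i2, map_ofNat]; ring)
  have f1 := axis_circle h hx (by simp [hxx]) (s := 0) (t := 1) (s' := -β - b / σ β) (t' := 1)
    (by simpa using hy) one_ne_zero rfl (by
      rw [e, e]; simp only [map_add, map_sub, map_neg, map_div₀, map_mul, i2, map_one, map_zero]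
      field_simp; linear_combination h2)
  have f2 : B ((-β * t + a / σ (β * t)) • x + t • y) ((-β * t + a / σ (β * t)) • x + t • y) =
      B (s • x + t • y) (s • x + t • y) := by
    rw [e, e]; simp only [map_add, map_neg, map_div₀, map_mul, i2] at h1 ⊢
    field_simp; linear_combination h1
  have f3 : σ (-β * t + a / σ (β * t)) * (-β * t + a / σ (β * t)) =
      σ (-β - b / σ β) * (-β - b / σ β) := by
    simp only [map_add, map_sub, map_neg, map_div₀, map_mul, i2] at h1 h3 ⊢
    field_simp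
    linear_combination h1 - σ t * t * h2 - σ β * β * (σ t * t) * h3
  refine axis_circle h hx (by simp [hxx]) ?_ ht rfl f2.symm
  by_cases h4 : -β - b / σ β = 0
  · rw [h4, mul_zero] at f3
    rw [show -β * t + a / σ (β * t) = 0 by simpa [-map_add] using f3, zero_smul, zero_add]
    exact axis_smul hy t
  rw [add_comm] at f1 ⊢
  refine axis_circle h hy (by simp [hyy]) f1 h4 f3 ?_
  rw [add_comm (t • y), f2, hn, add_comm, e]
  simp only [map_add, map_sub, map_neg, map_div₀, map_mul, i2, map_one]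
  field_simp; linear_combination -h2

/-- The non-isotropic points of a line through two non-orthogonal centres are centres. -/
theorem axis_line_aniso (h : IsHerm B) (hx : axisGrp B x ≤ K) (hy : axisGrp B y ≤ K)
    (hxx : B x x ≠ 0) (hyy : B y y ≠ 0) (hxy : B x y ≠ 0) (s t : F)
    (hn : B (s • x + t • y) (s • x + t • y) ≠ 0) : axisGrp B (s • x + t • y) ≤ K := by
  obtain ⟨a, ha⟩ := h.exists_smul_norm_eq hxx (map_one σ)
  obtain ⟨b, hb⟩ := h.exists_smul_norm_eq hyy (map_one σ)
  obtain ⟨c, hc⟩ := h.exists_smul_norm_eq hn (map_one σ)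
  have ha0 : a ≠ 0 := by rintro rfl; simp at ha
  have hb0 : b ≠ 0 := by rintro rfl; simp at hb
  have hc0 : c ≠ 0 := by rintro rfl; simp at hc
  have h1 : B (a • x) (b • y) ≠ 0 := by simp [*]
  have e : c • (s • x + t • y) = (c * s / a) • a • x + (c * t / b) • b • y := by
    match_scalars <;> field_simp
  rw [← axisGrp_smul _ hc0]
  rw [e] at hc ⊢
  replace hx := axis_smul hx a
  replace hy := axis_smul hy b
  generalize a • x = x, b • y = y, c * s / a = s, c * t / b = t at *
  by_cases ht : t = 0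
  · simpa [ht] using axis_smul hx s
  by_cases hst : s + B x y * t = 0
  swap; · exact axis_line_aux h hx hy ha hb h1 ht hst hc
  have hs : s = -(B x y * t) := by linear_combination hst
  rw [add_comm] at hc ⊢
  refine axis_line_aux h hy hx hb ha (fun h0 => h1 (h.eq_zero_comm.1 h0)) (by simp [*]) (fun h0 => ?_) hc
  simp only [map_add, LinearMap.add_apply, form_smul_left, map_smul, smul_eq_mul, ha, hb] at hc
  exact one_ne_zero (by linear_combination -hc + σ t * h0 + σ s * hst : (1 : F) = 0)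

omit [Finite F] in
theorem comm_eichler (h : IsHerm B) (hp : B p p = 0) (hx : B p x = 0) (hy : B p y = 0)
    {e f : V ≃ₗ[F] V} (he : e ∈ K) (hf : f ∈ K) {a b : F}
    (h1 : ∀ v, e v = v + B x v • p - B p v • x + (a * B p v) • p)
    (h2 : ∀ v, f v = v + B y v • p - B p v • y + (b * B p v) • p) :
    HasU K B p (B y x - B x y) := by
  refine ⟨e * f * (f * e)⁻¹, K.mul_mem (K.mul_mem he hf) (K.inv_mem (K.mul_mem hf he)),
    fun v => ?_⟩
  obtain ⟨v, rfl⟩ := (f * e).surjective v
  have hax := h.eq_zero_comm.1 hx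
  have hay := h.eq_zero_comm.1 hy
  rw [LinearEquiv.mul_apply, LinearEquiv.coe_inv, LinearEquiv.symm_apply_apply]
  simp only [LinearEquiv.mul_apply, h1, h2, map_add, map_sub, map_smul, smul_eq_mul, hx, hy, hax,
    hay, hp]
  module

/-- The radical of a degenerate line of centres. -/
theorem axis_rad (h : IsHerm B) (hp : B p p = 0) (hpx : B p x = 0) (hxx : B x x ≠ 0)
    (hx : ∀ μ : F, axisGrp B (x + μ • p) ≤ K) : axisGrp B p ≤ K := by
  have hxp := h.eq_zero_comm.1 hpx
  obtain ⟨l, hl, hl1⟩ := exists_norm_eq_not_fixed h.ne_id h.invol (map_one σ) one_ne_zero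
  have hγ : (l - 1) / B x x + σ ((l - 1) / B x x) + (l - 1) / B x x * σ ((l - 1) / B x x) * B x x
      = 0 := by
    rw [map_div₀, map_sub, map_one, h.self_fixed]; field_simp; linear_combination hl
  have hγ0 : (l - 1) / B x x ≠ 0 := div_ne_zero (sub_ne_zero.2 (by rintro rfl; simp at hl1)) hxx
  generalize (l - 1) / B x x = γ at hγ hγ0
  have key : ∀ α : F, ∃ e ∈ K, ∃ a : F,
      ∀ v, e v = v + B (α • x) v • p - B p v • α • x + (a * B p v) • p := fun α => by
    have h1 : γ + σ γ + γ * σ γ * B (x + σ (-α / γ) • p) (x + σ (-α / γ) • p) = 0 := by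
      simpa [hp, hpx, hxp] using hγ
    have h2 : σ γ + σ (σ γ) + σ γ * σ (σ γ) * B x x = 0 := by
      rw [h.invol]; linear_combination hγ
    refine ⟨qref B _ γ h1 * qref B x (σ γ) h2, K.mul_mem (hx _ (h.qref_mem_axisGrp _ _ _))
      (by simpa using hx 0 (by simpa using h.qref_mem_axisGrp x _ h2)),
      γ * (σ (-α / γ) * (-α / γ)), fun v => ?_⟩
    have := h.conj_ne_zero hγ0
    simp only [LinearEquiv.mul_apply, qref_apply, map_add, LinearMap.add_apply, form_smul_left,
      map_smul, smul_eq_mul, h.invol, hpx, map_div₀, map_neg]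
    match_scalars
    · ring
    · field_simp; linear_combination B x v * hγ
    · field_simp; linear_combination -σ α * B x v * hγ
  refine (axis_iff_fullU h hp).2 ⟨hp, fun c hc => ?_⟩
  obtain ⟨z, hz⟩ := exists_sub_eq_of_trace_zero h.ne_id h.invol hc
  obtain ⟨e, he, a, h1⟩ := key (z / B x x)
  obtain ⟨f, hf, b, h2⟩ := key 1
  have := comm_eichler h hp (by simp [hpx]) (by simp [hpx]) he hf h1 h2
  rwa [show B ((1 : F) • x) ((z / B x x) • x) - B ((z / B x x) • x) ((1 : F) • x) = c by
    simp [h.self_fixed, hxx, hz]] at this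

omit [Finite F] in
/-- The isotropic points of a hyperbolic line all of whose other points are centres. -/
theorem axis_hyp (h : IsHerm B) {e f : V} (he : B e e = 0) (hf : B f f = 0) (hef : B e f = 1)
    {k : F} (hk : σ k = k) (hk0 : k ≠ 0) (hk1 : k ≠ 1)
    (hx : ∀ a : F, a + σ a ≠ 0 → axisGrp B (a • f - e) ≤ K) : axisGrp B e ≤ K := by
  have hfe : B f e = 1 := by rw [← h.symm, hef, map_one]
  have key : ∀ a : F, a + σ a ≠ 0 → ∃ r ∈ K, ∃ r' ∈ K,
      (∀ v, r v = v + (B f v - σ a * B e v) • (a⁻¹ • f - e)) ∧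
      ∀ v, r' v = v + (a * (σ a)⁻¹ * B f v - a * B e v) • (a⁻¹ • f - e) := fun a ha => by
    have ha0 : a ≠ 0 := by rintro rfl; simp at ha
    have ha1 := h.conj_ne_zero ha0
    have h0 : a⁻¹ + σ a⁻¹ ≠ 0 := by
      rw [map_inv₀]; field_simp; simpa [add_comm, ha0] using ha
    have h1 : σ a + σ (σ a) + σ a * σ (σ a) * B (a⁻¹ • f - e) (a⁻¹ • f - e) = 0 := by
      simp [he, hf, hef, hfe, h.invol]; field_simp; ring
    have h2 : a + σ a + a * σ a * B (a⁻¹ • f - e) (a⁻¹ • f - e) = 0 := by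
      simp [he, hf, hef, hfe]; field_simp; ring
    refine ⟨_, hx _ h0 (h.qref_mem_axisGrp _ _ h1), _, hx _ h0 (h.qref_mem_axisGrp _ _ h2),
      fun v => ?_, fun v => ?_⟩ <;>
    · simp only [qref_apply, map_sub, LinearMap.sub_apply, form_smul_left, map_inv₀]
      congr 2; field_simp
  refine (axis_iff_fullU h he).2 ⟨he, fun c hc => ?_⟩
  have hk2 : k - 1 ≠ 0 := sub_ne_zero.2 hk1
  obtain ⟨z, hz⟩ := exists_sub_eq_of_trace_zero h.ne_id h.invol (c := c * k ^ 2 / (k - 1)) (by
    rw [map_div₀, map_sub, map_mul, map_pow, hk, map_one, ← add_div, ← add_mul, hc]; simp)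
  obtain ⟨b, hb, hb'⟩ : ∃ b : F, b + σ b ≠ 0 ∧ b + z + σ (b + z) ≠ 0 := by
    obtain ⟨b, hb⟩ := exists_trace_eq h.ne_id h.invol (map_one σ)
    by_cases h1 : b + z + σ (b + z) = 0
    · refine ⟨k * b, by simpa [hk, ← mul_add, hb], fun h2 => hk2 ?_⟩
      simp only [map_add, map_mul, hk] at h1 h2
      linear_combination h2 - h1 - (k - 1) * hb
    · exact ⟨b, by simp [hb], h1⟩
  have hb0 : b ≠ 0 := by rintro rfl; simp at hb
  have ha0 : b + z ≠ 0 := by intro h0; simp [h0] at hb'
  obtain ⟨a, rfl⟩ : ∃ a, z = a - b := ⟨z + b, by ring⟩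
  rw [add_sub_cancel] at hb' ha0
  have k1 : ∀ a : F, a + σ a ≠ 0 → a / k + σ (a / k) ≠ 0 := fun a ha => by
    rw [map_div₀, hk, ← add_div]; exact div_ne_zero ha hk0
  obtain ⟨r1, m1, -, -, e1, -⟩ := key _ (k1 a hb')
  obtain ⟨-, -, r2, m2, -, e2⟩ := key _ hb'
  obtain ⟨r3, m3, -, -, e3, -⟩ := key _ hb
  obtain ⟨-, -, r4, m4, -, e4⟩ := key _ (k1 b hb)
  refine ⟨r4 * r3 * r2 * r1, K.mul_mem (K.mul_mem (K.mul_mem m4 m3) m2) m1, fun v => ?_⟩
  have := h.conj_ne_zero hb0
  have := h.conj_ne_zero ha0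
  have hc' : c = (k - 1) * (a - b - σ (a - b)) / k ^ 2 := by rw [hz]; field_simp
  simp only [LinearEquiv.mul_apply, e1, e2, e3, e4, map_add, map_sub, map_smul, smul_eq_mul, he, hf,
    hef, hfe, map_div₀, hk, hc']
  match_scalars <;> field_simp <;> ring

/-- A hyperbolic line through an isotropic and a non-isotropic centre. -/
theorem axis_line_iso [FiniteDimensional F V] (h : IsHerm B) (hx : axisGrp B x ≤ K)
    (hp : axisGrp B p ≤ K) (hxx : B x x ≠ 0) (hpp : B p p = 0) (hxp : B x p ≠ 0) (s t : F) :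
    axisGrp B (s • x + t • p) ≤ K := by
  have hpx : B p x ≠ 0 := fun h0 => hxp (h.eq_zero_comm.1 h0)
  have hL := h.disjoint_span_hyp hpp hpx
  have h2 := h.finrank_span_hyp hpp hpx
  have hxL : x ∈ Submodule.span F {p, x} := Submodule.subset_span (by simp)
  have h1 : ∀ w ∈ Submodule.span F {p, x}, B w w = 0 → axisGrp B w ≤ K := fun w hw hw0 => by
    obtain ⟨a, b, rfl⟩ := Submodule.mem_span_pair.1 hw
    exact axis_move h hx (axis_smul hp a) (Or.inl hxx) (by rw [hw0]; simp [hpp])
  have hw : s • x + t • p ∈ Submodule.span F {p, x} :=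
    Submodule.mem_span_pair.2 ⟨t, s, add_comm _ _⟩
  generalize s • x + t • p = w at hw
  by_cases hw0 : B w w = 0
  · exact h1 w hw hw0
  have h3 := locSU_of_forall_fullU (M := K) h hL (Or.inl (by omega)) fun w hw hw0 =>
    (axis_iff_fullU h hw0).1 (h1 w hw hw0)
  obtain ⟨c, hc⟩ := h.exists_smul_norm_eq hw0 (h.self_fixed x)
  have hc0 : c ≠ 0 := by rintro rfl; simp at hc; exact hxx hc.symm
  obtain ⟨a, ha, hax⟩ := (h.restrict hL).witt_one (u := ⟨x, hxL⟩)
    (w := ⟨c • w, Submodule.smul_mem _ _ hw⟩) (by rintro h0; simp at h0; simp [h0] at hxx)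
    (by rintro h0; simp [hc0] at h0; simp [h0] at hw0) hc.symm
  obtain ⟨e, he, -, e1, e2⟩ := exists_ext h hL ha
  obtain ⟨r, hr, hdet, hrx⟩ := h.exists_qrefl hxx (h.det_norm_one (Subgroup.inv_mem _ he))
  have h4 : e * r ∈ sisom B := mem_sisom.2 ⟨Subgroup.mul_mem _ he hr.1, by
    rw [map_mul, ← Units.val_inj, Units.val_mul, hdet, ← Units.val_mul,
      ← map_mul, mul_inv_cancel, map_one]⟩
  have := axis_conj (h3 _ h4 fun y hy => by
    rw [LinearEquiv.mul_apply, axisGrp_apply_of_perp hr (hy x hxL), e2 y hy]) h4.1 hx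
  rw [LinearEquiv.mul_apply, hrx, map_smul, e1 ⟨x, hxL⟩, hax, axisGrp_smul _ (Units.ne_zero _),
    axisGrp_smul _ hc0] at this
  exact this

/-- Lines through a non-isotropic centre and a centre not orthogonal to it consist of centres. -/
theorem axis_line [FiniteDimensional F V] (h : IsHerm B) (hx : axisGrp B x ≤ K)
    (hy : axisGrp B y ≤ K) (hxx : B x x ≠ 0) (hxy : B x y ≠ 0) (s t : F) :
    axisGrp B (s • x + t • y) ≤ K := by
  by_cases hyy : B y y = 0
  · exact axis_line_iso h hx hy hxx hyy hxy s t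
  have h1 := axis_line_aniso h hx hy hxx hyy hxy
  by_cases hp : B (s • x + t • y) (s • x + t • y) = 0
  swap; · exact h1 s t hp
  by_cases hpx : B (s • x + t • y) x = 0
  · refine axis_rad h hp hpx hxx fun μ => ?_
    have e : x + μ • (s • x + t • y) = (1 + μ * s) • x + (μ * t) • y := by module
    rw [e]
    refine h1 _ _ ?_
    rw [← e]
    generalize s • x + t • y = p at *
    simpa [hp, hpx, h.eq_zero_comm.1 hpx] using hxx
  obtain ⟨f, e1, e2, a, b, rfl⟩ := h.exists_isotropic_partner hp hpx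
  have hyx : B y x ≠ 0 := fun h0 => hxy (h.eq_zero_comm.1 h0)
  refine axis_hyp h hp e2 e1 (k := B x y * B y x / (B x x * B y y))
    (by simp [h.symm, mul_comm]) (by simp [*]) (fun h0 => hpx ?_) fun c hc => ?_
  · rw [div_eq_one_iff_eq (by simp [*])] at h0
    simp only [map_add, LinearMap.add_apply, form_smul_left, map_smul, smul_eq_mul] at hp ⊢
    have : σ (s * B x x + t * B x y) * (s * B x x + t * B x y) = 0 := by
      simp only [map_add, map_mul, h.symm]
      linear_combination B x x * hp + σ t * t * h0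
    have := congrArg σ (show s * B x x + t * B x y = 0 by simpa [-map_add] using this)
    simpa [h.symm] using this
  · have e : c • (a • (s • x + t • y) + b • x) - (s • x + t • y) =
        (c * (a * s + b) - s) • x + (c * a * t - t) • y := by module
    rw [e]
    refine h1 _ _ ?_
    rw [← e]
    have e3 : B (a • (s • x + t • y) + b • x) (s • x + t • y) = 1 := by rw [← h.symm, e1, map_one]
    generalize a • (s • x + t • y) + b • x = f at *
    generalize s • x + t • y = p at *
    simp [e1, e2, e3, hp]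
    exact fun h0 => hc (by linear_combination -h0)

/-- Enlarging a subspace of centres. -/
theorem axis_ext [FiniteDimensional F V] (h : IsHerm B) {U : Submodule F V}
    (hU : ∀ u ∈ U, axisGrp B u ≤ K) (hy : axisGrp B y ≤ K) (hyy : B y y ≠ 0) (hx : x ∈ U)
    (hxx : B x x ≠ 0) (hyx : B y x ≠ 0) : ∀ z ∈ U ⊔ F ∙ y, axisGrp B z ≤ K := by
  have k : ∀ u ∈ U, B y u ≠ 0 → ∀ a : F, axisGrp B (u + a • y) ≤ K := fun u hu h0 a => by
    simpa [add_comm] using axis_line h hy (hU u hu) hyy h0 a 1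
  intro z hz
  obtain ⟨u, hu, _, hw, rfl⟩ := Submodule.mem_sup.1 hz
  obtain ⟨a, rfl⟩ := Submodule.mem_span_singleton.1 hw
  by_cases h0 : B y u = 0
  swap; · exact k u hu h0 a
  obtain ⟨μ, h1, h2⟩ : ∃ μ : F, μ ≠ 0 ∧ B x (u + a • y) + μ * B x x ≠ 0 := by
    obtain ⟨c, hc, hc1⟩ := exists_ne_zero_add_one_ne_zero h.ne_id
    by_cases h1 : B x (u + a • y) + B x x = 0
    · refine ⟨-c, by simpa, fun h2 => mul_ne_zero hc1 hxx ?_⟩
      linear_combination h1 - h2
    · exact ⟨1, one_ne_zero, by simpa using h1⟩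
  have := axis_line h (hU x hx) (k (u + μ • x) (U.add_mem hu (U.smul_mem _ hx))
    (by simp [h0, h1, hyx]) a) hxx (by
      intro h3; apply h2; simp only [map_add, map_smul, smul_eq_mul] at h3 ⊢
      linear_combination h3) (-μ) 1
  convert this using 2; module

end H62
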