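import Cfsg.Agent.H62.UHom1
import Cfsg.Agent.H62.Mono3

set_option autoImplicit false

/-! Overgroups of the monomial group in `SU(V)`: the stabiliser of a coordinate line. -/

namespace H62

open Module H59

variable {F V : Type*} [Field F] [AddCommGroup V] [Module F V] {σ : F →+* F}
  {M : Subgroup (V ≃ₗ[F] V)} {B : V →ₛₗ[σ] V →ₗ[F] F} {ι : Type*}

/-- The stabiliser of the line of `o` in `M`, enlarged by the quasi-reflections with centre `o`. -/
def liftG (M : Subgroup (V ≃ₗ[F] V)) (B : V →ₛₗ[σ] V →ₗ[F] F) (o : V) : Subgroup (V ≃ₗ[F] V) where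
  carrier := {g | ∃ r ∈ axisGrp B o, g * r ∈ M ⊓ sisom B ⊓ fixL o}
  one_mem' := ⟨1, one_mem _, by simpa using one_mem _⟩
  mul_mem' := by
    rintro a c ⟨r, hr, h⟩ ⟨s, hs, h'⟩
    obtain ⟨t, ht, h1⟩ := (inv_mem h').2
    have := conj_mem_axisGrp (inv_mem h').1.2.1 hr
    rw [h1, axisGrp_smul _ ht] at this
    refine ⟨_, mul_mem hs this, ?_⟩
    convert mul_mem h h' using 1; group
  inv_mem' := by
    rintro a ⟨r, hr, h⟩
    obtain ⟨t, ht, h1⟩ := h.2
    have := conj_mem_axisGrp h.1.2.1 (inv_mem hr)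
    rw [h1, axisGrp_smul _ ht] at this
    refine ⟨_, this, ?_⟩
    convert inv_mem h using 1; group

theorem mem_of_liftG [FiniteDimensional F V] {o : V} (ho : B o o ≠ 0) {g : V ≃ₗ[F] V}
    (hg : g ∈ liftG M B o) (h1 : g ∈ sisom B) : g ∈ M := by
  obtain ⟨r, hr, h⟩ := hg
  have := (mem_sisom.1 h.1.2).2
  rw [map_mul, (mem_sisom.1 h1).2, one_mul] at this
  simpa [eq_one_of_mem_axisGrp_of_det ho hr this] using h.1.1

/-- `b` is an orthonormal basis. -/
structure IsON [DecidableEq ι] (B : V →ₛₗ[σ] V →ₗ[F] F) (b : Basis ι F V) : Prop where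
  herm : IsHerm B
  on : ∀ i j, B (b i) (b j) = if i = j then 1 else 0

variable [DecidableEq ι] {b : Basis ι F V} {o i j k l : ι} {g : V ≃ₗ[F] V}

namespace IsON

theorem left (h : IsON B b) (i : ι) (v : V) : B (b i) v = b.repr v i :=
  LinearMap.congr_fun (b.ext (f₁ := B (b i)) (f₂ := b.coord i) fun j => by
    simp [h.on, Finsupp.single_apply, eq_comm]) v

theorem right (h : IsON B b) (i : ι) (v : V) : B v (b i) = σ (b.repr v i) := by
  rw [← h.left, h.herm.symm]

theorem self (h : IsON B b) (i : ι) : B (b i) (b i) = 1 := by simp [h.on]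

theorem inv_repr (h : IsON B b) (hg : g ∈ isom B) (i j : ι) :
    b.repr (g⁻¹ (b i)) j = σ (b.repr (g (b j)) i) := by
  rw [← h.left, ← h.right, ← hg]; simp

variable [FiniteDimensional F V]

theorem axis_mem (h : IsON B b) (hg : g ∈ axisGrp B (b i)) : g ∈ stabG (lines b) := by
  obtain ⟨-, c, hc⟩ := hg
  exact StabD.of_fix fun k v hv => by
    rw [hc, h.left]
    exact (lines_loc b i).fix (self_mem_lines b i) c k v hv

theorem fix_det (h : IsON B b) (hM : ∀ e, StabD (lines b) e → e ∈ sisom B → e ∈ M) (o : ι)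
    (hg : g ∈ stabG (lines b)) (hgB : g ∈ isom B) : ∃ r ∈ axisGrp B (b o),
      r (b o) = ((LinearEquiv.det g⁻¹ : Fˣ) : F) • b o ∧ g * r ∈ M ∧ g * r ∈ sisom B ∧
        g * r ∈ stabG (lines b) := by
  obtain ⟨r, hr, hdet, hro⟩ := h.herm.exists_qrefl (p := b o) (by simp [h.self])
    (h.herm.det_norm_one (Subgroup.inv_mem _ hgB))
  have h4 : g * r ∈ sisom B := mem_sisom.2 ⟨Subgroup.mul_mem _ hgB hr.1, by
    rw [map_mul, ← Units.val_inj, Units.val_mul, hdet, ← Units.val_mul,
      ← map_mul, mul_inv_cancel, map_one]⟩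
  exact ⟨r, hr, hro, hM _ (mul_mem hg (h.axis_mem hr)) h4, h4, mul_mem hg (h.axis_mem hr)⟩

theorem mem_liftG (h : IsON B b) (hM : ∀ e, StabD (lines b) e → e ∈ sisom B → e ∈ M)
    (hg : g ∈ stabG (lines b)) (hgB : g ∈ isom B) (h1 : g (b o) = b o) : g ∈ liftG M B (b o) := by
  obtain ⟨r, hr, h2, h3, h4, -⟩ := h.fix_det hM o hg hgB
  exact ⟨r, hr, ⟨h3, h4⟩, _, Units.ne_zero _, by rw [LinearEquiv.mul_apply, h2, map_smul, h1]⟩

variable [Fintype ι]

theorem exists_swap (h : IsON B b) (hkl : k ≠ l) {t : F} (ht : σ t * t = 1) :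
    ∃ r ∈ stabG (lines b), r ∈ isom B ∧ ((LinearEquiv.det r : Fˣ) : F) = -1 ∧
      ∀ x, r x = x + (σ t * b.repr x l - b.repr x k) • (b k - t • b l) := by
  have ht0 : t ≠ 0 := by rintro rfl; simp at ht
  obtain ⟨r, h1, h2, h3⟩ := mono_r (b := b) hkl one_ne_zero ht0
  have h4 : ∀ x, r x = x + (σ t * b.repr x l - b.repr x k) • (b k - t • b l) := fun x => by
    rw [h3, eq_inv_of_mul_eq_one_left ht]; simp
  refine ⟨r, h1, h.herm.mem_isom_of_rk1 (p := b k - t • b l) (c := -1) ?_ fun x => ?_,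
    by rw [LinearEquiv.coe_det, h2], h4⟩
  · simp [h.on, hkl, hkl.symm]; linear_combination ht
  · rw [h4]; simp [h.left]

theorem exists_swap_mem (h : IsON B b) (hM : ∀ e, StabD (lines b) e → e ∈ sisom B → e ∈ M)
    (hkl : k ≠ l) {t : F} (ht : σ t * t = 1) (hk : k ≠ o) (hl : l ≠ o) :
    ∃ r ∈ M, r ∈ stabG (lines b) ∧ r ∈ isom B ∧ ∀ x, r x =
      x + (σ t * b.repr x l - b.repr x k) • (b k - t • b l) - (2 * b.repr x o) • b o := by
  obtain ⟨s, s1, s2, s3, s4⟩ := h.exists_swap hkl ht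
  obtain ⟨r, ⟨-, c, hc⟩, r1, r2, r3, r4⟩ := h.fix_det hM o s1 s2
  refine ⟨_, r2, r4, r3.1, fun x => ?_⟩
  rw [hc, map_inv, Units.val_inv_eq_inv_val, s3, h.self] at r1
  obtain rfl : c = -2 := by
    have := congrArg (fun v => b.repr v o) r1
    simp at this; linear_combination this
  simp [hc, s4, h.left, hk, hl]
  module

theorem exists_diag (h : IsON B b) (hM : ∀ e, StabD (lines b) e → e ∈ sisom B → e ∈ M)
    (hkl : k ≠ l) {t : F} (ht : σ t * t = 1) : ∃ d ∈ M, d ∈ isom B ∧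
      ∀ x, d x = x + ((t - 1) * b.repr x k) • b k + ((t⁻¹ - 1) * b.repr x l) • b l := by
  have h1 : t - 1 + σ (t - 1) + (t - 1) * σ (t - 1) * B (b k) (b k) = 0 := by
    rw [h.self, map_sub, map_one]; linear_combination ht
  obtain ⟨r, ⟨-, c, hc⟩, r1, r2, r3, -⟩ := h.fix_det hM l
    (h.axis_mem (h.herm.qref_mem_axisGrp _ _ h1)) (h.herm.qref_mem_isom _ _ h1)
  refine ⟨_, r2, r3.1, fun x => ?_⟩
  rw [hc, map_inv, Units.val_inv_eq_inv_val, det_qref, h.self, h.self] at r1
  obtain rfl : c = t⁻¹ - 1 := by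
    have := congrArg (fun v => b.repr v l) r1
    simp at this; linear_combination this
  simp [hc, qref_apply, h.left, hkl.symm]
  module

omit [FiniteDimensional F V] [Fintype ι] in
theorem two_ne_zero_of_isotropic (h : IsON B b) {v : V} (hv : B v v = 0) (hk : b.repr v k ≠ 0) :
    ∃ l, l ≠ k ∧ b.repr v l ≠ 0 := by
  by_contra! hc
  rw [eq_smul_of_repr hc] at hv
  simp [h.self, hk] at hv

/-- A non-monomial element fixing a coordinate line gives everything. -/
theorem mem_of_fix [Finite F] (h : IsON B b) (h5 : 5 ≤ Fintype.card ι)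
    (hM : ∀ e, StabD (lines b) e → e ∈ sisom B → e ∈ M) (hle : ∀ e ∈ M, e ∈ sisom B)
    (hg : g ∈ M ⊓ fixL (b o)) (hn : g ∉ stabG (lines b)) : ∀ e ∈ sisom B, e ∈ M := by
  have hh := h.herm
  have hgK : g ∈ liftG M B (b o) := ⟨1, one_mem _, by simpa using ⟨⟨hg.1, hle g hg.1⟩, hg.2⟩⟩
  have h1 : ∀ i, i ≠ o → axisGrp B (b i) ≤ liftG M B (b o) := fun i hi t ht =>
    h.mem_liftG hM (h.axis_mem ht) ht.1 (axisGrp_apply_of_perp ht (by simp [h.on, hi]))
  obtain ⟨i, hi⟩ : ∃ i, ∀ k, ∃ l, l ≠ k ∧ b.repr (g (b i)) l ≠ 0 := by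
    by_contra! hc; exact hn (mem_of_col hc)
  obtain ⟨c, hc0, hc⟩ := hg.2
  have hio : i ≠ o := by
    rintro rfl
    obtain ⟨l, h2, h3⟩ := hi i
    simp [hc, h2] at h3
  have h2 := axis_conj hgK (hle g hg.1).1 (h1 i hio)
  have h3 : B (g (b i)) (g (b i)) = 1 := by rw [(hle g hg.1).1, h.self]
  have h4 : b.repr (g (b i)) o = 0 := by
    have := (hle g hg.1).1 (b o) (b i)
    rw [hc, form_smul_left, h.left, h.on, if_neg hio.symm] at this
    simpa [hc0] using this
  generalize g (b i) = v at hi h2 h3 h4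
  obtain ⟨j, hjo, hj⟩ := hi o
  obtain ⟨k, hkj, hk⟩ := hi j
  have hko : k ≠ o := by rintro rfl; exact hk h4
  have step1 : ∀ U : Submodule F V, (∀ u ∈ U, axisGrp B u ≤ liftG M B (b o)) → v ∈ U → ∀ l,
      b.repr v l ≠ 0 → ∀ u ∈ U ⊔ F ∙ b l, axisGrp B u ≤ liftG M B (b o) := fun U hU hv l hl =>
    axis_ext hh hU (h1 l (by rintro rfl; exact hl h4)) (by simp [h.self]) hv (by simp [h3])
      (by rwa [h.left])
  have step2 : ∀ U : Submodule F V, (∀ u ∈ U, axisGrp B u ≤ liftG M B (b o)) → v ∈ U → b j ∈ U →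
      b k ∈ U → ∀ l, l ≠ o → ∀ u ∈ U ⊔ F ∙ b l, axisGrp B u ≤ liftG M B (b o) := by
    intro U hU hv hj' hk' l hl
    by_cases h0 : b.repr v l = 0
    swap; · exact step1 U hU hv l h0
    have hkl : k ≠ l := by rintro rfl; exact hk h0
    have hjl : j ≠ l := by rintro rfl; exact hj h0
    obtain ⟨s, s1, s2, -, s4⟩ := h.exists_swap hkl (t := 1) (by simp)
    intro u hu
    refine axis_ext hh hU (axis_conj (h.mem_liftG hM s1 s2 (by simp [s4, hl, hko])) s2 h2)
      (by simp [s2 v v, h3]) hj' (by simp [h.self]) (by simp [h.right, s4, hkj.symm, hjl, hj]) u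
      ((sup_le le_sup_left ?_ : U ⊔ (F ∙ b l) ≤ _) hu)
    rw [Submodule.span_singleton_le_iff_mem, ← Submodule.smul_mem_iff _ hk]
    convert Submodule.add_mem_sup (U.sub_mem (U.smul_mem (b.repr v k) hk') hv)
      (Submodule.mem_span_singleton_self (s v)) using 1
    simp [s4, h0]; module
  have h6 : ∀ I : Finset ι, o ∉ I → ∀ u ∈ ((F ∙ v) ⊔ F ∙ b j) ⊔ (F ∙ b k) ⊔
      Submodule.span F (b '' I), axisGrp B u ≤ liftG M B (b o) := by
    have m := fun x : V => Submodule.mem_span_singleton_self (R := F) x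
    intro I
    induction I using Finset.induction_on with
    | empty =>
      intro _
      simpa using step1 _ (step1 _ (fun u hu => by
        obtain ⟨a, rfl⟩ := Submodule.mem_span_singleton.1 hu
        exact axis_smul h2 a) (m v) j hj) (Submodule.mem_sup_left (m v)) k hk
    | insert l I hl ih =>
      intro hI
      rw [Finset.mem_insert, not_or] at hI
      rw [Finset.coe_insert, Set.image_insert_eq, Submodule.span_insert, sup_comm (F ∙ b l),
        ← sup_assoc]
      exact step2 _ (ih hI.2)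
        (Submodule.mem_sup_left (Submodule.mem_sup_left (Submodule.mem_sup_left (m _))))
        (Submodule.mem_sup_left (Submodule.mem_sup_left (Submodule.mem_sup_right (m _))))
        (Submodule.mem_sup_left (Submodule.mem_sup_right (m _))) l (Ne.symm hI.1)
  have h7 : ∀ p, B (b o) p = 0 → B p p = 0 → FullU M B p := fun p hp hp0 => by
    have := h6 (Finset.univ.erase o) (by simp) p (Submodule.mem_sup_right (by
      rw [Basis.mem_span_image]
      intro l hl
      simp only [Finset.coe_erase, Finset.coe_univ, Set.mem_diff, Set.mem_univ, true_and]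
      rintro rfl
      exact Finsupp.mem_support_iff.1 hl (by rwa [← h.left])))
    exact (axis_iff_fullU hh hp0).1 fun t ht =>
      mem_of_liftG (by simp [h.self]) (this ht) (axisGrp_le_sisom hp0 ht)
  have hW := hh.disjoint_span_singleton (v := b o) (by simp [h.self])
  have hd := hh.finrank_add_finrank_perp (F ∙ b o)
  rw [finrank_span_singleton (b.ne_zero o), finrank_eq_card_basis b] at hd
  have hG : GoodU M B (perp B (F ∙ b o)) := ⟨hh.disjoint_perp_perp hW, by omega,
    locSU_of_forall_fullU hh (hh.disjoint_perp_perp hW) (Or.inl (by omega)) fun p hp =>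
      h7 p (mem_perp_singleton.1 hp)⟩
  refine hG.mem_of_top hh ?_ (by rw [finrank_eq_card_basis b]; omega)
  obtain ⟨m, hm⟩ := exists_list [o, j, k] (by simp; omega)
  simp only [List.mem_cons, List.not_mem_nil, or_false, not_or] at hm
  obtain ⟨r, r1, -, r2, r3⟩ := h.exists_swap_mem hM hjo (t := 1) (by simp) (Ne.symm hm.2.1)
    (Ne.symm hm.1)
  obtain ⟨a, ha⟩ := exists_norm_eq' hh.ne_id hh.invol (μ := -1) (by simp)
  have ha0 : a ≠ 0 := by rintro rfl; simp at ha
  have h8 := (h7 (b j + a • b k) (by simp [h.on, hjo.symm, hko.symm])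
    (by simp [h.on, hkj, hkj.symm]; linear_combination ha)).conj r1 r2
  have h9 : r (b j + a • b k) = b o + a • b k := by
    simp [r3, hjo, hko, hkj, Ne.symm hm.2.1, Ne.symm hm.2.2]; abel
  rw [h9] at h8
  have hk' : b k ∈ perp B (F ∙ b o) := mem_perp_singleton.2 (by simp [h.on, hko.symm])
  have := mem_uSub (W := perp B (F ∙ b o)) h8 fun h0 => by simpa [h.on, hko, ha0] using h0 _ hk'
  rw [Submodule.add_mem_iff_left _ (Submodule.smul_mem _ _ (hG.le_uSub hh hk'))] at this
  rw [eq_top_iff, ← (hh.isCompl_perp hW).sup_eq_top]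
  exact sup_le (by rwa [Submodule.span_singleton_le_iff_mem]) (hG.le_uSub hh)

end IsON

end H62
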