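import Cfsg.Agent.H62.UHom2

set_option autoImplicit false

/-! The monomial group is maximal in `SU(V)`: odd characteristic. -/

namespace H62

open Module H59

variable {F V : Type*} [Field F] [AddCommGroup V] [Module F V] {σ : F →+* F}
  {M : Subgroup (V ≃ₗ[F] V)} {B : V →ₛₗ[σ] V →ₗ[F] F} {ι : Type*}

theorem three_roots_u {a : F} (ha : σ a * a = 1) (h1 : a ≠ 1) (h2 : a ^ 2 ≠ 1) (h3 : a ^ 3 ≠ 1)
    {A C : F} (h : ∀ t : F, σ t * t = 1 → t ≠ 1 → 1 + (t - 1) * A + (t⁻¹ - 1) * C = 0) : False := by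
  have ha0 : a ≠ 0 := by rintro rfl; simp at ha
  have p1 := h a ha h1
  have p2 := h _ (by rw [map_pow, ← mul_pow, ha, one_pow]) h2
  have p3 := h _ (by rw [map_pow, ← mul_pow, ha, one_pow]) h3
  refine one_ne_zero (?_ : (1 : F) = 0)
  linear_combination (norm := skip) p3 - (1 + a + a⁻¹) * p2 + (1 + a + a⁻¹) * p1
  field_simp
  ring

theorem exists_norm_one_ord [Finite F] (hσ : σ ≠ RingHom.id F) (hσ2 : ∀ a, σ (σ a) = a)
    (h2 : (2 : F) ≠ 0) : ∃ a : F, σ a * a = 1 ∧ a ≠ 1 ∧ a ^ 2 ≠ 1 ∧ a ^ 3 ≠ 1 := by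
  obtain ⟨y, hy, hy1⟩ := exists_norm_eq_not_fixed hσ hσ2 (map_one σ) one_ne_zero
  have h3 : y ^ 2 ≠ 1 := fun h => hy1 (by linear_combination y * hy - σ y * h)
  by_cases h4 : y ^ 3 = 1
  · refine ⟨-y, by simpa using hy, fun h => h3 (by linear_combination (1 - y) * h - 0), by rwa [neg_sq],
      fun h => h2 (by linear_combination -h - h4)⟩
  · exact ⟨y, hy, by rintro rfl; simp at h3, h3, h4⟩

theorem exists_two_circles [Finite F] (hσ : σ ≠ RingHom.id F) (hσ2 : ∀ a, σ (σ a) = a)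
    {x y z w c : F} (hx : x ≠ 0) (hy : y ≠ 0) (hz : z ≠ 0) (hw : w ≠ 0) (hc : σ c = c) :
    ∃ l m : F, σ l * l = 1 ∧ σ m * m = 1 ∧
      σ (σ l * y - x) * (σ l * y - x) + σ (σ m * w - z) * (σ m * w - z) = c ∧
      ((∃ l', l' ≠ l ∧ σ l' * l' = 1 ∧
        σ (σ l' * y - x) * (σ l' * y - x) = σ (σ l * y - x) * (σ l * y - x)) ∨
      ∃ m', m' ≠ m ∧ σ m' * m' = 1 ∧
        σ (σ m' * w - z) * (σ m' * w - z) = σ (σ m * w - z) * (σ m * w - z)) := by
  have k : ∀ {x y a : F}, x ≠ 0 → y ≠ 0 → σ a * a = σ x * x * (σ y * y) →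
      σ (σ a / (x * σ y)) * (σ a / (x * σ y)) = 1 ∧
      σ (σ (σ a / (x * σ y)) * y - x) * (σ (σ a / (x * σ y)) * y - x) =
        σ x * x + σ y * y - (a + σ a) := fun {x y a} hx hy h => by
    have := (map_ne_zero σ).2 hx
    have := (map_ne_zero σ).2 hy
    simp only [map_div₀, map_mul, map_sub, hσ2]
    constructor <;> field_simp <;> linear_combination h
  have k2 : ∀ {x y a : F}, x ≠ 0 → y ≠ 0 → σ a ≠ a → σ (σ a) / (x * σ y) ≠ σ a / (x * σ y) :=
    fun hx hy h h' => h (by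
      rw [hσ2, div_left_inj' (by simp [hx, hy])] at h'; exact h'.symm)
  obtain ⟨a, b, h1, h2, h3, h4⟩ := exists_trace_add_trace hσ hσ2 (ν := σ x * x * (σ y * y))
    (ν' := σ z * z * (σ w * w)) (c := σ x * x + σ y * y + σ z * z + σ w * w - c)
    (by simp only [map_mul, hσ2]; ring) (by simp [*]) (by simp only [map_mul, hσ2]; ring)
    (by simp [*]) (by simp only [map_mul, map_add, map_sub, hσ2, hc]; ring)
  refine ⟨_, _, (k hx hy h1).1, (k hz hw h2).1, by
    rw [(k hx hy h1).2, (k hz hw h2).2]; linear_combination -h3, h4.imp (fun h => ?_) fun h => ?_⟩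
  · have := k hx hy (a := σ a) (by rw [hσ2, mul_comm, h1])
    exact ⟨_, k2 hx hy h, this.1, by rw [this.2, (k hx hy h1).2, hσ2, add_comm a]⟩
  · have := k hz hw (a := σ b) (by rw [hσ2, mul_comm, h2])
    exact ⟨_, k2 hz hw h, this.1, by rw [this.2, (k hz hw h2).2, hσ2, add_comm b]⟩

variable [DecidableEq ι] [Fintype ι] [FiniteDimensional F V] {b : Basis ι F V}
  {o i j k l m z : ι} {g : V ≃ₗ[F] V}

namespace IsON

theorem exists_dbl (h : IsON B b) (hM : ∀ e, StabD (lines b) e → e ∈ sisom B → e ∈ M)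
    (hij : i ≠ j) (hkl : k ≠ l) (hik : i ≠ k) (hil : i ≠ l) (hjk : j ≠ k) (hjl : j ≠ l) {s t : F}
    (hs : σ s * s = 1) (ht : σ t * t = 1) : ∃ r ∈ M, r ∈ isom B ∧ (∀ x, r x =
      x + (σ s * b.repr x j - b.repr x i) • (b i - s • b j) +
        (σ t * b.repr x l - b.repr x k) • (b k - t • b l)) ∧ ∀ x, B x (r x) = B x x -
      σ (σ s * b.repr x j - b.repr x i) * (σ s * b.repr x j - b.repr x i) -
      σ (σ t * b.repr x l - b.repr x k) * (σ t * b.repr x l - b.repr x k) := by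
  obtain ⟨r, r1, r2, r3, r4⟩ := h.exists_swap hij hs
  obtain ⟨u, u1, u2, u3, u4⟩ := h.exists_swap hkl ht
  have e : ∀ x, (u * r) x = x + (σ s * b.repr x j - b.repr x i) • (b i - s • b j) +
      (σ t * b.repr x l - b.repr x k) • (b k - t • b l) := fun x => by
    rw [LinearEquiv.mul_apply, u4, r4]; simp [hik, hil, hjk, hjl]
  refine ⟨u * r, hM _ (mul_mem u1 r1) (mem_sisom.2 ⟨mul_mem u2 r2, ?_⟩), mul_mem u2 r2, e,
    fun x => ?_⟩
  · rw [map_mul, ← Units.val_inj, Units.val_mul, u3, r3]; simp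
  · rw [e]; simp [h.right, h.herm.invol]; ring

variable (h : IsON B b) (h6 : 6 ≤ Fintype.card ι)
  (hM : ∀ e, StabD (lines b) e → e ∈ sisom B → e ∈ M)
  (hB : ∀ o, ∀ g ∈ M ⊓ fixL (b o), g ∈ stabG (lines b))
include h h6 hM hB

theorem mono_A0 (hg : g ∈ M) (h0 : ∀ l, l ≠ k → b.repr (g (b i)) l = 0) : g ∈ stabG (lines b) := by
  have p1 := eq_smul_of_repr h0
  have p2 : b.repr (g (b i)) k ≠ 0 := fun e => b.ne_zero i (by simpa [e] using p1)
  by_cases hk : k = i
  · exact hB i g ⟨hg, _, p2, hk ▸ p1⟩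
  obtain ⟨o, ho⟩ := exists_list [k, i] (by simp; omega)
  simp only [List.mem_cons, List.not_mem_nil, or_false, not_or] at ho
  obtain ⟨r, hr, hr', -, r1⟩ := h.exists_swap_mem hM hk (t := 1) (by simp) (Ne.symm ho.1)
    (Ne.symm ho.2)
  exact (mul_mem_cancel_left hr').1 (hB i (r * g) ⟨M.mul_mem hr hg, _, p2, by
    rw [LinearEquiv.mul_apply, p1, map_smul, r1]; simp [Ne.symm hk, ho.1]⟩)

variable [Finite F] (h2 : (2 : F) ≠ 0)
include h2

omit h6 in
theorem mono_C1a (hg : g ∈ M) (hlm : l ≠ m) (hl : b.repr (g (b i)) l = 0)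
    (hm : b.repr (g (b i)) m = 0) (hj : b.repr (g (b j)) l ≠ 0) (r : ι) (p1 : r ≠ l) (p2 : r ≠ m) :
    b.repr (g (b j)) r = 0 := by
  by_contra h0
  obtain ⟨a, ha, h1, h3, h4⟩ := exists_norm_one_ord h.herm.ne_id h.herm.invol h2
  refine three_roots_u ha h1 h3 h4 (A := b.repr (g (b j)) l * b.repr (g⁻¹ (b l)) j)
    (C := b.repr (g (b j)) m * b.repr (g⁻¹ (b m)) j) fun t ht ht1 => by_contra fun e => ?_
  obtain ⟨d, hd, -, d1⟩ := h.exists_diag hM hlm ht
  have q1 := congrArg g (diag_of_mem (j := j) (mono_conj hB hg hd (i := i) (by simp [d1, hl, hm]))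
    (by simpa [d1, mul_assoc] using e))
  simp only [LinearEquiv.mul_apply, LinearEquiv.coe_inv, LinearEquiv.apply_symm_apply, map_smul] at q1
  generalize b.repr (g.symm _) j = c at q1
  have q2 := congrArg (fun v => b.repr v r) q1
  have q3 := congrArg (fun v => b.repr v l) q1
  simp [d1, p1, p2, hlm] at q2 q3
  grind

theorem mono_C1 (hg : g ∈ M) (hn : g ∉ stabG (lines b)) (hlm : l ≠ m)
    (hl : b.repr (g (b i)) l = 0) : b.repr (g (b i)) m ≠ 0 := fun hm => by
  have ex : ∀ l, ∃ j, b.repr (g (b j)) l ≠ 0 := fun l => exists_repr_ne (b := b)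
    (φ := b.coord l ∘ₗ g.toLinearMap) fun e => by simpa using LinearMap.congr_fun e (g.symm (b l))
  obtain ⟨j, hj⟩ := ex l
  have p1 := h.mono_C1a hM hB h2 hg hlm hl hm hj
  obtain ⟨r, hr⟩ := exists_list [l, m] (by simp; omega)
  obtain ⟨s, hs⟩ := exists_list [l, m, r] (by simp; omega)
  obtain ⟨t, ht⟩ := exists_list [l, m, r, s] (by simp; omega)
  simp only [List.mem_cons, List.not_mem_nil, or_false, not_or] at hr hs ht
  obtain ⟨k, hk⟩ := ex r
  refine hn (h.mono_A0 h6 hM hB hg (i := k) (k := r) fun x hx => ?_)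
  by_cases e : x = s
  · exact h.mono_C1a hM hB h2 hg (Ne.symm ht.2.2.1) (p1 r hr.1 hr.2) (p1 t ht.1 ht.2.1) hk x hx
      (e ▸ Ne.symm ht.2.2.2)
  · exact h.mono_C1a hM hB h2 hg (Ne.symm hs.2.2) (p1 r hr.1 hr.2) (p1 s hs.1 hs.2.1) hk x hx e

theorem mono_zero (hg : g ∈ M) (hn : g ∉ stabG (lines b)) (i z : ι) :
    b.repr (g (b i)) z ≠ 0 := fun hz => by
  have hh := h.herm
  have hn' : g⁻¹ ∉ stabG (lines b) := by simpa using hn
  by_cases hl : ∀ l : F, σ l * l = 1 → l ^ Fintype.card ι = 1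
  · obtain ⟨r, s, hrs, hr, hs, e⟩ := exists_norm_eq_norm hh.ne_id hh.invol hl z
      (f := fun r => b.repr (g (b i)) r) fun r hr => h.mono_C1 h6 hM hB h2 hg hn hr.symm hz
    have h3 := h.mono_C1 h6 hM hB h2 hg hn hs.symm hz
    have h4 := hh.conj_ne_zero h3
    obtain ⟨y, y1, -, -, y2⟩ := h.exists_swap_mem hM hrs
      (t := σ (b.repr (g (b i)) r / b.repr (g (b i)) s)) (by
        rw [hh.invol, map_div₀]; field_simp; linear_combination e) hr hs
    rw [hh.invol] at y2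
    generalize ht : b.repr (g (b i)) r / b.repr (g (b i)) s = t at y2
    obtain ⟨j, j', q1, q2⟩ := mono_rank_two h6 (mono_conj hB hg y1 (i := i) (by
        simp [y2, hz, ← ht, h3])) (φ := (-2 : F) • b.coord z ∘ₗ g.toLinearMap)
      (ψ := (t • b.coord s - b.coord r) ∘ₗ g.toLinearMap) (X := g⁻¹ (b z))
      (Y := g⁻¹ (b r - σ t • b s)) (fun v => by
        rw [LinearEquiv.mul_apply, LinearEquiv.mul_apply, y2]; simp [-map_sub, sub_eq_add_neg]; abel)
      (v := g.symm (b z)) (w := g.symm (b r)) (by simp [hr, hrs, h2])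
    exact h.mono_C1 h6 hM hB h2 (M.inv_mem hg) hn' q1 (q2 j (.inl rfl)).1 (q2 j' (.inr rfl)).1
  push Not at hl
  obtain ⟨l, hl, hl1⟩ := hl
  have hl0 : l ≠ 0 := by rintro rfl; simp at hl
  let s : V ≃ₗ[F] V := LinearEquiv.smulOfNeZero F V l hl0
  have s1 : s ∈ stabG (lines b) := StabD.of_fix fun k v hv => Submodule.smul_mem _ _ hv
  obtain ⟨r, ⟨-, c, hc⟩, r1, r2, -, -⟩ := h.fix_det hM z s1 fun x y => by
    change B (l • x) (l • y) = _
    rw [form_smul_left, form_smul_right, ← mul_assoc, hl, one_mul]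
  have hc0 : c ≠ 0 := by
    rintro rfl
    rw [hc, map_inv, Units.val_inv_eq_inv_val, det_of_scalar (g := s) (a := l) fun _ => rfl,
      finrank_eq_card_basis b] at r1
    have := congrArg (fun v => b.repr v z) r1
    simp [eq_comm] at this
    exact hl1 this
  have e : ∀ v, (g⁻¹ * (s * r) * g) v = l • (v + (c * b.repr (g v) z) • g⁻¹ (b z)) := fun v => by
    simp [s, hc, h.left]
  have h3 : g⁻¹ * (s * r) * g ∈ stabG (lines b) :=
    hB i _ ⟨M.mul_mem (M.mul_mem (M.inv_mem hg) r2) hg, l, hl0, by simp [e, hz]⟩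
  obtain ⟨j, hj⟩ := exists_repr_ne (b := b) (φ := b.coord z ∘ₗ g.toLinearMap)
    fun e => by simpa using LinearMap.congr_fun e (g.symm (b z))
  obtain ⟨k, hk⟩ := col_of_mem h3 j
  have key : ∀ r, r ∉ [j, k] → b.repr (g⁻¹ (b z)) r = 0 := fun r hr => by
    simp only [List.mem_cons, List.not_mem_nil, or_false, not_or] at hr
    have := hk r hr.2
    rw [e] at this
    simpa [hr.1, hl0, hc0, show b.repr (g (b j)) z ≠ 0 from hj] using this
  obtain ⟨r, hr⟩ := exists_list [j, k] (by simp; omega)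
  obtain ⟨r', hr'⟩ := exists_list [r, j, k] (by simp; omega)
  rw [List.mem_cons, not_or] at hr'
  exact h.mono_C1 h6 hM hB h2 (M.inv_mem hg) hn' hr'.1 (key r' hr'.2) (key r hr)

theorem mono_odd (hle : ∀ e ∈ M, e ∈ sisom B) (hg : g ∈ M) : g ∈ stabG (lines b) := by
  by_contra hn
  have hh := h.herm
  have hz := h.mono_zero h6 hM hB h2 hg hn
  obtain ⟨o, -⟩ := exists_list (ι := ι) [] (by simp; omega)
  have key : ∀ i j k l, i ≠ j → k ≠ l → i ≠ k → i ≠ l → j ≠ k → j ≠ l → ∀ s s' t : F,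
      σ s * s = 1 → σ s' * s' = 1 → σ t * t = 1 → s' ≠ s →
      σ (σ s * b.repr (g (b o)) j - b.repr (g (b o)) i) *
        (σ s * b.repr (g (b o)) j - b.repr (g (b o)) i) +
      σ (σ t * b.repr (g (b o)) l - b.repr (g (b o)) k) *
        (σ t * b.repr (g (b o)) l - b.repr (g (b o)) k) = 1 →
      σ (σ s' * b.repr (g (b o)) j - b.repr (g (b o)) i) *
        (σ s' * b.repr (g (b o)) j - b.repr (g (b o)) i) ≠
      σ (σ s * b.repr (g (b o)) j - b.repr (g (b o)) i) *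
        (σ s * b.repr (g (b o)) j - b.repr (g (b o)) i) := by
    intro i j k l hij hkl hik hil hjk hjl s s' t hs hs' ht hss e1 e2
    obtain ⟨r, r1, -, r2, r3⟩ := h.exists_dbl hM hij hkl hik hil hjk hjl hs ht
    obtain ⟨r', r1', -, r2', r3'⟩ := h.exists_dbl hM hij hkl hik hil hjk hjl hs' ht
    have k1 : ∀ r ∈ M, B (g (b o)) (r (g (b o))) = 0 → g⁻¹ * r * g ∈ stabG (lines b) :=
      fun r hr h0 => by_contra fun h1 => h.mono_zero h6 hM hB h2
        (M.mul_mem (M.mul_mem (M.inv_mem hg) hr) hg) h1 o o (by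
          rw [← h.left, ← (hle g hg).1]; simpa using h0)
    have n1 : B (g (b o)) (g (b o)) = 1 := by rw [(hle g hg).1, h.self]
    obtain ⟨m, _, -, q2⟩ := mono_rank_two h6 (mul_mem
      (k1 r r1 (by rw [r3, n1]; linear_combination -e1))
      (k1 r' r1' (by rw [r3', n1, e2]; linear_combination -e1)))
      (φ := (s' * σ s - 1) • b.coord i ∘ₗ g.toLinearMap)
      (ψ := (s * σ s' - 1) • b.coord j ∘ₗ g.toLinearMap) (X := g⁻¹ (b i)) (Y := g⁻¹ (b j))
      (fun v => g.injective (by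
        simp only [LinearEquiv.mul_apply, LinearEquiv.coe_inv, LinearEquiv.apply_symm_apply, r2,
          r2', map_add, map_smul]
        simp [hij, hij.symm, hkl, hkl.symm, hik, hik.symm, hil, hil.symm, hjk, hjk.symm, hjl,
          hjl.symm]
        match_scalars <;> grind))
      (v := g.symm (b i)) (w := g.symm (b j)) (by
        simp only [LinearMap.comp_apply, LinearMap.smul_apply, LinearEquiv.coe_coe,
          LinearEquiv.apply_symm_apply]
        simp only [Basis.coord_apply, Basis.repr_self, Finsupp.single_eq_same, smul_eq_mul, mul_one,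
          Finsupp.single_eq_of_ne hij, mul_zero, zero_mul]
        exact mul_ne_zero (fun e => hss (by linear_combination s * e - s' * hs))
          fun e => hss (by linear_combination -s' * e + s * hs'))
    exact h.mono_zero h6 hM hB h2 (M.inv_mem hg) (by simpa using hn) _ _ (q2 m (.inl rfl)).1
  obtain ⟨j, hj⟩ := exists_list [o] (by simp; omega)
  obtain ⟨k, hk⟩ := exists_list [o, j] (by simp; omega)
  obtain ⟨l, hl⟩ := exists_list [o, j, k] (by simp; omega)
  simp only [List.mem_cons, List.not_mem_nil, or_false, not_or] at hj hk hl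
  obtain ⟨s, t, hs, ht, e, ⟨s', p1, p2, p3⟩ | ⟨t', p1, p2, p3⟩⟩ := exists_two_circles hh.ne_id
    hh.invol (hz o o) (hz o j) (hz o k) (hz o l) (map_one σ)
  · exact key o j k l (Ne.symm hj) (Ne.symm hl.2.2) (Ne.symm hk.1) (Ne.symm hl.1) (Ne.symm hk.2)
      (Ne.symm hl.2.1) s s' t hs p2 ht p1 e p3
  · exact key k l o j (Ne.symm hl.2.2) (Ne.symm hj) hk.1 hk.2 hl.1 hl.2.1 t t' s ht p2 hs p1
      (by rw [add_comm, e]) p3

end IsON

end H62
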