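import Cfsg.Agent.H62.UHom3

set_option autoImplicit false

/-! The monomial group is maximal in `SU(V)`: characteristic two. -/

namespace H62

open Module H59

variable {F V : Type*} [Field F] [AddCommGroup V] [Module F V] {σ : F →+* F}
  {M : Subgroup (V ≃ₗ[F] V)} {B : V →ₛₗ[σ] V →ₗ[F] F} {ι : Type*}

theorem HasU.conj_isom {a : V} {c : F} {g : V ≃ₗ[F] V} (hg : g ∈ M) (hB : g ∈ isom B)
    (h : HasU M B a c) : HasU M B (g a) c := by
  obtain ⟨e, he, hx⟩ := h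
  refine ⟨g * e * g⁻¹, M.mul_mem (M.mul_mem hg he) (M.inv_mem hg), fun x => ?_⟩
  obtain ⟨x, rfl⟩ := g.surjective x
  simp [hx, hB a x]

theorem HasU.move (h : IsHerm B) (h2 : (2 : F) = 0) {a c : V} (ha : B a a = 0)
    (h1 : HasU M B a 1) (h3 : HasU M B c 1) : HasU M B (c + B a c • a) 1 := by
  obtain ⟨e, he, hx⟩ := h1
  have := h3.conj_isom he (isom_of_utv h ha (by rw [map_one]; linear_combination h2) hx)
  rwa [hx, one_mul] at this

theorem four_supp {x y : ι → F} {u v : F} (hu : u ≠ 1) (hv : v ≠ 1) (huv : u ≠ v)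
    (h : ∀ t, t = 1 ∨ t = u ∨ t = v → ∀ r s m, r ≠ s → m ≠ r → m ≠ s → x r + t * y r ≠ 0 →
      x s + t * y s ≠ 0 → x m + t * y m = 0) {a b c e : ι} (h1 : a ≠ b) (h2 : a ≠ c) (h3 : a ≠ e)
    (h4 : b ≠ c) (h5 : b ≠ e) (h6 : c ≠ e) (ha : x a ≠ 0 ∨ y a ≠ 0) (hb : x b ≠ 0 ∨ y b ≠ 0)
    (hc : x c ≠ 0 ∨ y c ≠ 0) (he : x e ≠ 0 ∨ y e ≠ 0) : False := by
  have k : ∀ r, x r ≠ 0 ∨ y r ≠ 0 → ∀ s t : F, s ≠ t → x r + s * y r = 0 → x r + t * y r ≠ 0 := by
    intro r hr s t hst e1 e2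
    have : y r = 0 := mul_left_cancel₀ (sub_ne_zero.2 hst) (by linear_combination e1 - e2)
    simp [this] at e1 hr
    exact hr e1
  have k2 : ∀ r, x r ≠ 0 ∨ y r ≠ 0 → (x r + 1 * y r = 0 → x r + u * y r ≠ 0) ∧
      (x r + 1 * y r = 0 → x r + v * y r ≠ 0) ∧ (x r + u * y r = 0 → x r + v * y r ≠ 0) :=
    fun r hr => ⟨k r hr _ _ hu.symm, k r hr _ _ hv.symm, k r hr _ _ huv⟩
  have k3 : ∀ t, t = 1 ∨ t = u ∨ t = v →
      (x a + t * y a ≠ 0 → x b + t * y b ≠ 0 → x c + t * y c = 0) ∧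
      (x a + t * y a ≠ 0 → x b + t * y b ≠ 0 → x e + t * y e = 0) ∧
      (x a + t * y a ≠ 0 → x c + t * y c ≠ 0 → x e + t * y e = 0) ∧
      (x b + t * y b ≠ 0 → x c + t * y c ≠ 0 → x e + t * y e = 0) := fun t ht =>
    ⟨h t ht a b c h1 h2.symm h4.symm, h t ht a b e h1 h3.symm h5.symm,
      h t ht a c e h2 h3.symm h6.symm, h t ht b c e h4 h5.symm h6.symm⟩
  have a1 := k2 a ha
  have a2 := k2 b hb
  have a3 := k2 c hc
  have a4 := k2 e he
  have b1 := k3 1 (by simp)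
  have b2 := k3 u (by simp)
  have b3 := k3 v (by simp)
  simp only [Ne] at a1 a2 a3 a4 b1 b2 b3
  generalize (x a + 1 * y a = 0) = p1, (x a + u * y a = 0) = p2, (x a + v * y a = 0) = p3,
    (x b + 1 * y b = 0) = q1, (x b + u * y b = 0) = q2, (x b + v * y b = 0) = q3,
    (x c + 1 * y c = 0) = r1, (x c + u * y c = 0) = r2, (x c + v * y c = 0) = r3,
    (x e + 1 * y e = 0) = s1, (x e + u * y e = 0) = s2, (x e + v * y e = 0) = s3 at a1 a2 a3 a4 b1 b2 b3
  clear * - a1 a2 a3 a4 b1 b2 b3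
  by_cases p1 <;> by_cases p2 <;> by_cases p3 <;> by_cases q1 <;> by_cases q2 <;> by_cases q3 <;>
    simp_all

variable [DecidableEq ι] [Fintype ι] [FiniteDimensional F V] {b : Basis ι F V}
  {i j k l m r s z : ι} {g : V ≃ₗ[F] V} {w : V}

namespace IsON

variable (h : IsON B b) (h6 : 6 ≤ Fintype.card ι)
  (hM : ∀ e, StabD (lines b) e → e ∈ sisom B → e ∈ M)
  (hB : ∀ o, ∀ g ∈ M ⊓ fixL (b o), g ∈ stabG (lines b)) (h2 : (2 : F) = 0)
include h

omit [FiniteDimensional F V] [Fintype ι] in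
include hB in
theorem tv_two (hw : HasU M B w 1) (hz : b.repr w z = 0) (hrs : r ≠ s) (hr : b.repr w r ≠ 0)
    (hs : b.repr w s ≠ 0) : σ (b.repr w r) * b.repr w r = -1 ∧
      ∀ m, m ≠ r → m ≠ s → b.repr w m = 0 := by
  obtain ⟨t, ht, hx⟩ := hw
  obtain ⟨k, hk⟩ := col_of_mem (hB z t ⟨ht, 1, one_ne_zero, by simp [hx, h.right, hz]⟩) r
  obtain rfl : s = k := by_contra fun e => by simpa [hx, h.right, hr, hs, hrs.symm] using hk s e
  refine ⟨?_, fun m h1 h3 => by simpa [hx, h.right, hr, h1] using hk m h3⟩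
  have := hk r hrs
  simp [hx, h.right] at this
  linear_combination this

include hM h2

theorem tv_pair (hkl : k ≠ l) {t : F} (ht : σ t * t = 1) : HasU M B (b k + t • b l) 1 := by
  obtain ⟨r, r1, r2, r3, r4⟩ := h.exists_swap hkl ht
  refine ⟨r, hM r r1 (mem_sisom.2 ⟨r2, Units.ext (by rw [r3, Units.val_one]; linear_combination -h2)⟩),
    fun x => ?_⟩
  rw [r4]; simp [h.left]
  match_scalars <;> grind

include h6 hB

theorem exists_tv_full [Finite F] (hle : ∀ e ∈ M, e ∈ sisom B) (hg : g ∈ M)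
    (hn : g ∉ stabG (lines b)) : ∃ w, B w w = 0 ∧ HasU M B w 1 ∧ ∀ r, b.repr w r ≠ 0 := by
  by_contra! hc
  have hh := h.herm
  have hgB := (hle g hg).1
  obtain ⟨u, hu, hu1⟩ := exists_norm_eq_not_fixed hh.ne_id hh.invol (map_one σ) one_ne_zero
  have key := fun (k l : ι) (hkl : k ≠ l) => @four_supp F _ ι (fun r => b.repr (g (b k)) r)
    (fun r => b.repr (g (b l)) r) u (σ u) (by rintro rfl; simp at hu1)
    (fun e => hu1 (by rw [← hh.invol u, e, map_one, map_one])) hu1.symm (by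
      intro t ht r s m hrs h3 h4 hr hs
      have ht' : σ t * t = 1 := by
        rcases ht with rfl | rfl | rfl
        · simp
        · exact hu
        · rw [hh.invol, mul_comm, hu]
      have h5 := (h.tv_pair hM h2 hkl ht').conj_isom hg hgB
      obtain ⟨z, hz⟩ := hc _ (by
        rw [hgB]; simp [h.on, hkl, hkl.symm]; linear_combination ht' + h2) h5
      simpa using (h.tv_two hB h5 hz hrs (by simpa using hr) (by simpa using hs)).2 m h3 h4)
  have h0 : ∀ i k, ∃ l, l ≠ k ∧ b.repr (g (b i)) l ≠ 0 := fun i k => by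
    by_contra! h0; exact hn (h.mono_A0 h6 hM hB hg h0)
  have ex : ∀ l, ∃ j, b.repr (g (b j)) l ≠ 0 := fun l => exists_repr_ne (b := b)
    (φ := b.coord l ∘ₗ g.toLinearMap) fun e => by simpa using LinearMap.congr_fun e (g.symm (b l))
  have h3 : ∀ k r s m, r ≠ s → m ≠ r → m ≠ s → b.repr (g (b k)) r ≠ 0 → b.repr (g (b k)) s ≠ 0 →
      b.repr (g (b k)) m = 0 := fun k r s m hrs h3 h4 hr hs => by_contra fun hm => by
    obtain ⟨e, he⟩ := exists_list [r, s, m] (by simp; omega)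
    simp only [List.mem_cons, List.not_mem_nil, or_false, not_or] at he
    obtain ⟨l, hl⟩ := ex e
    obtain ⟨l', hl', h5⟩ : ∃ l', k ≠ l' ∧ (b.repr (g (b k)) e ≠ 0 ∨ b.repr (g (b l')) e ≠ 0) := by
      by_cases e1 : k = l
      · obtain ⟨l', hl'⟩ := exists_list [k] (by simp; omega)
        exact ⟨l', fun e => hl' (by simp [e]), Or.inl (e1 ▸ hl)⟩
      · exact ⟨l, e1, Or.inr hl⟩
    exact key k l' hl' hrs h3.symm (Ne.symm he.1) h4.symm (Ne.symm he.2.1) (Ne.symm he.2.2)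
      (Or.inl hr) (Or.inl hs) (Or.inl hm) h5
  obtain ⟨k, -⟩ := exists_list (ι := ι) [] (by simp; omega)
  obtain ⟨r, -, hr⟩ := h0 k k
  obtain ⟨s, hsr, hs⟩ := h0 k r
  obtain ⟨m, hm⟩ := exists_list [r, s] (by simp; omega)
  simp only [List.mem_cons, List.not_mem_nil, or_false, not_or] at hm
  obtain ⟨l, hl⟩ := ex m
  have hkl : k ≠ l := by rintro rfl; exact hl (h3 k r s m hsr.symm hm.1 hm.2 hr hs)
  have e : g (b k) = b.repr (g (b k)) r • b r + b.repr (g (b k)) s • b s := b.ext_elem fun c => by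
    by_cases c1 : c = r
    · simp [c1, hsr.symm]
    by_cases c2 : c = s
    · simp [c2, hsr]
    · simp [c1, c2, h3 k r s c hsr.symm c1 c2 hr hs]
  have h4 := hgB (b k) (b l)
  rw [e, h.on, if_neg hkl] at h4
  simp only [map_add, LinearMap.add_apply, form_smul_left, h.left] at h4
  obtain ⟨c, hcm, hc'⟩ := h0 l m
  by_cases c1 : c = r
  · subst c1
    simp [h3 l c m s hcm hsr (Ne.symm hm.2) hc' hl, hr, hc'] at h4
  by_cases c2 : c = s
  · subst c2
    simp [h3 l c m r hcm hsr.symm (Ne.symm hm.1) hc' hl, hs, hc'] at h4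
  exact key k l hkl hsr.symm (Ne.symm hm.1) (Ne.symm c1) (Ne.symm hm.2) (Ne.symm c2) hcm.symm
    (Or.inl hr) (Or.inl hs) (Or.inr hl) (Or.inr hc')

omit h6 hB in
theorem exists_tv_dbl [Finite F] (hw0 : B w w = 0) (hw : HasU M B w 1) (hf : ∀ r, b.repr w r ≠ 0)
    (hij : i ≠ j) (hkl : k ≠ l) (hik : i ≠ k) (hil : i ≠ l) (hjk : j ≠ k) (hjl : j ≠ l) {β : F}
    (hβ : σ β = β) : ∃ s t : F, ∃ w', σ s * s = 1 ∧ σ t * t = 1 ∧ B w' w' = 0 ∧ HasU M B w' 1 ∧
      w' ≠ 0 ∧ w' = (1 + β) • w + (σ s * b.repr w j - b.repr w i) • (b i - s • b j) +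
        (σ t * b.repr w l - b.repr w k) • (b k - t • b l) := by
  have hh := h.herm
  obtain ⟨s, t, hs, ht, e, -⟩ := exists_two_circles hh.ne_id hh.invol (hf i) (hf j) (hf k) (hf l)
    (c := -β) (by simp [hβ])
  obtain ⟨r, r1, r2, r3, r4⟩ := h.exists_dbl hM hij hkl hik hil hjk hjl hs ht
  have e1 : B w (r w) = β := by rw [r4, hw0]; linear_combination -e
  have e2 : B (r w) w = β := by rw [← hh.symm, e1, hβ]
  have h3 := hw.move hh h2 hw0 (hw.conj_isom r1 r2)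
  rw [e1] at h3
  refine ⟨s, t, _, hs, ht, ?_, h3, fun h0 => ?_, by rw [r3]; module⟩
  · simp [r2 w w, hw0, e1, e2, hβ]; linear_combination β * β * h2
  · have h4 : r w = (-β) • w := by rw [neg_smul, eq_neg_iff_add_eq_zero, h0]
    rw [h4, form_smul_right, hw0, mul_zero] at e1
    rw [← e1] at h4
    exact hf i (by rw [show w = 0 by simpa using h4]; simp)

theorem tv_dbl [Finite F] (hw0 : B w w = 0) (hw : HasU M B w 1) (hf : ∀ r, b.repr w r ≠ 0)
    (hij : i ≠ j) (hkl : k ≠ l) (hik : i ≠ k) (hil : i ≠ l) (hjk : j ≠ k) (hjl : j ≠ l) :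
    (σ (b.repr w k) * b.repr w k = σ (b.repr w l) * b.repr w l ∧ ∃ s, σ s * s = 1 ∧
      σ (σ s * b.repr w j - b.repr w i) * (σ s * b.repr w j - b.repr w i) = 1) ∨
    (σ (b.repr w i) * b.repr w i = σ (b.repr w j) * b.repr w j ∧ ∃ s, σ s * s = 1 ∧
      σ (σ s * b.repr w l - b.repr w k) * (σ s * b.repr w l - b.repr w k) = 1) := by
  obtain ⟨s, t, w', hs, ht, -, h3, h4, h5⟩ := h.exists_tv_dbl hM h2 hw0 hw hf hij hkl hik hil hjk
    hjl (map_one σ)
  rw [one_add_one_eq_two, h2, zero_smul, zero_add] at h5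
  obtain ⟨z, hz⟩ := exists_list [i, j, k, l] (by simp; omega)
  simp only [List.mem_cons, List.not_mem_nil, or_false, not_or] at hz
  have hz' : b.repr w' z = 0 := by simp [h5, hz]
  have hs0 : s ≠ 0 := by rintro rfl; simp at hs
  have ht0 : t ≠ 0 := by rintro rfl; simp at ht
  have n : ∀ {x y s : F}, σ s * s = 1 → σ s * y - x = 0 → σ x * x = σ y * y := fun {x y s} e1 e2 => by
    rw [← sub_eq_zero.1 e2, map_mul, h.herm.invol]; linear_combination σ y * y * e1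
  generalize hA : σ s * b.repr w j - b.repr w i = A at *
  generalize hC : σ t * b.repr w l - b.repr w k = C at *
  by_cases hA0 : A = 0
  · have hC0 : C ≠ 0 := by rintro rfl; simp [hA0] at h5; exact h4 h5
    have := (h.tv_two hB h3 hz' hkl (by simp [h5, hA0, hC0, hkl])
      (by simp [h5, hA0, hC0, hkl.symm, ht0])).1
    simp [h5, hA0, hkl] at this
    exact Or.inr ⟨n hs (hA.trans hA0), t, ht, by rw [hC, this]; linear_combination -h2⟩
  · have := h.tv_two hB h3 hz' hij (by simp [h5, hA0, hij, hik, hil])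
      (by simp [h5, hA0, hij.symm, hjk, hjl, hs0])
    have h7 := this.2 k hik.symm hjk.symm
    replace this := this.1
    simp [h5, hij, hik, hil, hik.symm, hjk.symm, hkl] at this h7
    exact Or.inl ⟨n ht (hC.trans h7), s, hs, by rw [hA, this]; linear_combination -h2⟩

theorem tv_false [Finite F] (hw0 : B w w = 0) (hw : HasU M B w 1) (hf : ∀ r, b.repr w r ≠ 0)
    {τ : F} (hτ : σ τ = τ) (hrs : r ≠ s) (hr : σ (b.repr w r) * b.repr w r = τ ^ 2 + τ)
    (hs : σ (b.repr w s) * b.repr w s = τ ^ 2 + τ) : False := by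
  have i2 := h.herm.invol
  have k : ∀ x y a : F, σ x * x = τ ^ 2 + τ → σ y * y = τ ^ 2 + τ → σ a * a = 1 →
      σ (σ a * y - x) * (σ a * y - x) ≠ 1 := fun x y a hx hy ha e => by
    simp only [map_sub, map_mul, i2] at e
    have e1 : σ x * σ a * y + x * a * σ y = 1 := by grind
    have e2 : (σ x * σ a * y + τ ^ 2) * (σ x * σ a * y + τ ^ 2 + 1) = 0 := by grind
    have e3 : σ (σ x * σ a * y) = x * a * σ y := by simp [i2]
    generalize σ x * σ a * y = ζ at *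
    rcases mul_eq_zero.1 e2 with e4 | e4 <;>
    · have := congrArg σ e4
      simp only [map_add, map_pow, hτ, map_one, map_zero] at this
      grind
  have k2 : ∀ c e, c ≠ e → c ≠ r → c ≠ s → e ≠ r → e ≠ s → σ (b.repr w c) * b.repr w c = τ ^ 2 + τ →
      σ (b.repr w e) * b.repr w e ≠ τ ^ 2 + τ := fun c e p1 p2 p3 p4 p5 hc he => by
    rcases h.tv_dbl h6 hM hB h2 hw0 hw hf hrs p1 p2.symm p4.symm p3.symm p5.symm with
      ⟨-, a, ha, e⟩ | ⟨-, a, ha, e⟩
    · exact k _ _ a hr hs ha e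
    · exact k _ _ a hc he ha e
  have k3 : ∀ c e, c ≠ e → c ≠ r → c ≠ s → e ≠ r → e ≠ s → σ (b.repr w c) * b.repr w c ≠ τ ^ 2 + τ →
      σ (b.repr w e) * b.repr w e = τ ^ 2 + τ := fun c e p1 p2 p3 p4 p5 hc => by
    rcases h.tv_dbl h6 hM hB h2 hw0 hw hf p2.symm p5.symm hrs p4.symm p3 p1 with
      ⟨e, -⟩ | ⟨e, -⟩
    · rw [← e, hs]
    · exact absurd (e ▸ hr) hc
  obtain ⟨c, hc⟩ := exists_list [r, s] (by simp; omega)
  obtain ⟨e, he⟩ := exists_list [r, s, c] (by simp; omega)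
  obtain ⟨f, hf'⟩ := exists_list [r, s, c, e] (by simp; omega)
  simp only [List.mem_cons, List.not_mem_nil, or_false, not_or] at hc he hf'
  by_cases c1 : σ (b.repr w c) * b.repr w c = τ ^ 2 + τ
  · exact k2 c f (Ne.symm hf'.2.2.1) hc.1 hc.2 hf'.1 hf'.2.1 c1
      (k3 e f (Ne.symm hf'.2.2.2) he.1 he.2.1 hf'.1 hf'.2.1
        (k2 c e (Ne.symm he.2.2) hc.1 hc.2 he.1 he.2.1 c1))
  · exact k2 e f (Ne.symm hf'.2.2.2) he.1 he.2.1 hf'.1 hf'.2.1
      (k3 c e (Ne.symm he.2.2) hc.1 hc.2 he.1 he.2.1 c1)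
      (k3 c f (Ne.symm hf'.2.2.1) hc.1 hc.2 hf'.1 hf'.2.1 c1)

theorem tv_false_of_big [Finite F] (hw0 : B w w = 0) (hw : HasU M B w 1)
    (hf : ∀ r, b.repr w r ≠ 0) {τ : F} (hτ : σ τ = τ) (hτ0 : τ ≠ 0) (hτ1 : τ ≠ 1) : False := by
  have i2 := h.herm.invol
  obtain ⟨r, s, hrs, e⟩ : ∃ r s, r ≠ s ∧
      σ (b.repr w r) * b.repr w r = σ (b.repr w s) * b.repr w s := by
    obtain ⟨i, -⟩ := exists_list (ι := ι) [] (by simp; omega)
    obtain ⟨j, hj⟩ := exists_list [i] (by simp; omega)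
    obtain ⟨k, hk⟩ := exists_list [i, j] (by simp; omega)
    obtain ⟨l, hl⟩ := exists_list [i, j, k] (by simp; omega)
    simp only [List.mem_cons, List.not_mem_nil, or_false, not_or] at hj hk hl
    rcases h.tv_dbl h6 hM hB h2 hw0 hw hf (Ne.symm hj) (Ne.symm hl.2.2) (Ne.symm hk.1)
      (Ne.symm hl.1) (Ne.symm hk.2) (Ne.symm hl.2.1) with ⟨e, -⟩ | ⟨e, -⟩
    · exact ⟨_, _, Ne.symm hl.2.2, e⟩
    · exact ⟨_, _, Ne.symm hj, e⟩
  have sq : Function.Injective fun y : F => y ^ 2 := fun y z e => by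
    have : (y - z) ^ 2 = 0 := by simp only at e; grind
    exact sub_eq_zero.1 (pow_eq_zero_iff two_ne_zero |>.1 this)
  have hν : σ (b.repr w r) * b.repr w r ≠ 0 := by simp [hf r]
  obtain ⟨y, hy⟩ := Finite.injective_iff_surjective.1 sq
    ((τ ^ 2 + τ) / (σ (b.repr w r) * b.repr w r))
  simp only at hy
  have hy1 : σ y = y := sq (by
    simp only [← map_pow σ y, hy, map_div₀, map_add, map_pow, map_mul, hτ, i2, mul_comm])
  rw [eq_div_iff hν] at hy
  have hy0 : y ≠ 0 := by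
    rintro rfl
    exact mul_ne_zero hτ0 (sub_ne_zero.2 hτ1) (by grind)
  obtain ⟨i, hi⟩ := exists_list [r, s] (by simp; omega)
  obtain ⟨j, hj⟩ := exists_list [r, s, i] (by simp; omega)
  obtain ⟨k, hk⟩ := exists_list [r, s, i, j] (by simp; omega)
  obtain ⟨l, hl⟩ := exists_list [r, s, i, j, k] (by simp; omega)
  simp only [List.mem_cons, List.not_mem_nil, or_false, not_or] at hi hj hk hl
  obtain ⟨a, t, w', ha, -, h3, h4, -, h5⟩ := h.exists_tv_dbl hM h2 hw0 hw hf (Ne.symm hj.2.2)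
    (Ne.symm hl.2.2.2.2) (Ne.symm hk.2.2.1) (Ne.symm hl.2.2.1) (Ne.symm hk.2.2.2)
    (Ne.symm hl.2.2.2.1) (β := y - 1) (by simp [hy1])
  rw [add_sub_cancel] at h5
  have e1 : b.repr w' r = y * b.repr w r := by
    simp [h5, Ne.symm hi.1, Ne.symm hj.1, Ne.symm hk.1, Ne.symm hl.1]
  have e2 : b.repr w' s = y * b.repr w s := by
    simp [h5, Ne.symm hi.2, Ne.symm hj.2.1, Ne.symm hk.2.1, Ne.symm hl.2.1]
  refine h.tv_false h6 hM hB h2 h3 h4 (fun z hz => ?_) hτ hrs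
    (by rw [e1, map_mul, hy1]; linear_combination hy)
    (by rw [e2, map_mul, hy1]; linear_combination hy - y ^ 2 * e)
  have h7 := (h.tv_two hB h4 hz hrs (by simp [e1, hy0, hf r]) (by simp [e2, hy0, hf s])).2
  have h8 := h7 i hi.1 hi.2
  have h9 := h7 j hj.1 hj.2.1
  simp [h5, hj.2.2, Ne.symm hj.2.2, Ne.symm hk.2.2.1, Ne.symm hk.2.2.2, Ne.symm hl.2.2.1,
    Ne.symm hl.2.2.2.1] at h8 h9
  exact mul_ne_zero (mul_ne_zero hy0 hy0) (hf i) (by grind)

omit h6 in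
theorem tv_false_of_small [Finite F] (h7 : 7 ≤ Fintype.card ι) (hw0 : B w w = 0)
    (hw : HasU M B w 1) (hf : ∀ r, b.repr w r ≠ 0) (hq : ∀ τ : F, σ τ = τ → τ ≠ 0 → τ = 1) :
    False := by
  have hh := h.herm
  have n : ∀ r, σ (b.repr w r) * b.repr w r = 1 := fun r =>
    hq _ (by rw [map_mul, hh.invol, mul_comm]) (by simp [hf r])
  obtain ⟨u, hu, hu1⟩ := exists_norm_eq_not_fixed hh.ne_id hh.invol (map_one σ) one_ne_zero
  have hu2 : u + σ u = 1 := hq _ (by rw [map_add, hh.invol, add_comm]) fun e => hu1 (by grind)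
  have hu3 : u⁻¹ = σ u := (eq_inv_of_mul_eq_one_left hu).symm
  have hu4 : u + 1 ≠ 0 := fun e => hu1 (by rw [show u = 1 by grind, map_one])
  obtain ⟨i, -⟩ := exists_list (ι := ι) [] (by simp; omega)
  obtain ⟨j, hj⟩ := exists_list [i] (by simp; omega)
  obtain ⟨k, hk⟩ := exists_list [i, j] (by simp; omega)
  obtain ⟨l, hl⟩ := exists_list [i, j, k] (by simp; omega)
  obtain ⟨m, hm⟩ := exists_list [i, j, k, l] (by simp; omega)
  obtain ⟨o, ho⟩ := exists_list [i, j, k, l, m] (by simp; omega)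
  obtain ⟨z, hz⟩ := exists_list [i, j, k, l, m, o] (by simp; omega)
  simp only [List.mem_cons, List.not_mem_nil, or_false, not_or] at hj hk hl hm ho hz
  obtain ⟨d, d1, d2, d3⟩ := h.exists_diag hM hj hu
  obtain ⟨e, e1, e2, e3⟩ := h.exists_diag hM hl.2.2 hu
  obtain ⟨f, f1, f2, f3⟩ := h.exists_diag hM ho.2.2.2.2 hu
  have h3 := hw.move hh h2 hw0 (((hw.conj_isom d1 d2).conj_isom e1 e2).conj_isom f1 f2)
  have h4 : B w (f (e (d w))) = 1 := by
    simp only [f3, e3, d3, map_add, map_smul, smul_eq_mul, h.right, hw0, Finsupp.add_apply,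
      Finsupp.smul_apply, Basis.repr_self, hu3]
    simp [hk, hl, hm, ho]
    linear_combination (u - 1) * (n j + n l + n o) + (σ u - 1) * (n i + n k + n m) + 3 * hu2 -
      2 * h2
  rw [h4, one_smul] at h3
  have := (h.tv_two hB h3 (z := z) (r := j) (s := l)
    (by simp [f3, e3, d3, hz]; linear_combination b.repr w z * h2) (Ne.symm hl.2.1) (by
      simp [f3, e3, d3, hj, Ne.symm hk.2, Ne.symm hl.2.1, Ne.symm hm.2.1, Ne.symm ho.2.1]
      exact fun e => mul_ne_zero hu4 (hf j) (by linear_combination e)) (by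
      simp [f3, e3, d3, hl, Ne.symm hm.2.2.2, Ne.symm ho.2.2.2.1]
      exact fun e => mul_ne_zero hu4 (hf l) (by linear_combination e))).2 o ho.2.1 ho.2.2.2.1
  simp [f3, e3, d3, ho] at this
  exact mul_ne_zero hu4 (hf o) (by linear_combination this)

omit h2 hB in
theorem su_mono_maximal [Finite F] (h7 : 7 ≤ Fintype.card ι ∨ ∃ τ : F, σ τ = τ ∧ τ ≠ 0 ∧ τ ≠ 1)
    (hle : ∀ e ∈ M, e ∈ sisom B) (hg : g ∈ M) (hn : ¬ StabD (lines b) g) :
    ∀ e ∈ sisom B, e ∈ M := by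
  by_contra hc
  have hB : ∀ o, ∀ g ∈ M ⊓ fixL (b o), g ∈ stabG (lines b) := fun o g hg =>
    by_contra fun hn => hc (h.mem_of_fix (by omega) hM hle hg hn)
  by_cases h2 : (2 : F) = 0
  swap; · exact hn (h.mono_odd h6 hM hB h2 hle hg)
  obtain ⟨w, w1, w2, w3⟩ := h.exists_tv_full h6 hM hB h2 hle hg hn
  by_cases hq : ∃ τ : F, σ τ = τ ∧ τ ≠ 0 ∧ τ ≠ 1
  · obtain ⟨τ, t1, t2, t3⟩ := hq
    exact h.tv_false_of_big h6 hM hB h2 w1 w2 w3 t1 t2 t3
  · exact h.tv_false_of_small hM hB h2 (h7.resolve_right hq) w1 w2 w3 (by simpa using hq)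

end IsON

end H62
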