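import Cfsg.Agent.H62.URatSmall
import Cfsg.Agent.H62.SubfSp
import Cfsg.Agent.H58.HypFrame

set_option autoImplicit false

/-! Subfield subgroups of `SU(V)` are maximal. -/

namespace H62

open Module H59

variable {F₀ F V₀ V : Type*} [Field F₀] [Field F] [Algebra F₀ F] [AddCommGroup V₀] [Module F₀ V₀]
  [AddCommGroup V] [Module F V] [Module F₀ V] [IsScalarTower F₀ F V] {j : V₀ →ₗ[F₀] V}
  {σ : F →+* F} {M : Subgroup (V ≃ₗ[F] V)} {B : V →ₛₗ[σ] V →ₗ[F] F}
  [FiniteDimensional F₀ V₀] [Finite F₀]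

theorem exists_one_add (h2 : finrank F₀ F = 2) {s : F} (hs : s ∉ ratF F₀ F) (t : F) :
    ∃ a ∈ ratF F₀ F, ∃ b ∈ ratF F₀ F, t = a + s * b := by
  obtain ⟨a, b, h⟩ := exists_rat_decomp (IsBaseChange.linearMap F₀ F) h2 hs t
  exact ⟨_, alg_mem a, _, alg_mem b, h⟩

omit [FiniteDimensional F₀ V₀] in
theorem exists_iso_orth (hσ : ∀ c ∈ ratF F₀ F, σ c = c)
    (rat : ∀ x ∈ LinearMap.range j, ∀ y ∈ LinearMap.range j, B x y ∈ ratF F₀ F)
    (W : Submodule F₀ V₀) (hW : 3 ≤ finrank F₀ W) : ∃ x ∈ W, x ≠ 0 ∧ B (j x) (j x) = 0 := by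
  choose f hf using fun x y => rat _ ⟨x, rfl⟩ _ ⟨y, rfl⟩
  have i := (algebraMap F₀ F).injective
  let B₀ : LinearMap.BilinForm F₀ V₀ := LinearMap.mk₂ F₀ f (fun _ _ _ => i (by simp [hf]))
    (fun c x _ => i (by
      rw [hf, map_smul, ← algebraMap_smul F c (j x), form_smul_left, hσ _ (alg_mem c)]; simp [hf]))
    (fun _ _ _ => i (by simp [hf])) (fun _ _ _ => i (by simp [hf, Algebra.smul_def]))
  obtain ⟨v, hv, h0⟩ := H58.exists_singular_of_three_le (B₀.toQuadraticMap.comp W.subtype) hW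
  exact ⟨v, v.2, by simpa using hv, by rw [← hf]; simpa [B₀] using h0⟩

omit [FiniteDimensional F₀ V₀] in
theorem exists_iso_herm (h : IsBaseChange F j) (H : IsHerm B)
    (sig : ∀ c ∈ ratF F₀ F, σ c ∈ ratF F₀ F)
    (rat : ∀ x ∈ LinearMap.range j, ∀ y ∈ LinearMap.range j, B x y ∈ ratF F₀ F)
    {ω : F} (hω : ω ∈ ratF F₀ F) (hω' : σ ω ≠ ω)
    (W : Submodule F₀ V₀) (hW : 2 ≤ finrank F₀ W) : ∃ x ∈ W, x ≠ 0 ∧ B (j x) (j x) = 0 := by
  choose f hf using fun x y => rat _ ⟨x, rfl⟩ _ ⟨y, rfl⟩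
  choose s hs using fun c => sig _ (alg_mem c)
  have i := (algebraMap F₀ F).injective
  let σ₀ : F₀ →+* F₀ :=
    { toFun := s, map_one' := i (by simp [hs]), map_mul' := fun _ _ => i (by simp [hs])
      map_zero' := i (by simp [hs]), map_add' := fun _ _ => i (by simp [hs]) }
  let B₀ : V₀ →ₛₗ[σ₀] V₀ →ₗ[F₀] F₀ := LinearMap.mk₂'ₛₗ σ₀ (RingHom.id F₀) f
    (fun _ _ _ => i (by simp [hf]))
    (fun c x _ => i (by
      rw [hf, map_smul, ← algebraMap_smul F c (j x), form_smul_left]; simp [hf, σ₀, hs]))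
    (fun _ _ _ => i (by simp [hf])) (fun _ _ _ => i (by simp [hf, Algebra.smul_def]))
  obtain ⟨ω, rfl⟩ := hω
  have H₀ : IsHerm B₀ := ⟨fun e => hω' (by rw [← hs]; exact congrArg _ (RingHom.congr_fun e ω)),
    fun a => i (by simp [σ₀, hs, H.invol]), fun x y => i (by simp [σ₀, B₀, hs, hf, H.symm]),
    fun x hx => rat_inj h (by
      rw [map_zero]
      exact H.nondeg _ (LinearMap.congr_fun (h.algHom_ext (B _) 0 fun y => by
        rw [← hf]; simpa [B₀] using hx y)))⟩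
  obtain ⟨x, h1, h2, h3⟩ := H₀.exists_isotropic_mem hW
  exact ⟨x, h1, h2, by rw [← hf]; simpa [B₀] using h3⟩

namespace URat

theorem orth_maximal [Finite F] (h : URat j B M) (h2 : finrank F₀ F = 2)
    (hM : ∀ e ∈ M, e ∈ sisom B) {g : V ≃ₗ[F] V} (hg : g ∈ M) (hns : g ∉ subf F j) :
    ∀ e ∈ sisom B, e ∈ M := by
  have := rat_finite h.bc
  have H := h.herm
  have gB := (hM g hg).1
  by_cases hs : Small j h.herm M
  swap
  · simp only [Small, not_forall] at hs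
    obtain ⟨w, hw, hw0, hww, s, h1, h3⟩ := hs
    refine h.mem_of_good hw hww hw0 fun t f hf h4 => ?_
    obtain ⟨a, ha, b, hb, rfl⟩ := exists_one_add h2 h3 t
    rw [add_smul, mul_smul]
    exact add_mem (h.mem_addUE hw hww (smul_mem_range ha hf) (by simp [h4]))
      (h1 _ (smul_mem_range hb hf) (by simp [h4]))
  refine absurd ?_ hns
  obtain ⟨θ, hθ⟩ := exists_not_mem_ratF (F₀ := F₀) (F := F) (by omega)
  have mem := LinearMap.mem_range_self j
  obtain ⟨w, hw, hw0, -, hww⟩ := h.ex_of h.iso (p := fun z => B z z = 0) [] (by simp) ⊥ (by simp)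
  have hw0 : w ≠ 0 := by simpa using hw0
  obtain ⟨l₁, l₂, hl⟩ := exists_rat_decomp h.bc h2 hθ (g w)
  obtain ⟨s, hs1, hs0, hs2, hss⟩ := h.ex_of h.iso (p := fun z => B z z = 0) [j l₁, j l₂]
    (by simp) ⊥ (by simp)
  have hs0 : s ≠ 0 := by simpa using hs0
  obtain ⟨m₁, m₂, hm⟩ := exists_rat_decomp h.bc h2 hθ (g⁻¹ s)
  obtain ⟨b, hb, hb1, hb2⟩ := h.ex_perp [w, j m₁, j m₂] (by simp [hw, mem, -LinearMap.mem_range])
    ((Submodule.span F {j l₁, j l₂}).comap (g : V →ₗ[F] V)) (by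
      have := finrank_span_pair_le' (F := F) (j l₁) (j l₂)
      rw [Submodule.comap_equiv_eq_map_symm, LinearEquiv.finrank_map_eq]
      simp; omega)
  obtain ⟨a, -, -, e, he, -, hx⟩ := h.exists_ue hw hww hb (hb2 w (by simp))
  obtain ⟨t, ht, htx⟩ := HasUE.conj hg gB ⟨e, he, hx⟩
  have key : ∀ x, B (j l₁) x = 0 → B (j l₂) x = 0 → t x = x + B (g b) x • g w := fun x p1 p2 => by
    have : B (g w) x = 0 := by simp [hl, p1, p2]
    simp [htx, this]
  have ts : t s = (1 : F) • s := by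
    have : B (g b) s = 0 := by
      rw [← g.apply_symm_apply s, gB, ← LinearEquiv.coe_inv, hm]
      simp [H.eq_zero_comm.1 (hb2 (j m₁) (by simp)), H.eq_zero_comm.1 (hb2 (j m₂) (by simp))]
    simp [key s (hs2 _ (by simp)) (hs2 _ (by simp)), this]
  obtain ⟨x, hx1, p1, p2, p3⟩ : ∃ x ∈ LinearMap.range j, B x (j l₁) = 0 ∧ B x (j l₂) = 0 ∧
      B x (g b) ≠ 0 := by
    obtain ⟨n₁, n₂, hn⟩ := exists_rat_decomp h.bc h2 hθ (g b)
    by_cases q1 : j n₁ ∈ Submodule.span F {j l₁, j l₂}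
    · obtain ⟨x, r1, r2, r3⟩ := h.ex_dual (mem n₂) (S := {j l₁, j l₂}) (by simp) fun q2 =>
        hb1 (by simpa [hn] using add_mem q1 (Submodule.smul_mem _ θ q2))
      refine ⟨x, r1, r3 _ (by simp), r3 _ (by simp), fun h0 => hθ ?_⟩
      simp only [hn, map_add, map_smul, r2, smul_eq_mul, mul_one] at h0
      rw [eq_neg_of_add_eq_zero_right h0]
      exact neg_mem (h.rat _ r1 _ (mem _))
    obtain ⟨x, r1, r2, r3⟩ := h.ex_dual (mem n₁) (S := {j l₁, j l₂}) (by simp) q1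
    refine ⟨x, r1, r3 _ (by simp), r3 _ (by simp), fun h0 => hθ ?_⟩
    simp only [hn, map_add, map_smul, r2, smul_eq_mul] at h0
    rw [eq_inv_of_mul_eq_one_left (a := θ) (b := -B x (j n₂)) (by linear_combination -h0)]
    exact inv_mem (neg_mem (h.rat _ r1 _ (mem _)))
  obtain ⟨s, rfl⟩ := hs1
  obtain ⟨x, rfl⟩ := hx1
  have := subf_apply_mem h.bc (h.mem_of_fix hs hM ht (mem s) hss hs0 ts) (x := s)
    (by rintro rfl; simp at hs0) one_ne_zero (by simp [ts]) x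
  rw [one_smul, key _ (H.eq_zero_comm.1 p1) (H.eq_zero_comm.1 p2),
    Submodule.add_mem_iff_right _ (mem x)] at this
  exact h.mem_of_point hs hM hg hw hww hw0 (fun h0 => p3 (H.eq_zero_comm.1 h0)) this

theorem hasU (h : URat j B M) {w : V} (hw : w ∈ LinearMap.range j) (hww : B w w = 0) {c : F}
    (hc : c ∈ ratF F₀ F) (hc' : c + σ c = 0) : HasU M B w c := by
  have := rat_finite h.bc
  obtain ⟨e, he, hx⟩ := h.herm.exists_transv hww hc'
  exact ⟨e, h.le e (h.ue_mem hw (zero_mem _) (neg_mem hc) fun x => by simp [hx])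
    (axisGrp_le_sisom hww he), hx⟩

theorem herm_maximal [Finite F] (h : URat j B M) (hr : (finrank F₀ F).Prime) {ω : F}
    (hω : ω ∈ ratF F₀ F) (hω' : σ ω ≠ ω) (hM : ∀ e ∈ M, e ∈ sisom B) {g : V ≃ₗ[F] V} (hg : g ∈ M)
    (hns : g ∉ subf F j) : ∀ e ∈ sisom B, e ∈ M := by
  have := rat_finite h.bc
  have : Finite V := Module.finite_of_finite F
  have H := h.herm
  have gB := (hM g hg).1
  have hd : ω - σ ω ≠ 0 := sub_ne_zero.2 hω'.symm
  have hd' := sub_mem hω (h.sig _ hω)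
  have tz : ∀ s, s - σ s + σ (s - σ s) = 0 := fun s => by simp [H.invol]
  by_cases hs : Small j h.herm M
  swap
  · simp only [Small, not_forall] at hs
    obtain ⟨w, hw, hw0, hww, s, h1, h3⟩ := hs
    let C : F → Prop := fun s => ∀ f ∈ LinearMap.range j, B w f = 0 → s • f ∈ addUE M H hww
    have c1 : ∀ s, ∀ c ∈ ratF F₀ F, C s → C (s * c) := fun s c hc p f hf p1 => by
      rw [mul_smul]; exact p _ (smul_mem_range hc hf) (by simp [p1])
    let S : Subalgebra F₀ F :=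
      { carrier := {t | ∀ s, C s → C (s * t)}
        add_mem' := fun p1 p2 s p f hf q => by
          rw [mul_add, add_smul]; exact add_mem (p1 s p f hf q) (p2 s p f hf q)
        algebraMap_mem' := fun a s => c1 s _ (alg_mem a)
        mul_mem' := fun p1 p2 s p => mul_assoc s _ _ ▸ p2 _ (p1 s p) }
    have c2 : ∀ s, C s → s - σ s ∈ S := fun s p t q => by
      obtain ⟨a, ha, a', ha', p1, p2, p3, p4, p5, p6, p7⟩ := h.exists_hyp hw
      obtain ⟨e, he, hx⟩ := h.hasU_all hw hww hw0 (h.hasU_of_good hw hww p) a' ha' p2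
      have := apply_sub_mem_addUE H hww he (hM e he).1 (by simp [hx, H.eq_zero_comm.1 p6])
        (q a ha p5)
      simpa [hx, p1, p3, p4, mul_comm, C] using h.good hw hww this ha p1 p5 p7
    have hS : S = ⊤ := ((Subalgebra.isSimpleOrder_of_finrank_prime F₀ F hr).eq_bot_or_eq_top
      S).resolve_left fun h0 => h3 (by
        have q1 : s - σ s ∈ ratF F₀ F := Algebra.mem_bot.1 (h0 ▸ c2 s h1)
        have q2 : s * ω - σ (s * ω) ∈ ratF F₀ F := Algebra.mem_bot.1 (h0 ▸ c2 _ (c1 s ω hω h1))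
        convert div_mem (sub_mem q2 (mul_mem q1 (h.sig _ hω))) hd' using 1
        rw [map_mul]; field_simp; ring)
    refine h.mem_of_good hw hww hw0 fun t => ?_
    simpa [C] using (show t ∈ S from hS ▸ Algebra.mem_top) 1 fun f hf p => by
      simpa using h.mem_addUE hw hww hf p
  refine absurd ?_ hns
  have mem := LinearMap.mem_range_self j
  obtain ⟨w₀, hw₀, hw₀0, -, hww₀⟩ := h.ex_of h.iso (p := fun z => B z z = 0) [] (by simp) ⊥ (by simp)
  have hw₀0 : w₀ ≠ 0 := by simpa using hw₀0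
  obtain ⟨t, ht, htx⟩ := (h.hasU hw₀ hww₀ hd' (tz ω)).conj hg gB
  have hu : g w₀ ≠ 0 := by simpa using hw₀0
  have huu : B (g w₀) (g w₀) = 0 := by rw [gB, hww₀]
  generalize hue : g w₀ = u at htx hu huu
  by_cases hc : ∃ w ∈ LinearMap.range j, w ≠ 0 ∧ B w w = 0 ∧ B u w = 0
  · obtain ⟨_, ⟨w, rfl⟩, hw, hww, hwu⟩ := hc
    have h1 : t (j w) = (1 : F) • j w := by simp [htx, hwu]
    obtain ⟨x, hx⟩ := rat_dual_ne h.bc (φ := B u) fun h0 => hu (H.nondeg u (LinearMap.congr_fun h0))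
    have := subf_apply_mem h.bc (h.mem_of_fix hs hM ht (mem w) hww hw h1) (x := w)
      (by rintro rfl; simp at hw) one_ne_zero (by simp [h1]) x
    rw [one_smul, htx, Submodule.add_mem_iff_right _ (mem x)] at this
    exact h.mem_of_point hs hM hg hw₀ hww₀ hw₀0 (mul_ne_zero hd hx) (hue ▸ this)
  push Not at hc
  exfalso
  obtain ⟨w, hw, p1, p2, hww⟩ := h.ex_of h.iso (p := fun z => B z z = 0) [w₀] (by simpa) (F ∙ w₀)
    (by have := finrank_span_one_le (F := F) w₀; simp; omega)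
  have p2 : B w₀ w = 0 := p2 _ (by simp)
  have hw0 : w ≠ 0 := by rintro rfl; simp at p1
  have q1 := hc w hw hw0 hww
  have q2 := hc w₀ hw₀ hw₀0 hww₀
  obtain ⟨k, hk, ⟨c, hkw⟩, hkx, -⟩ := HasTv.exists_map (ψ := (ω - σ ω) • B w₀)
    (φ := (ω - σ ω) • B (t w)) (h.hasU hw₀ hww₀ hd' (tz ω))
    ((h.hasU hw hww hd' (tz ω)).conj ht (hM t ht).1) (by simp [hww₀])
    (by simp [(hM t ht).1 w w, hww]) (by simp [htx, p2, hd, q1, H.eq_zero_comm (x := w₀), q2])
    (by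
      rw [LinearMap.smul_apply, smul_ne_zero_iff, ne_eq, ne_eq, H.eq_zero_comm]
      simp [htx, p2, hd, q1, H.eq_zero_comm (x := w₀), q2])
  have ti : ∀ x, t⁻¹ x = x - ((ω - σ ω) * B u x) • u := fun x => t.injective (by
    rw [LinearEquiv.coe_inv, LinearEquiv.apply_symm_apply]; simp [htx, huu])
  have hD := M.mul_mem (M.inv_mem ht) hk
  have d1 : (t⁻¹ * k) w₀ = c • w := by simp [hkw]
  have hc0 : c ≠ 0 := by rintro rfl; simp [hw₀0] at hkw
  have d0 : c⁻¹ • (t⁻¹ * k) w₀ ∈ LinearMap.range j := by simpa [d1, hc0] using hw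
  obtain ⟨x, hx, r1, r0⟩ := h.ex_dual hw₀ (S := {w}) (by simpa) (notMem_span_symm hw₀0 p1)
  have r0 := r0 w rfl
  obtain ⟨w₀, rfl⟩ := hw₀
  obtain ⟨x, rfl⟩ := hx
  have d2 := subf_apply_mem h.bc (h.mem_of_point hs hM hD (mem _) hww₀ hw₀0 (inv_ne_zero hc0) d0)
    (by rintro rfl; simp at hw₀0) (inv_ne_zero hc0) d0 x
  obtain ⟨a, b, hx⟩ := hkx (j x)
  obtain ⟨γ, d3⟩ : ∃ γ : F, (t⁻¹ * k) (j x) = j x + a • j w₀ + b • w + γ • u :=
    ⟨b * ((ω - σ ω) * B u w) - (ω - σ ω) * B u (k (j x)), by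
      rw [LinearEquiv.mul_apply, ti, sub_smul]; nth_rewrite 1 [hx]; rw [htx]; module⟩
  have hγ : γ ≠ 0 := by
    rintro rfl
    have := (hM _ hD).1 (j x) (j w₀)
    simp [d1, d3, r0, r1, hww, p2] at this
  obtain ⟨z, hz, z0, z1, zz⟩ := h.ex_of (exists_iso_herm h.bc H h.sig h.rat hω hω')
    (p := fun z => B z z = 0) [j w₀, w, j x, c⁻¹ • (t⁻¹ * k) (j x)]
    (by simpa [hw, mem, -LinearMap.mem_range] using d2) ⊥ (by simp)
  have := z1 (c⁻¹ • (t⁻¹ * k) (j x)) (by simp)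
  simp [d3, z1 (j w₀), z1 w, z1 (j x), hγ, hc0, hc z hz (by simpa using z0) zz] at this

end URat

theorem su_sp_maximal [Finite F] (h : IsBaseChange F j) (H : IsHerm B) (h2 : finrank F₀ F = 2)
    (hσ : ∀ c ∈ ratF F₀ F, σ c = c) {ζ : F} (hζ0 : ζ ≠ 0) (hζ : ζ + σ ζ = 0)
    (rat : ∀ x y, ζ * B (j x) (j y) ∈ ratF F₀ F) (alt : ∀ x, B (j x) (j x) = 0)
    (h3 : finrank F₀ V₀ ≠ 3) (hle : ∀ e ∈ subf F j, e ∈ sisom B → e ∈ M)
    (hM : ∀ e ∈ M, e ∈ sisom B) {g : V ≃ₗ[F] V} (hg : g ∈ M) (hns : g ∉ subf F j) :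
    ∀ e ∈ sisom B, e ∈ M := by
  have := rat_finite h
  have : Finite V₀ := Module.finite_of_finite F₀
  have fix : ∀ c, σ c = c → c ∈ ratF F₀ F := fun c hc => by
    by_contra h0
    refine H.ne_id (RingHom.ext fun t => ?_)
    obtain ⟨a, ha, b, hb, rfl⟩ := exists_one_add h2 h0 t
    simp [hσ a ha, hσ b hb, hc]
  have hζ' : σ ζ = -ζ := eq_neg_of_add_eq_zero_right hζ
  have full : ∀ x, FullU M B (j x) := fun x => fullU_of_forall H (alt x) fun e he c hx => by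
    by_cases hx0 : j x = 0
    · exact hle e (mem_subf_of (rat_inj h) one_ne_zero fun y => by simp [hx, hx0]) he
    obtain ⟨y, hy⟩ : ∃ y, B (j x) y = 1 := by
      obtain ⟨y, hy⟩ := not_forall.1 fun h0 => hx0 (H.nondeg _ h0)
      exact ⟨(B (j x) y)⁻¹ • y, by simp [hy]⟩
    have hc : σ c = -c := by
      have := he.1 y y
      simp only [hx, hy, map_add, LinearMap.add_apply, form_smul_left, map_smul, alt, smul_eq_mul,
        ← H.symm (j x) y, map_one, mul_one] at this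
      linear_combination this
    refine hle e (mem_subf_of (rat_inj h) one_ne_zero fun y => ?_) he
    rw [one_smul, hx, show c * B (j x) (j y) = c / ζ * (ζ * B (j x) (j y)) by field_simp]
    exact add_mem ⟨_, rfl⟩ (smul_mem_range (mul_mem (fix _ (by simp [hc, hζ'])) (rat x y)) ⟨_, rfl⟩)
  choose f hf using rat
  have i := (algebraMap F₀ F).injective
  let B₀ : LinearMap.BilinForm F₀ V₀ := LinearMap.mk₂ F₀ f (fun _ _ _ => i (by simp [hf, mul_add]))
    (fun c x _ => i (by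
      rw [hf, map_smul, ← algebraMap_smul F c (j x), form_smul_left, hσ _ (alg_mem c)]
      simp [hf, mul_left_comm]))
    (fun _ _ _ => i (by simp [hf, mul_add]))
    (fun _ _ _ => i (by simp [hf, Algebra.smul_def, mul_left_comm]))
  have e₀ : ∀ x y, algebraMap F₀ F (B₀ x y) = ζ * B (j x) (j y) := hf
  have A : B₀.IsAlt := fun x => i (by simp [e₀, alt])
  have nd' : ∀ x, (∀ y, B₀ x y = 0) → x = 0 := fun x hx => rat_inj h (by
    rw [map_zero]
    exact H.nondeg _ (LinearMap.congr_fun (h.algHom_ext (B _) 0 fun y => by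
      simpa [hx, hζ0] using e₀ x y)))
  have nd : B₀.Nondegenerate := ⟨nd', fun x hx => nd' x fun y => A.isRefl _ _ (hx y)⟩
  let M₀ : Subgroup (V₀ ≃ₗ[F₀] V₀) :=
    { carrier := {a | ∃ e ∈ M, ∀ x, e (j x) = j (a x)}
      one_mem' := ⟨1, M.one_mem, by simp⟩
      mul_mem' := by
        rintro a b ⟨e, he, h1⟩ ⟨e', he', h2⟩
        exact ⟨e * e', M.mul_mem he he', fun x => by simp [h1, h2]⟩
      inv_mem' := by
        rintro a ⟨e, he, h1⟩
        exact ⟨e⁻¹, M.inv_mem he, fun x => e.injective (by simp [h1])⟩ }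
  have lift := mem_of_forall_fullSp (H := M₀) nd A fun v c => hasSp_of_forall A fun a ha => by
    obtain ⟨e, he, hx⟩ := (full v).2 (-(algebraMap F₀ F c * ζ)) (by
      simp [hσ _ (alg_mem c), hζ'])
    refine ⟨e, he, fun x => ?_⟩
    rw [hx, ha, map_add, map_smul, ← algebraMap_smul F (c * B₀ x v), alt_swap A, map_mul, map_neg, e₀]
    congr 2; ring
  obtain ⟨θ, hθ⟩ := exists_not_mem_ratF (F₀ := F₀) (F := F) (by omega)
  have dich : ∀ p, B p p = 0 → (∃ x, ∃ c : F, p = c • j x) ∨ ∃ x y, LinearIndependent F₀ ![x, y] ∧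
      B₀ x y = 0 ∧ p = j x + θ • j y := fun p hp => by
    obtain ⟨x, y, rfl⟩ := exists_rat_decomp h h2 hθ p
    by_cases hx : x = 0
    · exact Or.inl ⟨y, θ, by simp [hx]⟩
    by_cases hy : y ∈ F₀ ∙ x
    · obtain ⟨a, rfl⟩ := Submodule.mem_span_singleton.1 hy
      exact Or.inl ⟨x, 1 + θ * algebraMap F₀ F a, by simp [add_smul, mul_smul]⟩
    refine Or.inr ⟨x, y, linearIndependent_pair_of_notMem hx hy, i ?_, rfl⟩
    have q1 := e₀ y x
    rw [alt_swap A, map_neg, e₀] at q1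
    simp only [map_add, LinearMap.add_apply, form_smul_left, map_smul, alt, smul_eq_mul] at hp
    rw [e₀, map_zero]
    refine (mul_eq_zero.1 (?_ : (θ - σ θ) * _ = 0)).resolve_left fun h0 =>
      hθ (fix _ (sub_eq_zero.1 h0).symm)
    linear_combination ζ * hp + σ θ * q1
  obtain ⟨w, hw, hgw⟩ : ∃ w, w ≠ 0 ∧ ∀ c : F, c ≠ 0 → c • g (j w) ∉ LinearMap.range j := by
    by_contra! hc
    exact hns (mem_subf_of_points h hc)
  obtain ⟨x, y, hxy, h0, hu⟩ := (dich (g (j w)) (by rw [(hM g hg).1, alt])).resolve_left (by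
    rintro ⟨x, c, hc⟩
    have hc0 : c ≠ 0 := by rintro rfl; simp [rat_ne h hw] at hc
    exact hgw c⁻¹ (inv_ne_zero hc0) (by simp [hc, hc0]))
  refine mem_of_forall_fullU H (Or.inl (by rwa [rat_finrank h])) fun p hp => ?_
  rcases dich p hp with ⟨x', c, rfl⟩ | ⟨x', y', hxy', h0', rfl⟩
  · exact (full x').smul H c
  obtain ⟨a, ha, r1, r2⟩ := sp_witt_pair nd A hxy hxy' (h0.trans h0'.symm)
  obtain ⟨e, he, hx⟩ := lift a ha
  simpa [hu, hx, r1, r2] using ((full w).conj hg (hM g hg).1).conj he (hM e he).1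

end H62
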