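import Cfsg.Agent.H53.GUClass

set_option autoImplicit false

/-! Centralisers of unipotent elements: the commutant of a nilpotent map with a Jordan basis. -/

namespace H62.UC

open Module Matrix

variable {F V : Type*} [Field F] [AddCommGroup V] [Module F V] {t : ℕ}

/-! ### Counting lemmas -/

theorem card_preimage {A B : Type*} [AddCommGroup A] [AddCommGroup B] [Finite A] (f : A →+ B)
    (hf : Function.Surjective f) (P : B → Prop) :
    Nat.card {a // P (f a)} = Nat.card {b // P b} * Nat.card f.ker := by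
  choose s hs using hf
  rw [← Nat.card_prod]
  refine Nat.card_congr ⟨fun a => (⟨f a, a.2⟩, ⟨a - s (f a), by simp [hs]⟩),
    fun p => ⟨s p.1 + p.2, by rw [map_add, hs, p.2.2, add_zero]; exact p.1.2⟩, fun a => ?_,
    fun p => ?_⟩
  · simp
  · have := p.2.2
    rw [AddMonoidHom.mem_ker] at this
    ext <;> simp [hs, this]

section Star

variable {σ : F →+* F} {A : Type*} [Ring A] [Algebra F A] (s : A →ₛₗ[σ] A)
  (s1 : s 1 = 1) (sm : ∀ a b, s (a * b) = s b * s a) (ss : ∀ a, s (s a) = a) {θ : F}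
  (hθ : σ θ + θ = 1) {J : Submodule F A} (hJ : ∀ j ∈ J, ∀ a, j * a ∈ J)
  (hn : ∀ j ∈ J, IsNilpotent j)

include s1 sm ss hθ hJ in
theorem exists_norm (n : ℕ) : ∀ j ∈ J, s j = j → j ^ n = 0 →
    ∃ y : Aˣ, s y * (1 + j) * y = 1 := by
  induction n using Nat.strong_induction_on with
  | _ n ih =>
  intro j hj hs h0
  by_cases h1 : n ≤ 1
  · have : j = 0 := by
      have := pow_eq_zero_of_le h1 h0
      rwa [pow_one] at this
    exact ⟨1, by simp [this, s1]⟩
  obtain ⟨y, hy⟩ := (IsNilpotent.smul ⟨n, h0⟩ θ).isUnit_one_sub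
  set p : A := (σ θ * θ - 1) • 1 + (σ θ * θ) • j with hp
  have e : s y * (1 + j) * y = 1 + j * (j * p) := by
    have h2 : σ θ = 1 - θ := by linear_combination hθ
    rw [hy, map_sub, s1, map_smulₛₗ, hs, hp, h2]
    simp only [mul_add, add_mul, mul_sub, sub_mul, mul_smul_comm, smul_mul_assoc, mul_one, one_mul,
      mul_assoc]
    module
  have c : Commute j p := ((Commute.one_right j).smul_right _).add_right
    ((Commute.refl j).smul_right _)
  have hs' : s (j * (j * p)) = j * (j * p) := by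
    have : s (s y * (1 + j) * y) = s y * (1 + j) * y := by
      rw [sm, sm, ss, map_add, s1, hs, mul_assoc]
    rw [e, map_add, s1] at this
    exact add_left_cancel this
  obtain ⟨z, hz⟩ := ih (n - 1) (by omega) _ (hJ j hj _) hs' (by
    rw [← mul_assoc, ← sq, (c.pow_left 2).mul_pow, ← pow_mul, pow_eq_zero_of_le (by omega) h0,
      zero_mul])
  refine ⟨y * z, ?_⟩
  rw [← e] at hz
  rw [Units.val_mul, sm]
  simpa only [mul_assoc] using hz

include s1 sm ss hθ hJ hn in
theorem card_norm :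
    Nat.card {x : A // s x * x - 1 ∈ J} =
      Nat.card {x : A // s x * x = 1} * Nat.card {j : J // s j = j} := by
  have ex : ∀ j : {j : J // s j = j}, ∃ y : Aˣ, s y * (1 + j) * y = 1 := fun j => by
    obtain ⟨n, h⟩ := hn _ j.1.2
    exact exists_norm s s1 sm ss hθ hJ n _ j.1.2 j.2 h
  choose y hy using ex
  have hm : ∀ x, s (s x * x - 1) = s x * x - 1 := fun x => by rw [map_sub, sm, ss, s1]
  have k : ∀ (j : {j : J // s j = j}) (u : A), s u * u = 1 →
      s (u * ((y j)⁻¹ : Aˣ)) * (u * ((y j)⁻¹ : Aˣ)) - 1 = j := fun j u hu => by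
    have h1 : s ((y j)⁻¹ : Aˣ) * s (y j) = 1 := by rw [← sm, Units.mul_inv, s1]
    calc _ = s ((y j)⁻¹ : Aˣ) * (s u * u) * ((y j)⁻¹ : Aˣ) - 1 := by rw [sm]; simp only [mul_assoc]
      _ = s ((y j)⁻¹ : Aˣ) * (s (y j) * (1 + j) * y j) * ((y j)⁻¹ : Aˣ) - 1 := by rw [hu, hy]
      _ = j := by
        rw [← mul_assoc, ← mul_assoc, h1, one_mul, Units.mul_inv_cancel_right, add_sub_cancel_left]
  rw [← Nat.card_prod]
  refine Nat.card_congr ⟨fun x => (⟨x * y ⟨⟨_, x.2⟩, hm x⟩, ?_⟩, ⟨⟨_, x.2⟩, hm x⟩),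
    fun p => ⟨p.1 * ((y p.2)⁻¹ : Aˣ), by rw [k _ _ p.1.2]; exact p.2.1.2⟩, fun x => ?_,
    fun p => ?_⟩
  · have := hy ⟨⟨_, x.2⟩, hm x⟩
    rw [sm]
    simpa only [add_sub_cancel, mul_assoc] using this
  · simp
  · have e : (⟨⟨_, (by rw [k _ _ p.1.2]; exact p.2.1.2 : s (p.1 * ((y p.2)⁻¹ : Aˣ)) *
        (p.1 * ((y p.2)⁻¹ : Aˣ)) - 1 ∈ J)⟩, hm _⟩ : {j : J // s j = j}) = p.2 :=
      Subtype.ext (Subtype.ext (k _ _ p.1.2))
    refine Prod.ext (Subtype.ext ?_) e
    simp only [e, Units.inv_mul_cancel_right]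

end Star

/-! ### Jordan bases -/

/-- `b` is the Jordan basis of the nilpotent map `N` with generators `e` and block sizes `d`. -/
structure JB (N : End F V) (d : Fin t → ℕ) (e : Fin t → V) (b : Basis (Σ k, Fin (d k)) F V) :
    Prop where
  pos : ∀ k, 1 ≤ d k
  eq : ∀ p, b p = (N ^ (p.2 : ℕ)) (e p.1)
  nil : ∀ k, (N ^ d k) (e k) = 0

/-- The commutant. -/
abbrev Cen (N : End F V) : Subalgebra F (End F V) := Subalgebra.centralizer F {N}

theorem mem_cen {N g : End F V} : g ∈ Cen N ↔ Commute N g := by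
  simp [Subalgebra.mem_centralizer_iff, Commute, SemiconjBy]

theorem cen_pow {N : End F V} (g : Cen N) (m : ℕ) (v : V) :
    g.1 ((N ^ m) v) = (N ^ m) (g.1 v) :=
  LinearMap.congr_fun ((mem_cen.1 g.2).pow_left m).eq.symm v

namespace JB

variable {N : End F V} {d : Fin t → ℕ} {e : Fin t → V} {b : Basis (Σ k, Fin (d k)) F V}
  (h : JB N d e b)
include h

theorem pow_e_of_le {k : Fin t} {m : ℕ} (hm : d k ≤ m) : (N ^ m) (e k) = 0 := by
  obtain ⟨r, rfl⟩ := Nat.exists_eq_add_of_le' hm
  rw [pow_add, End.mul_apply, h.nil, map_zero]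

theorem repr_pow_e (k : Fin t) (m : ℕ) (p : Σ k, Fin (d k)) :
    b.repr ((N ^ m) (e k)) p = if k = p.1 ∧ m = p.2 then 1 else 0 := by
  by_cases hm : m < d k
  · rw [← h.eq ⟨k, m, hm⟩, b.repr_self, Finsupp.single_apply]
    obtain ⟨l, j⟩ := p
    by_cases hk : k = l
    · subst hk; simp [Fin.ext_iff]
    · simp [hk]
  · rw [h.pow_e_of_le (not_lt.1 hm), map_zero, Finsupp.zero_apply, if_neg]
    rintro ⟨rfl, rfl⟩
    exact hm p.2.2

theorem repr_pow (v : V) (m : ℕ) (l : Fin t) (j : Fin (d l)) :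
    b.repr ((N ^ m) v) ⟨l, j⟩ =
      if hj : m ≤ j then b.repr v ⟨l, j - m, by omega⟩ else 0 := by
  have : b.coord ⟨l, j⟩ ∘ₗ N ^ m =
      if hj : m ≤ j then b.coord ⟨l, j - m, by omega⟩ else 0 := b.ext fun p => by
    rw [LinearMap.comp_apply, h.eq, ← End.mul_apply, ← pow_add, b.coord_apply, h.repr_pow_e]
    split_ifs with h1 h2 h2
    · rw [b.coord_apply, h.repr_pow_e, if_pos ⟨h1.1, by have := h1.2; simp at this ⊢; omega⟩]
    · have := h1.2; simp at this; omega
    · rw [b.coord_apply, h.repr_pow_e, if_neg fun h3 => h1 ⟨h3.1, by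
        have := h3.2; simp at this ⊢; omega⟩]
    · rfl
  have h2 := LinearMap.congr_fun this v
  split_ifs at h2 ⊢ <;> exact h2

theorem pow_eq_zero_iff (v : V) (m : ℕ) :
    (N ^ m) v = 0 ↔ ∀ p : Σ k, Fin (d k), p.2 + m < d p.1 → b.repr v p = 0 := by
  constructor
  · intro h0 p hp
    have := h.repr_pow v m p.1 ⟨p.2 + m, hp⟩
    rw [h0, dif_pos (by simp)] at this
    simpa using this.symm
  · intro h0
    refine b.repr.injective (Finsupp.ext fun p => ?_)
    obtain ⟨l, j⟩ := p
    rw [h.repr_pow, map_zero, Finsupp.zero_apply]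
    split_ifs with hj
    · refine h0 _ ?_
      have := j.2
      change j - m + m < d l
      omega
    · rfl

/-- The coordinates modulo the image of `N`. -/
noncomputable def tau : V →ₗ[F] (Fin t → F) := LinearMap.pi fun l => b.coord ⟨l, 0, h.pos l⟩

theorem tau_apply (v : V) (l : Fin t) : h.tau v l = b.repr v ⟨l, 0, h.pos l⟩ := rfl

theorem tau_N (v : V) : h.tau (N v) = 0 := funext fun l => by
  have := h.repr_pow v 1 l ⟨0, h.pos l⟩
  rwa [pow_one, dif_neg (by simp)] at this

theorem tau_e (k : Fin t) : h.tau (e k) = Pi.single k 1 := funext fun l => by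
  have := h.repr_pow_e k 0 ⟨l, 0, h.pos l⟩
  rw [pow_zero, End.one_apply] at this
  rw [tau_apply, this, Pi.single_apply]
  simp [eq_comm]

theorem tau_eq_zero {v : V} {m : ℕ} (hv : (N ^ m) v = 0) {l : Fin t} (hl : m < d l) :
    h.tau v l = 0 := (h.pow_eq_zero_iff v m).1 hv ⟨l, 0, h.pos l⟩ (by simpa using hl)

theorem exists_dec (v : V) : ∃ w, v = ∑ k, h.tau v k • e k + N w := by
  let L : End F V := LinearMap.id - ∑ k, (b.coord ⟨k, 0, h.pos k⟩).smulRight (e k)
  have hL : ∀ v, L v = v - ∑ k, h.tau v k • e k := fun v => by simp [L, tau_apply]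
  have : LinearMap.range L ≤ LinearMap.range N := by
    rw [LinearMap.range_eq_map, ← b.span_eq, Submodule.map_span, Submodule.span_le]
    rintro _ ⟨_, ⟨p, rfl⟩, rfl⟩
    rw [hL, h.eq]
    obtain ⟨k, j, hj⟩ := p
    cases j with
    | zero => simp [h.tau_e, Pi.single_apply]
    | succ j => simp [pow_succ', h.tau_N]
  obtain ⟨w, hw⟩ := this (LinearMap.mem_range_self L v)
  exact ⟨w, by rw [hw, hL]; abel⟩

/-- The matrix of the action modulo the image of `N`. -/
noncomputable def cm (g : End F V) : Matrix (Fin t) (Fin t) F := of fun l k => h.tau (g (e k)) l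

theorem tau_cen (g : Cen N) (v : V) : h.tau (g.1 v) = h.cm g *ᵥ h.tau v := by
  obtain ⟨w, hw⟩ := h.exists_dec v
  have := cen_pow g 1 w
  rw [pow_one] at this
  conv_lhs => rw [hw, map_add, this, map_add, h.tau_N, add_zero, map_sum, map_sum]
  ext l
  simp [cm, mulVec, dotProduct, mul_comm]

theorem cm_mul (g g' : Cen N) : h.cm (g * g' : Cen N) = h.cm g * h.cm g' := by
  ext l k
  change h.tau (g.1 (g'.1 (e k))) l = _
  rw [h.tau_cen]
  rfl

theorem cm_one : h.cm 1 = 1 := by
  ext l k
  simp [cm, h.tau_e, Pi.single_apply, one_apply]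

theorem cm_tri (g : Cen N) : (h.cm g).BlockTriangular d := fun l k hlk =>
  h.tau_eq_zero (m := d k) (by rw [← cen_pow, h.nil, map_zero]) hlk

theorem pow_sup : N ^ Finset.univ.sup d = 0 := b.ext fun p => by
  rw [h.eq, ← End.mul_apply, ← pow_add]
  exact h.pow_e_of_le ((Finset.le_sup (Finset.mem_univ _)).trans (Nat.le_add_right _ _))

theorem isUnit_iff (g : Cen N) : IsUnit g.1 ↔ (h.cm g).det ≠ 0 := by
  haveI := Module.Finite.of_basis b
  constructor
  · rintro ⟨u, hu⟩
    have hc : (u⁻¹ : (End F V)ˣ).1 ∈ Cen N :=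
      mem_cen.2 (Commute.units_inv_right (hu ▸ mem_cen.1 g.2))
    have := h.cm_mul g ⟨_, hc⟩
    rw [show ((g * ⟨_, hc⟩ : Cen N) : End F V) = 1 by simp [← hu], h.cm_one] at this
    exact det_ne_zero_of_right_inverse this.symm
  · intro h0
    have key : ∀ m v, ∃ x w, v = g.1 x + (N ^ m) w := fun m => by
      induction m with
      | zero => exact fun v => ⟨0, v, by simp⟩
      | succ m ih =>
        intro v
        obtain ⟨x, w, rfl⟩ := ih v
        obtain ⟨y, hy⟩ := mulVec_surjective_iff_isUnit.2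
          ((isUnit_iff_isUnit_det _).2 (Ne.isUnit h0)) (h.tau w)
        obtain ⟨w', hw'⟩ := h.exists_dec (w - g.1 (∑ k, y k • e k))
        have : h.tau (∑ k, y k • e k) = y := by
          ext l; simp [h.tau_e, Pi.single_apply]
        rw [map_sub, h.tau_cen, this, hy, sub_self] at hw'
        refine ⟨x + (N ^ m) (∑ k, y k • e k), w', ?_⟩
        rw [map_add, cen_pow, pow_succ, End.mul_apply, add_assoc, ← map_add]
        congr 2
        simpa [sub_eq_iff_eq_add'] using hw'
    refine (LinearMap.isUnit_iff_range_eq_top _).2 (LinearMap.range_eq_top.2 fun v => ?_)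
    obtain ⟨x, w, hx⟩ := key (Finset.univ.sup d) v
    exact ⟨x, by rw [hx, h.pow_sup]; simp⟩

/-- The diagonal blocks of the action modulo the image of `N`. -/
noncomputable def psi : Cen N →ₐ[F] ∀ i : Fin (Finset.univ.sup d + 1),
    Matrix {k // d k = i} {k // d k = i} F where
  toFun g i := (h.cm g).toSquareBlock d i
  map_one' := by
    ext i l k
    simp [h.cm_one, toSquareBlock_def, one_apply, Subtype.ext_iff]
  map_mul' g g' := by
    ext i l k
    rw [h.cm_mul]
    change ∑ j, h.cm g l j * h.cm g' j k = ∑ j : {k // d k = i}, h.cm g l j * h.cm g' j k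
    rw [← Finset.sum_subtype (Finset.univ.filter fun k => d k = i) (by simp)
      fun j => h.cm g l j * h.cm g' j k]
    refine (Finset.sum_subset (Finset.filter_subset _ _) fun j _ hj => ?_).symm
    have hj : d j ≠ i := by simpa using hj
    rcases lt_or_gt_of_ne hj with h1 | h1
    · rw [h.cm_tri g (by rwa [l.2]), zero_mul]
    · rw [h.cm_tri g' (by rwa [k.2]), mul_zero]
  map_zero' := by ext i l k; simp [cm, toSquareBlock_def]
  map_add' g g' := by ext i l k; simp [cm, toSquareBlock_def]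
  commutes' c := by
    ext i l k
    simp [cm, toSquareBlock_def, h.tau_e, Pi.single_apply, algebraMap_matrix_apply, Subtype.ext_iff,
      Algebra.algebraMap_eq_smul_one]

theorem psi_apply (g : Cen N) (i : Fin (Finset.univ.sup d + 1)) (l k : {k // d k = i}) :
    h.psi g i l k = h.tau (g.1 (e k)) l := rfl

theorem isUnit_iff' (g : Cen N) : IsUnit g.1 ↔ ∀ i, (h.psi g i).det ≠ 0 := by
  rw [h.isUnit_iff, (h.cm_tri g).det, Finset.prod_ne_zero_iff]
  constructor
  · intro H i
    by_cases hi : i.1 ∈ Finset.univ.image d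
    · exact H i hi
    · haveI : IsEmpty {k // d k = i} := ⟨fun k => hi (Finset.mem_image.2 ⟨k, by simp, k.2⟩)⟩
      simp
  · intro H i hi
    obtain ⟨k, -, rfl⟩ := Finset.mem_image.1 hi
    exact H ⟨d k, Nat.lt_succ_of_le (Finset.le_sup (Finset.mem_univ k))⟩

theorem exists_cen {w : Fin t → V} (hw : ∀ k, (N ^ d k) (w k) = 0) :
    ∃ g : Cen N, ∀ k, g.1 (e k) = w k := by
  let g : End F V := b.constr F fun p => (N ^ (p.2 : ℕ)) (w p.1)
  have hg : ∀ k m, g ((N ^ m) (e k)) = (N ^ m) (w k) := fun k m => by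
    by_cases hm : m < d k
    · rw [← h.eq ⟨k, m, hm⟩, b.constr_basis]
    · obtain ⟨r, rfl⟩ := Nat.exists_eq_add_of_le' (not_lt.1 hm)
      rw [pow_add, End.mul_apply, End.mul_apply, h.nil, hw, map_zero, map_zero]
  refine ⟨⟨g, mem_cen.2 (b.ext fun p => ?_)⟩, fun k => hg k 0⟩
  rw [End.mul_apply, End.mul_apply, h.eq, hg, ← End.mul_apply N, ← End.mul_apply N, ← pow_succ', hg]

theorem cen_ext {g g' : Cen N} (H : ∀ k, g.1 (e k) = g'.1 (e k)) : g = g' :=
  Subtype.ext (b.ext fun p => by rw [h.eq, cen_pow, cen_pow, H])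

theorem psi_surjective : Function.Surjective h.psi := fun X => by
  classical
  let M : Fin t → Fin t → F := fun l k => if hlk : d l = d k then
    X ⟨d k, Nat.lt_succ_of_le (Finset.le_sup (Finset.mem_univ k))⟩ ⟨l, hlk⟩ ⟨k, rfl⟩ else 0
  obtain ⟨g, hg⟩ := h.exists_cen (w := fun k => ∑ l, M l k • e l) fun k => by
    rw [map_sum]
    refine Finset.sum_eq_zero fun l _ => ?_
    by_cases hlk : d l = d k
    · rw [map_smul, ← hlk, h.nil, smul_zero]
    · simp [M, hlk]
  refine ⟨g, ?_⟩
  ext ⟨i, hi⟩ ⟨l, hl⟩ ⟨k, hk⟩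
  obtain rfl : d k = i := hk
  rw [psi_apply, hg]
  have hl' : d l = d k := hl
  have : h.tau (∑ l, M l k • e l) l = M l k := by simp [h.tau_e, Pi.single_apply]
  rw [this]
  simp [M, hl']

theorem card_cen [Finite F] :
    Nat.card (Cen N) = Nat.card F ^ ∑ k, ∑ l, min (d k) (d l) := by
  let E : Cen N ≃ ∀ k, ∀ p : Σ l, Fin (d l), {x : F // p.2 + d k < d p.1 → x = 0} :=
    Equiv.ofBijective (fun g k p => ⟨b.repr (g.1 (e k)) p,
      (h.pow_eq_zero_iff _ _).1 (by rw [← cen_pow, h.nil, map_zero]) p⟩) ⟨fun g g' H =>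
      h.cen_ext fun k => b.repr.injective (Finsupp.ext fun p =>
        congrArg Subtype.val (congrFun (congrFun H k) p)), fun M => by
      obtain ⟨g, hg⟩ := h.exists_cen (w := fun k => b.equivFun.symm fun p => M k p) fun k =>
        (h.pow_eq_zero_iff _ _).2 fun p hp => by
          rw [← b.equivFun_apply, LinearEquiv.apply_symm_apply]; exact (M k p).2 hp
      refine ⟨g, funext fun k => funext fun p => Subtype.ext ?_⟩
      change b.repr (g.1 (e k)) p = _
      rw [hg, ← b.equivFun_apply, LinearEquiv.apply_symm_apply]⟩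
  rw [Nat.card_congr E, Nat.card_pi, ← Finset.prod_pow_eq_pow_sum]
  refine Finset.prod_congr rfl fun k _ => ?_
  rw [Nat.card_pi, Fintype.prod_sigma, ← Finset.prod_pow_eq_pow_sum]
  refine Finset.prod_congr rfl fun l _ => ?_
  have : ∀ j : Fin (d l), Nat.card {x : F // j + d k < d l → x = 0} =
      if j + d k < d l then 1 else Nat.card F := fun j => by
    split_ifs with hj <;> simp [hj]
  simp only [this]
  rw [Finset.prod_ite, Finset.prod_const_one, one_mul, Finset.prod_const]
  congr 1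
  have := Finset.card_filter_add_card_filter_not (s := (Finset.univ : Finset (Fin (d l))))
    fun j => j + d k < d l
  have h2 : (Finset.univ.filter fun j : Fin (d l) => j + d k < d l).card = d l - d k := by
    simp only [← Nat.lt_sub_iff_add_lt]
    rw [Fin.card_filter_val_lt]
    omega
  simp only [Finset.card_univ, Fintype.card_fin] at this
  omega

theorem nil_of_psi [Finite F] {g : Cen N} (hg : h.psi g = 0) : IsNilpotent g := by
  haveI := Module.Finite.of_basis b
  haveI : Finite V := Module.finite_of_finite F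
  haveI : Finite (End F V) := Module.finite_of_finite F
  have key : ∀ m n : ℕ, m < n → g ^ m = g ^ n → IsNilpotent g := fun m n hmn e => by
    have hu : IsUnit ((1 - g ^ (n - m) : Cen N) : End F V) := (h.isUnit_iff' _).2 fun i => by
      rw [map_sub, map_pow, hg, zero_pow (by omega), map_one]
      simp
    refine ⟨m, Subtype.ext (hu.mul_left_eq_zero.1 ?_)⟩
    rw [← Subalgebra.coe_mul, mul_sub, mul_one, ← pow_add, e, Nat.add_sub_cancel' hmn.le, sub_self]
    rfl
  obtain ⟨m, n, hmn, e⟩ := Finite.exists_ne_map_eq_of_infinite fun n : ℕ => g ^ n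
  rcases lt_or_gt_of_ne hmn with h1 | h1
  exacts [key m n h1 e, key n m h1 e.symm]

end JB

/-! ### Arithmetic -/

/-- The number of blocks of size `i`. -/
abbrev mu (d : Fin t → ℕ) (i : ℕ) : ℕ := (Finset.univ.filter fun k : Fin t => d k = i).card

/-- The dimension of the unipotent radical of the commutant. -/
abbrev gam (d : Fin t → ℕ) : ℕ :=
  2 * (∑ i ∈ Finset.range (Finset.univ.sup d + 1), ∑ j ∈ Finset.range (Finset.univ.sup d + 1),
    if i < j then i * mu d i * mu d j else 0) +
    ∑ i ∈ Finset.range (Finset.univ.sup d + 1), (i - 1) * mu d i ^ 2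

theorem sum_min {d : Fin t → ℕ} (hd : ∀ k, 1 ≤ d k) : ∑ k, ∑ l, min (d k) (d l) =
    ∑ i ∈ Finset.range (Finset.univ.sup d + 1), mu d i ^ 2 + gam d := by
  set R := Finset.range (Finset.univ.sup d + 1)
  have f : ∀ φ : ℕ → ℕ, ∑ k, φ (d k) = ∑ i ∈ R, mu d i * φ i := fun φ => by
    rw [← Finset.sum_fiberwise_of_maps_to (g := d) (t := R) fun k _ =>
      Finset.mem_range.2 (Nat.lt_succ_of_le (Finset.le_sup (Finset.mem_univ k)))]
    refine Finset.sum_congr rfl fun i _ => ?_
    rw [Finset.sum_congr rfl fun k hk => by rw [(Finset.mem_filter.1 hk).2]]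
    simp
  have h0 : mu d 0 = 0 := Finset.card_eq_zero.2 (Finset.filter_eq_empty_iff.2 fun k _ => by
    have := hd k; omega)
  rw [f fun i => ∑ l, min i (d l)]
  simp only [fun i => f fun j => min i j, Finset.mul_sum]
  have e : ∀ i j, mu d i * (mu d j * min i j) = (if i < j then i * mu d i * mu d j else 0) +
      (if j < i then j * mu d j * mu d i else 0) + if i = j then i * mu d i ^ 2 else 0 := by
    intro i j
    rcases lt_trichotomy i j with h | rfl | h
    · rw [min_eq_left h.le, if_pos h, if_neg h.not_gt, if_neg h.ne]; ring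
    · simp; ring
    · rw [min_eq_right h.le, if_pos h, if_neg h.not_gt, if_neg h.ne']; ring
  simp only [e, Finset.sum_add_distrib]
  rw [Finset.sum_comm (f := fun i j => if j < i then j * mu d j * mu d i else 0), gam, two_mul]
  have e2 : ∑ i ∈ R, ∑ j ∈ R, (if i = j then i * mu d i ^ 2 else 0) =
      ∑ i ∈ R, mu d i ^ 2 + ∑ i ∈ R, (i - 1) * mu d i ^ 2 := by
    rw [← Finset.sum_add_distrib]
    refine Finset.sum_congr rfl fun i hi => ?_
    rw [Finset.sum_ite_eq, if_pos hi]
    cases i with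
    | zero => simp [h0]
    | succ i => simp; ring
  rw [e2]
  ring

theorem card_blk (d : Fin t → ℕ) (i : ℕ) : Fintype.card {k // d k = i} = mu d i :=
  Fintype.card_subtype _

theorem JB.card_ker [Finite F] {N : End F V} {d : Fin t → ℕ} {e : Fin t → V}
    {b : Basis (Σ k, Fin (d k)) F V} (h : JB N d e b) :
    Nat.card (LinearMap.ker h.psi.toLinearMap) = Nat.card F ^ gam d := by
  haveI := Module.Finite.of_basis b
  haveI : Finite V := Module.finite_of_finite F
  haveI : Finite (End F V) := Module.finite_of_finite F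
  have := card_preimage h.psi.toLinearMap.toAddMonoidHom h.psi_surjective fun _ => True
  rw [Nat.card_congr (Equiv.subtypeUnivEquiv fun _ => trivial),
    Nat.card_congr (Equiv.subtypeUnivEquiv fun _ => trivial), h.card_cen, sum_min h.pos, pow_add,
    Nat.card_pi] at this
  have h2 : ∏ i : Fin (Finset.univ.sup d + 1), Nat.card (Matrix {k // d k = i} {k // d k = i} F) =
      Nat.card F ^ ∑ i ∈ Finset.range (Finset.univ.sup d + 1), mu d i ^ 2 := by
    rw [← Finset.prod_pow_eq_pow_sum, ← Fin.prod_univ_eq_prod_range fun i => Nat.card F ^ mu d i ^ 2]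
    refine Finset.prod_congr rfl fun i _ => ?_
    change Nat.card (_ → _ → F) = _
    rw [Nat.card_fun, Nat.card_fun, Nat.card_eq_fintype_card (α := {k // d k = i}), card_blk,
      ← pow_mul, sq]
  rw [h2] at this
  exact (Nat.eq_of_mul_eq_mul_left (pow_pos Nat.card_pos _) this).symm

theorem JB.card_units [Fintype F] {N : End F V} {d : Fin t → ℕ} {e : Fin t → V}
    {b : Basis (Σ k, Fin (d k)) F V} (h : JB N d e b) :
    Nat.card {g : Cen N // IsUnit g.1} = Fintype.card F ^ gam d *
      ∏ i ∈ Finset.range (Finset.univ.sup d + 1), ∏ j : Fin (mu d i),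
        (Fintype.card F ^ mu d i - Fintype.card F ^ (j : ℕ)) := by
  haveI := Module.Finite.of_basis b
  haveI : Finite V := Module.finite_of_finite F
  haveI : Finite (End F V) := Module.finite_of_finite F
  have := card_preimage h.psi.toLinearMap.toAddMonoidHom h.psi_surjective
    fun X => ∀ i, (X i).det ≠ 0
  rw [Nat.card_congr (Equiv.subtypeEquivRight h.isUnit_iff')]
  refine this.trans ?_
  rw [mul_comm, ← Nat.card_eq_fintype_card, ← h.card_ker]
  congr 1
  rw [Nat.card_congr (Equiv.subtypePiEquivPi (p := fun (i : Fin (Finset.univ.sup d + 1))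
    (X : Matrix {k // d k = i} {k // d k = i} F) => X.det ≠ 0)), Nat.card_pi,
    ← Fin.prod_univ_eq_prod_range
    fun i => ∏ j : Fin (mu d i), (Nat.card F ^ mu d i - Nat.card F ^ (j : ℕ))]
  refine Finset.prod_congr rfl fun i _ => ?_
  have e1 : GL {k // d k = i} F ≃ {X : Matrix {k // d k = i} {k // d k = i} F // X.det ≠ 0} :=
    Equiv.ofBijective (fun g => ⟨g, g.det_ne_zero⟩) ⟨fun g g' H => Units.ext (congrArg Subtype.val H),
      fun X => ⟨GeneralLinearGroup.mkOfDetNeZero _ X.2, rfl⟩⟩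
  rw [← Nat.card_congr e1, Nat.card_congr (Units.mapEquiv (reindexAlgEquiv F F
    (Fintype.equivFinOfCardEq (card_blk d i))).toMulEquiv).toEquiv, Nat.card_eq_fintype_card (α := F)]
  exact card_GL_field _

end H62.UC
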