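import Cfsg.Agent.H62.UniCent
import Cfsg.Agent.H53.SpClass

set_option autoImplicit false

/-! Centralisers of unipotent elements: Jordan bases exist; centralisers in isometry groups. -/

namespace H62.UC

open Module Matrix H53

variable {F V : Type*} [Field F] [AddCommGroup V] [Module F V] {t : ℕ}

theorem jb_jordan {d : Fin t → ℕ} (hd : ∀ k, 1 ≤ d k) :
    JB ((toLin' (Cfsg.jordanTypeMatrix d F) : End F _) - 1) d (fun k => Pi.single ⟨k, 0, hd k⟩ 1)
      (Pi.basisFun F _) := by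
  have step : ∀ (k : Fin t) (j : Fin (d k)), ((toLin' (Cfsg.jordanTypeMatrix d F) : End F _) - 1)
      (Pi.single ⟨k, j⟩ 1) = if hj : j + 1 < d k then Pi.single ⟨k, j + 1, hj⟩ 1 else 0 := by
    intro k j
    funext ⟨l, i⟩
    rw [LinearMap.sub_apply, toLin'_apply, End.one_apply, mulVec_single_one, Pi.sub_apply,
      col_apply, Cfsg.jordanTypeMatrix]
    by_cases hl : l = k
    · subst hl
      have := i.2
      rw [blockDiagonal'_apply_eq, Cfsg.jordanBlock, of_apply, Pi.single_apply]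
      split_ifs <;> simp_all [Pi.single_apply, Fin.ext_iff]
    · rw [blockDiagonal'_apply_ne _ _ _ hl]
      split_ifs <;> simp [hl]
  have key : ∀ (k : Fin t) (m : ℕ), (((toLin' (Cfsg.jordanTypeMatrix d F) : End F _) - 1) ^ m)
      (Pi.single ⟨k, 0, hd k⟩ 1) = if hm : m < d k then Pi.single ⟨k, m, hm⟩ 1 else 0 := by
    intro k m
    induction m with
    | zero => simp [dif_pos (show 0 < d k from hd k)]
    | succ m ih =>
      rw [pow_succ', End.mul_apply, ih]
      by_cases hm : m < d k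
      · rw [dif_pos hm, step]
      · rw [dif_neg hm, dif_neg (by omega), map_zero]
  exact ⟨hd, fun p => by rw [key, dif_pos p.2.2, Pi.basisFun_apply], fun k => by
    rw [key, dif_neg (lt_irrefl _)]⟩

theorem exists_jb_of_sim {d : Fin t → ℕ} (hd : ∀ k, 1 ≤ d k) {f : End F V}
    (h : Sim (toLin' (Cfsg.jordanTypeMatrix d F)) f) : ∃ e b, JB (f - 1) d e b := by
  obtain ⟨φ, hφ⟩ := h
  have J := jb_jordan (F := F) hd
  have key : ∀ (m : ℕ) v, φ ((((toLin' (Cfsg.jordanTypeMatrix d F) : End F _) - 1) ^ m) v) =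
      ((f - 1) ^ m) (φ v) := fun m => by
    induction m with
    | zero => simp
    | succ m ih =>
      intro v
      rw [pow_succ', pow_succ', End.mul_apply, End.mul_apply, ← ih, LinearMap.sub_apply,
        LinearMap.sub_apply, map_sub, hφ]
      rfl
  exact ⟨fun k => φ (Pi.single ⟨k, 0, hd k⟩ 1), (Pi.basisFun F _).map φ, hd,
    fun p => by rw [Basis.map_apply, J.eq, key], fun k => by rw [← key, J.nil, map_zero]⟩

theorem exists_jb_of_jt [FiniteDimensional F V] {d : Fin t → ℕ} (hd : ∀ k, 1 ≤ d k) {f : End F V}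
    (hf : IsNilpotent (f - 1)) (h : jt f = Finset.univ.val.map d) : ∃ e b, JB (f - 1) d e b := by
  obtain ⟨h1, h2⟩ := jt_eq_of_ed_eq_map (med_jordanTypeMatrix (F := F) hd)
  exact exists_jb_of_sim hd ((sim_iff_jt_eq h1 hf).2 (h2.trans h.symm))

theorem card_cen_mat {n : Type*} [Fintype n] [DecidableEq n] (A : Matrix n n F)
    (P : End F (n → F) → Prop) (hP : ∀ f, P f → IsUnit f) :
    Nat.card {g : GL n F // P (toLin' (g : Matrix n n F)) ∧ (g : Matrix n n F) * A = A * g} =
      Nat.card {g : Cen ((toLin' A : End F _) - 1) // P g.1} := by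
  have key : ∀ M : Matrix n n F, toLin' M ∈ Cen ((toLin' A : End F _) - 1) ↔ M * A = A * M :=
    fun M => by
    rw [mem_cen, ← toLin'_mul_comm_iff, commute_iff_eq, sub_mul, mul_sub, one_mul, mul_one,
      sub_left_inj, eq_comm]
  refine Nat.card_congr (Equiv.ofBijective (fun g => ⟨⟨_, (key _).2 g.2.2⟩, g.2.1⟩)
    ⟨fun g g' H => Subtype.ext (Units.ext (toLin'.injective
      (congrArg (fun x => x.1.1) H))), fun g => ?_⟩)
  obtain ⟨a, ha⟩ := exists_gl_toLin'_eq (hP _ g.2)
  exact ⟨⟨a, ha ▸ g.2, (key _).1 (ha ▸ g.1.2)⟩, Subtype.ext (Subtype.ext ha)⟩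

section Form

variable [FiniteDimensional F V] {σ : F →+* F} {ε : F} {B : V →ₛₗ[σ] V →ₗ[F] F}

/-- The adjoint. -/
noncomputable def adj (hB : IsSF ε B) : End F V →ₛₗ[σ] End F V where
  toFun s := (hB.exists_adj s).choose
  map_add' s t := (hB.exists_adj (s + t)).choose_spec.unique hB
    ((hB.exists_adj s).choose_spec.add (hB.exists_adj t).choose_spec)
  map_smul' c s := (hB.exists_adj (c • s)).choose_spec.unique hB
    ((hB.exists_adj s).choose_spec.smul c)

theorem isAdj_adj (hB : IsSF ε B) (s : End F V) : IsAdj B s (adj hB s) :=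
  (hB.exists_adj s).choose_spec

theorem adj_mul (hB : IsSF ε B) (s t : End F V) : adj hB (s * t) = adj hB t * adj hB s :=
  (isAdj_adj hB _).unique hB ((isAdj_adj hB s).mul (isAdj_adj hB t))

theorem adj_one (hB : IsSF ε B) : adj hB 1 = 1 := (isAdj_adj hB _).unique hB IsAdj.one

theorem adj_adj (hB : IsSF ε B) (s : End F V) : adj hB (adj hB s) = s :=
  (isAdj_adj hB _).unique hB ((isAdj_adj hB s).symm hB)

omit [FiniteDimensional F V] in
theorem inv_iff_of_isAdj (hB : IsSF ε B) {s t : End F V} (h : IsAdj B s t) :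
    Inv B s ↔ t * s = 1 :=
  ⟨fun H => LinearMap.ext fun y => hB.ext_right fun x => by rw [End.mul_apply, ← h, H]; rfl,
    fun H x y => by rw [h, ← End.mul_apply, H]; rfl⟩

theorem isUnit_of_inv (hB : IsSF ε B) {s : End F V} (h : Inv B s) : IsUnit s :=
  IsUnit.of_mul_eq_one_right _ ((inv_iff_of_isAdj hB (isAdj_adj hB s)).1 h)

variable (hB : IsSF ε B) {u : End F V} (hu : Inv B u)
include hB hu

theorem adj_mem {g : End F V} (hg : g ∈ Cen (u - 1)) : adj hB g ∈ Cen (u - 1) := by
  have h1 := (inv_iff_of_isAdj hB (isAdj_adj hB u)).1 hu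
  have h2 : u * g = g * u := by
    have := (mem_cen.1 hg).eq
    rwa [sub_mul, mul_sub, one_mul, mul_one, sub_left_inj] at this
  have h3 := congrArg (adj hB) h2
  rw [adj_mul, adj_mul] at h3
  have h4 := mul_eq_one_comm.1 h1
  refine mem_cen.2 (Commute.sub_left ?_ (Commute.one_left _))
  calc u * adj hB g = u * (adj hB g * adj hB u) * u := by rw [mul_assoc, mul_assoc, h1, mul_one]
    _ = adj hB g * u := by rw [h3, ← mul_assoc, h4, one_mul]

/-- The adjoint on the commutant of an isometry. -/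
noncomputable def cadj : Cen (u - 1) →ₛₗ[σ] Cen (u - 1) where
  toFun g := ⟨adj hB g, adj_mem hB hu g.2⟩
  map_add' _ _ := Subtype.ext (map_add (adj hB) _ _)
  map_smul' _ _ := Subtype.ext (map_smulₛₗ (adj hB) _ _)

theorem cadj_mul (a b : Cen (u - 1)) : cadj hB hu (a * b) = cadj hB hu b * cadj hB hu a :=
  Subtype.ext (adj_mul hB _ _)

theorem cadj_one : cadj hB hu 1 = 1 := Subtype.ext (adj_one hB)

theorem cadj_cadj (a : Cen (u - 1)) : cadj hB hu (cadj hB hu a) = a := Subtype.ext (adj_adj hB _)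

theorem isAdj_cadj (a : Cen (u - 1)) : IsAdj B a.1 (cadj hB hu a).1 := isAdj_adj hB _

theorem isAdj_pow (m : ℕ) : IsAdj B ((u - 1) ^ m) ((-adj hB u) ^ m * (u - 1) ^ m) := by
  have h1 := (inv_iff_of_isAdj hB (isAdj_adj hB u)).1 hu
  have c : Commute (-adj hB u) (u - 1) :=
    (Commute.sub_right (h1.trans (mul_eq_one_comm.1 h1).symm) (Commute.one_right _)).neg_left
  have := ((isAdj_adj hB u).sub IsAdj.one).pow m
  rwa [← c.mul_pow, neg_mul, mul_sub, h1, mul_one, neg_sub]

theorem form_pow_eq_zero {m : ℕ} {v : V} (hv : ((u - 1) ^ m) v = 0) (w : V) :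
    B v (((u - 1) ^ m) w) = 0 := by
  rw [hB.eq_zero_comm, isAdj_pow hB hu, End.mul_apply, hv, map_zero, map_zero]

theorem form_pow_symm {m : ℕ} {v : V} (hv : ((u - 1) ^ (m + 1)) v = 0) (w : V) :
    B v (((u - 1) ^ m) w) = (-1) ^ m * ε * σ (B w (((u - 1) ^ m) v)) := by
  have h1 := (inv_iff_of_isAdj hB (isAdj_adj hB u)).1 hu
  have h2 : adj hB u (((u - 1) ^ m) v) = ((u - 1) ^ m) v := by
    rw [pow_succ', End.mul_apply, LinearMap.sub_apply, sub_eq_zero] at hv
    conv_lhs => rw [← End.one_apply (R := F) (((u - 1) ^ m) v), ← hv, ← End.mul_apply, h1]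
    rfl
  have h3 : ∀ k, ((-adj hB u) ^ k) (((u - 1) ^ m) v) = (-1 : F) ^ k • ((u - 1) ^ m) v := fun k => by
    induction k with
    | zero => simp
    | succ k ih => rw [pow_succ', End.mul_apply, ih, map_smul, LinearMap.neg_apply, h2]; module
  rw [hB.symm, isAdj_pow hB hu, End.mul_apply, h3, map_smul, smul_eq_mul, map_mul, map_pow, map_neg,
    map_one]
  ring

variable {d : Fin t → ℕ} {e : Fin t → V} {b : Basis (Σ k, Fin (d k)) F V} (h : JB (u - 1) d e b)
include h

theorem exists_block_form (i : Fin (Finset.univ.sup d + 1)) :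
    ∃ γ : ({k // d k = i} → F) →ₛₗ[σ] ({k // d k = i} → F) →ₗ[F] F,
      IsSF ((-1) ^ (i.1 - 1) * ε) γ ∧
        ∀ x, IsAdj γ (toLin' (h.psi x i)) (toLin' (h.psi (cadj hB hu x) i)) := by
  have he : (-1) ^ (i.1 - 1) * ε * σ ((-1) ^ (i.1 - 1) * ε) = 1 := by
    rw [map_mul, map_pow, map_neg, map_one, mul_mul_mul_comm, hB.eps, ← mul_pow]; simp
  obtain ⟨i, hi⟩ := i
  cases i with
  | zero =>
    haveI : IsEmpty {k // d k = 0} := ⟨fun k => by have := h.pos k; have := k.2; omega⟩
    exact ⟨0, ⟨hB.invol, he, by simp, fun x _ => Subsingleton.elim _ _⟩, fun x a c => rfl⟩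
  | succ m =>
  let E : ({k // d k = m + 1} → F) →ₗ[F] V := Fintype.linearCombination F fun k => e k
  have hE : ∀ a, E a = ∑ k : {k // d k = m + 1}, a k • e k := fun a =>
    Fintype.linearCombination_apply _ _ _
  have E0 : ∀ a, ((u - 1) ^ (m + 1)) (E a) = 0 := fun a => by
    rw [hE, map_sum]
    exact Finset.sum_eq_zero fun k _ => by rw [map_smul, h.pow_e_of_le k.2.le, smul_zero]
  have Et : ∀ a (l : {k // d k = m + 1}), h.tau (E a) l = a l := fun a l => by
    simp [hE, h.tau_e, Pi.single_apply, ← Subtype.ext_iff]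
  have red : ∀ v v', ((u - 1) ^ (m + 1)) v = 0 → ((u - 1) ^ (m + 1)) v' = 0 →
      B v' (((u - 1) ^ m) v) = B v' (((u - 1) ^ m) (E fun l => h.tau v l)) := fun v v' hv hv' => by
    obtain ⟨w, hw⟩ := h.exists_dec v
    conv_lhs => rw [hw, map_add, map_add, ← End.mul_apply, ← pow_succ, form_pow_eq_zero hB hu hv',
      add_zero]
    congr 1
    rw [hE, map_sum, map_sum, ← Finset.sum_subtype (Finset.univ.filter fun k => d k = m + 1)
      (by simp) fun k => ((u - 1) ^ m) (h.tau v k • e k)]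
    refine (Finset.sum_subset (Finset.filter_subset _ _) fun k _ hk => ?_).symm
    have hk : d k ≠ m + 1 := by simpa using hk
    rcases lt_or_gt_of_ne hk with h1 | h1
    · rw [map_smul, h.pow_e_of_le (by omega), smul_zero]
    · rw [h.tau_eq_zero hv h1, zero_smul, map_zero]
  have act : ∀ (x : Cen (u - 1)) a, (fun l : {k // d k = m + 1} => h.tau (x.1 (E a)) l) =
      toLin' (h.psi x ⟨m + 1, hi⟩) a := fun x a => by
    ext l
    simp [hE, toLin'_apply, mulVec, dotProduct, h.psi_apply, mul_comm]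
  have xE0 : ∀ (x : Cen (u - 1)) a, ((u - 1) ^ (m + 1)) (x.1 (E a)) = 0 := fun x a => by
    rw [← cen_pow, E0, map_zero]
  let γ : ({k // d k = m + 1} → F) →ₛₗ[σ] ({k // d k = m + 1} → F) →ₗ[F] F :=
    (B.comp E).compl₂ (((u - 1) ^ m : End F V) ∘ₗ E)
  have hγ : ∀ a c, γ a c = B (E a) (((u - 1) ^ m) (E c)) := fun _ _ => rfl
  have sy : ∀ a c, γ c a = (-1) ^ m * ε * σ (γ a c) := fun a c => form_pow_symm hB hu (E0 c) _
  refine ⟨γ, ⟨hB.invol, he, sy, fun a ha => ?_⟩, fun x a c => ?_⟩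
  · have : ((u - 1) ^ m) (E a) ∈ H59.perp B (LinearMap.ker ((u - 1) ^ (m + 1))) := fun v hv => by
      rw [form_pow_symm hB hu hv, red _ _ hv (E0 a), ← hγ, ha, map_zero, mul_zero]
    rw [← (isAdj_pow hB hu (m + 1)).range_eq hB] at this
    obtain ⟨w, hw⟩ := this
    have c : Commute (-adj hB u) (u - 1) :=
      (mem_cen.1 (adj_mem hB hu (mem_cen.2 ((Commute.refl u).sub_left
        (Commute.one_left _))))).symm.neg_left
    rw [(c.pow_pow _ _).eq, End.mul_apply] at hw
    funext l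
    have := congrArg (fun v => b.repr v ⟨l, m, (Nat.lt_succ_self m).trans_eq l.2.symm⟩) hw
    simp only [h.repr_pow] at this
    rw [dif_neg (by simp), dif_pos (by simp)] at this
    rw [← Et a l, h.tau_apply]
    simpa using this.symm
  · rw [sy, hγ, ← act, ← red _ _ (xE0 x a) (E0 c), ← form_pow_symm hB hu (xE0 x a),
      isAdj_cadj hB hu, cen_pow, red _ _ (xE0 _ c) (E0 a), act, hγ]

theorem card_inv [Finite F] {θ : F} (hθ : σ θ + θ = 1) :
    ∃ γ : ∀ i : Fin (Finset.univ.sup d + 1),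
      ({k // d k = i} → F) →ₛₗ[σ] ({k // d k = i} → F) →ₗ[F] F,
      (∀ i, IsSF ((-1) ^ (i.1 - 1) * ε) (γ i)) ∧
      (∀ x, h.psi x = 0 → h.psi (cadj hB hu x) = 0) ∧
      Nat.card {x : Cen (u - 1) // Inv B x.1} *
        Nat.card {j : LinearMap.ker h.psi.toLinearMap // cadj hB hu j = j} =
      (∏ i, Nat.card (H59.isom (γ i))) * Nat.card F ^ gam d := by
  choose γ h1 h2 using exists_block_form hB hu h
  haveI : Finite V := Module.finite_of_finite F
  haveI : Finite (End F V) := Module.finite_of_finite F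
  refine ⟨γ, h1, fun x hx => funext fun i => toLin'.injective ?_, ?_⟩
  · have := h2 i x
    rw [hx, Pi.zero_apply, map_zero] at this
    rw [Pi.zero_apply, map_zero]
    exact this.unique (h1 i) IsAdj.zero
  have := card_norm (cadj hB hu) (cadj_one hB hu) (cadj_mul hB hu) (cadj_cadj hB hu) hθ
    (J := LinearMap.ker h.psi.toLinearMap) (fun j hj a => by
      change h.psi (j * a) = 0
      rw [map_mul, show h.psi j = 0 from hj, zero_mul]) fun j hj => h.nil_of_psi hj
  rw [Nat.card_congr (Equiv.subtypeEquivRight (q := fun x => cadj hB hu x * x = 1) fun x =>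
    (inv_iff_of_isAdj hB (isAdj_cadj hB hu x)).trans (by rw [Subtype.ext_iff]; rfl)), ← this,
    Nat.card_congr (Equiv.subtypeEquivRight (q := fun x => ∀ i, Inv (γ i) (toLin' (h.psi x i)))
      fun x => ?_)]
  · refine (card_preimage h.psi.toLinearMap.toAddMonoidHom h.psi_surjective
      fun X => ∀ i, Inv (γ i) (toLin' (X i))).trans ?_
    rw [← h.card_ker]
    congr 1
    rw [Nat.card_congr (Equiv.subtypePiEquivPi (p := fun (i : Fin (Finset.univ.sup d + 1))
      (X : Matrix {k // d k = i} {k // d k = i} F) => Inv (γ i) (toLin' X))), Nat.card_pi]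
    refine Finset.prod_congr rfl fun i _ => (Nat.card_congr (Equiv.ofBijective
      (fun g => ⟨LinearMap.toMatrix' g.1.toLinearMap, by rw [toLin'_toMatrix']; exact g.2⟩)
      ⟨fun g g' H => Subtype.ext (LinearEquiv.toLinearMap_injective
        (LinearMap.toMatrix'.injective (congrArg Subtype.val H))), fun X => ?_⟩)).symm
    refine ⟨⟨LinearEquiv.ofBijective (toLin' X.1) ((End.isUnit_iff _).1 (isUnit_of_inv (h1 i) X.2)),
      X.2⟩, Subtype.ext (LinearMap.toMatrix'_toLin' _)⟩
  · change h.psi _ = 0 ↔ _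
    rw [map_sub, map_mul, map_one, sub_eq_zero, funext_iff]
    refine forall_congr' fun i => ?_
    rw [inv_iff_of_isAdj (h1 i) (h2 i x), End.mul_eq_comp, ← toLin'_mul]
    exact toLin'.injective.eq_iff.symm.trans (by rw [Pi.one_apply, toLin'_one]; rfl)

theorem card_fixed_ker [Finite F] (hσ : σ ≠ RingHom.id F)
    (h2 : ∀ x, h.psi x = 0 → h.psi (cadj hB hu x) = 0) :
    Nat.card {j : LinearMap.ker h.psi.toLinearMap // cadj hB hu j = j} ^ 2 =
      Nat.card F ^ gam d := by
  let T : LinearMap.ker h.psi.toLinearMap →ₛₗ[σ] LinearMap.ker h.psi.toLinearMap :=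
    (cadj hB hu).restrict h2
  rw [← h.card_ker, ← card_fixed_sq hσ hB.invol T fun v => Subtype.ext (cadj_cadj hB hu v.1)]
  exact congrArg (· ^ 2) (Nat.card_congr (Equiv.subtypeEquivRight fun j =>
    (Subtype.ext_iff (a1 := T j)).symm))

end Form

end H62.UC
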